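import Cfsg.Agent.L4.C9

/-! Type II, tensor case: the group is `L₃(4)` in characteristic three. -/

set_option autoImplicit false

namespace Cfsg.Agent.L4.C

open Matrix Cfsg.Agent.L4.R Cfsg.Agent.L4.H Cfsg.Agent.H5.SU Cfsg.Agent.Cert MatrixGroups
open Subgroup (normalizer center)

section
variable {P : Type*} [Group P] {σ : P →* M4 K9} {H : Subgroup P}

/-- incidence of isotropic points and points of the plane -/
def Rr (v : Fin 4 → K9) (p : Fin 3 → K4) : Prop :=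
  ∃ j < 280, ∃ c : K9, c ≠ 0 ∧ v = c • pt j ∧ un j (cd p) = true

/-- pairs preserving the incidence -/
def Rel (A : M4 K9) (b : Matrix (Fin 3) (Fin 3) K4) : Prop :=
  ∀ v p, Rr v p → Rr (A *ᵥ v) (b *ᵥ p)

theorem Rel.one : Rel 1 1 := fun v p h => by rwa [one_mulVec, one_mulVec]

theorem Rel.mul {A A' : M4 K9} {b b' : Matrix (Fin 3) (Fin 3) K4} (h : Rel A b) (h' : Rel A' b') :
    Rel (A * A') (b * b') := fun v p e => by
  rw [← mulVec_mulVec, ← mulVec_mulVec]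
  exact h _ _ (h' v p e)

theorem Rel.smul {A : M4 K9} {b : Matrix (Fin 3) (Fin 3) K4} (h : Rel A b) {c : K9} (hc : c ≠ 0) :
    Rel (c • A) b := fun v p e => by
  obtain ⟨j, hj, d, hd, e1, e2⟩ := h v p e
  exact ⟨j, hj, c * d, mul_ne_zero hc hd, by rw [smul_mulVec, e1, smul_smul], e2⟩

theorem ex3 (p : Fin 3 → K4) : ∃ a b c, p = ![a, b, c] :=
  ⟨p 0, p 1, p 2, by ext i; fin_cases i <;> rfl⟩

theorem bp_eq (k : Fin 6) (p : Fin 3 → K4) : cd (Bm k *ᵥ p) = bp k (cd p) := by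
  obtain ⟨a, b, c, rfl⟩ := ex3 p
  exact bp_spec ..

theorem cd_lt (p : Fin 3 → K4) : cd p < 64 := by
  obtain ⟨a, b, c, rfl⟩ := ex3 p
  exact (cd_spec ..).1

theorem cd_inj {p q : Fin 3 → K4} (h : cd p = cd q) : p = q := by
  obtain ⟨a, b, c, rfl⟩ := ex3 p
  obtain ⟨a', b', c', rfl⟩ := ex3 q
  rw [← (cd_spec a b c).2, h, (cd_spec a' b' c').2]

theorem rel_gen {k : Fin 6} (hk : k ≠ 5) : Rel (Gm k) (Bm k) := by
  rintro _ p ⟨j, hj, c, hc, rfl, e⟩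
  obtain ⟨h1, h2, h3⟩ := pm_spec k j hj
  refine ⟨_, h1, _, mul_ne_zero hc h2, by rw [mulVec_smul, h3, smul_smul], ?_⟩
  simpa only [bp_eq, if_neg hk] using un_spec k j hj _ (cd_lt p) e

theorem rel_five : Rel 1 (Bm 5) := by
  rintro _ p ⟨j, hj, c, hc, rfl, e⟩
  exact ⟨j, hj, c, hc, one_mulVec _, by simpa only [bp_eq, if_true] using un_spec 5 j hj _ (cd_lt p) e⟩

theorem Rel.cen {c : K9} {b : SL(3, K4)} (h : Rel (c • 1) b) : b ∈ center SL(3, K4) := by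
  have key : ∀ j < 280, ∀ p, un j (cd p) = true → un j (cd (b.1 *ᵥ p)) = true := fun j hj p e => by
    obtain ⟨l, hl, d, hd, e1, e2⟩ := h _ p ⟨j, hj, 1, one_ne_zero, rfl, e⟩
    rw [one_smul, smul_mulVec, one_mulVec] at e1
    have hc : c ≠ 0 := by
      rintro rfl
      have : ∀ l < 280, pt l ≠ 0 := by decide +kernel
      exact smul_ne_zero hd (this l hl) (by rw [← e1, zero_smul])
    have h1 := ix_pt j hj c hc
    have e3 : ∀ i, c * pt j i = d * pt l i := fun i => congrFun e1 i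
    rw [e3, e3, e3, e3, ix_pt l hl d hd] at h1
    exact h1 ▸ e2
  obtain ⟨m1, m2, m3, m4, m5, m6, m7, m8⟩ := un_mem
  have v : ∀ p : Fin 3 → K4, b.1 *ᵥ p = ![(b.1 *ᵥ p) 0, (b.1 *ᵥ p) 1, (b.1 *ᵥ p) 2] := fun p => by
    ext i; fin_cases i <;> rfl
  have h1 := (un_meet _ _ _).1 (v _ ▸ key 0 (by omega) _ m1) (v _ ▸ key 1 (by omega) _ m2)
  have h2 := (un_meet _ _ _).2.1 (v _ ▸ key 0 (by omega) _ m3) (v _ ▸ key 9 (by omega) _ m4)
  have h3 := (un_meet _ _ _).2.2.1 (v _ ▸ key 2 (by omega) _ m5) (v _ ▸ key 24 (by omega) _ m6)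
  have h4 := (un_meet _ _ _).2.2.2 (v _ ▸ key 0 (by omega) _ m7) (v _ ▸ key 6 (by omega) _ m8)
  simp [mulVec, dotProduct, Fin.sum_univ_three] at h1 h2 h3
  simp [mulVec, dotProduct, Fin.sum_univ_three, h1, h2, h3] at h4
  have e : b.1 = b.1 0 0 • 1 := by
    ext i j
    fin_cases i <;> fin_cases j <;> simp [h1, h2, h3, h4]
  refine Subgroup.mem_center_iff.2 fun a => Subtype.ext ?_
  show a.1 * b.1 = b.1 * a.1
  rw [e, mul_smul_comm, smul_mul_assoc, mul_one, one_mul]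

namespace B9

variable [Finite P] (t : B9 σ H)
include t

theorem word (l : List (Fin 6)) : (∃ A, In σ A ∧ Rel A (l.map Bm).prod) ∧
    ∀ p, cd ((l.map Bm).prod *ᵥ p) = l.foldr bp (cd p) := by
  induction l with
  | nil => exact ⟨⟨1, In.one, Rel.one⟩, fun p => by simp⟩
  | cons k l ih =>
    obtain ⟨⟨A, h1, h2⟩, h3⟩ := ih
    rw [List.map_cons, List.prod_cons]
    refine ⟨?_, fun p => by rw [← mulVec_mulVec, bp_eq, h3, List.foldr_cons]⟩
    by_cases hk : k = 5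
    · exact ⟨_, In.one.mul h1, hk ▸ rel_five.mul h2⟩
    · refine ⟨_, In.mul ?_ h1, (rel_gen hk).mul h2⟩
      fin_cases k
      exacts [t.inU _, t.inU _, t.inD, t.inS, t.g12.resolve_left t.not_g1, absurd rfl hk]

theorem of_word {l : List (Fin 6)} {M : Matrix (Fin 3) (Fin 3) K4}
    (h : ∀ m : Fin 3, l.foldr bp (cd (Pi.single m 1)) = cd (M *ᵥ Pi.single m 1)) :
    ∃ g, Rel (σ g) M := by
  obtain ⟨⟨_, ⟨g, c, hc, rfl⟩, h2⟩, h3⟩ := t.word l
  obtain rfl : (l.map Bm).prod = M := by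
    ext i m
    have := congrFun (cd_inj ((h3 _).trans (h m))) i
    rwa [mulVec_single_one, mulVec_single_one] at this
  exact ⟨g, by simpa [smul_smul, hc] using h2.smul (inv_ne_zero hc)⟩

theorem l34 : IsL34 (P ⧸ center P) := by
  let D : Subgroup (P × SL(3, K4)) :=
    { carrier := {x | Rel (σ x.1) x.2}
      mul_mem' := fun {a b} h h' => show Rel (σ (a.1 * b.1)) (a.2.1 * b.2.1) from
        map_mul σ a.1 b.1 ▸ Rel.mul h h'
      one_mem' := show Rel (σ 1) 1 from map_one σ ▸ Rel.one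
      inv_mem' := fun {x} h => by
        have h1 : ∀ n : ℕ, Rel (σ (x ^ n).1) (x ^ n).2 := fun n => by
          induction n with
          | zero => rw [pow_zero]; exact show Rel (σ 1) 1 from map_one σ ▸ Rel.one
          | succ n ih => rw [pow_succ, Prod.fst_mul, map_mul]; exact Rel.mul ih h
        have h2 : x⁻¹ = x ^ (orderOf x - 1) := inv_eq_of_mul_eq_one_left (by
          rw [← pow_succ, Nat.sub_add_cancel (orderOf_pos x), pow_orderOf_eq_one])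
        exact h2 ▸ h1 _ }
  let f : D →* P ⧸ center P := (QuotientGroup.mk' _).comp ((MonoidHom.fst _ _).comp D.subtype)
  let f' : D →* PSL(3, K4) := (QuotientGroup.mk' _).comp ((MonoidHom.snd _ _).comp D.subtype)
  have s1 : Function.Surjective f := fun x => by
    obtain ⟨g, rfl⟩ := QuotientGroup.mk_surjective x
    obtain ⟨b, hb⟩ := t.all_g2 (S := fun A => ∃ b : SL(3, K4), Rel A b)
      ⟨⟨1, Rel.one⟩, fun ⟨b, h⟩ ⟨b', h'⟩ => ⟨b * b', h.mul h'⟩, fun ⟨b, h⟩ hc => ⟨b, h.smul hc⟩⟩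
      (fun k hk => ⟨⟨Bm k, Bm_det k⟩, rel_gen hk⟩) (In.of g)
    exact ⟨⟨(g, b), hb⟩, rfl⟩
  have s2 : Function.Surjective f' := fun x => by
    obtain ⟨b, rfl⟩ := QuotientGroup.mk_surjective x
    obtain ⟨g, hg⟩ : ∃ g, Rel (σ g) b := SpecialLinearGroup.diagonal_transvection_induction'
      (fun b : SL(3, K4) => ∃ g, Rel (σ g) b) b (fun i j h c hc => t.of_word (wd_spec i j c h hc))
      (fun i j h a => t.of_word (wt_spec i j a h))
      fun a b ⟨g, h⟩ ⟨g', h'⟩ => ⟨g * g', by rw [map_mul]; exact h.mul h'⟩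
    exact ⟨⟨(g, b), hg⟩, rfl⟩
  have k1 : f.ker ≤ f'.ker := by
    rintro ⟨⟨g, b⟩, h⟩ h1
    obtain ⟨c, e⟩ := (t.cen g).1 ((QuotientGroup.eq_one_iff _).1 h1)
    exact (QuotientGroup.eq_one_iff _).2 (Rel.cen (c := c) (e ▸ h))
  let φ := f.liftOfSurjective s1 ⟨f', k1⟩
  have hφ : ∀ x, φ (f x) = f' x := fun x => MonoidHom.liftOfRightInverse_comp_apply ..
  have s3 : Function.Surjective φ := fun y => by
    obtain ⟨x, rfl⟩ := s2 y
    exact ⟨_, hφ x⟩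
  have := t.simp
  refine ⟨K4, inferInstance, inferInstance, by decide +kernel, ⟨MulEquiv.ofBijective φ ⟨?_, s3⟩⟩⟩
  rw [← MonoidHom.ker_eq_bot_iff]
  refine (φ.normal_ker.eq_bot_or_eq_top).resolve_right fun e => ?_
  let b₀ : SL(3, K4) := ⟨Bm 4, Bm_det 4⟩
  obtain ⟨x, hx⟩ := s3 (QuotientGroup.mk b₀)
  rw [MonoidHom.mem_ker.1 (e ▸ Subgroup.mem_top x)] at hx
  obtain ⟨r, -, hr⟩ := Matrix.SpecialLinearGroup.mem_center_iff.1 ((QuotientGroup.eq_one_iff b₀).1 hx.symm)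
  exact absurd (congrFun (congrFun hr 0) 1) (show ¬ (scalar (Fin 3) r 0 1 = Bm 4 0 1) by
    simp [Bm]; decide +kernel)

end B9
end

variable {P k : Type*} [Group P] [Finite P] [Field k] [IsAlgClosed k] {p r : ℕ} [Fact p.Prime]
  [CharP k p] {ρ : P →* M4 k} {U H : Subgroup P}

theorem casec_herm (h : Hy ρ) (t : T2 p r ρ U H)
    (h1 : ∀ u ∈ U, ρ u 0 1 = ρ u 2 3 ∧ ρ u 0 2 = ρ u 1 3)
    (h2 : ∃ u ∈ U, ∃ u' ∈ U, ρ u 1 3 * ρ u' 2 3 ≠ ρ u' 1 3 * ρ u 2 3) :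
    p = 3 ∧ ∃ B B' : M4 k, B * B' = 1 ∧ ∀ g,
      (B' * ρ g * B)ᵀ * Hm * (B' * ρ g * B).map (· ^ 3) = Hm ∧
        (B' * ρ g * B).map (· ^ 9) = B' * ρ g * B := by
  obtain ⟨rfl, B, B', e, n⟩ := Cc.n9 ⟨t, h, h1, h2⟩
  refine ⟨rfl, B, B', e, fun g => ⟨col_of (n.herm g), ?_⟩⟩
  conv_rhs => rw [← cjh_apply e, ← fix_of (n.herm g)]
  ext i j
  simp only [map_apply, frobenius_def, ← pow_mul, cjh_apply]

/-- The tensor case. -/
theorem casec (h : Hy ρ) (t : T2 p r ρ U H)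
    (h1 : ∀ u ∈ U, ρ u 0 1 = ρ u 2 3 ∧ ρ u 0 2 = ρ u 1 3)
    (h2 : ∃ u ∈ U, ∃ u' ∈ U, ρ u 1 3 * ρ u' 2 3 ≠ ρ u' 1 3 * ρ u 2 3) :
    p = 3 ∧ IsL34 (P ⧸ center P) ∧ ∀ g, (ρ g⁻¹).trace = (ρ g).trace ^ 3 := by
  obtain ⟨rfl, B, B', e, n⟩ := Cc.n9 ⟨t, h, h1, h2⟩
  obtain ⟨σ, b⟩ := n.b9
  refine ⟨rfl, b.l34, fun g => ?_⟩
  have tr : ∀ g, (cjh ρ e g).trace = (ρ g).trace := fun g => by
    rw [cjh_apply, trace_mul_comm, ← mul_assoc, e, one_mul]
  have h3 : cjh ρ e g⁻¹ = Hm * ((cjh ρ e g).map (frobenius k 3))ᵀ * Hm := by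
    have h4 : cjh ρ e g * (Hm * ((cjh ρ e g).map (frobenius k 3))ᵀ * Hm) = 1 := by
      rw [← mul_assoc, ← mul_assoc]; exact (congrArg (· * Hm) (n.herm g)).trans Hm_sq
    rw [← one_mul (Hm * _ * Hm), ← map_one (cjh ρ e), ← inv_mul_cancel g, map_mul, mul_assoc, h4,
      mul_one]
  rw [← tr, ← tr, h3, trace_mul_comm, ← mul_assoc, Hm_sq, one_mul, trace_transpose, ← frobenius_def,
    AddMonoidHom.map_trace (frobenius k 3)]

end Cfsg.Agent.L4.C
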