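import Cfsg.Agent.H1.Spin6

/-!
Quasisimple subgroups of `SL₄`: the common set-up for the change of characteristic.
-/

set_option autoImplicit false

namespace Cfsg.Agent.L4.R
open Matrix Cfsg.Agent.H1.Spin6

/-- Square matrices of size four. -/
abbrev M4 (k : Type*) := Matrix (Fin 4) (Fin 4) k

section
variable {k : Type*} [Field k]

/-- The action on the exterior square. -/
def L2 (A : M4 k) : (Fin 6 → k) →ₗ[k] (Fin 6 → k) where
  toFun x := co (A * ψ x * Aᵀ)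
  map_add' x y := by
    apply ψ_inj
    rw [map_add ψ (co _), ψ_act, ψ_act, ψ_act, map_add, Matrix.mul_add, Matrix.add_mul]
  map_smul' c x := by
    apply ψ_inj
    rw [map_smul ψ _ (co _), ψ_act, ψ_act, map_smul, Matrix.mul_smul, Matrix.smul_mul]
    rfl

theorem ψ_L2 (A : M4 k) (x : Fin 6 → k) : ψ (L2 A x) = A * ψ x * Aᵀ := ψ_act A x

theorem L2_mul (A B : M4 k) (x : Fin 6 → k) : L2 (A * B) x = L2 A (L2 B x) := by
  apply ψ_inj
  simp only [ψ_L2, transpose_mul, Matrix.mul_assoc]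

theorem L2_one (x : Fin 6 → k) : L2 (1 : M4 k) x = x := by
  apply ψ_inj
  simp [ψ_L2]

theorem L2_smul (c : k) (A : M4 k) (x : Fin 6 → k) : L2 (c • A) x = (c * c) • L2 A x := by
  apply ψ_inj
  simp [ψ_L2, smul_smul]

/-- The symmetric bilinear form on the exterior square. -/
def Bw (x y : Fin 6 → k) : k :=
  x 0 * y 5 + x 5 * y 0 - x 1 * y 4 - x 4 * y 1 + x 2 * y 3 + x 3 * y 2

theorem Bw_eq (x y : Fin 6 → k) : Bw x y = QuadraticMap.polar (Pf k) x y := (polar_Pf x y).symm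

theorem Bw_comm (x y : Fin 6 → k) : Bw x y = Bw y x := by unfold Bw; ring

theorem Bw_add (x y z : Fin 6 → k) : Bw x (y + z) = Bw x y + Bw x z := by simp [Bw]; ring

theorem Bw_smul (c : k) (x y : Fin 6 → k) : Bw x (c • y) = c * Bw x y := by simp [Bw]; ring

theorem add_Bw (x y z : Fin 6 → k) : Bw (x + y) z = Bw x z + Bw y z := by simp [Bw]; ring

theorem smul_Bw (c : k) (x y : Fin 6 → k) : Bw (c • x) y = c * Bw x y := by simp [Bw]; ring

theorem Bw_nd {x : Fin 6 → k} (h : ∀ y, Bw x y = 0) : x = 0 := by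
  have e := fun i => h (Pi.single i 1)
  have h0 := e 0; have h1 := e 1; have h2 := e 2; have h3 := e 3; have h4 := e 4; have h5 := e 5
  simp [Bw] at h0 h1 h2 h3 h4 h5
  ext i; fin_cases i <;> simp [*]

theorem Bw_L2 (A : M4 k) (x y : Fin 6 → k) : Bw (L2 A x) (L2 A y) = A.det * Bw x y := by
  have e : ∀ z, Pf k (L2 A z) = A.det * Pf k z := Pf_act A
  rw [Bw_eq, Bw_eq, QuadraticMap.polar, QuadraticMap.polar, ← map_add, e, e, e]
  ring

theorem L2_apply (A : M4 k) (x : Fin 6 → k) : L2 A x = co (A * ψ x * Aᵀ) := rfl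

end

/-- A quasisimple group acting faithfully with determinant one, irreducibly on the natural module
and on its exterior square. -/
structure Hy {P k : Type*} [Group P] [Field k] (ρ : P →* M4 k) : Prop where
  inj : Function.Injective ρ
  det : ∀ g, (ρ g).det = 1
  perf : commutator P = ⊤
  simp : ∀ N : Subgroup P, N.Normal → N ≤ Subgroup.center P ∨ N = ⊤
  irrV : ∀ X : Submodule k (Fin 4 → k), (∀ g, ∀ x ∈ X, ρ g *ᵥ x ∈ X) → X = ⊥ ∨ X = ⊤
  irrW : ∀ X : Submodule k (Fin 6 → k), (∀ g, ∀ x ∈ X, L2 (ρ g) x ∈ X) → X = ⊥ ∨ X = ⊤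

/-- The traceless matrices form a projective module. -/
def Proj {P k : Type*} [Group P] [Fintype P] [Field k] (ρ : P →* M4 k) : Prop :=
  ∃ θ : M4 k →ₗ[k] M4 k, ∀ X : M4 k, X.trace = 0 → ∑ g, ρ g * θ (ρ g⁻¹ * X * ρ g) * ρ g⁻¹ = X

/-- An elementary abelian `2`-group of order at least `8` with a cyclic group transitive on its
involutions. -/
def K1 (G : Type*) [Group G] : Prop :=
  ∃ (E : Subgroup G) (c : G), (∀ e ∈ E, e * e = 1) ∧ 8 ≤ Nat.card E ∧ (∀ e ∈ E, c * e * c⁻¹ ∈ E) ∧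
    ∀ e ∈ E, ∀ e' ∈ E, e ≠ 1 → e' ≠ 1 → ∃ n : ℕ, c ^ n * e * (c ^ n)⁻¹ = e'

/-- An elementary abelian group of order `9` whose normaliser is transitive on its non-trivial
elements. -/
def K2 (G : Type*) [Group G] : Prop :=
  ∃ A : Subgroup G, Nat.card A = 9 ∧ (∀ a ∈ A, a ^ 3 = 1) ∧ ∀ a ∈ A, ∀ b ∈ A, a ≠ 1 → b ≠ 1 →
    ∃ n : G, (∀ x ∈ A, n * x * n⁻¹ ∈ A) ∧ n * a * n⁻¹ = b

/-- The commutator of two elements. -/
def cm {G : Type*} [Group G] (a b : G) : G := a * b * a⁻¹ * b⁻¹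

/-- A four-group of conjugate involutions, one of them an iterated commutator in its centraliser. -/
def K3 (G : Type*) [Group G] : Prop :=
  ∃ z z' a b c d : G, z * z = 1 ∧ z ≠ 1 ∧ z * z' = z' * z ∧ IsConj z z' ∧ IsConj z (z * z') ∧
    (∀ x ∈ ({a, b, c, d} : Set G), x * z = z * x ∧ x * z' = z' * x) ∧ z = cm (cm a b) (cm c d)

/-- The groups which survive. -/
def Good (G : Type*) [Group G] : Prop :=
  Nonempty (G ≃* Matrix.SpecialLinearGroup (Fin 3) (ZMod 2)) ∨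
    Nonempty (G ≃* alternatingGroup (Fin 7)) ∨
    ∃ (K : Type) (_ : Field K) (_ : Fintype K), Fintype.card K = 4 ∧ Nonempty (G ≃* Cfsg.PSU 4 K 2)

/-- The simple subgroups of `PGL₄` in characteristic two, as far as needed. -/
def List2 (G : Type*) [Group G] : Prop :=
  K1 G ∨ K2 G ∨ K3 G ∨ Nonempty (G ≃* alternatingGroup (Fin 5)) ∨
    Nonempty (G ≃* alternatingGroup (Fin 6)) ∨ Good G

/-- The exceptional group in characteristic three. -/
def IsL34 (G : Type*) [Group G] : Prop :=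
  ∃ (K : Type) (_ : Field K) (_ : Fintype K), Fintype.card K = 4 ∧
    Nonempty (G ≃* Matrix.ProjectiveSpecialLinearGroup (Fin 3) K)

/-- The unipotent matrices fixing the first basis vector and the span of the first three. -/
def hz {k : Type*} [Field k] (f₁ f₂ v₁ v₂ z : k) : M4 k :=
  !![1, f₁, f₂, z; 0, 1, 0, v₁; 0, 0, 1, v₂; 0, 0, 0, 1]

/-- The block diagonal matrices with blocks of sizes `1, 2, 1`. -/
def bd {k : Type*} [Field k] (a b₁ b₂ b₃ b₄ c : k) : M4 k :=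
  !![a, 0, 0, 0; 0, b₁, b₂, 0; 0, b₃, b₄, 0; 0, 0, 0, c]

/-- Type II: the Sylow `p`-subgroup `U` of order `p ^ r` consists of elements with Jordan blocks
`3, 1`; `H` is a complement in its normaliser. -/
structure T2 {P k : Type*} [Group P] [Field k] (p r : ℕ) (ρ : P →* M4 k) (U H : Subgroup P) :
    Prop where
  card : Nat.card U = p ^ r
  pos : 0 < r
  syl : ¬ p ∣ U.index
  comm : ∀ u ∈ U, ∀ v ∈ U, u * v = v * u
  exp : ∀ u ∈ U, u ^ p = 1
  ti : ∀ g : P, ∀ u ∈ U, u ≠ 1 → g * u * g⁻¹ ∈ U → g ∈ Subgroup.normalizer (U : Set P)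
  shape : ∀ u ∈ U, ∃ f₁ f₂ v₁ v₂ z, ρ u = hz f₁ f₂ v₁ v₂ z ∧ (u ≠ 1 → f₁ * v₁ + f₂ * v₂ ≠ 0)
  cop : ¬ p ∣ Nat.card H
  le : H ≤ Subgroup.normalizer (U : Set P)
  fac : ∀ n ∈ Subgroup.normalizer (U : Set P), ∃ u ∈ U, ∃ h ∈ H, n = u * h
  blk : ∀ h ∈ H, ∃ a b₁ b₂ b₃ b₄ c, ρ h = bd a b₁ b₂ b₃ b₄ c
  stab : ∀ g : P, ρ g 1 0 = 0 → ρ g 2 0 = 0 → ρ g 3 0 = 0 → ρ g 3 1 = 0 → ρ g 3 2 = 0 →
    g ∈ Subgroup.normalizer (U : Set P)

end Cfsg.Agent.L4.R
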