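import Cfsg.Agent.L4.Rb2
import Cfsg.Agent.L4.R0

/-!
Type II with a form of rank one: reduction to the weights of the complement.
-/

set_option autoImplicit false

namespace Cfsg.Agent.L4.Rb

open Matrix Subgroup Cfsg.Agent.L4.H Cfsg.Agent.L4.R

variable {k : Type*} [Field k] {P : Type*} [Group P] {ρ : P →* M4 k}

theorem center_iff [IsAlgClosed k] (h : Hy ρ) {g : P} : g ∈ center P ↔ ∃ c : k, ρ g = c • 1 := by
  constructor
  · intro hg
    obtain ⟨c, hc⟩ := Module.End.exists_eigenvalue (ρ g).mulVecLin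
    refine ⟨c, ?_⟩
    rcases h.irrV (Module.End.eigenspace (ρ g).mulVecLin c) (fun x v hv => by
      rw [Module.End.mem_eigenspace_iff, mulVecLin_apply] at hv ⊢
      rw [mulVec_mulVec, ← map_mul, ← mem_center_iff.1 hg x, map_mul, ← mulVec_mulVec, hv,
        mulVec_smul]) with e | e
    · exact absurd e hc
    · ext i j
      have := Module.End.mem_eigenspace_iff.1 (e.ge (Submodule.mem_top (x := Pi.single j 1)))
      simpa [one_apply, Pi.single_apply] using congrFun this i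
  · rintro ⟨c, hc⟩
    exact mem_center_iff.2 fun x => h.inj (by
      rw [map_mul, map_mul, hc, mul_smul_comm, smul_mul_assoc, mul_one, one_mul])

theorem center_ne [IsAlgClosed k] (h : Hy ρ) : center P ≠ ⊤ := fun e => by
  rcases h.irrV (k ∙ ![1, 0, 0, 0]) (fun g x hx => by
    obtain ⟨c, hc⟩ := (center_iff h).1 (e.ge (mem_top g))
    rw [hc, smul_mulVec, one_mulVec]
    exact Submodule.smul_mem _ _ hx) with f | f
  · simp at f
  · obtain ⟨c, hc⟩ := Submodule.mem_span_singleton.1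
      (f.ge (Submodule.mem_top (x := ![0, 1, 0, 0])))
    simpa using congrFun hc 1

theorem simple [IsAlgClosed k] (h : Hy ρ) : IsSimpleGroup (P ⧸ center P) := by
  have : Nontrivial (P ⧸ center P) := QuotientGroup.nontrivial_iff.2 (center_ne h)
  refine ⟨fun N hN => (h.simp _ (hN.comap (QuotientGroup.mk' _))).imp (fun e => ?_) fun e => ?_⟩
  · refine eq_bot_iff.2 fun x hx => ?_
    obtain ⟨y, rfl⟩ := QuotientGroup.mk'_surjective _ x
    exact (QuotientGroup.eq_one_iff y).2 (e hx)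
  · exact comap_injective (QuotientGroup.mk'_surjective _) (by rw [e, comap_top])

theorem nonab [IsAlgClosed k] (h : Hy ρ) : ∃ a b : P ⧸ center P, a * b ≠ b * a := by
  by_contra hc
  push Not at hc
  refine center_ne h (top_le_iff.1 (h.perf.ge.trans (commutator_le.2 fun a _ b _ => ?_)))
  rw [← QuotientGroup.eq_one_iff, ← QuotientGroup.mk'_apply, map_commutatorElement,
    commutatorElement_eq_one_iff_mul_comm]
  exact hc _ _

/-- The projective representation of the central quotient. -/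
def pr [IsAlgClosed k] (h : Hy ρ) : PR (P ⧸ center P) k :=
  PR.ofHom ρ (QuotientGroup.mk' _) (QuotientGroup.mk'_surjective _) fun x =>
    (QuotientGroup.eq_one_iff x).trans (center_iff h)

theorem pr_L [IsAlgClosed k] (h : Hy ρ) (x : P) : (pr h).L (x : P ⧸ center P) (ρ x) := PR.ofHom_L x

theorem kap_of (A : AddSubgroup (k × k)) [Finite A] {κ μ : k} (inj : ∀ b, (0, b) ∈ A → b = 0)
    (cl : ∀ a b, (a, b) ∈ A → (κ * a, μ * b) ∈ A) (h0 : κ ≠ 0) : κ ^ (Nat.card A - 1) = 1 := by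
  classical
  have := Fintype.ofFinite A
  have i2 : ∀ x y : A, x.1.1 = y.1.1 → x = y := fun x y e => by
    have := inj (x.1.2 - y.1.2) (by
      convert sub_mem x.2 y.2 using 1
      ext <;> simp [e])
    exact Subtype.ext (Prod.ext e (sub_eq_zero.1 this))
  let f : A → A := fun x => ⟨(κ * x.1.1, μ * x.1.2), cl _ _ x.2⟩
  have hf : Function.Injective f := fun x y e =>
    i2 x y (mul_left_cancel₀ h0 (congrArg (fun z : A => z.1.1) e))
  have h1 : ∏ x ∈ Finset.univ.erase (0 : A), (f x).1.1 = ∏ x ∈ Finset.univ.erase (0 : A), x.1.1 :=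
    Finset.prod_equiv (Equiv.ofBijective f (Finite.injective_iff_bijective.1 hf)) (fun x => by
      have : f 0 = 0 := i2 _ _ (by simp [f])
      simp only [Finset.mem_erase, Finset.mem_univ, and_true, Equiv.ofBijective_apply]
      rw [← this, hf.ne_iff, this]) fun _ _ => rfl
  simp only [f, Finset.prod_mul_distrib, Finset.prod_const, Finset.card_erase_of_mem
    (Finset.mem_univ _), Finset.card_univ, ← Nat.card_eq_fintype_card] at h1
  exact mul_right_cancel₀ (Finset.prod_ne_zero_iff.2 fun x hx e =>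
    (Finset.mem_erase.1 hx).1 (i2 _ _ e)) (h1.trans (one_mul _).symm)

variable {p r : ℕ} {U H : Subgroup P}

theorem caseb_of [IsAlgClosed k] [Fact p.Prime] [CharP k p] [Finite P] (hp : p ≠ 2) (h : Hy ρ)
    (t : T2 p r ρ U H) (h1 : ∀ u ∈ U, ρ u 0 1 = 0)
    (h2 : ∃ u ∈ U, ∃ u' ∈ U, ρ u 1 3 * ρ u' 2 3 ≠ ρ u' 1 3 * ρ u 2 3)
    (hd : ∀ h ∈ H, ρ h 1 2 = 0 ∧ ρ h 2 1 = 0)
    (hL : ∀ o, Even o → o ∣ p ^ r - 1 → (∀ h ∈ H, (ρ h 0 0 * ρ h 2 2) ^ o = 1) →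
      o = p ^ r - 1 ∨ 2 * o = p ^ r - 1) : False := by
  have hpp := (Fact.out : p.Prime)
  have sh : ∀ u ∈ U, ρ u = hz 0 (ρ u 0 2) (ρ u 1 3) (ρ u 2 3) (ρ u 0 3) ∧
      (u ≠ 1 → ρ u 0 2 * ρ u 2 3 ≠ 0) := fun u hu => by
    obtain ⟨f₁, f₂, v₁, v₂, z, e, e'⟩ := t.shape u hu
    obtain rfl : f₁ = 0 := by simpa [e, hz] using h1 u hu
    rw [e]
    exact ⟨rfl, by simpa [hz] using e'⟩
  have dh : ∀ g ∈ H, ρ g = dg (ρ g 0 0) (ρ g 1 1) (ρ g 2 2) (ρ g 3 3) := fun g hg => by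
    obtain ⟨a, b₁, b₂, b₃, b₄, c, e⟩ := t.blk g hg
    have := hd g hg
    rw [e] at this ⊢
    obtain ⟨rfl, rfl⟩ : b₂ = 0 ∧ b₃ = 0 := this
    rfl
  have nz : ∀ g ∈ H, ρ g 0 0 * ρ g 1 1 * ρ g 2 2 * ρ g 3 3 = 1 := fun g hg => by
    have := h.det g
    rw [dh g hg, dm4] at this
    linear_combination this
  have n3 : ∀ g ∈ H, ρ g 3 3 ≠ 0 := fun g hg => right_ne_zero_of_mul_eq_one (nz g hg)
  have n2 : ∀ g ∈ H, ρ g 2 2 ≠ 0 := fun g hg =>
    right_ne_zero_of_mul (left_ne_zero_of_mul_eq_one (nz g hg))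
  have cj : ∀ g ∈ H, ∀ u ∈ U, g * u * g⁻¹ ∈ U ∧
      ρ (g * u * g⁻¹) 2 3 * ρ g 3 3 = ρ g 2 2 * ρ u 2 3 ∧
      ρ (g * u * g⁻¹) 1 3 * ρ g 3 3 = ρ g 1 1 * ρ u 1 3 ∧
      ρ (g * u * g⁻¹) 0 2 * ρ g 2 2 = ρ g 0 0 * ρ u 0 2 := fun g hg u hu => by
    have m := (mem_normalizer_iff.1 (t.le hg) u).1 hu
    have e : ρ (g * u * g⁻¹) * ρ g = ρ g * ρ u := by rw [← map_mul, ← map_mul, inv_mul_cancel_right]
    rw [(sh _ m).1, (sh u hu).1, dh g hg, hz, hz, mul4, mul4, em4] at e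
    simp only [mul_zero, zero_mul, add_zero, zero_add, one_mul, mul_one] at e
    exact ⟨m, by tauto, by tauto, by tauto⟩
  have ad : ∀ u ∈ U, ∀ v ∈ U, ρ (u * v) 2 3 = ρ u 2 3 + ρ v 2 3 ∧
      ρ (u * v) 1 3 = ρ u 1 3 + ρ v 1 3 ∧
      ρ (u * v) 0 3 = ρ v 0 3 + ρ u 0 2 * ρ v 2 3 + ρ u 0 3 := fun u hu v hv => by
    rw [map_mul, (sh u hu).1, (sh v hv).1, hz, hz, mul4]
    simp [add_comm]
  have i1 : ∀ u ∈ U, ρ u 2 3 = 0 → u = 1 := fun u hu e => by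
    by_contra hc
    exact (sh u hu).2 hc (by rw [e, mul_zero])
  let A : AddSubgroup (k × k) :=
    { carrier := {x | ∃ u ∈ U, x = (ρ u 2 3, ρ u 1 3)}
      add_mem' := by
        rintro _ _ ⟨u, hu, rfl⟩ ⟨v, hv, rfl⟩
        exact ⟨u * v, mul_mem hu hv, by rw [(ad u hu v hv).1, (ad u hu v hv).2.1]; rfl⟩
      zero_mem' := ⟨1, one_mem _, by simp; rfl⟩
      neg_mem' := by
        rintro _ ⟨u, hu, rfl⟩
        have := ad u hu u⁻¹ (inv_mem hu)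
        rw [mul_inv_cancel, map_one] at this
        refine ⟨u⁻¹, inv_mem hu, Prod.ext ?_ ?_⟩
        · exact neg_eq_of_add_eq_zero_right (by simpa using this.1.symm)
        · exact neg_eq_of_add_eq_zero_right (by simpa using this.2.1.symm) }
  have inj : ∀ b, (0, b) ∈ A → b = 0 := by
    rintro b ⟨u, hu, e⟩
    obtain ⟨e1, rfl⟩ := Prod.mk.inj e
    rw [i1 u hu e1.symm, map_one]
    simp
  have cA : Nat.card A = p ^ r := t.card ▸ (Nat.card_eq_of_bijective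
    (fun u : U => (⟨(ρ u 2 3, ρ u 1 3), u, u.2, rfl⟩ : A)) ⟨fun u v e => by
      have e1 : ρ u 2 3 = ρ v 2 3 := congrArg (fun z : A => z.1.1) e
      have e2 := (ad _ (inv_mem v.2) _ u.2).1
      have e3 := (ad _ (inv_mem v.2) _ v.2).1
      rw [inv_mul_cancel, map_one, ← e1, ← e2] at e3
      exact Subtype.ext (eq_of_inv_mul_eq_one (i1 _ (mul_mem (inv_mem v.2) u.2)
        (by simpa using e3.symm))).symm, by rintro ⟨_, u, hu, rfl⟩; exact ⟨⟨u, hu⟩, rfl⟩⟩).symm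
  have : Finite A := Nat.finite_of_card_ne_zero (cA ▸ (pow_pos hpp.pos r).ne')
  have cl : ∀ g ∈ H, ∀ a b, (a, b) ∈ A →
      (ρ g 2 2 / ρ g 3 3 * a, ρ g 1 1 / ρ g 3 3 * b) ∈ A := by
    rintro g hg _ _ ⟨u, hu, e⟩
    obtain ⟨rfl, rfl⟩ := Prod.mk.inj e
    obtain ⟨m, e1, e2, -⟩ := cj g hg u hu
    have := n3 g hg
    refine ⟨_, m, Prod.ext ?_ ?_⟩ <;> simp only [] <;> field_simp
    exacts [by linear_combination -e1, by linear_combination -e2]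
  obtain ⟨u, hu, u', hu', h2⟩ := h2
  obtain ⟨u₀, hu₀, hb⟩ : ∃ u₀ ∈ U, ρ u₀ 1 3 ≠ 0 := by
    by_contra hc
    push Not at hc
    exact h2 (by rw [hc u hu, hc u' hu', zero_mul, zero_mul])
  have hu1 : u₀ ≠ 1 := by rintro rfl; simp at hb
  have sq : ∀ g ∈ H, ρ g 0 0 * ρ g 3 3 = ρ g 2 2 ^ 2 := fun g hg => by
    obtain ⟨m, e1, -, e2⟩ := cj g hg u₀ hu₀
    have e3 := (ad _ m _ hu₀).2.2
    rw [t.comm _ m _ hu₀, (ad _ hu₀ _ m).2.2] at e3
    exact mul_right_cancel₀ ((sh u₀ hu₀).2 hu1) (by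
      linear_combination (-ρ g 3 3 * ρ u₀ 2 3) * e2 + ρ g 2 2 * ρ u₀ 0 2 * e1 -
        ρ g 2 2 * ρ g 3 3 * e3)
  have lf : ∀ g ∈ H, ρ g = ρ g 3 3 •
      dg ((ρ g 2 2 / ρ g 3 3) ^ 2) (ρ g 1 1 / ρ g 3 3) (ρ g 2 2 / ρ g 3 3) 1 := fun g hg => by
    have := n3 g hg
    conv_lhs => rw [dh g hg]
    rw [sm4, em4]
    simp only [mul_zero, true_and, and_true, mul_one]
    refine ⟨?_, ?_, ?_⟩ <;> field_simp
    exact sq g hg
  have mu : ∀ g ∈ H, ∀ g' ∈ H, ∀ i, ρ (g * g') i i = ρ g i i * ρ g' i i := fun g hg g' hg' i => by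
    rw [map_mul]
    conv_lhs => rw [dh g hg, dh g' hg', dg_mul]
    fin_cases i <;> rfl
  let χ : H →* kˣ := MonoidHom.toHomUnits
    { toFun := fun g => ρ g 2 2 / ρ g 3 3
      map_one' := by simp
      map_mul' := fun g g' => by
        rw [Subgroup.coe_mul, mu _ g.2 _ g'.2, mu _ g.2 _ g'.2, mul_div_mul_comm] }
  have : Finite χ.range := Finite.of_surjective _ χ.rangeRestrict_surjective
  obtain ⟨⟨_, g₀, rfl⟩, hg₀⟩ := IsCyclic.exists_monoid_generator (α := χ.range)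
  have pw : ∀ (m : ℕ) i, ρ ((g₀ : P) ^ m) i i = ρ g₀ i i ^ m := fun m i => by
    induction m with
    | zero => simp
    | succ m ih => rw [pow_succ, mu _ (pow_mem g₀.2 m) _ g₀.2, ih, pow_succ]
  obtain ⟨κ, hκ⟩ : ∃ κ, κ = ρ g₀ 2 2 / ρ g₀ 3 3 := ⟨_, rfl⟩
  obtain ⟨μ, hμ⟩ : ∃ μ, μ = ρ g₀ 1 1 / ρ g₀ 3 3 := ⟨_, rfl⟩
  have cl0 := cl _ g₀.2
  have lf0 := lf _ g₀.2
  have k0 := div_ne_zero (n2 _ g₀.2) (n3 _ g₀.2)
  rw [← hκ, ← hμ] at cl0 lf0
  rw [← hκ] at k0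
  have gen : ∀ g ∈ H, ∃ m : ℕ, ρ g = ρ g 3 3 • dg ((κ ^ m) ^ 2) (μ ^ m) (κ ^ m) 1 := fun g hg => by
    obtain ⟨m, hm⟩ := hg₀ ⟨χ ⟨g, hg⟩, _, rfl⟩
    have e1 : κ ^ m = ρ g 2 2 / ρ g 3 3 := by
      simpa [χ, hκ] using congrArg (fun x : χ.range => (x.1 : k)) hm
    have e2 := sub_mem (cl _ (pow_mem g₀.2 m) _ _ ⟨u₀, hu₀, rfl⟩) (cl g hg _ _ ⟨u₀, hu₀, rfl⟩)
    rw [pw, pw, pw, ← div_pow, ← div_pow, ← hκ, ← hμ, e1, Prod.mk_sub_mk, sub_self] at e2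
    refine ⟨m, ?_⟩
    rw [e1, mul_right_cancel₀ hb (sub_eq_zero.1 (inj _ e2))]
    exact lf g hg
  have kap : κ ^ (p ^ r - 1) = 1 := cA ▸ kap_of A inj cl0 k0
  have h1r : 1 ≤ p ^ r := Nat.one_le_pow _ _ hpp.pos
  obtain ⟨i, hi, hμi⟩ := galois (p := p) A inj cl0 ⟨u₀, hu₀, rfl⟩ hb t.pos
    (by rw [← Nat.sub_add_cancel h1r, pow_succ, kap, one_mul])
  have m0 : μ ≠ 0 := hμi ▸ pow_ne_zero _ k0
  have ne' : ((ρ u 2 3, ρ u 1 3) : k × k).1 * ((ρ u' 2 3, ρ u' 1 3) : k × k).2 ≠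
      ((ρ u 2 3, ρ u 1 3) : k × k).2 * ((ρ u' 2 3, ρ u' 1 3) : k × k).1 := fun e =>
    h2 (by linear_combination -e)
  have lift : (pr h).L (g₀ : P) (dg (κ ^ 2) μ κ 1) := by
    have := (pr h).smul (pr_L h g₀) (inv_ne_zero (n3 _ g₀.2))
    have h3 := n3 _ g₀.2
    generalize ρ g₀ 3 3 = s at lf0 this h3
    rwa [lf0, smul_smul, inv_mul_cancel₀ h3, one_smul] at this
  have lp : ∀ m : ℕ, (pr h).L (((g₀ : P) : P ⧸ center P) ^ m)
      (dg ((κ ^ m) ^ 2) (μ ^ m) (κ ^ m) 1) := fun m => by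
    have := (pr h).pow lift m
    rwa [dg_pow, one_pow, ← pow_mul, mul_comm, pow_mul] at this
  have mz : ∀ g ∈ H, (g : P ⧸ center P) ∈ zpowers ((g₀ : P) : P ⧸ center P) := fun g hg => by
    obtain ⟨m, hm⟩ := gen g hg
    have := pr_L h g
    rw [hm] at this
    rw [← (pr h).eq_of' (lp m) this]
    exact pow_mem (mem_zpowers _) m
  have := simple h
  obtain ⟨y, hy⟩ := (hpp.odd_of_ne_two hp).pow (n := i)
  obtain ⟨n, hn⟩ := (hpp.odd_of_ne_two hp).pow (n := r)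
  refine Cy.false (ρ := pr h) (p := p) (r := r) (i := i) (κ := κ) (μ := μ) (w := κ ^ 3 / μ)
    (h := (g₀ : P)) ⟨⟨hpp, hp, ?_, ?_, hi, hμi, kap, div_mul_cancel₀ _ m0, fun j j0 hj => ?_⟩,
      lift, ?_, fun e => line_or A cA (e ▸ cl0) ⟨u, hu, rfl⟩ ⟨u', hu', rfl⟩ ne'⟩ (nonab h)
  · obtain ⟨s, a, b, -⟩ := line_or (κ := 1) A cA (by simp) ⟨u, hu, rfl⟩ ⟨u', hu', rfl⟩ ne'
    omega
  · exact fun e => hp ((Nat.prime_dvd_prime_iff_eq hpp Nat.prime_two).1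
      ((CharP.cast_eq_zero_iff k p 2).1 e))
  · have := hL (Nat.gcd (2 * j) (p ^ r - 1)) (even_iff_two_dvd.2 (Nat.dvd_gcd (Dvd.intro _ rfl)
      ⟨n, by omega⟩)) (Nat.gcd_dvd_right _ _) fun g hg => by
        obtain ⟨m, hm⟩ := gen g hg
        have e := nz g hg
        generalize ρ g 3 3 = s at hm
        rw [hm, sm4] at e ⊢
        change s * (κ ^ m) ^ 2 * (s * μ ^ m) * (s * κ ^ m) * (s * 1) = 1 at e
        change (s * (κ ^ m) ^ 2 * (s * κ ^ m)) ^ _ = 1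
        have e1 : (s * (κ ^ m) ^ 2 * (s * κ ^ m)) ^ 2 = (κ ^ 3 / μ) ^ m := by
          rw [div_pow, eq_div_iff (pow_ne_zero m m0), ← pow_mul κ 3, mul_comm 3, pow_mul]
          linear_combination (κ ^ m) ^ 3 * e
        rw [pow_gcd_eq_one]
        refine ⟨?_, ?_⟩
        · rw [pow_mul, e1, ← pow_mul, mul_comm, pow_mul, hj, one_pow]
        have e2 : (κ ^ 3 / μ) ^ n = 1 := by
          rw [div_pow, div_eq_one_iff_eq (pow_ne_zero n m0), hμi, hy]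
          have h5 : κ ^ (2 * n) = 1 := by rw [← kap, hn, Nat.add_sub_cancel]
          calc (κ ^ 3) ^ n = κ ^ (2 * n) * κ ^ n := by ring
            _ = (κ ^ (2 * n)) ^ y * κ ^ n := by rw [h5, one_pow]
            _ = _ := by ring
        rw [hn, Nat.add_sub_cancel, pow_mul, e1, ← pow_mul, mul_comm, pow_mul, e2, one_pow]
    have := Nat.le_of_dvd (by omega) (Nat.gcd_dvd_left (2 * j) (p ^ r - 1))
    omega
  · rintro _ _ ⟨x, c, hc, rfl, rfl⟩ ⟨a1, a2, a3, a4, a5⟩ j hj hg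
    simp only [Matrix.smul_apply, smul_eq_mul, mul_eq_zero, hc, false_or] at a1 a2 a3 a4 a5
    obtain ⟨v, hv, g, hg', rfl⟩ := t.fac x (t.stab x a1 a2 a3 a4 a5)
    obtain ⟨l, hl⟩ := mz g hg'
    have hl : ((g₀ : P) : P ⧸ center P) ^ l = g := hl
    rw [QuotientGroup.mk'_apply, QuotientGroup.mk_mul, ← hl] at hg ⊢
    rw [mul_assoc (v : P ⧸ center P), (((Commute.refl _).pow_right j).zpow_left l).eq,
      _root_.mul_inv_rev, ← mul_assoc, ← mul_assoc, mul_inv_cancel_right] at hg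
    obtain ⟨s, hs⟩ := (mem_powers_iff_mem_zpowers.2 hg : _ ∈ Submonoid.powers _)
    obtain ⟨d, e⟩ := ((pr h).conj_iff (pr_L h v) (lp j) (lp s)).1 hs.symm
    rw [(sh v hv).1, hz, mul4, mul4, sm4, em4] at e
    simp only [mul_zero, zero_mul, add_zero, zero_add, one_mul, mul_one] at e
    have e1 : κ ^ j ≠ 1 := fun e => hj (((pr h).eq_one_iff (lp j)).2 ⟨1, by
      rw [hμi, ← pow_mul κ (p ^ i), mul_comm, pow_mul, e]; simp [one4]⟩)
    have e2 : ρ v 2 3 = 0 := by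
      have e3 : κ ^ j = d * κ ^ s := by tauto
      have e4 : ρ v 2 3 = d * (κ ^ s * ρ v 2 3) := by tauto
      exact (mul_eq_zero.1 (show (κ ^ j - 1) * ρ v 2 3 = 0 by
        linear_combination ρ v 2 3 * e3 - e4)).resolve_left (sub_ne_zero.2 e1)
    rw [i1 v hv e2, QuotientGroup.mk_one, one_mul]
    exact zpow_mem (mem_zpowers _) l

end Cfsg.Agent.L4.Rb
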