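import Cfsg.Agent.L4.R2
import Cfsg.Agent.L4.Rb3

/-! Type II, tensor case: the structure of the Sylow normaliser. -/

set_option autoImplicit false

namespace Cfsg.Agent.L4.C

open Matrix Cfsg.Agent.L4.R Cfsg.Agent.L4.H
open Subgroup (normalizer mem_normalizer_iff)

variable {P k : Type*} [Group P] [Field k] {p r : ℕ} {ρ : P →* M4 k} {U H : Subgroup P}

/-- the unipotent elements -/
def uu (x y z : k) : M4 k := hz y x x y (z + x * y)

/-- first coordinate -/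
def X (ρ : P →* M4 k) (u : P) : k := ρ u 1 3
/-- second coordinate -/
def Y (ρ : P →* M4 k) (u : P) : k := ρ u 2 3
/-- third coordinate -/
def Z (ρ : P →* M4 k) (u : P) : k := ρ u 0 3 - ρ u 1 3 * ρ u 2 3

/-- a diagonal element -/
def Di (ρ : P →* M4 k) (h : P) (a b d c : k) : Prop :=
  ρ h = bd a b 0 0 d c ∧ b * d = a * c ∧ (a * c) ^ 2 = 1
/-- a swapping element -/
def Sw (ρ : P →* M4 k) (h : P) (a b d c : k) : Prop :=
  ρ h = bd a 0 b d 0 c ∧ b * d = a * c ∧ (a * c) ^ 2 = -1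

theorem Di.ne {h : P} {a b d c : k} (e : Di ρ h a b d c) : a ≠ 0 ∧ b ≠ 0 ∧ d ≠ 0 ∧ c ≠ 0 := by
  have h1 : a * c ≠ 0 := fun h0 => by simpa [h0] using e.2.2
  have h2 := e.2.1 ▸ h1
  exact ⟨left_ne_zero_of_mul h1, left_ne_zero_of_mul h2, right_ne_zero_of_mul h2,
    right_ne_zero_of_mul h1⟩

theorem Sw.ne {h : P} {a b d c : k} (e : Sw ρ h a b d c) : a ≠ 0 ∧ b ≠ 0 ∧ d ≠ 0 ∧ c ≠ 0 := by
  have h1 : a * c ≠ 0 := fun h0 => by simpa [h0] using e.2.2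
  have h2 := e.2.1 ▸ h1
  exact ⟨left_ne_zero_of_mul h1, left_ne_zero_of_mul h2, right_ne_zero_of_mul h2,
    right_ne_zero_of_mul h1⟩

theorem Di.mul {h h' : P} {a b d c a' b' d' c' : k} (e : Di ρ h a b d c) (e' : Di ρ h' a' b' d' c') :
    Di ρ (h * h') (a * a') (b * b') (d * d') (c * c') := by
  refine ⟨?_, by linear_combination b' * d' * e.2.1 + a * c * e'.2.1,
    by linear_combination (a' * c') ^ 2 * e.2.2 + e'.2.2⟩
  rw [map_mul, e.1, e'.1, bd, bd, bd, mul4]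
  simp

theorem Di.one : Di ρ 1 1 1 1 1 := ⟨by rw [map_one, one4]; rfl, rfl, by simp⟩

theorem Di.pow {h : P} {a b d c : k} (e : Di ρ h a b d c) :
    ∀ n : ℕ, Di ρ (h ^ n) (a ^ n) (b ^ n) (d ^ n) (c ^ n)
  | 0 => by simpa using Di.one
  | n + 1 => by simpa only [pow_succ] using (e.pow n).mul e

theorem Di.mul_sw {h h' : P} {a b d c a' b' d' c' : k} (e : Di ρ h a b d c)
    (e' : Sw ρ h' a' b' d' c') : Sw ρ (h * h') (a * a') (b * b') (d * d') (c * c') := by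
  refine ⟨?_, by linear_combination b' * d' * e.2.1 + a * c * e'.2.1,
    by linear_combination (a' * c') ^ 2 * e.2.2 + e'.2.2⟩
  rw [map_mul, e.1, e'.1, bd, bd, bd, mul4]
  simp

theorem Sw.mul {h h' : P} {a b d c a' b' d' c' : k} (e : Sw ρ h a b d c)
    (e' : Sw ρ h' a' b' d' c') : Di ρ (h * h') (a * a') (b * d') (d * b') (c * c') := by
  refine ⟨?_, by linear_combination b' * d' * e.2.1 + a * c * e'.2.1,
    by linear_combination (a' * c') ^ 2 * e.2.2 - e'.2.2⟩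
  rw [map_mul, e.1, e'.1, bd, bd, bd, mul4]
  simp

theorem Sw.mul_di {h h' : P} {a b d c a' b' d' c' : k} (e : Sw ρ h a b d c)
    (e' : Di ρ h' a' b' d' c') : Sw ρ (h * h') (a * a') (b * d') (d * b') (c * c') := by
  refine ⟨?_, by linear_combination b' * d' * e.2.1 + a * c * e'.2.1,
    by linear_combination (a' * c') ^ 2 * e.2.2 - e'.2.2⟩
  rw [map_mul, e.1, e'.1, bd, bd, bd, mul4]
  simp

theorem Di.eq {h : P} {a b d c a' b' d' c' : k} (e : Di ρ h a b d c) (e' : Di ρ h a' b' d' c') :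
    a = a' ∧ b = b' ∧ d = d' ∧ c = c' := by
  have := e.1.symm.trans e'.1
  rw [bd, bd, em4] at this
  tauto

theorem Di.not_sw {h : P} {a b d c a' b' d' c' : k} (e : Di ρ h a b d c) (e' : Sw ρ h a' b' d' c') :
    False := by
  have := e.1.symm.trans e'.1
  rw [bd, bd, em4] at this
  exact e.ne.2.1 (by tauto)

/-- the tensor case -/
structure Cc (p r : ℕ) (ρ : P →* M4 k) (U H : Subgroup P) : Prop extends T2 p r ρ U H where
  hy : Hy ρ
  h1 : ∀ u ∈ U, ρ u 0 1 = ρ u 2 3 ∧ ρ u 0 2 = ρ u 1 3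
  h2 : ∃ u ∈ U, ∃ u' ∈ U, ρ u 1 3 * ρ u' 2 3 ≠ ρ u' 1 3 * ρ u 2 3

theorem X_one : X ρ 1 = 0 := by simp [X]
theorem Y_one : Y ρ 1 = 0 := by simp [Y]
theorem Z_one : Z ρ 1 = 0 := by simp [Z]

namespace Cc

variable (t : Cc p r ρ U H)
include t

theorem sh' {u : P} (hu : u ∈ U) :
    ρ u = uu (X ρ u) (Y ρ u) (Z ρ u) ∧ (u ≠ 1 → X ρ u ≠ 0 ∧ Y ρ u ≠ 0) := by
  obtain ⟨f₁, f₂, v₁, v₂, z, e, e'⟩ := t.shape u hu
  have := t.h1 u hu
  unfold X Y Z uu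
  rw [e] at this ⊢
  obtain ⟨rfl, rfl⟩ : f₁ = v₂ ∧ f₂ = v₁ := this
  refine ⟨by simp [hz], fun h => ⟨fun h0 => e' h ?_, fun h0 => e' h ?_⟩⟩
  · obtain rfl : f₂ = 0 := h0
    simp
  · obtain rfl : f₁ = 0 := h0
    simp

theorem sh {u : P} (hu : u ∈ U) : ρ u = uu (X ρ u) (Y ρ u) (Z ρ u) := (t.sh' hu).1

theorem X_eq {u : P} (hu : u ∈ U) (h : X ρ u = 0) : u = 1 := by
  by_contra h1
  exact ((t.sh' hu).2 h1).1 h

theorem Y_eq {u : P} (hu : u ∈ U) (h : Y ρ u = 0) : u = 1 := by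
  by_contra h1
  exact ((t.sh' hu).2 h1).2 h

theorem ad {u v : P} (hu : u ∈ U) (hv : v ∈ U) : X ρ (u * v) = X ρ u + X ρ v ∧
    Y ρ (u * v) = Y ρ u + Y ρ v ∧ Z ρ (u * v) = Z ρ u + Z ρ v := by
  have e := map_mul ρ u v
  rw [t.sh hu, t.sh hv, uu, uu, hz_mul] at e
  refine ⟨by rw [X, e]; rfl, by rw [Y, e]; rfl, ?_⟩
  rw [Z, e]
  simp only [hz, of_apply, cons_val', cons_val_zero, cons_val_one, cons_val]
  ring

theorem ng {u : P} (hu : u ∈ U) : X ρ u⁻¹ = -X ρ u ∧ Y ρ u⁻¹ = -Y ρ u ∧ Z ρ u⁻¹ = -Z ρ u := by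
  have := t.ad hu (inv_mem hu)
  rw [mul_inv_cancel, X_one, Y_one, Z_one] at this
  exact ⟨by linear_combination -this.1, by linear_combination -this.2.1,
    by linear_combination -this.2.2⟩

theorem X_inj {u v : P} (hu : u ∈ U) (hv : v ∈ U) (h : X ρ u = X ρ v) : u = v :=
  eq_of_mul_inv_eq_one (t.X_eq (mul_mem hu (inv_mem hv))
    (by rw [(t.ad hu (inv_mem hv)).1, (t.ng hv).1, h, add_neg_cancel]))

theorem cjm {g u : P} (hg : g ∈ H) (hu : u ∈ U) : g * u * g⁻¹ ∈ U :=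
  (mem_normalizer_iff.1 (t.le hg) u).1 hu

theorem cj {g u : P} (hg : g ∈ H) (hu : u ∈ U) {a b₁ b₂ b₃ b₄ c : k}
    (e : ρ g = bd a b₁ b₂ b₃ b₄ c) :
    X ρ (g * u * g⁻¹) * c = b₁ * X ρ u + b₂ * Y ρ u ∧
    Y ρ (g * u * g⁻¹) * c = b₃ * X ρ u + b₄ * Y ρ u ∧
    Y ρ (g * u * g⁻¹) * b₁ + X ρ (g * u * g⁻¹) * b₃ = a * Y ρ u ∧
    Y ρ (g * u * g⁻¹) * b₂ + X ρ (g * u * g⁻¹) * b₄ = a * X ρ u ∧
    (Z ρ (g * u * g⁻¹) + X ρ (g * u * g⁻¹) * Y ρ (g * u * g⁻¹)) * c =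
      a * (Z ρ u + X ρ u * Y ρ u) := by
  have e1 : ρ (g * u * g⁻¹) * ρ g = ρ g * ρ u := by
    rw [← map_mul, ← map_mul, inv_mul_cancel_right]
  rw [t.sh (t.cjm hg hu), t.sh hu, e, uu, uu, bd, hz, hz, mul4, mul4, em4] at e1
  simp only [mul_zero, zero_mul, add_zero, zero_add, one_mul, mul_one] at e1
  tauto

theorem ind {α β : k} (h : ∀ u ∈ U, α * X ρ u + β * Y ρ u = 0) : α = 0 ∧ β = 0 := by
  obtain ⟨u, hu, v, hv, h2⟩ := t.h2
  have h3 := sub_ne_zero.2 h2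
  have e1 := h u hu
  have e2 := h v hv
  unfold X Y at e1 e2
  exact ⟨(mul_eq_zero.1 (by linear_combination ρ v 2 3 * e1 - ρ u 2 3 * e2)).resolve_right h3,
    (mul_eq_zero.1 (by linear_combination ρ u 1 3 * e2 - ρ v 1 3 * e1)).resolve_right h3⟩

variable [Finite P] [hp : Fact p.Prime] [CharP k p]

theorem dich {g : P} (hg : g ∈ H) : ∃ a b d c, Di ρ g a b d c ∨ Sw ρ g a b d c := by
  obtain ⟨a, b₁, b₂, b₃, b₄, c, e⟩ := t.blk g hg
  have hd := t.hy.det g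
  rw [e, bd, dm4] at hd
  have h2 := t.toT2.two_ne
  obtain ⟨e1, e2⟩ := t.ind (α := 2 * (b₁ * b₃)) (β := b₁ * b₄ + b₂ * b₃ - a * c) fun u hu => by
    obtain ⟨h1, h2, h3, -⟩ := t.cj hg hu e
    linear_combination c * h3 - b₃ * h1 - b₁ * h2
  obtain ⟨-, e3⟩ := t.ind (α := b₁ * b₄ + b₂ * b₃ - a * c) (β := 2 * (b₂ * b₄)) fun u hu => by
    obtain ⟨h1, h2, -, h3, -⟩ := t.cj hg hu e
    linear_combination c * h3 - b₄ * h1 - b₂ * h2
  replace e1 := (mul_eq_zero.1 e1).resolve_left h2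
  replace e3 := (mul_eq_zero.1 e3).resolve_left h2
  by_cases h1 : b₁ = 0
  · subst h1
    have h4 : b₂ ≠ 0 := by rintro rfl; simp at hd
    obtain rfl := (mul_eq_zero.1 e3).resolve_left h4
    exact ⟨a, b₂, b₃, c, Or.inr ⟨e, by linear_combination e2,
      by linear_combination -hd - a * c * e2⟩⟩
  · obtain rfl := (mul_eq_zero.1 e1).resolve_left h1
    have h4 : b₄ ≠ 0 := by rintro rfl; simp at hd
    obtain rfl := (mul_eq_zero.1 e3).resolve_right h4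
    exact ⟨a, b₁, b₄, c, Or.inl ⟨e, by linear_combination e2,
      by linear_combination hd - a * c * e2⟩⟩

omit [Finite P] hp [CharP k p] in
theorem cjd {g u : P} (hg : g ∈ H) (hu : u ∈ U) {a b d c : k} (e : Di ρ g a b d c) :
    X ρ (g * u * g⁻¹) = b / c * X ρ u ∧ Y ρ (g * u * g⁻¹) = d / c * Y ρ u ∧
    Z ρ (g * u * g⁻¹) = b / c * (d / c) * Z ρ u := by
  obtain ⟨h1, h2, -, -, h3⟩ := t.cj hg hu e.1
  have hc := e.ne.2.2.2
  have e1 : X ρ (g * u * g⁻¹) = b / c * X ρ u := by field_simp; linear_combination h1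
  have e2 : Y ρ (g * u * g⁻¹) = d / c * Y ρ u := by field_simp; linear_combination h2
  refine ⟨e1, e2, ?_⟩
  rw [e1, e2] at h3
  field_simp at h3 ⊢
  linear_combination h3 - (Z ρ u + X ρ u * Y ρ u) * e.2.1

omit [Finite P] hp [CharP k p] in
theorem cjs {g u : P} (hg : g ∈ H) (hu : u ∈ U) {a b d c : k} (e : Sw ρ g a b d c) :
    X ρ (g * u * g⁻¹) = b / c * Y ρ u ∧ Y ρ (g * u * g⁻¹) = d / c * X ρ u := by
  obtain ⟨h1, h2, -⟩ := t.cj hg hu e.1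
  have hc := e.ne.2.2.2
  exact ⟨by field_simp; linear_combination h1, by field_simp; linear_combination h2⟩

theorem inv_di {g : P} (hg : g ∈ H) {a b d c : k} (e : Di ρ g a b d c) :
    Di ρ g⁻¹ a⁻¹ b⁻¹ d⁻¹ c⁻¹ := by
  obtain ⟨a', b', d', c', e' | e'⟩ := t.dich (inv_mem hg)
  · have := e.mul e'
    rw [mul_inv_cancel] at this
    obtain ⟨h1, h2, h3, h4⟩ := this.eq Di.one
    rwa [← eq_inv_of_mul_eq_one_right h1, ← eq_inv_of_mul_eq_one_right h2,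
      ← eq_inv_of_mul_eq_one_right h3, ← eq_inv_of_mul_eq_one_right h4]
  · have := e.mul_sw e'
    rw [mul_inv_cancel] at this
    exact (Di.one.not_sw this).elim

/-- the diagonal part is cyclic modulo scalars -/
theorem gen : ∃ g ∈ H, ∃ a b d c, Di ρ g a b d c ∧ ∀ g' ∈ H, ∀ a' b' d' c', Di ρ g' a' b' d' c' →
    ∃ m : ℕ, b' / c' = (b / c) ^ m ∧ d' / c' = (d / c) ^ m := by
  let S : Subgroup kˣ :=
    { carrier := {x | ∃ g ∈ H, ∃ a b d c, Di ρ g a b d c ∧ (x : k) = b / c}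
      mul_mem' := by
        rintro x y ⟨g, hg, a, b, d, c, e, h⟩ ⟨g', hg', a', b', d', c', e', h'⟩
        exact ⟨_, mul_mem hg hg', _, _, _, _, e.mul e', by
          rw [Units.val_mul, h, h', mul_div_mul_comm]⟩
      one_mem' := ⟨1, one_mem _, _, _, _, _, Di.one, by simp⟩
      inv_mem' := by
        rintro x ⟨g, hg, a, b, d, c, e, h⟩
        exact ⟨_, inv_mem hg, _, _, _, _, t.inv_di hg e, by
          rw [Units.val_inv_eq_inv_val, h, inv_div, inv_div_inv]⟩ }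
  have : Finite S := by
    refine Set.Finite.to_subtype (Set.Finite.of_finite_image (f := ((↑) : kˣ → k))
      ((Set.finite_range fun g : P => ρ g 1 1 / ρ g 3 3).subset ?_) Units.val_injective.injOn)
    rintro _ ⟨x, ⟨g, -, a, b, d, c, e, h⟩, rfl⟩
    exact ⟨g, by simp only [e.1, h]; rfl⟩
  obtain ⟨⟨x, g, hg, a, b, d, c, e, h⟩, hx⟩ := IsCyclic.exists_monoid_generator (α := S)
  refine ⟨g, hg, a, b, d, c, e, fun g' hg' a' b' d' c' e' => ?_⟩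
  obtain ⟨m, hm⟩ := hx ⟨Units.mk0 (b' / c') (div_ne_zero e'.ne.2.1 e'.ne.2.2.2),
    g', hg', a', b', d', c', e', rfl⟩
  have e1 : b' / c' = (b / c) ^ m := by
    simpa [h] using congrArg (fun x : S => (x.1 : k)) hm.symm
  refine ⟨m, e1, ?_⟩
  obtain ⟨u, hu, h0⟩ := t.toT2.exists_ne
  obtain ⟨h1, h2, -⟩ := t.cjd hg' hu e'
  obtain ⟨h3, h4, -⟩ := t.cjd (pow_mem hg m) hu (e.pow m)
  rw [← div_pow] at h3 h4
  rw [t.X_inj (t.cjm hg' hu) (t.cjm (pow_mem hg m) hu) (by rw [h1, h3, e1]), h4] at h2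
  exact (mul_right_cancel₀ ((t.sh' hu).2 h0).2 h2).symm

end Cc

end Cfsg.Agent.L4.C
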