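import Cfsg.Agent.L4.C1

/-! Type II, tensor case: the numerical data. -/

set_option autoImplicit false

namespace Cfsg.Agent.L4.C

open Matrix Cfsg.Agent.L4.R Cfsg.Agent.L4.H
open Subgroup (normalizer mem_normalizer_iff)

variable {P k : Type*} [Group P] [Field k] {p r : ℕ} {ρ : P →* M4 k} {U H : Subgroup P}

theorem ord_of {κ : k} {n : ℕ} (hn : Even n) (h1 : κ ^ n = 1)
    (hL : ∀ o, Even o → o ∣ n → κ ^ o = 1 → o = n ∨ 2 * o = n) :
    orderOf κ ∣ n ∧ (Odd (orderOf κ) ∧ (2 * orderOf κ = n ∨ 4 * orderOf κ = n) ∨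
      Even (orderOf κ) ∧ (orderOf κ = n ∨ 2 * orderOf κ = n)) := by
  have h2 := orderOf_dvd_of_pow_eq_one h1
  refine ⟨h2, ?_⟩
  rcases Nat.even_or_odd (orderOf κ) with h | h
  · exact Or.inr ⟨h, hL _ h h2 (pow_orderOf_eq_one κ)⟩
  · have := hL (2 * orderOf κ) (even_two_mul _)
      (Nat.Coprime.mul_dvd_of_dvd_of_dvd ((Nat.coprime_two_left).2 h) hn.two_dvd h2)
      (by rw [pow_mul', pow_orderOf_eq_one, one_pow])
    exact Or.inl ⟨h, by omega⟩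

theorem ar_zeta {p r i l d : ℕ} (hp : p.Prime) (h2 : p ≠ 2) (hr : 2 ≤ r) (hi : i < r) (hl : l < r)
    (e : 1 + p ^ i ≡ p ^ l [MOD d]) (hd : Odd d ∧ (2 * d = p ^ r - 1 ∨ 4 * d = p ^ r - 1) ∨
      Even d ∧ (d = p ^ r - 1 ∨ 2 * d = p ^ r - 1)) : False := by
  have ho := hp.odd_of_ne_two h2
  have o1 : Odd (p ^ i) := ho.pow
  have o2 : Odd (p ^ l) := ho.pow
  rcases hd with ⟨hd, h⟩ | ⟨hd, -⟩
  swap
  · have := e.of_dvd hd.two_dvd
    rw [Nat.odd_iff] at o1 o2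
    unfold Nat.ModEq at this
    omega
  obtain ⟨r, rfl⟩ : ∃ s, r = s + 1 := ⟨r - 1, by omega⟩
  have h3 : 3 ≤ p := by have := hp.two_le; omega
  have b1 : p ^ i ≤ p ^ r := Nat.pow_le_pow_right hp.pos (by omega)
  have b2 : p ^ l ≤ p ^ r := Nat.pow_le_pow_right hp.pos (by omega)
  have b3 : p ≤ p ^ r := Nat.le_self_pow (by omega) p
  have b4 : 0 < p ^ l := pow_pos hp.pos l
  have b5 : d ≤ p ^ r := by
    rw [Nat.odd_iff] at o1 o2
    rcases Nat.lt_or_ge (p ^ l) (1 + p ^ i) with h4 | h4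
    · have := Nat.le_of_dvd (by omega) ((Nat.modEq_iff_dvd' h4.le).1 e.symm)
      omega
    · have := Nat.le_of_dvd (by omega) ((Nat.modEq_iff_dvd' h4).1 e)
      omega
  rw [pow_succ] at h
  rcases h3.eq_or_lt with rfl | h5
  · have h8 : ∀ n : ℕ, 3 ^ n % 8 = 1 ∨ 3 ^ n % 8 = 3 := fun n => by
      induction n with
      | zero => simp
      | succ n ih => rw [pow_succ]; omega
    have := h8 r
    rw [Nat.odd_iff] at hd
    omega
  · have h6 : 5 ≤ p := by rw [Nat.odd_iff] at ho; omega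
    have := Nat.mul_le_mul_left (p ^ r) h6
    omega

/-- a basis vector of the exterior square -/
def ee (i : Fin 6) : Fin 6 → k := Pi.single i 1

theorem uu_fix (x y z : k) : L2 (uu x y z) (ee 0) = ee 0 ∧ L2 (uu x y z) (ee 1) = ee 1 := by
  constructor <;> rw [uu, L2_hz] <;> ext i <;> fin_cases i <;> simp [ee]

theorem Di.act {g : P} {a b d c : k} (e : Di ρ g a b d c) :
    L2 (ρ g) (ee 0) = (a * b) • ee 0 ∧ L2 (ρ g) (ee 1) = (a * d) • ee 1 := by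
  constructor <;> rw [e.1, L2_bd] <;> ext i <;> fin_cases i <;> simp [ee]

theorem Sw.act {g : P} {a b d c : k} (e : Sw ρ g a b d c) :
    L2 (ρ g) (ee 0) = (a * d) • ee 1 ∧ L2 (ρ g) (ee 1) = (a * b) • ee 0 := by
  constructor <;> rw [e.1, L2_bd] <;> ext i <;> fin_cases i <;> simp [ee]

theorem Di.wt {g : P} {a b d c : k} (e : Di ρ g a b d c) {o : ℕ} (ho : Even o) :
    (a * b) ^ o = (b / c) ^ o ∧ (a * d) ^ o = (d / c) ^ o := by
  obtain ⟨o, rfl⟩ := ho.two_dvd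
  have hc := e.ne.2.2.2
  have h1 : (a * b) ^ 2 = (b / c) ^ 2 := by field_simp; linear_combination b ^ 2 * e.2.2
  have h2 : (a * d) ^ 2 = (d / c) ^ 2 := by field_simp; linear_combination d ^ 2 * e.2.2
  simp only [pow_mul, h1, h2, and_self]

namespace Cc

variable (t : Cc p r ρ U H)
include t

/-- the graph of an additive function -/
def gr (f : P → k) (hf : ∀ u ∈ U, ∀ v ∈ U, f (u * v) = f u + f v) : AddSubgroup (k × k) where
  carrier := {x | ∃ u ∈ U, x = (X ρ u, f u)}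
  add_mem' := by
    rintro _ _ ⟨u, hu, rfl⟩ ⟨v, hv, rfl⟩
    exact ⟨u * v, mul_mem hu hv, by rw [(t.ad hu hv).1, hf u hu v hv]; rfl⟩
  zero_mem' := ⟨1, one_mem _, by
    have := hf 1 (one_mem _) 1 (one_mem _)
    rw [mul_one] at this
    rw [X_one, show f 1 = 0 by linear_combination -this]; rfl⟩
  neg_mem' := by
    rintro _ ⟨u, hu, rfl⟩
    have h1 := hf 1 (one_mem _) 1 (one_mem _)
    have h2 := hf u hu _ (inv_mem hu)
    rw [mul_one] at h1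
    rw [mul_inv_cancel] at h2
    exact ⟨u⁻¹, inv_mem hu, by
      rw [(t.ng hu).1, show f u⁻¹ = -f u by linear_combination -h2 - h1]; rfl⟩

theorem gr_inj {f : P → k} (hf : ∀ u ∈ U, ∀ v ∈ U, f (u * v) = f u + f v) :
    ∀ b, (0, b) ∈ t.gr f hf → b = 0 := by
  rintro b ⟨u, hu, e⟩
  obtain ⟨e1, rfl⟩ := Prod.mk.inj e
  have := hf 1 (one_mem _) 1 (one_mem _)
  rw [mul_one] at this
  rw [t.X_eq hu e1.symm]
  linear_combination -this

theorem gr_card {f : P → k} (hf : ∀ u ∈ U, ∀ v ∈ U, f (u * v) = f u + f v) :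
    Nat.card (t.gr f hf) = p ^ r :=
  t.card ▸ (Nat.card_eq_of_bijective (fun u : U => (⟨(X ρ u, f u), u, u.2, rfl⟩ : t.gr f hf))
    ⟨fun u v e => Subtype.ext (t.X_inj u.2 v.2 (congrArg (fun z : t.gr f hf => z.1.1) e)),
      by rintro ⟨_, u, hu, rfl⟩; exact ⟨⟨u, hu⟩, rfl⟩⟩).symm

/-- the graph of the second coordinate -/
def A : AddSubgroup (k × k) := t.gr (Y ρ) fun _ hu _ hv => (t.ad hu hv).2.1

theorem A_cl {g : P} (hg : g ∈ H) {a b d c : k} (e : Di ρ g a b d c) :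
    ∀ x y, (x, y) ∈ t.A → (b / c * x, d / c * y) ∈ t.A := by
  rintro _ _ ⟨u, hu, h⟩
  obtain ⟨rfl, rfl⟩ := Prod.mk.inj h
  exact ⟨_, t.cjm hg hu, by rw [(t.cjd hg hu e).1, (t.cjd hg hu e).2.1]⟩

variable [Finite P] [hp : Fact p.Prime] [CharP k p]

omit [Finite P] in
theorem line {κ : k} (cl : ∀ x y, (x, y) ∈ t.A → (κ * x, κ * y) ∈ t.A) :
    ∃ s, 0 < s ∧ 2 * s ≤ r ∧ κ ^ p ^ s = κ := by
  obtain ⟨u, hu, v, hv, h⟩ := t.h2
  exact Rb.line_or t.A (t.gr_card _) cl (x := (X ρ u, Y ρ u)) (y := (X ρ v, Y ρ v)) ⟨u, hu, rfl⟩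
    ⟨v, hv, rfl⟩ (by rwa [mul_comm (ρ v 1 3)] at h)

omit [Finite P] in
theorem two_le : 2 ≤ r := by
  obtain ⟨s, h1, h2, -⟩ := t.line (κ := 1) (by simp)
  omega

theorem p_ne : p ≠ 2 := by
  rintro rfl
  exact t.toT2.two_ne (CharP.cast_eq_zero k 2)

theorem ev : Even (p ^ r - 1) := Nat.Odd.sub_odd (hp.out.odd_of_ne_two t.p_ne).pow odd_one

theorem hL {o : ℕ} (he : Even o) (ho : o ∣ p ^ r - 1)
    (h : ∀ g ∈ H, ∀ a b d c, Di ρ g a b d c → (b / c) ^ o = 1 ∧ (d / c) ^ o = 1) :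
    o = p ^ r - 1 ∨ 2 * o = p ^ r - 1 := by
  have h' : ∀ g ∈ H, ∀ a b d c, Di ρ g a b d c → (a * b) ^ o = 1 ∧ (a * d) ^ o = 1 :=
    fun g hg a b d c e => by rw [(e.wt he).1, (e.wt he).2]; exact h g hg a b d c e
  obtain ⟨l, hl, h1⟩ : ∃ l : k, l ≠ 0 ∧ ∀ g ∈ H, ∀ a b d c, Sw ρ g a b d c →
      (a * d / l) ^ o = 1 ∧ (a * b * l) ^ o = 1 := by
    by_cases hs : ∃ g ∈ H, ∃ a b d c, Sw ρ g a b d c
    · obtain ⟨g, hg, a, b, d, c, e⟩ := hs
      have h0 := mul_ne_zero e.ne.1 e.ne.2.2.1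
      refine ⟨a * d, h0, fun g' hg' a' b' d' c' e' => ?_⟩
      have h2 := (h' _ (mul_mem hg' hg) _ _ _ _ (e'.mul e)).1
      have h3 := (h' _ (mul_mem hg hg') _ _ _ _ (e.mul e')).1
      have h4 := (h' _ (mul_mem hg hg) _ _ _ _ (e.mul e)).1
      refine ⟨?_, by rw [← h2]; ring⟩
      have : a' * d' / (a * d) = a * a' * (b * d') / (a * a * (b * d)) := by
        have := e.ne.1
        have := e.ne.2.1
        field_simp
      rw [this, div_pow, h3, h4, div_one]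
    · exact ⟨1, one_ne_zero, fun g hg a b d c e => (hs ⟨g, hg, a, b, d, c, e⟩).elim⟩
  refine lemL t.hy t.toT2 (t₁ := ee 0) (t₂ := l • ee 1) (tv := ee 5) (s := ee 0)
    (fun e => by simpa [ee] using congrFun e 0) (fun u hu => by rw [t.sh hu, (uu_fix ..).1])
    (by simp [Bw, ee]) (by simp [Bw, ee]) (by simp [Bw, ee]) (by simp [Bw, ee]) (X ρ)
    (fun u hu v hv => (t.ad hu hv).1) (fun u hu => t.X_eq hu) (fun w => ⟨2 * w 5, fun u hu v hv => ?_⟩)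
    ho fun n hn => ?_
  · rw [t.sh (mul_mem hu hv), t.sh hu, t.sh hv, (t.ad hu hv).1, (t.ad hu hv).2.1, (t.ad hu hv).2.2]
    simp only [uu, L2_hz]
    simp [Bw, ee]
    ring
  · obtain ⟨u, hu, g, hg, rfl⟩ := t.fac n hn
    obtain ⟨a, b, d, c, e | e⟩ := t.dich hg
    · refine ⟨a * b, a * d, (h' g hg _ _ _ _ e).1, (h' g hg _ _ _ _ e).2, Or.inl ?_⟩
      simp only [L2_map, map_smul, e.act.1, e.act.2, t.sh hu, uu_fix, true_and]
      exact smul_comm _ _ _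
    · refine ⟨a * d / l, a * b * l, (h1 g hg _ _ _ _ e).1, (h1 g hg _ _ _ _ e).2, Or.inr ?_⟩
      simp only [L2_map, map_smul, e.act.1, e.act.2, t.sh hu, uu_fix, smul_smul,
        div_mul_cancel₀ _ hl, mul_comm l, and_self]

end Cc

/-- the numerical data -/
structure Nu (p r : ℕ) (ρ : P →* M4 k) (H : Subgroup P) (κ : k) (i : ℕ) : Prop where
  ex : ∃ g ∈ H, ∃ a b d c, Di ρ g a b d c ∧ b / c = κ ∧ d / c = κ ^ p ^ i
  gen : ∀ g ∈ H, ∀ a b d c, Di ρ g a b d c → ∃ m : ℕ, b / c = κ ^ m ∧ d / c = (b / c) ^ p ^ i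
  lt : i < r
  dvd : orderOf κ ∣ p ^ r - 1
  ord : Odd (orderOf κ) ∧ (2 * orderOf κ = p ^ r - 1 ∨ 4 * orderOf κ = p ^ r - 1) ∨
      Even (orderOf κ) ∧ (orderOf κ = p ^ r - 1 ∨ 2 * orderOf κ = p ^ r - 1)
  ln : i = 0 → ∃ s, 0 < s ∧ 2 * s ≤ r ∧ κ ^ p ^ s = κ

namespace Cc

variable (t : Cc p r ρ U H) [Finite P] [hp : Fact p.Prime] [CharP k p]
include t

theorem num : (∃ κ i, Nu p r ρ H κ i) ∧ ∀ u ∈ U, Z ρ u = 0 := by
  obtain ⟨g, hg, a, b, d, c, e, hm⟩ := t.gen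
  have hq : 0 < p ^ r := pow_pos hp.out.pos r
  have : Finite t.A := Nat.finite_of_card_ne_zero (by rw [A, t.gr_card]; omega)
  have k0 := div_ne_zero e.ne.2.1 e.ne.2.2.2
  have k1 : (b / c) ^ (p ^ r - 1) = 1 := by
    have := Rb.kap_of t.A (t.gr_inj _) (t.A_cl hg e) k0
    rwa [A, t.gr_card] at this
  have k2 : (b / c) ^ p ^ r = b / c := by
    rw [show p ^ r = p ^ r - 1 + 1 by omega, pow_succ, k1, one_mul]
  obtain ⟨u, hu, h0⟩ := t.toT2.exists_ne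
  obtain ⟨i, hi, hμ⟩ := Rb.galois t.A (t.gr_inj _) (t.A_cl hg e) ⟨u, hu, rfl⟩ ((t.sh' hu).2 h0).2
    t.pos k2
  obtain ⟨h1, h2⟩ := ord_of t.ev k1 fun o he ho h => t.hL he ho fun g' hg' a' b' d' c' e' => by
    obtain ⟨m, h1, h2⟩ := hm g' hg' _ _ _ _ e'
    rw [h1, h2, hμ]
    simp only [← pow_mul]
    exact ⟨by rw [mul_comm, pow_mul, h, one_pow], by rw [mul_comm, pow_mul, h, one_pow]⟩
  refine ⟨⟨b / c, i, ⟨g, hg, a, b, d, c, e, rfl, hμ⟩, fun g' hg' a' b' d' c' e' => ?_, hi, h1, h2,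
    ?_⟩, fun v hv => ?_⟩
  · obtain ⟨m, h1, h2⟩ := hm g' hg' _ _ _ _ e'
    exact ⟨m, h1, by rw [h1, h2, hμ, pow_right_comm]⟩
  · rintro rfl
    rw [pow_zero, pow_one] at hμ
    exact t.line (by simpa only [hμ] using t.A_cl hg e)
  · by_contra hz
    obtain ⟨l, hl, h3⟩ := Rb.galois (t.gr (Z ρ) fun _ hu _ hv => (t.ad hu hv).2.2) (κ := b / c)
      (μ := b / c * (d / c)) (t.gr_inj _) (by
        rintro _ _ ⟨u, hu, h⟩
        obtain ⟨rfl, rfl⟩ := Prod.mk.inj h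
        exact ⟨_, t.cjm hg hu, by rw [(t.cjd hg hu e).1, (t.cjd hg hu e).2.2]⟩) ⟨v, hv, rfl⟩ hz t.pos k2
    rw [hμ, ← pow_succ', add_comm] at h3
    refine ar_zeta hp.out t.p_ne t.two_le hi hl ?_ h2
    have h4 : orderOf (Units.mk0 _ k0) = orderOf (b / c) := (orderOf_units).symm
    rw [← h4, ← pow_eq_pow_iff_modEq]
    exact Units.ext (by simpa using h3)

end Cc

end Cfsg.Agent.L4.C
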