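import Cfsg.Agent.L4.C2

/-! Type II, tensor case: reduction to a Sylow subgroup of order nine. -/

set_option autoImplicit false

namespace Cfsg.Agent.L4.C

open Matrix Cfsg.Agent.L4.R Cfsg.Agent.L4.H
open Subgroup (normalizer mem_normalizer_iff)

variable {P k : Type*} [Group P] [Field k] {p r : ℕ} {ρ : P →* M4 k} {U H : Subgroup P}

theorem simil (hp : commutator P = ⊤) {T : Type*} (act : P → T → T)
    (h1 : ∀ x, act 1 x = x) (hm : ∀ g h x, act (g * h) x = act g (act h x)) (β : T → k) {x₀ : T}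
    (h0 : β x₀ ≠ 0) (h : ∀ g, ∃ c, ∀ x, β (act g x) = c * β x) (g : P) (x : T) :
    β (act g x) = β x := by
  choose c hc using h
  let χ : P →* k :=
    { toFun := c
      map_one' := mul_right_cancel₀ h0 (by rw [← hc, h1, one_mul])
      map_mul' := fun a b => mul_right_cancel₀ h0 (by rw [← hc, hm, hc, hc, mul_assoc]) }
  have := Abelianization.commutator_subset_ker χ.toHomUnits (hp ▸ Subgroup.mem_top g)
  have h2 : c g = 1 := congrArg Units.val (MonoidHom.mem_ker.1 this)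
  rw [hc, h2, one_mul]

/-- the second invariant form -/
def Be (x y : Fin 6 → k) : k := x 0 * y 5 + x 5 * y 0 + x 1 * y 4 + x 4 * y 1 - x 2 * y 2 - x 3 * y 3

theorem add_Be (x y z : Fin 6 → k) : Be (x + y) z = Be x z + Be y z := by simp [Be]; ring

theorem smul_Be (c : k) (x y : Fin 6 → k) : Be (c • x) y = c * Be x y := by simp [Be]; ring

theorem Be_nd {x : Fin 6 → k} (h : ∀ y, Be x y = 0) : x = 0 := by
  have e := fun i => h (Pi.single i 1)
  have h0 := e 0; have h1 := e 1; have h2 := e 2; have h3 := e 3; have h4 := e 4; have h5 := e 5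
  simp [Be] at h0 h1 h2 h3 h4 h5
  ext i; fin_cases i <;> simp [*]

theorem Be_uu (a b : k) (x y : Fin 6 → k) : Be (L2 (uu a b 0) x) (L2 (uu a b 0) y) = Be x y := by
  simp only [uu, L2_hz]
  simp [Be]
  ring

theorem Di.be {g : P} {a b d c : k} (e : Di ρ g a b d c) (x y : Fin 6 → k) :
    Be (L2 (ρ g) x) (L2 (ρ g) y) = Be x y := by
  simp only [e.1, L2_bd]
  simp [Be]
  linear_combination (x 0 * y 5 + x 5 * y 0 + x 1 * y 4 + x 4 * y 1 - x 2 * y 2 - x 3 * y 3) *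
    e.2.2 + (a * c * (x 0 * y 5 + x 5 * y 0 + x 1 * y 4 + x 4 * y 1) -
    (b * d + a * c) * x 3 * y 3) * e.2.1

theorem Sw.be {g : P} {a b d c : k} (e : Sw ρ g a b d c) (x y : Fin 6 → k) :
    Be (L2 (ρ g) x) (L2 (ρ g) y) = -Be x y := by
  simp only [e.1, L2_bd]
  simp [Be]
  linear_combination (x 0 * y 5 + x 5 * y 0 + x 1 * y 4 + x 4 * y 1 - x 2 * y 2 - x 3 * y 3) *
    e.2.2 + (a * c * (x 0 * y 5 + x 5 * y 0 + x 1 * y 4 + x 4 * y 1) -
    (b * d + a * c) * x 3 * y 3) * e.2.1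

theorem co_eq (i : Fin 6) : ∃ w : Fin 6 → k, ∀ x, x i = Bw x w := by
  fin_cases i
  exacts [⟨ee 5, by simp [Bw, ee]⟩, ⟨-ee 4, by simp [Bw, ee]⟩, ⟨ee 3, by simp [Bw, ee]⟩,
    ⟨ee 2, by simp [Bw, ee]⟩, ⟨-ee 1, by simp [Bw, ee]⟩, ⟨ee 0, by simp [Bw, ee]⟩]

theorem dg_Be (hd : ∀ g, (ρ g).det = 1) {a b : ℕ} {φ ψ : Fin 6 → k}
    (h1 : ∀ w, Dg U (a + 1) fun g => Bw φ (L2 (ρ g) w))
    (h2 : ∀ w, Dg U (b + 1) fun g => Bw ψ (L2 (ρ g) w)) :
    Dg U (a + b + 1) fun g => Be (L2 (ρ g⁻¹) φ) (L2 (ρ g⁻¹) ψ) := by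
  have e : ∀ i j, Dg U (a + b + 1) fun g => L2 (ρ g⁻¹) φ i * L2 (ρ g⁻¹) ψ j := fun i j => by
    obtain ⟨w, hw⟩ := co_eq (k := k) i
    obtain ⟨w', hw'⟩ := co_eq (k := k) j
    exact ((h1 w).mul (h2 w')).congr fun g => by
      rw [hw (L2 _ _), hw' (L2 _ _), Bw_adj hd, Bw_adj hd]
  exact (((((e 0 5).add (e 5 0)).add (e 1 4)).add (e 4 1)).sub (e 2 2)).sub (e 3 3)

theorem L2_cancel (g : P) (x : Fin 6 → k) : L2 (ρ g⁻¹) (L2 (ρ g) x) = x := by
  rw [← L2_map, inv_mul_cancel, map_one, L2_one]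

theorem L2_cancel' (g : P) (x : Fin 6 → k) : L2 (ρ g) (L2 (ρ g⁻¹) x) = x := by
  rw [← L2_map, mul_inv_cancel, map_one, L2_one]

theorem exists_mid (A : (Fin 6 → k) →ₗ[k] (Fin 6 → k)) :
    ∃ x : Fin 6 → k, x ≠ 0 ∧ x 4 = 0 ∧ x 5 = 0 ∧ A x 4 = 0 ∧ A x 5 = 0 := by
  let f : (Fin 6 → k) →ₗ[k] (Fin 4 → k) := LinearMap.pi
    ![LinearMap.proj 4, LinearMap.proj 5, LinearMap.proj 4 ∘ₗ A, LinearMap.proj 5 ∘ₗ A]
  obtain ⟨x, hx, h0⟩ := Submodule.exists_mem_ne_zero_of_ne_bot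
    (LinearMap.ker_ne_bot_of_finrank_lt (f := f) (by simp))
  exact ⟨x, h0, congrFun hx 0, congrFun hx 1, congrFun hx 2, congrFun hx 3⟩

namespace Cc

variable (t : Cc p r ρ U H) [Finite P] [hp : Fact p.Prime] [CharP k p]
include t

theorem four_le : 4 ≤ r * (p - 1) := by
  have h1 := t.two_le
  have h2 := hp.out.two_le
  have h3 := t.p_ne
  exact Nat.mul_le_mul h1 (show 2 ≤ p - 1 by omega)

theorem be_norm {n : P} (hn : n ∈ normalizer (U : Set P)) : (∀ x y,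
    Be (L2 (ρ n) x) (L2 (ρ n) y) = Be x y) ∨ (∀ x y, Be (L2 (ρ n) x) (L2 (ρ n) y) = -Be x y) ∧
      ∃ g ∈ H, ∃ a b d c, Sw ρ g a b d c := by
  obtain ⟨u, hu, g, hg, rfl⟩ := t.fac n hn
  obtain ⟨a, b, d, c, e | e⟩ := t.dich hg
  · exact Or.inl fun x y => by rw [L2_map, L2_map, t.sh hu, t.num.2 u hu, Be_uu, e.be]
  · exact Or.inr ⟨fun x y => by rw [L2_map, L2_map, t.sh hu, t.num.2 u hu, Be_uu, e.be],
      g, hg, a, b, d, c, e⟩

theorem no_form (Θ : (Fin 6 → k) → (Fin 6 → k) → k) (ha : ∀ x y z, Θ (x + y) z = Θ x z + Θ y z)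
    (hs : ∀ (c : k) x y, Θ (c • x) y = c * Θ x y)
    (hg : ∀ g x y, Θ (L2 (ρ g) x) (L2 (ρ g) y) = Θ x y)
    (h0 : ∀ y, Θ (ee 0) y = Be (ee 0) y) (h1 : ∀ y, Θ (ee 1) y = Be (ee 1) y) : False := by
  have := van_of_irr t.hy (fun x y => Θ x y - Bw x y) (fun x y z => by rw [ha, add_Bw]; ring)
    (fun c x y e => by rw [hs, smul_Bw, ← mul_sub, e, mul_zero])
    (fun g x y => ⟨L2 (ρ g⁻¹) y, by
      rw [← hg g x, L2_cancel', ← one_mul (Bw x _), ← t.hy.det g, ← Bw_L2, L2_cancel']⟩)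
    (s := ee 0) (fun e => by simpa [ee] using congrFun e 0) (fun y => by rw [h0]; simp [Be, Bw, ee])
    (ee 1) (ee 4)
  rw [h1] at this
  simp [Be, Bw, ee] at this
  exact t.toT2.two_ne (by linear_combination this)

theorem exists_sw : ∃ g ∈ H, ∃ a b d c, Sw ρ g a b d c := by
  by_contra hs
  let f : (Fin 6 → k) → (Fin 6 → k) → P → k := fun x y g => Be (L2 (ρ g⁻¹) x) (L2 (ρ g⁻¹) y)
  have hf : ∀ x y g, ∀ n ∈ normalizer (U : Set P), f x y (g * n) = f x y g := fun x y g n hn => by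
    simp only [f, _root_.mul_inv_rev, L2_map]
    exact ((t.be_norm (inv_mem hn)).resolve_right fun h => hs h.2) _ _
  have key : ∀ x, (∀ u ∈ U, L2 (ρ u) x = x) → ∀ y, tr (normalizer (U : Set P)) (f x y) = Be x y :=
    fun x hx y => by
      rw [t.toT2.tt' (hf x y) (n := 0 + 2 + 1) (by have := t.four_le; omega)
        (dg_Be t.hy.det (dgW1 t.hy.det hx) (t.toT2.dgW t.hy.det y))]
      simp [f, L2_one]
  refine t.no_form (fun x y => tr _ (f x y)) (fun x y z => ?_) (fun c x y => ?_) (fun g x y => ?_)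
    (key _ fun u hu => by rw [t.sh hu, (uu_fix ..).1])
    (key _ fun u hu => by rw [t.sh hu, (uu_fix ..).2])
  · rw [← tr_add]
    simp only [f, map_add, add_Be]
  · rw [← tr_mul]
    simp only [f, map_smul, smul_Be]
  · rw [← tr_left (hf x y) g⁻¹]
    simp only [f, _root_.mul_inv_rev, inv_inv, L2_map]

theorem lt_eight : r * (p - 1) < 8 := by
  by_contra h8
  let f : (Fin 6 → k) → (Fin 6 → k) → (Fin 6 → k) → (Fin 6 → k) → P → k := fun x y z w g =>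
    Be (L2 (ρ g⁻¹) x) (L2 (ρ g⁻¹) y) * Be (L2 (ρ g⁻¹) z) (L2 (ρ g⁻¹) w)
  have hf : ∀ x y z w g, ∀ n ∈ normalizer (U : Set P), f x y z w (g * n) = f x y z w g :=
    fun x y z w g n hn => by
      simp only [f, _root_.mul_inv_rev, L2_map]
      rcases t.be_norm (inv_mem hn) with h | ⟨h, -⟩ <;> simp only [h, neg_mul_neg]
  have key : ∀ x : Fin 6 → k, x 4 = 0 → x 5 = 0 → ∀ y z w,
      tr (normalizer (U : Set P)) (f x y z w) = Be x y * Be z w := fun x h4 h5 y z w => by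
    rw [t.toT2.tt' (hf x y z w) (n := 1 + 2 + (2 + 2) + 1) (by omega)
      ((dg_Be t.hy.det (t.toT2.dgW2 t.hy.det h4 h5) (t.toT2.dgW t.hy.det y)).mul
        (dg_Be t.hy.det (t.toT2.dgW t.hy.det z) (t.toT2.dgW t.hy.det w)))]
    simp [f, L2_one]
  refine t.no_form Be add_Be smul_Be (fun g x y => ?_) (fun _ => rfl) fun _ => rfl
  refine simil t.hy.perf (fun g (x : (Fin 6 → k) × (Fin 6 → k)) => (L2 (ρ g) x.1, L2 (ρ g) x.2))
    (by simp [L2_one]) (by simp only [L2_map, implies_true]) (fun x => Be x.1 x.2)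
    (x₀ := (ee 0, ee 5)) (by simp [Be, ee]) (fun g => ?_) g (x, y)
  obtain ⟨x, h0, h1, h2, h3, h4⟩ := exists_mid (L2 (ρ g))
  have h5 : L2 (ρ g) x ≠ 0 := fun e => h0 (by rw [← L2_cancel (ρ := ρ) g x, e, map_zero])
  obtain ⟨y, hy⟩ := not_forall.1 (mt Be_nd h5)
  refine ⟨Be x (L2 (ρ g⁻¹) y) / Be (L2 (ρ g) x) y, fun z => ?_⟩
  have e1 := key _ h3 h4 y (L2 (ρ g) z.1) (L2 (ρ g) z.2)
  have e2 := key _ h1 h2 (L2 (ρ g⁻¹) y) z.1 z.2
  rw [← tr_left (hf _ _ _ _) g] at e1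
  simp only [f, _root_.mul_inv_rev, L2_map, L2_cancel] at e1 e2
  field_simp
  linear_combination e2 - e1

theorem sw_rel {κ : k} {i : ℕ} (n : Nu p r ρ H κ i) : κ ^ (p ^ i * p ^ i) = κ := by
  obtain ⟨s, hs, a', b', d', c', e'⟩ := t.exists_sw
  obtain ⟨g, hg, a, b, d, c, e, h1, h2⟩ := n.ex
  obtain ⟨a'', b'', d'', c'', e'' | e''⟩ := t.dich (inv_mem hs)
  · have := e'.mul_di e''
    rw [mul_inv_cancel] at this
    exact (Di.one.not_sw this).elim
  have e1 := e'.mul e''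
  rw [mul_inv_cancel] at e1
  obtain ⟨-, h3, h4, h5⟩ := e1.eq Di.one
  obtain ⟨-, -, h6⟩ := n.gen _ (mul_mem (mul_mem hs hg) (inv_mem hs)) _ _ _ _ ((e'.mul_di e).mul e'')
  rw [mul_right_comm, h4, mul_right_comm, h5, mul_right_comm, h3, one_mul, one_mul, one_mul, h1, h2,
    ← pow_mul] at h6
  exact h6.symm

theorem nine : p = 3 ∧ r = 2 := by
  have h1 := t.two_le
  have h2 := hp.out.two_le
  have h3 := t.p_ne
  have h4 := t.lt_eight
  have h5 : p = 3 := by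
    by_contra h
    have h6 := Nat.odd_iff.1 (hp.out.odd_of_ne_two h3)
    have := Nat.mul_le_mul h1 (show 4 ≤ p - 1 by omega)
    omega
  subst h5
  refine ⟨rfl, by_contra fun h => ?_⟩
  obtain rfl : r = 3 := by omega
  obtain ⟨κ, i, n⟩ := t.num.1
  have h7 := n.ord
  have h8 : 13 ∣ orderOf κ := by omega
  have k0 : κ ≠ 0 := by
    rintro rfl
    have := pow_orderOf_eq_one (0 : k)
    rw [zero_pow (by omega)] at this
    exact zero_ne_one this
  have h9 : ∀ m, κ ^ (m + 1) = κ → 13 ∣ m := fun m e =>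
    h8.trans (orderOf_dvd_of_pow_eq_one (mul_right_cancel₀ k0 (by rw [← pow_succ, e, one_mul])))
  have h10 := t.sw_rel n
  have h11 := n.lt
  interval_cases i
  · obtain ⟨s, s1, s2, s3⟩ := n.ln rfl
    obtain rfl : s = 1 := by omega
    exact absurd (h9 2 s3) (by norm_num)
  · exact absurd (h9 8 h10) (by norm_num)
  · exact absurd (h9 80 h10) (by norm_num)

end Cc

end Cfsg.Agent.L4.C
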