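import Cfsg.Agent.L4.C3
import Cfsg.Agent.H5.GF

/-! Type II, tensor case: the normal form over the field with nine elements. -/

set_option autoImplicit false

namespace Cfsg.Agent.L4.C

open Matrix Cfsg.Agent.L4.R Cfsg.Agent.L4.H Cfsg.Agent.H5.SU
open Subgroup (normalizer mem_normalizer_iff)

variable {P k : Type*} [Group P] [Field k] {p r : ℕ} {ρ : P →* M4 k} {U H : Subgroup P}

/-- change of basis -/
def cjh (ρ : P →* M4 k) {B B' : M4 k} (h : B * B' = 1) : P →* M4 k where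
  toFun g := B' * ρ g * B
  map_one' := by rw [map_one, mul_one, mul_eq_one_comm.1 h]
  map_mul' a b := by
    rw [map_mul]
    calc B' * (ρ a * ρ b) * B = B' * ρ a * (B * B') * ρ b * B := by simp only [h, mul_one, mul_assoc]
      _ = _ := by simp only [mul_assoc]

theorem cjh_apply {B B' : M4 k} (h : B * B' = 1) (g : P) : cjh ρ h g = B' * ρ g * B := rfl

theorem cjh_mul {B B' : M4 k} (h : B * B' = 1) (g : P) : B' * ρ g = cjh ρ h g * B' := by
  rw [cjh_apply, mul_assoc, h, mul_one]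

theorem irr_of {V : Type*} [AddCommGroup V] [Module k V] {f f' : P → V →ₗ[k] V} {A A' : V →ₗ[k] V}
    (h1 : ∀ x, A' (A x) = x) (h2 : ∀ g x, A' (f g x) = f' g (A' x))
    (h : ∀ X : Submodule k V, (∀ g, ∀ x ∈ X, f g x ∈ X) → X = ⊥ ∨ X = ⊤) (X : Submodule k V)
    (hX : ∀ g, ∀ x ∈ X, f' g x ∈ X) : X = ⊥ ∨ X = ⊤ := by
  rcases h (X.comap A') (fun g x hx => by
    rw [Submodule.mem_comap] at hx ⊢
    rw [h2]
    exact hX g _ hx) with e | e
  · refine Or.inl (eq_bot_iff.2 fun x hx => ?_)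
    have h3 : A x ∈ X.comap A' := by rwa [Submodule.mem_comap, h1]
    rw [e, Submodule.mem_bot] at h3
    rw [Submodule.mem_bot, ← h1 x, h3, map_zero]
  · refine Or.inr (eq_top_iff.2 fun x _ => ?_)
    have h3 : A x ∈ X.comap A' := e ▸ Submodule.mem_top
    rwa [Submodule.mem_comap, h1] at h3

theorem hy_cjh (hy : Hy ρ) {B B' : M4 k} (h : B * B' = 1) : Hy (cjh ρ h) where
  inj a b e := hy.inj (cancel_left (det_of_mul h).2 (by rw [cjh_mul h, cjh_mul h, e]))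
  det g := by
    rw [cjh_apply, det_mul, det_mul, hy.det, mul_one, mul_comm, ← det_mul, h, det_one]
  perf := hy.perf
  simp := hy.simp
  irrV := irr_of (f := fun g => (ρ g).mulVecLin) (f' := fun g => (cjh ρ h g).mulVecLin)
    (A := B.mulVecLin) (A' := B'.mulVecLin)
    (fun x => by simp only [mulVecLin_apply, mulVec_mulVec, mul_eq_one_comm.1 h, one_mulVec])
    (fun g x => by simp only [mulVecLin_apply, mulVec_mulVec, cjh_mul h]) hy.irrV
  irrW := irr_of (f := fun g => L2 (ρ g)) (f' := fun g => L2 (cjh ρ h g)) (A := L2 B) (A' := L2 B')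
    (fun x => by rw [← L2_mul, mul_eq_one_comm.1 h, L2_one])
    (fun g x => by rw [← L2_mul, ← L2_mul, cjh_mul h]) hy.irrW

theorem dg_inv {x y : k} (hx : x ≠ 0) (hy : y ≠ 0) :
    diagonal ![x * y, x, y, 1] * diagonal ![(x * y)⁻¹, x⁻¹, y⁻¹, 1] = 1 := by
  rw [diagonal_mul_diagonal, ← diagonal_one]
  congr 1
  ext i
  fin_cases i <;> simp [hx, hy]
  field_simp

theorem cjh_dg {x y : k} (hx : x ≠ 0) (hy : y ≠ 0) (g : P) (i j : Fin 4) :
    cjh ρ (dg_inv hx hy) g i j = ![(x * y)⁻¹, x⁻¹, y⁻¹, 1] i * ρ g i j * ![x * y, x, y, 1] j := by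
  rw [cjh_apply, mul_diagonal, diagonal_mul]

theorem Cc.cjh (t : Cc p r ρ U H) {x y : k} (hx : x ≠ 0) (hy : y ≠ 0) :
    Cc p r (cjh ρ (dg_inv hx hy)) U H where
  card := t.card
  pos := t.pos
  syl := t.syl
  comm := t.comm
  exp := t.exp
  ti := t.ti
  cop := t.cop
  le := t.le
  fac := t.fac
  hy := hy_cjh t.hy _
  shape u hu := by
    obtain ⟨f₁, f₂, v₁, v₂, z, e, e'⟩ := t.shape u hu
    refine ⟨f₁ / y, f₂ / x, v₁ / x, v₂ / y, z / (x * y), ?_, fun h h0 => e' h ?_⟩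
    · simp only [eq16, cjh_dg hx hy, e, hz]
      simp
      refine ⟨?_, ?_, ?_, ?_, ?_, ?_, ?_, ?_⟩ <;> field_simp
    · field_simp at h0
      linear_combination h0
  blk g hg := by
    obtain ⟨a, b₁, b₂, b₃, b₄, c, e⟩ := t.blk g hg
    refine ⟨a, b₁, x⁻¹ * b₂ * y, y⁻¹ * b₃ * x, b₄, c, ?_⟩
    simp only [eq16, cjh_dg hx hy, e, bd]
    simp
    refine ⟨?_, ?_, ?_⟩ <;> field_simp
  stab g := by
    simp only [cjh_dg hx hy]
    simpa [hx, hy] using t.stab g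
  h1 u hu := by
    simp only [cjh_dg hx hy, t.h1 u hu]
    simp
    constructor <;> field_simp
  h2 := by
    obtain ⟨u, hu, v, hv, h⟩ := t.h2
    refine ⟨u, hu, v, hv, fun e => h ?_⟩
    simp only [cjh_dg hx hy] at e
    simp at e
    field_simp at e
    linear_combination e

theorem exists_emb [IsAlgClosed k] [CharP k 3] :
    ∃ ι : K9 →+* k, ∀ x, x ^ 9 = x → ∃ a, ι a = x := by
  have h9 : Fintype.card K9 = 3 ^ 2 := by decide +kernel
  have : Fact (Nat.Prime 3) := ⟨Nat.prime_three⟩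
  have : CharP K9 3 := (CharP.charP_iff_prime_eq_zero Nat.prime_three).2 (by decide +kernel)
  let _ := ZMod.algebra K9 3
  let _ := ZMod.algebra k 3
  have : Algebra.IsAlgebraic (ZMod 3) K9 := inferInstance
  let ι : K9 →ₐ[ZMod 3] k := IsAlgClosed.lift
  refine ⟨ι, fun x hx => ?_⟩
  have h1 := Polynomial.prod_multiset_X_sub_C_of_monic_of_roots_card_eq
    (p := (Polynomial.X ^ Fintype.card K9 - Polynomial.X : Polynomial K9))
    (Polynomial.monic_X_pow_sub (by rw [h9, Polynomial.degree_X]; norm_num))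
    (by rw [FiniteField.roots_X_pow_card_sub_X,
      FiniteField.X_pow_card_sub_X_natDegree_eq _ Fintype.one_lt_card]; rfl)
  rw [FiniteField.roots_X_pow_card_sub_X, h9] at h1
  have h2 := congrArg (Polynomial.eval₂RingHom (ι : K9 →+* k) x) h1
  rw [map_multiset_prod, Multiset.map_map] at h2
  simp only [Function.comp_def, Polynomial.coe_eval₂RingHom, Polynomial.eval₂_sub,
    Polynomial.eval₂_X, Polynomial.eval₂_C, Polynomial.eval₂_X_pow] at h2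
  rw [show 3 ^ 2 = 9 by norm_num, hx, sub_self, Multiset.prod_eq_zero_iff, Multiset.mem_map] at h2
  obtain ⟨a, -, ha⟩ := h2
  exact ⟨a, (sub_eq_zero.1 ha).symm⟩

/-- the unipotent matrices -/
def Um {k : Type*} [Field k] (x : k) : M4 k := !![1, x ^ 3, x, x ^ 4; 0, 1, 0, x; 0, 0, 1, x ^ 3; 0, 0, 0, 1]
/-- the diagonal matrices -/
def Dm {k : Type*} [Field k] (x : k) : M4 k := !![x ^ 4, 0, 0, 0; 0, x, 0, 0; 0, 0, x ^ 3, 0; 0, 0, 0, 1]
/-- the swapping matrices -/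
def Sm {k : Type*} [Field k] (x : k) : M4 k := !![x ^ 4, 0, 0, 0; 0, 0, x, 0; 0, x ^ 3, 0, 0; 0, 0, 0, 1]

/-- the normal form -/
structure N9 (ρ : P →* M4 k) (U H : Subgroup P) : Prop extends Cc 3 2 ρ U H where
  hU : ∀ u ∈ U, ∃ x : k, x ^ 9 = x ∧ ρ u = Um x
  hU' : ∀ x : k, x ^ 9 = x → ∃ u ∈ U, ρ u = Um x
  hH : ∀ g ∈ H, ∃ c x : k, x ^ 8 = 1 ∧ (c ^ 4 = 1 ∧ ρ g = c • Dm x ∨ c ^ 4 = -1 ∧ ρ g = c • Sm x)
  hD : ∃ g ∈ H, ∃ c x : k, x ^ 8 = 1 ∧ x ^ 2 ≠ 1 ∧ c ^ 4 = 1 ∧ ρ g = c • Dm x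
  hS : ∃ g ∈ H, ∃ c x : k, x ^ 8 = 1 ∧ c ^ 4 = -1 ∧ ρ g = c • Sm x

theorem span9 : ∀ x a : K9, x * x ≠ 1 → x ≠ 0 → a = 0 ∨ a = 1 ∨ a = 1 + 1 ∨ a = x ∨ a = x + 1 ∨
    a = x + 1 + 1 ∨ a = x + x ∨ a = x + x + 1 ∨ a = x + x + 1 + 1 := by decide +kernel

theorem n9_of [IsAlgClosed k] [Finite P] [CharP k 3] (t : Cc 3 2 ρ U H) {u₀ : P} (hu₀ : u₀ ∈ U)
    (hx : X ρ u₀ = 1) (hy : Y ρ u₀ = 1) : N9 ρ U H := by
  have : Fact (Nat.Prime 3) := ⟨Nat.prime_three⟩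
  obtain ⟨⟨κ, i, n⟩, hz⟩ := t.num
  obtain ⟨ι, hι⟩ := exists_emb (k := k)
  have h1 := n.ord
  have k8 : κ ^ 8 = 1 := orderOf_dvd_iff_pow_eq_one.1 n.dvd
  have k0 : κ ≠ 0 := by rintro rfl; simp at k8
  have k2 : κ ^ 2 ≠ 1 := fun e => by
    have := Nat.le_of_dvd two_pos (orderOf_dvd_of_pow_eq_one e)
    rw [Nat.odd_iff] at h1
    omega
  obtain rfl : i = 1 := by
    have := n.lt
    by_contra h
    obtain ⟨s, s1, s2, s3⟩ := n.ln (by omega)
    obtain rfl : s = 1 := by omega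
    exact k2 (mul_right_cancel₀ k0 (by linear_combination s3))
  obtain ⟨g, hg, a, b, d, c, e, h2, h3⟩ := n.ex
  obtain ⟨κ₀, rfl⟩ := hι κ (by linear_combination κ * k8)
  have a1 : ((1 : k), (1 : k)) ∈ t.A := ⟨u₀, hu₀, by rw [hx, hy]⟩
  have a2 := t.A_cl hg e _ _ a1
  rw [h2, h3, mul_one, mul_one, pow_one] at a2
  let S : AddSubmonoid K9 :=
    { carrier := {a | (ι a, ι a ^ 3) ∈ t.A}
      add_mem' := fun {a b} ha hb => by
        have := t.A.add_mem ha hb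
        rwa [Prod.mk_add_mk, ← add_pow_char, ← map_add] at this
      zero_mem' := show (ι 0, ι 0 ^ 3) ∈ t.A by
        rw [map_zero, zero_pow three_ne_zero]; exact t.A.zero_mem }
  have s1 : 1 ∈ S := by simpa [S] using a1
  have s2 : κ₀ ∈ S := a2
  have s3 : ∀ a, (ι a, ι a ^ 3) ∈ t.A := fun a => show a ∈ S by
    rcases span9 κ₀ a (fun e => k2 (by rw [pow_two, ← map_mul, e, map_one]))
      (fun e => k0 (by rw [e, map_zero])) with h | h | h | h | h | h | h | h | h <;> rw [h]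
    exacts [zero_mem _, s1, add_mem s1 s1, s2, add_mem s2 s1, add_mem (add_mem s2 s1) s1,
      add_mem s2 s2, add_mem (add_mem s2 s2) s1, add_mem (add_mem (add_mem s2 s2) s1) s1]
  have c9 : Nat.card t.A = 9 := t.gr_card _
  have : Finite t.A := Nat.finite_of_card_ne_zero (by omega)
  have s4 : Function.Bijective fun a : K9 => (⟨_, s3 a⟩ : t.A) :=
    (Nat.bijective_iff_injective_and_card _).2 ⟨fun a b e =>
      ι.injective (congrArg (fun z : t.A => z.1.1) e), by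
        rw [c9, Nat.card_eq_fintype_card]; decide +kernel⟩
  have s5 : ∀ u ∈ U, X ρ u ^ 9 = X ρ u ∧ Y ρ u = X ρ u ^ 3 := fun u hu => by
    obtain ⟨a, ha⟩ := s4.2 ⟨_, u, hu, rfl⟩
    obtain ⟨h4, h5⟩ : ι a = X ρ u ∧ ι a ^ 3 = Y ρ u := Prod.mk.inj (congrArg Subtype.val ha)
    rw [← h5, ← h4, ← map_pow, show ∀ a : K9, a ^ 9 = a by decide +kernel]
    exact ⟨rfl, rfl⟩
  have s6 : ∀ u ∈ U, ρ u = Um (X ρ u) := fun u hu => by
    conv_lhs => rw [t.sh hu, hz u hu, (s5 u hu).2, uu, R.hz, zero_add, ← pow_succ']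
    rfl
  have s7 : ∀ g ∈ H, ∀ a b d c, Di ρ g a b d c →
      (b / c) ^ 8 = 1 ∧ c ^ 4 = 1 ∧ ρ g = c • Dm (b / c) := fun g hg a b d c e => by
    obtain ⟨m, h4, h5⟩ := n.gen g hg a b d c e
    have h6 : (b / c) ^ 8 = 1 := by rw [h4, pow_right_comm, k8, one_pow]
    obtain ⟨e1, e2, e3⟩ := id e
    have hc := e.ne.2.2.2
    generalize hx : b / c = x at *
    obtain rfl : b = c * x := by rw [← hx]; field_simp
    obtain rfl : d = c * x ^ 3 := by rw [← pow_one 3, ← h5]; field_simp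
    obtain rfl : a = c * x ^ 4 := mul_right_cancel₀ hc (by linear_combination -e2)
    exact ⟨h6, by linear_combination e3 - c ^ 4 * h6, by rw [e1, Dm, sm4, bd]; simp⟩
  have s8 : ∀ g ∈ H, ∀ a b d c, Sw ρ g a b d c →
      (b / c) ^ 8 = 1 ∧ c ^ 4 = -1 ∧ ρ g = c • Sm (b / c) := fun g hg a b d c e => by
    obtain ⟨h4, h5⟩ := t.cjs hg hu₀ e
    obtain ⟨h6, h7⟩ := s5 _ (t.cjm hg hu₀)
    rw [hy, mul_one] at h4
    rw [hx, mul_one, h7, h4] at h5
    rw [h4] at h6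
    obtain ⟨e1, e2, e3⟩ := id e
    have hc := e.ne.2.2.2
    have h8 : (b / c) ^ 8 = 1 :=
      mul_right_cancel₀ (div_ne_zero e.ne.2.1 hc) (by linear_combination h6)
    generalize hx : b / c = x at *
    obtain rfl : b = c * x := by rw [← hx]; field_simp
    obtain rfl : d = c * x ^ 3 := by rw [h5]; field_simp
    obtain rfl : a = c * x ^ 4 := mul_right_cancel₀ hc (by linear_combination -e2)
    exact ⟨h8, by linear_combination e3 - c ^ 4 * h8, by rw [e1, Sm, sm4, bd]; simp⟩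
  refine ⟨t, fun u hu => ⟨_, (s5 u hu).1, s6 u hu⟩, fun x h => ?_, fun g hg => ?_, ?_, ?_⟩
  · obtain ⟨a, rfl⟩ := hι x h
    obtain ⟨u, hu, h⟩ := s3 a
    exact ⟨u, hu, by rw [s6 u hu, ← (Prod.mk.inj h).1]⟩
  · obtain ⟨a, b, d, c, e | e⟩ := t.dich hg
    · exact ⟨c, _, (s7 g hg _ _ _ _ e).1, Or.inl (s7 g hg _ _ _ _ e).2⟩
    · exact ⟨c, _, (s8 g hg _ _ _ _ e).1, Or.inr (s8 g hg _ _ _ _ e).2⟩
  · exact ⟨g, hg, c, _, k8, k2, h2 ▸ (s7 g hg _ _ _ _ e).2⟩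
  · obtain ⟨g, hg, a, b, d, c, e⟩ := t.exists_sw
    exact ⟨g, hg, c, _, s8 g hg _ _ _ _ e⟩

theorem Cc.n9 [IsAlgClosed k] [Finite P] [Fact p.Prime] [CharP k p] (t : Cc p r ρ U H) :
    p = 3 ∧ ∃ (B B' : M4 k) (h : B * B' = 1), N9 (C.cjh ρ h) U H := by
  obtain ⟨rfl, rfl⟩ := t.nine
  obtain ⟨u, hu, h0⟩ := t.toT2.exists_ne
  obtain ⟨hx, hy⟩ := (t.sh' hu).2 h0
  refine ⟨rfl, _, _, dg_inv hx hy, n9_of (t.cjh hx hy) hu ?_ ?_⟩
  · rw [X, cjh_dg hx hy]; simpa [X] using inv_mul_cancel₀ hx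
  · rw [Y, cjh_dg hx hy]; simpa [Y] using inv_mul_cancel₀ hy

end Cfsg.Agent.L4.C
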