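import Cfsg.Agent.L4.C4

/-! Type II, tensor case: the invariant hermitian form. -/

set_option autoImplicit false

namespace Cfsg.Agent.L4.C

open Matrix Cfsg.Agent.L4.R Cfsg.Agent.L4.H Cfsg.Agent.H1.Spin6
open Subgroup (normalizer mem_normalizer_iff)

variable {P k : Type*} [Group P] [Field k] {ρ : P →* M4 k} {U H : Subgroup P}

section
variable {ι : Type*} [Fintype ι] [DecidableEq ι]

/-- the action on sesquilinear forms -/
def ac (φ : k →+* k) (A M : Matrix ι ι k) : Matrix ι ι k := A * M * (A.map φ)ᵀ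

theorem ac_mul (φ : k →+* k) (A B M : Matrix ι ι k) : ac φ (A * B) M = ac φ A (ac φ B M) := by
  simp only [ac, Matrix.map_mul, transpose_mul, mul_assoc]

theorem ac_one (φ : k →+* k) (M : Matrix ι ι k) : ac φ 1 M = M := by simp [ac]

theorem ac_smul (φ : k →+* k) (A M : Matrix ι ι k) (c : k) : ac φ A (c • M) = c • ac φ A M := by
  simp [ac]

theorem smul_ac (φ : k →+* k) (A M : Matrix ι ι k) (c : k) :
    ac φ (c • A) M = (c * φ c) • ac φ A M := by
  rw [ac, Matrix.map_smul' φ c A (map_mul φ), transpose_smul, smul_mul_assoc, smul_mul_assoc, mul_smul_comm, smul_smul, ac]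

omit [DecidableEq ι] in
theorem ac_apply (φ : k →+* k) (A M : Matrix ι ι k) (i m : ι) :
    ac φ A M i m = ∑ l, ∑ j, A i j * φ (A m l) * M j l := by
  simp only [ac, mul_apply, Finset.sum_mul, transpose_apply, map_apply, mul_right_comm]

theorem simil_mat (hp : commutator P = ⊤) (π : P →* Matrix ι ι k) (φ : k →+* k) {M : Matrix ι ι k}
    {i j : ι} (h0 : M i j ≠ 0) (h : ∀ g, ∃ c : k, ac φ (π g) M = c • M) (g : P) :
    ac φ (π g) M = M := by
  ext a b
  simpa [ac_one] using simil hp (fun g (x : P × ι × ι) => (g * x.1, x.2)) (by simp)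
    (by simp [mul_assoc]) (fun x => ac φ (π x.1) M x.2.1 x.2.2) (x₀ := (1, i, j))
    (by simpa [ac_one] using h0) (fun g => by
      obtain ⟨c, hc⟩ := h g
      refine ⟨c, fun x => ?_⟩
      obtain ⟨d, hd⟩ := h x.1
      simp only [map_mul, ac_mul, hd, ac_smul, hc, Matrix.smul_apply, smul_eq_mul, mul_left_comm]) g (1, a, b)

theorem tr_sum [Finite P] (N : Subgroup P) {α : Type*} (s : Finset α) (f : α → P → k) :
    tr N (fun g => ∑ i ∈ s, f i g) = ∑ i ∈ s, tr N (f i) := by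
  classical
  induction s using Finset.induction_on with
  | empty => simp [tr]
  | insert a s h ih => simp only [Finset.sum_insert h, tr_add, ih]

theorem tr_ac [Finite P] (π : P →* Matrix ι ι k) (φ : k →+* k) {N : Subgroup P} {M : Matrix ι ι k}
    (h : ∀ n ∈ N, ac φ (π n) M = M) (a : P) :
    ac φ (π a) (of fun i m => tr N fun g => ac φ (π g) M i m) =
      of fun i m => tr N fun g => ac φ (π g) M i m := by
  ext i m
  rw [of_apply, ← tr_left (fun g n hn => by rw [map_mul, ac_mul, h n hn]) a]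
  simp only [map_mul, ac_mul, ac_apply φ (π a), tr_sum, tr_mul, of_apply]

omit [DecidableEq ι] in
theorem dg_ac [CharP k 3] (π : P → Matrix ι ι k) (M : Matrix ι ι k) {i m : ι} {a b : ℕ}
    (h1 : ∀ j, Dg U (a + 1) fun g => π g i j) (h2 : ∀ j, Dg U (b + 1) fun g => π g m j) :
    Dg U (a + b + 1) fun g => ac (frobenius k 3) (π g) M i m := by
  simp only [ac_apply]
  exact Dg.sum _ _ fun l _ => Dg.sum _ _ fun j _ =>
    (((h1 j).mul ((h2 l).frob 3 1)).cmul (M j l)).congr fun g => by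
      rw [frobenius_def, pow_one, mul_comm]

end

/-- the matrix of the exterior square -/
def Lm (A : M4 k) : Matrix (Fin 6) (Fin 6) k := of fun a b =>
  A (![0, 0, 0, 1, 1, 2] a) (![0, 0, 0, 1, 1, 2] b) * A (![1, 2, 3, 2, 3, 3] a) (![1, 2, 3, 2, 3, 3] b) -
    A (![0, 0, 0, 1, 1, 2] a) (![1, 2, 3, 2, 3, 3] b) * A (![1, 2, 3, 2, 3, 3] a) (![0, 0, 0, 1, 1, 2] b)

theorem Lm_mulVec (A : M4 k) (x : Fin 6 → k) : Lm A *ᵥ x = L2 A x := by
  ext i
  fin_cases i <;> simp [Lm, L2_apply, co, ψ_def, mul_apply, Fin.sum_univ_four, Fin.sum_univ_six,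
    mulVec, vecMul, dotProduct] <;> ring

theorem Lm_mul (A B : M4 k) : Lm (A * B) = Lm A * Lm B :=
  mulVec_injective (funext fun x => by rw [← mulVec_mulVec, Lm_mulVec, Lm_mulVec, Lm_mulVec, L2_mul])

theorem Lm_one : Lm (1 : M4 k) = 1 :=
  mulVec_injective (funext fun x => by rw [Lm_mulVec, L2_one, one_mulVec])

theorem Lm_smul (c : k) (A : M4 k) : Lm (c • A) = (c * c) • Lm A :=
  mulVec_injective (funext fun x => by rw [smul_mulVec, Lm_mulVec, Lm_mulVec, L2_smul])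

theorem Lm_ac (φ : k →+* k) (A M : M4 k) : Lm (ac φ A M) = ac φ (Lm A) (Lm M) := by
  rw [ac, ac, Lm_mul, Lm_mul]
  congr 1
  ext i j
  simp only [Lm, of_apply, transpose_apply, map_apply, map_sub, map_mul]
  ring

theorem Lm_apply (A : M4 k) (i j : Fin 6) : Lm A i j = L2 A (ee j) i := by
  rw [← Lm_mulVec, ee, mulVec_single_one]; rfl

theorem scal_of_Lm {A : M4 k} (h : Lm A = 1) : ∃ c : k, A = c • 1 := by
  obtain ⟨a, b, c, d, e, f, g, i, j, l, m, n, o, q, r, s, rfl⟩ := ex16 A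
  have H := fun x y => congrFun (congrFun h x) y
  have h00 := H 0 0; have h01 := H 0 1; have h02 := H 0 2; have h03 := H 0 3; have h04 := H 0 4
  have h10 := H 1 0; have h11 := H 1 1; have h13 := H 1 3
  have h20 := H 2 0; have h22 := H 2 2; have h30 := H 3 0; have h40 := H 4 0
  have h24 := H 2 4; have h12 := H 1 2; have h21 := H 2 1; have h33 := H 3 3; have h31 := H 3 1
  have h15 := H 1 5
  simp [Lm] at h00 h01 h02 h03 h04 h10 h11 h13 h20 h22 h30 h40 h24 h12 h21 h33 h31 h15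
  obtain rfl : c = 0 := by linear_combination -c * h00 + b * h01 - a * h03
  obtain rfl : d = 0 := by linear_combination -d * h00 + b * h02 - a * h04
  obtain rfl : g = 0 := by linear_combination -g * h00 + f * h01 - e * h03
  obtain rfl : i = 0 := by linear_combination -i * h00 + f * h02 - e * h04
  obtain rfl : b = 0 := by linear_combination -b * h11 + a * h13
  obtain rfl : l = 0 := by linear_combination -l * h11 + m * h10 + j * h13
  obtain rfl : n = 0 := by linear_combination -n * h11 + m * h12 - j * h15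
  obtain rfl : j = 0 := by linear_combination -j * h00 - a * h30
  obtain rfl : e = 0 := by linear_combination -e * h11 + a * h31
  obtain rfl : q = 0 := by linear_combination -q * h00 + f * h20
  obtain rfl : o = 0 := by linear_combination -o * h00 - a * h40
  obtain rfl : r = 0 := by linear_combination -r * h00 + f * h21
  obtain rfl : m = f := by linear_combination -m * h00 + f * h11
  obtain rfl : s = m := by linear_combination -s * h00 + m * h22
  obtain rfl : a = s := by linear_combination -a * h33 + s * h00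
  exact ⟨a, by rw [one4, sm4]; simp⟩

/-- the hermitian matrix -/
def Hm {k : Type*} [Field k] : M4 k := !![0, 0, 0, 1; 0, -1, 0, 0; 0, 0, -1, 0; 1, 0, 0, 0]

variable [CharP k 3]

theorem ac_Um {x : k} (h : x ^ 9 = x) : ac (frobenius k 3) (Um x) Hm = Hm := by
  simp only [eq16, ac_apply, Fin.sum_univ_four, frobenius_def]
  simp [Um, Hm]
  refine ⟨?_, ?_, ?_⟩
  · ring
  · linear_combination h
  · linear_combination -h

theorem ac_Dm {x : k} (h : x ^ 8 = 1) : ac (frobenius k 3) (Dm x) Hm = x ^ 4 • Hm := by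
  simp only [eq16, ac_apply, Fin.sum_univ_four, frobenius_def]
  simp [Dm, Hm]
  refine ⟨?_, ?_, ?_⟩
  · ring
  · linear_combination x ^ 4 * h
  · linear_combination x ^ 4 * h

theorem ac_Sm {x : k} (h : x ^ 8 = 1) : ac (frobenius k 3) (Sm x) Hm = x ^ 4 • Hm := by
  simp only [eq16, ac_apply, Fin.sum_univ_four, frobenius_def]
  simp [Sm, Hm]
  refine ⟨?_, ?_, ?_⟩
  · ring
  · linear_combination x ^ 4 * h
  · linear_combination x ^ 4 * h

omit [CharP k 3] in
theorem Dm_Sm (x y : k) : Dm x * Sm y = Sm (x * y) := by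
  rw [Dm, Sm, Sm, mul4]; simp [mul_pow]

namespace N9

variable [Finite P] (t : N9 ρ U H)
include t

omit [Finite P] in
theorem ac_H {g : P} (hg : g ∈ H) : ∃ c x : k, x ^ 8 = 1 ∧
    (c ^ 4 = 1 ∧ ρ g = c • Dm x ∨ c ^ 4 = -1 ∧ ρ g = c • Sm x) ∧
      ac (frobenius k 3) (ρ g) Hm = (c ^ 4 * x ^ 4) • Hm := by
  obtain ⟨c, x, h1, h2⟩ := t.hH g hg
  refine ⟨c, x, h1, h2, ?_⟩
  rcases h2 with ⟨-, e⟩ | ⟨-, e⟩
  · rw [e, smul_ac, ac_Dm h1, smul_smul, frobenius_def, ← pow_succ']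
  · rw [e, smul_ac, ac_Sm h1, smul_smul, frobenius_def, ← pow_succ']

omit [Finite P] in
theorem ac_U {u : P} (hu : u ∈ U) : ac (frobenius k 3) (ρ u) Hm = Hm := by
  obtain ⟨x, h1, h2⟩ := t.hU u hu
  rw [h2, ac_Um h1]

theorem no_refl {s : P} {c x : k} (hc : c ^ 4 = -1) (hx : x ^ 4 = 1) (e : ρ s = c • Sm x) : False := by
  have : Fact (Nat.Prime 3) := ⟨Nat.prime_three⟩
  let π : P →* Matrix (Fin 6) (Fin 6) k :=
    { toFun := fun g => Lm (ρ g)
      map_one' := by rw [map_one, Lm_one]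
      map_mul' := fun a b => by rw [map_mul, Lm_mul] }
  have hN : ∀ n ∈ normalizer (U : Set P), ac (frobenius k 3) (π n) (Lm Hm) = Lm Hm := fun n hn => by
    obtain ⟨u, hu, g, hg, rfl⟩ := t.fac n hn
    obtain ⟨c, x, h1, h2, h3⟩ := t.ac_H hg
    have : c ^ 4 * x ^ 4 * (c ^ 4 * x ^ 4) = 1 := by
      rcases h2 with ⟨h2, -⟩ | ⟨h2, -⟩ <;> rw [h2] <;> linear_combination h1
    show ac _ (Lm _) _ = _
    rw [← Lm_ac, map_mul, ac_mul, h3, ac_smul, t.ac_U hu, Lm_smul, this, one_smul]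
  have hT := tr_ac π (frobenius k 3) hN
  have d3 : ∀ i j, Dg U 3 fun g => π g i j := fun i j => by
    obtain ⟨w, hw⟩ := co_eq (k := k) i
    exact (t.toT2.dgW t.hy.det w (ee j)).congr fun g => by
      rw [Bw_comm, ← hw]; exact Lm_apply ..
  have d2 : ∀ i, i ≠ 0 → i ≠ 1 → ∀ j, Dg U 2 fun g => π g i j := fun i h0 h1 j => by
    obtain ⟨w, h4, h5, hw⟩ : ∃ w : Fin 6 → k, w 4 = 0 ∧ w 5 = 0 ∧ ∀ x, x i = Bw x w := by
      fin_cases i
      exacts [absurd rfl h0, absurd rfl h1, ⟨ee 3, by simp [Bw, ee]⟩,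
        ⟨ee 2, by simp [Bw, ee]⟩, ⟨-ee 1, by simp [Bw, ee]⟩, ⟨ee 0, by simp [Bw, ee]⟩]
    exact (t.toT2.dgW2 t.hy.det h4 h5 (ee j)).congr fun g => by
      rw [Bw_comm, ← hw]; exact Lm_apply ..
  have hE : ∀ i m, (i ≠ 0 ∧ i ≠ 1) ∨ (m ≠ 0 ∧ m ≠ 1) → (tr (normalizer (U : Set P))
      fun g => ac (frobenius k 3) (π g) (Lm Hm) i m) = Lm Hm i m := fun i m h => by
    rw [t.toT2.tt' (fun g n hn => by rw [map_mul, ac_mul, hN n hn]) (n := 4) le_rfl, map_one, ac_one]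
    rcases h with h | h
    exacts [dg_ac π _ (d2 i h.1 h.2) (d3 m), dg_ac π _ (d3 i) (d2 m h.1 h.2)]
  generalize hT' : (of fun i m => tr (normalizer (U : Set P))
    fun g => ac (frobenius k 3) (π g) (Lm Hm) i m) = T at hT
  replace hE : ∀ i m, (i ≠ 0 ∧ i ≠ 1) ∨ (m ≠ 0 ∧ m ≠ 1) → T i m = Lm Hm i m := hT' ▸ hE
  obtain ⟨g, -, c', y, y8, y2, hc', e'⟩ := t.hD
  have y6 : y ^ 6 ≠ 1 := fun h => y2 (by linear_combination y8 - y ^ 2 * h)
  have r1 := congrFun (congrFun (hT g) 0) 1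
  have r2 := congrFun (congrFun (hT g) 1) 0
  have r3 := congrFun (congrFun (hT s) 0) 0
  simp only [π, MonoidHom.coe_mk, OneHom.coe_mk, e, e', ac_apply, Fin.sum_univ_six,
    frobenius_def] at r1 r2 r3
  simp [Lm, Dm, Sm] at r1 r2 r3
  have r4 : T 0 1 = 0 := (mul_eq_zero.1 (show (y ^ 2 - 1) * T 0 1 = 0 by
    linear_combination r1 - T 0 1 * y ^ 26 * (c' ^ 4 + 1) * hc' -
      T 0 1 * y ^ 2 * (y ^ 16 + y ^ 8 + 1) * y8)).resolve_left (sub_ne_zero.2 y2)
  have r5 : T 1 0 = 0 := (mul_eq_zero.1 (show (y ^ 6 - 1) * T 1 0 = 0 by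
    linear_combination r2 - T 1 0 * y ^ 22 * (c' ^ 4 + 1) * hc' -
      T 1 0 * y ^ 6 * (y ^ 8 + 1) * y8)).resolve_left (sub_ne_zero.2 y6)
  have r6 : T 1 1 = T 0 0 := by
    linear_combination r3 - T 1 1 * x ^ 20 * (c ^ 4 - 1) * hc -
      T 1 1 * (x ^ 16 + x ^ 12 + x ^ 8 + x ^ 4 + 1) * hx
  let M : M4 k := !![-T 0 0, 0, 0, 1; 0, -1, 0, 0; 0, 0, -1, 0; 1, 0, 0, 0]
  let M' : M4 k := !![0, 0, 0, 1; 0, -1, 0, 0; 0, 0, -1, 0; 1, 0, 0, T 0 0]
  have m1 : M * M' = 1 := by simp only [M, M', mul4, one4]; simp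
  have m2 : T = Lm M := by
    ext i m
    by_cases h : (i ≠ 0 ∧ i ≠ 1) ∨ (m ≠ 0 ∧ m ≠ 1)
    · rw [hE i m h]
      fin_cases i <;> fin_cases m <;> simp [Lm, M, Hm] at h ⊢
    · fin_cases i <;> fin_cases m <;> simp [Lm, M, r4, r5, r6] at h ⊢
  have m3 := simil_mat t.hy.perf ρ (frobenius k 3) (M := M) (i := 0) (j := 3) (by simp [M])
    (fun g => by
      have := hT g
      rw [m2] at this
      obtain ⟨c, hc⟩ := scal_of_Lm (A := ac (frobenius k 3) (ρ g) M * M') (by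
        rw [Lm_mul, Lm_ac, ← Lm_one, ← m1, Lm_mul]; exact congrArg (· * _) this)
      exact ⟨c, by rw [← one_mul M, ← smul_mul_assoc, ← hc, mul_assoc, mul_eq_one_comm.1 m1, mul_one,
        one_mul]⟩) s
  have m4 := congrFun (congrFun m3 0) 3
  simp only [e, ac_apply, Fin.sum_univ_four, frobenius_def] at m4
  simp [M, Sm] at m4
  exact t.toT2.two_ne (by linear_combination -m4 + x ^ 4 * hc - hx)

omit [CharP k 3] [Finite P] t in
theorem pm {x : k} (h : x ^ 8 = 1) : x ^ 4 = 1 ∨ x ^ 4 = -1 :=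
  mul_self_eq_one_iff.1 (by linear_combination h)

theorem hH' {g : P} (hg : g ∈ H) : ∃ c x : k,
    c ^ 4 = 1 ∧ x ^ 4 = 1 ∧ ρ g = c • Dm x ∨ c ^ 4 = -1 ∧ x ^ 4 = -1 ∧ ρ g = c • Sm x := by
  obtain ⟨c, x, h1, ⟨h2, e⟩ | ⟨h2, e⟩⟩ := t.hH g hg
  · refine ⟨c, x, Or.inl ⟨h2, (pm h1).resolve_right fun h3 => ?_, e⟩⟩
    obtain ⟨s, -, c', y, h4, h5, e'⟩ := t.hS
    refine t.no_refl (s := g * s) (c := c * c') (x := x * y) (by rw [mul_pow, h2, h5, one_mul]) ?_
      (by rw [map_mul, e, e', smul_mul_smul_comm, Dm_Sm])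
    rw [mul_pow, h3, (pm h4).resolve_left fun h6 => t.no_refl h5 h6 e', neg_mul_neg, one_mul]
  · exact ⟨c, x, Or.inr ⟨h2, (pm h1).resolve_left fun h6 => t.no_refl h2 h6 e, e⟩⟩

theorem herm (g : P) : ac (frobenius k 3) (ρ g) Hm = Hm := by
  have : Fact (Nat.Prime 3) := ⟨Nat.prime_three⟩
  have hN : ∀ n ∈ normalizer (U : Set P), ac (frobenius k 3) (ρ n) Hm = Hm := fun n hn => by
    obtain ⟨u, hu, g, hg, rfl⟩ := t.fac n hn
    rw [map_mul, ac_mul]
    obtain ⟨c, x, ⟨h1, h2, e⟩ | ⟨h1, h2, e⟩⟩ := t.hH' hg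
    · rw [e, smul_ac, ac_Dm (by linear_combination (x ^ 4 + 1) * h2), frobenius_def, ← pow_succ', h1,
        h2, one_smul, one_smul, t.ac_U hu]
    · rw [e, smul_ac, ac_Sm (by linear_combination (x ^ 4 - 1) * h2), frobenius_def, ← pow_succ', h1,
        h2, smul_smul, neg_mul_neg, one_mul, one_smul, t.ac_U hu]
  have hT := tr_ac ρ (frobenius k 3) hN
  have d3 : ∀ i j, Dg U 3 fun g => ρ g i j := fun i j =>
    (t.toT2.dgV (Pi.single j 1) i).congr fun g => by rw [mulVec_single_one]; rfl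
  have d2 : ∀ i, i ≠ 0 → ∀ j, Dg U 2 fun g => ρ g i j := fun i h j =>
    (t.toT2.dgV2 (Pi.single j 1) h).congr fun g => by rw [mulVec_single_one]; rfl
  have hE : ∀ i m, i ≠ 0 ∨ m ≠ 0 → (tr (normalizer (U : Set P))
      fun g => ac (frobenius k 3) (ρ g) Hm i m) = Hm i m := fun i m h => by
    rw [t.toT2.tt' (fun g n hn => by rw [map_mul, ac_mul, hN n hn]) (n := 4) le_rfl, map_one, ac_one]
    rcases h with h | h
    exacts [dg_ac ρ _ (d2 i h) (d3 m), dg_ac ρ _ (d3 i) (d2 m h)]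
  generalize hT' : (of fun i m => tr (normalizer (U : Set P))
    fun g => ac (frobenius k 3) (ρ g) Hm i m) = T at hT
  replace hE : ∀ i m, i ≠ 0 ∨ m ≠ 0 → T i m = Hm i m := hT' ▸ hE
  obtain ⟨s, -, c, x, h1, h2, e⟩ := t.hS
  have r3 := congrFun (congrFun (hT s) 0) 0
  simp only [e, ac_apply, Fin.sum_univ_four, frobenius_def] at r3
  simp [Sm] at r3
  have r4 : T 0 0 = 0 := (mul_eq_zero.1 (show 2 * T 0 0 = 0 by
    linear_combination -r3 + T 0 0 * x ^ 16 * h2 - T 0 0 * (x ^ 8 + 1) * h1)).resolve_left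
      t.toT2.two_ne
  obtain rfl : T = Hm := by
    ext i m
    by_cases h : i ≠ 0 ∨ m ≠ 0
    · exact hE i m h
    · push Not at h
      rw [h.1, h.2, r4]; rfl
  exact hT g

end N9

end Cfsg.Agent.L4.C
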