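import Cfsg.Agent.L4.C5

/-! Type II, tensor case: descent to the field with nine elements. -/

set_option autoImplicit false

namespace Cfsg.Agent.L4.C

open Matrix Cfsg.Agent.L4.R Cfsg.Agent.L4.H Cfsg.Agent.H5.SU
open Subgroup (normalizer center)

variable {P k : Type*} [Group P] [Field k] {ρ : P →* M4 k} {U H : Subgroup P}

theorem Hm_sq : (Hm : M4 k) * Hm = 1 := by rw [Hm, mul4, one4]; simp

theorem Hm_tr : (Hm : M4 k)ᵀ = Hm := by rw [Hm, tm4]

theorem Hm_map {F : Type*} [Field F] (φ : k →+* F) : (Hm : M4 k).map φ = Hm := by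
  simp [eq16, Hm]

theorem col_of {φ : k →+* k} {A : M4 k} (h : ac φ A Hm = Hm) : Aᵀ * Hm * A.map φ = Hm := by
  have h1 : A * (Hm * (A.map φ)ᵀ * Hm) = 1 := by
    rw [← mul_assoc, ← mul_assoc]; exact (congrArg (· * Hm) h).trans Hm_sq
  have h2 := congrArg (fun M => (Hm * M)ᵀ) (mul_eq_one_comm.1 h1)
  simp only [← mul_assoc, Hm_sq, one_mul, mul_one, transpose_mul, Hm_tr, transpose_transpose] at h2
  exact h2

theorem fix_of {φ : k →+* k} {A : M4 k} (h : ac φ A Hm = Hm) : (A.map φ).map φ = A := by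
  have h1 := congrArg (fun M : M4 k => (M.map φ)ᵀ) h
  simp only [ac, Matrix.map_mul, transpose_mul, Hm_map, Hm_tr, transpose_map, transpose_transpose,
    ← mul_assoc] at h1
  have h2 : (Hm * (A.map φ)ᵀ).det ≠ 0 := fun e => by
    have := congrArg det ((congrArg (· * Hm) h).trans Hm_sq)
    rw [ac, mul_assoc A, det_mul, det_mul, e, mul_zero, zero_mul, det_one] at this
    exact zero_ne_one this
  exact cancel_right h2 (by rw [← mul_assoc, ← mul_assoc, h1]; exact h.symm)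

/-- the hermitian form -/
def hf (v w : Fin 4 → k) : k := v 0 * w 3 ^ 3 + v 3 * w 0 ^ 3 - v 1 * w 1 ^ 3 - v 2 * w 2 ^ 3

theorem hf_inv [CharP k 3] {A : M4 k} (h : Aᵀ * Hm * A.map (frobenius k 3) = Hm) (v w : Fin 4 → k) :
    hf (A *ᵥ v) (A *ᵥ w) = hf v w := by
  have e : ∀ v w : Fin 4 → k, hf v w = v ⬝ᵥ Hm *ᵥ (frobenius k 3 ∘ w) := fun v w => by
    simp [hf, Hm, dotProduct, mulVec, Fin.sum_univ_four, frobenius_def]; ring
  have e2 : frobenius k 3 ∘ (A *ᵥ w) = A.map (frobenius k 3) *ᵥ (frobenius k 3 ∘ w) :=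
    funext fun i => RingHom.map_mulVec ..
  rw [e, e, e2, mulVec_mulVec, ← vecMul_transpose, ← dotProduct_mulVec, mulVec_mulVec, ← mul_assoc, h]

instance : CharP K9 3 := (CharP.charP_iff_prime_eq_zero Nat.prime_three).2 (by decide +kernel)

/-- a primitive element -/
def W : K9 := GF.of 3
/-- a square root of `-1` -/
def I : K9 := GF.of 7

/-- the data over the field with nine elements -/
structure B9 (σ : P →* M4 K9) (H : Subgroup P) : Prop where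
  inj : Function.Injective σ
  det : ∀ g, (σ g).det = 1
  perf : commutator P = ⊤
  simp : IsSimpleGroup (P ⧸ center P)
  nonab : ∃ a b : P ⧸ center P, a * b ≠ b * a
  cen : ∀ g, g ∈ center P ↔ ∃ c : K9, σ g = c • 1
  uni : ∀ g v w, hf (σ g *ᵥ v) (σ g *ᵥ w) = hf v w
  hu : ∀ x, ∃ u, σ u = Um x
  hH : ∀ g ∈ H, ∃ c x : K9,
    c ^ 4 = 1 ∧ x ^ 4 = 1 ∧ σ g = c • Dm x ∨ c ^ 4 = -1 ∧ x ^ 4 = -1 ∧ σ g = c • Sm x
  hD : ∃ g ∈ H, ∃ c : K9, c ≠ 0 ∧ σ g = c • Dm I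
  hS : ∃ g ∈ H, ∃ c : K9, c ^ 4 = -1 ∧ σ g = c • Sm W
  stab : ∀ g, σ g 1 0 = 0 → σ g 2 0 = 0 → σ g 3 0 = 0 → ∃ x, ∃ h ∈ H, σ g = Um x * σ h

section
variable {F : Type*} [Field F] (φ : k →+* F) (x : k)
theorem Um_map : (Um x).map φ = Um (φ x) := by simp [eq16, Um]
theorem Dm_map : (Dm x).map φ = Dm (φ x) := by simp [eq16, Dm]
theorem Sm_map : (Sm x).map φ = Sm (φ x) := by simp [eq16, Sm]
end

theorem Dm_Dm (x y : k) : Dm x * Dm y = Dm (x * y) := by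
  rw [Dm, Dm, Dm, mul4]; simp [mul_pow]

theorem Um_Um [CharP k 3] {x y : k} : Um x * Um y = Um (x + y) := by
  have : Fact (Nat.Prime 3) := ⟨Nat.prime_three⟩
  rw [Um, Um, Um, mul4, pow_succ (x + y) 3, add_pow_char]
  simp only [em4]
  refine ⟨?_, ?_, ?_, ?_, ?_, ?_, ?_, ?_, ?_, ?_, ?_, ?_, ?_, ?_, ?_, ?_⟩ <;> ring

theorem N9.b9 [IsAlgClosed k] [CharP k 3] [Finite P] (t : N9 ρ U H) :
    ∃ σ : P →* M4 K9, B9 σ H := by
  obtain ⟨ι, hι⟩ := exists_emb (k := k)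
  have h1 : ∀ g i j, ∃ a, ι a = ρ g i j := fun g i j => hι _ (by
    have := congrFun (congrFun (fix_of (t.herm g)) i) j
    rwa [map_apply, map_apply, frobenius_def, frobenius_def, ← pow_mul] at this)
  choose s hs using h1
  have h2 : ∀ g, (of (s g)).map ι = ρ g := fun g => by ext i j; exact hs g i j
  let σ : P →* M4 K9 :=
    { toFun := fun g => of (s g)
      map_one' := L4.H.map_inj ι (by rw [h2, map_one, L4.H.map_one'])
      map_mul' := fun a b => L4.H.map_inj ι (by rw [Matrix.map_mul, h2, h2, h2, map_mul]) }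
  replace h2 : ∀ g, (σ g).map ι = ρ g := h2
  clear_value σ
  have sc : ∀ {g : P} {c : k} {A : M4 K9}, A 3 3 = 1 → ρ g = c • A.map ι →
      ∃ c', ι c' = c ∧ σ g = c' • A := fun {g c A} h3 e => by
    obtain ⟨c', e1, e2⟩ := exists_scal ι (A := A) (B := σ g) (c := c)
      (by rintro rfl; simp at h3) (by rw [h2, e])
    exact ⟨c', e1.symm, e2⟩
  have un : ∀ g v w, hf (σ g *ᵥ v) (σ g *ᵥ w) = hf v w := fun g => hf_inv (L4.H.map_inj ι (by
    have e : ((σ g).map (frobenius K9 3)).map ι = ((σ g).map ι).map (frobenius k 3) := by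
      ext i j; simp [frobenius_def]
    rw [Matrix.map_mul, Matrix.map_mul, e, transpose_map, h2, Hm_map, col_of (t.herm g)]))
  have r8 : ∀ {x : k}, x ^ 4 = 1 ∨ x ^ 4 = -1 → ∃ a, ι a = x := fun {x} h => hι x (by
    rcases h with h | h
    exacts [by linear_combination x * (x ^ 4 + 1) * h, by linear_combination x * (x ^ 4 - 1) * h])
  have hH : ∀ g ∈ H, ∃ c x : K9, c ^ 4 = 1 ∧ x ^ 4 = 1 ∧ σ g = c • Dm x ∨
      c ^ 4 = -1 ∧ x ^ 4 = -1 ∧ σ g = c • Sm x := fun g hg => by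
    obtain ⟨c, x, ⟨e1, e2, e⟩ | ⟨e1, e2, e⟩⟩ := t.hH' hg
    · obtain ⟨x, rfl⟩ := r8 (Or.inl e2)
      obtain ⟨c, rfl, e0⟩ := sc (A := Dm x) rfl (by rw [e, Dm_map])
      exact ⟨c, x, Or.inl ⟨ι.injective (by simpa using e1), ι.injective (by simpa using e2), e0⟩⟩
    · obtain ⟨x, rfl⟩ := r8 (Or.inr e2)
      obtain ⟨c, rfl, e0⟩ := sc (A := Sm x) rfl (by rw [e, Sm_map])
      exact ⟨c, x, Or.inr ⟨ι.injective (by simpa using e1), ι.injective (by simpa using e2), e0⟩⟩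
  have hD : ∃ g ∈ H, ∃ c : K9, c ^ 4 = 1 ∧ σ g = c • Dm I := by
    obtain ⟨g, hg, c, x, e1, e2, e3, e0⟩ := t.hD
    obtain ⟨x, rfl⟩ := r8 (N9.pm e1)
    obtain ⟨c, rfl, e⟩ := sc (A := Dm x) rfl (by rw [e0, Dm_map])
    replace e3 : c ^ 4 = 1 := ι.injective (by simpa using e3)
    obtain ⟨c', y, ⟨-, e5, e'⟩ | ⟨-, e5, e'⟩⟩ := hH g hg
    · have e6 := e.symm.trans e'
      rw [Dm, Dm, sm4, sm4, em4] at e6
      obtain rfl : c = c' := by simpa using e6.2.2.2.2.2.2.2.2.2.2.2.2.2.2.2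
      obtain rfl : x = y := mul_left_cancel₀ (by rintro rfl; simp at e3) e6.2.2.2.2.2.1
      rcases (by decide +kernel : ∀ x : K9, x ^ 4 = 1 → x ^ 2 = 1 ∨ x = I ∨ x * x * x = I) x e5
        with h | rfl | h
      · exact (e2 (by rw [← map_pow, h, map_one])).elim
      · exact ⟨g, hg, c, e3, e⟩
      · exact ⟨g * g * g, mul_mem (mul_mem hg hg) hg, c * c * c, by simp only [mul_pow, e3, mul_one],
          by simp only [map_mul, e, smul_mul_smul_comm, Dm_Dm, h]⟩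
    · have e6 := e.symm.trans e'
      rw [Dm, Sm, sm4, sm4, em4] at e6
      have e7 := e6.2.2.2.2.2.1
      rw [mul_zero, mul_eq_zero] at e7
      rcases e7 with rfl | rfl
      · simp at e3
      · simp at e1
  refine ⟨σ, ⟨fun a b e => t.hy.inj (by rw [← h2, ← h2, e]), fun g => ι.injective (by
    rw [← L4.H.det_map, h2, t.hy.det, map_one]), t.hy.perf, Rb.simple t.hy, Rb.nonab t.hy, fun g => ?_, un,
    fun x => ?_, hH, ?_, ?_, fun g e1 e2 e3 => ?_⟩⟩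
  · rw [Rb.center_iff t.hy]
    refine ⟨fun ⟨c, e⟩ => ?_, fun ⟨c, e⟩ => ⟨ι c, by rw [← h2, e, L4.H.map_smul', L4.H.map_one']⟩⟩
    obtain ⟨c', -, e0⟩ := sc (A := 1) (c := c) rfl (by rw [e, L4.H.map_one'])
    exact ⟨c', e0⟩
  · obtain ⟨u, -, e⟩ := t.hU' (ι x) (by rw [← map_pow, show ∀ a : K9, a ^ 9 = a by decide +kernel])
    exact ⟨u, L4.H.map_inj ι (by rw [h2, e, Um_map])⟩
  · obtain ⟨g, hg, c, e1, e⟩ := hD
    exact ⟨g, hg, c, by rintro rfl; simp at e1, e⟩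
  · obtain ⟨g, hg, c, e1, e⟩ := hD
    obtain ⟨s, hs, c', x, e2, e3, e'⟩ := t.hS
    obtain ⟨x, rfl⟩ := r8 (N9.pm e2)
    obtain ⟨c', rfl, e''⟩ := sc (A := Sm x) rfl (by rw [e', Sm_map])
    replace e3 : c' ^ 4 = -1 := ι.injective (by simpa using e3)
    have e4 : x ^ 4 = -1 := ι.injective (by
      simpa using (N9.pm e2).resolve_left fun h => t.no_refl (by simpa using congrArg ι e3) h e')
    have st : ∀ {y : K9}, (∃ g ∈ H, ∃ c : K9, c ^ 4 = -1 ∧ σ g = c • Sm y) →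
        ∃ g ∈ H, ∃ c : K9, c ^ 4 = -1 ∧ σ g = c • Sm (I * y) := fun ⟨s, hs, d, hd, es⟩ =>
      ⟨g * s, mul_mem hg hs, c * d, by rw [mul_pow, e1, hd, one_mul],
        by rw [map_mul, e, es, smul_mul_smul_comm, Dm_Sm]⟩
    have s0 : ∃ g ∈ H, ∃ c : K9, c ^ 4 = -1 ∧ σ g = c • Sm x := ⟨s, hs, c', e3, e''⟩
    rcases (by decide +kernel : ∀ x : K9, x ^ 4 = -1 → W = x ∨ W = I * x ∨ W = I * (I * x) ∨
      W = I * (I * (I * x))) x e4 with h | h | h | h <;> rw [h]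
    exacts [s0, st s0, st (st s0), st (st (st s0))]
  · have d := t.hy.det g
    rw [← h2, L4.H.det_map, det_succ_column_zero, Fin.sum_univ_four, e1, e2, e3] at d
    have e0 : σ g 0 0 ≠ 0 := fun e => by simp [e] at d
    have e4 := un g (Pi.single 0 1) (Pi.single 1 1)
    have e5 := un g (Pi.single 0 1) (Pi.single 2 1)
    simp [hf, e1, e2, e3, e0] at e4 e5
    obtain ⟨u, hu, h, hh, rfl⟩ := t.fac g (t.stab g (by simp [← h2, e1]) (by simp [← h2, e2])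
      (by simp [← h2, e3]) (by simp [← h2, e4]) (by simp [← h2, e5]))
    obtain ⟨x, e6, e⟩ := t.hU u hu
    obtain ⟨x, rfl⟩ := hι x e6
    exact ⟨x, h, hh, by rw [map_mul, L4.H.map_inj ι (show (σ u).map ι = (Um x).map ι by rw [h2, e, Um_map])]⟩

end Cfsg.Agent.L4.C
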