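import Cfsg.Agent.L4.C6
import Cfsg.Agent.H5.BS.Main

/-! Type II, tensor case: the second generator. -/

set_option autoImplicit false

namespace Cfsg.Agent.L4.C

open Matrix Cfsg.Agent.L4.R Cfsg.Agent.L4.H Cfsg.Agent.H5.SU
open Subgroup (normalizer center)

variable {P : Type*} [Group P] {σ : P →* M4 K9} {H : Subgroup P}

/-- scalar multiples of elements of the group -/
def In (σ : P →* M4 K9) (A : M4 K9) : Prop := ∃ g, ∃ c : K9, c ≠ 0 ∧ A = c • σ g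

theorem In.of (g : P) : In σ (σ g) := ⟨g, 1, one_ne_zero, (one_smul _ _).symm⟩

theorem In.one : In σ 1 := map_one σ ▸ In.of 1

theorem In.mul {A B : M4 K9} (h : In σ A) (h' : In σ B) : In σ (A * B) := by
  obtain ⟨g, c, hc, rfl⟩ := h
  obtain ⟨g', c', hc', rfl⟩ := h'
  exact ⟨g * g', c * c', mul_ne_zero hc hc', by rw [map_mul, smul_mul_smul_comm]⟩

theorem In.smul {A : M4 K9} (h : In σ A) {c : K9} (hc : c ≠ 0) : In σ (c • A) := by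
  obtain ⟨g, c', hc', rfl⟩ := h
  exact ⟨g, c * c', mul_ne_zero hc hc', smul_smul ..⟩

theorem In.of_smul {A : M4 K9} {c : K9} (h : In σ (c • A)) (hc : c ≠ 0) : In σ A := by
  simpa [smul_smul, hc] using h.smul (inv_ne_zero hc)

theorem In.inv {A : M4 K9} (h : In σ A) : ∃ A', In σ A' ∧ A' * A = 1 ∧ A * A' = 1 := by
  obtain ⟨g, c, hc, rfl⟩ := h
  refine ⟨c⁻¹ • σ g⁻¹, (In.of _).smul (inv_ne_zero hc), ?_, ?_⟩ <;>
    simp [smul_mul_smul_comm, ← map_mul, hc]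

theorem In.cancel {A B : M4 K9} (h : In σ A) (h' : In σ (A * B)) : In σ B := by
  obtain ⟨A', h1, h2, -⟩ := h.inv
  simpa [← mul_assoc, h2] using h1.mul h'

/-- the first candidate -/
def G1 : M4 K9 := !![0, 0, 0, 1; 0, 0, 1, 0; 0, 1, 0, 0; 1, 0, 0, 0]
/-- the second candidate -/
def G2 : M4 K9 := !![0, 0, 0, 1; 0, 1, 0, 0; 0, 0, -1, 0; 1, 0, 0, 0]

theorem Sm_Sm {x y : K9} (h : y ^ 4 = -1) : Sm x * Sm y = Dm (x * y ^ 3) := by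
  rw [Sm, Sm, Dm, mul4]
  simp only [em4, mul_zero, zero_mul, add_zero, zero_add, mul_one, true_and, and_true]
  exact ⟨by linear_combination -x ^ 4 * y ^ 4 * (y ^ 4 - 1) * h,
    by linear_combination -x ^ 3 * y * (y ^ 4 - 1) * h⟩

theorem Dm_one {k : Type*} [Field k] : Dm (1 : k) = 1 := by rw [Dm, one4]; simp

theorem Um_zero {k : Type*} [Field k] : Um (0 : k) = 1 := by rw [Um, one4]; simp

theorem ne4 {c : K9} (h : c ^ 4 = 1 ∨ c ^ 4 = -1) : c ≠ 0 := by rintro rfl; simp at h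

namespace B9

variable (t : B9 σ H)
include t

theorem inU (x : K9) : In σ (Um x) := by
  obtain ⟨u, e⟩ := t.hu x
  exact e ▸ In.of u

theorem inD : In σ (Dm I) := by
  obtain ⟨g, -, c, hc, e⟩ := t.hD
  exact (e ▸ In.of g).of_smul hc

theorem inS : In σ (Sm W) := by
  obtain ⟨g, -, c, hc, e⟩ := t.hS
  exact (e ▸ In.of g).of_smul (ne4 (Or.inr hc))

theorem sq {g : P} (hg : g ∈ H) : ∃ c x : K9, c ^ 4 = 1 ∧ x ^ 2 = 1 ∧ σ (g * g) = c • Dm x := by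
  obtain ⟨c, x, ⟨h1, h2, e⟩ | ⟨h1, h2, e⟩⟩ := t.hH g hg
  · exact ⟨c * c, x * x, by rw [mul_pow, h1, one_mul], by linear_combination h2,
      by rw [map_mul, e, smul_mul_smul_comm, Dm_Dm]⟩
  · exact ⟨c * c, x * x ^ 3, by rw [mul_pow, h1, neg_mul_neg, one_mul],
      by linear_combination (x ^ 4 - 1) * h2, by rw [map_mul, e, smul_mul_smul_comm, Sm_Sm h2]⟩

theorem pgrp : IsPGroup 2 H := fun g => ⟨3, Subtype.ext (t.inj (by
  obtain ⟨c, x, h1, h2, e⟩ := t.sq g.2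
  have : (g : P) ^ 2 ^ 3 = g * g * (g * g) * (g * g * (g * g)) := by
    rw [show 2 ^ 3 = 8 from rfl]; simp only [pow_succ, pow_zero, one_mul, mul_assoc]
  rw [Subgroup.coe_pow, this, map_mul, map_mul, e]
  simp only [smul_mul_smul_comm, Dm_Dm]
  rw [← pow_two x, h2, mul_one, Dm_one, show c * c * (c * c) = 1 by linear_combination h1, one_smul,
    OneMemClass.coe_one, map_one]))⟩

theorem mem_of {g : P} (h1 : σ g 1 0 = 0) (h2 : σ g 2 0 = 0) (h3 : σ g 3 0 = 0) (h4 : σ g 1 3 = 0) :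
    g ∈ H := by
  obtain ⟨x, h, hh, e⟩ := t.stab g h1 h2 h3
  obtain rfl : x = 0 := by
    obtain ⟨c, y, ⟨h5, -, e'⟩ | ⟨h5, -, e'⟩⟩ := t.hH h hh <;> rw [e, e'] at h4
    · simpa [Um, Dm, mul_apply, Fin.sum_univ_four, ne4 (Or.inl h5)] using h4
    · simpa [Um, Sm, mul_apply, Fin.sum_univ_four, ne4 (Or.inr h5)] using h4
  rw [Um_zero, one_mul] at e
  exact t.inj e ▸ hh

theorem cen_le : center P ≤ H := fun g hg => by
  obtain ⟨c, e⟩ := (t.cen g).1 hg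
  exact t.mem_of (by simp [e]) (by simp [e]) (by simp [e]) (by simp [e])

theorem inv_eq {g : P} (hg : g ∈ H) (h1 : g * g ∈ center P) (h2 : g ∉ center P) :
    ∃ c : K9, σ g = c • Dm (-1) := by
  obtain ⟨d, hd⟩ := (t.cen _).1 h1
  obtain ⟨c, x, ⟨h3, h4, e⟩ | ⟨h3, h4, e⟩⟩ := t.hH g hg
  · rw [map_mul, e, smul_mul_smul_comm, Dm_Dm, Dm, one4, sm4, sm4, em4] at hd
    have h5 : x * x = 1 := mul_left_cancel₀ (mul_self_ne_zero.2 (ne4 (Or.inl h3)))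
      (by linear_combination hd.2.2.2.2.2.1 - hd.2.2.2.2.2.2.2.2.2.2.2.2.2.2.2)
    rcases mul_self_eq_one_iff.1 h5 with rfl | rfl
    · exact (h2 ((t.cen _).2 ⟨c, by rw [e, Dm_one]⟩)).elim
    · exact ⟨c, e⟩
  · rw [map_mul, e, smul_mul_smul_comm, Sm_Sm h4, Dm, one4, sm4, sm4, em4] at hd
    have h5 : (-1 : K9) = 1 := mul_left_cancel₀ (mul_self_ne_zero.2 (ne4 (Or.inr h3)))
      (by linear_combination hd.2.2.2.2.2.1 - hd.2.2.2.2.2.2.2.2.2.2.2.2.2.2.2 - c * c * h4)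
    exact absurd h5 (by decide +kernel)

variable [Finite P]

theorem exists_norm : ∃ g, g ∉ H ∧ ∀ h ∈ H, g⁻¹ * h * g ∈ H := by
  have := t.simp
  obtain ⟨S, hS⟩ := t.pgrp.exists_le_sylow
  rcases hS.eq_or_lt with e | e
  swap
  · have := S.isPGroup'.isNilpotent
    obtain ⟨g, h1, h2⟩ := SetLike.exists_of_lt (normalizerCondition_of_isNilpotent (G := S)
      (H.subgroupOf S) (lt_top_iff_ne_top.2 fun e' => e.not_ge (Subgroup.subgroupOf_eq_top.1 e')))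
    exact ⟨g, h2, fun h hh => (Subgroup.mem_normalizer_iff''.1 h1 ⟨h, hS hh⟩).1 hh⟩
  exfalso
  obtain ⟨s, hs, c, hc, es⟩ := t.hS
  have h2 : 2 ∣ Nat.card (P ⧸ center P) := by
    have h3 : (s : P ⧸ center P) ^ 2 ^ 3 = 1 := by
      obtain ⟨n, hn⟩ := t.sq hs
      obtain ⟨x, h1, h2, e⟩ := hn
      rw [← QuotientGroup.mk_pow, QuotientGroup.eq_one_iff, t.cen]
      have : s ^ 2 ^ 3 = s * s * (s * s) * (s * s * (s * s)) := by
        rw [show 2 ^ 3 = 8 from rfl]; simp only [pow_succ, pow_zero, one_mul, mul_assoc]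
      exact ⟨_, by
        rw [this, map_mul, map_mul, e]
        simp only [smul_mul_smul_comm, Dm_Dm]
        rw [← pow_two x, h2, mul_one, Dm_one]⟩
    obtain ⟨j, -, hj⟩ := (Nat.dvd_prime_pow Nat.prime_two).1 (orderOf_dvd_of_pow_eq_one h3)
    rcases j with _ | j
    · obtain ⟨d, hd⟩ := (t.cen _).1 ((QuotientGroup.eq_one_iff s).1 (orderOf_eq_one_iff.1 hj))
      have := congrFun (congrFun (es.symm.trans hd) 1) 2
      simp [Sm, ne4 (Or.inr hc)] at this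
      exact absurd this (by decide +kernel)
    · exact (dvd_pow_self 2 j.succ_ne_zero).trans (hj ▸ orderOf_dvd_natCard _)
  obtain ⟨a, b, a1, b1, ab, a2, b2, hc⟩ := H5.BS.exists_commuting (G := P ⧸ center P)
    (fun h => by obtain ⟨a, b, h'⟩ := t.nonab; exact h' (h.is_comm.comm a b)) h2
  have cm : Commute a b := hc
  have sq : ∀ m n : ℕ, a ^ m * b ^ n * (a ^ m * b ^ n) = 1 := fun m n => by
    rw [(cm.symm.pow_pow n m).mul_mul_mul_comm, ← (Commute.refl a).mul_pow, ← (Commute.refl b).mul_pow,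
      a2, b2, one_pow, one_pow, one_mul]
  let V : Subgroup (P ⧸ center P) :=
    { carrier := {x | ∃ m n : ℕ, x = a ^ m * b ^ n}
      mul_mem' := by
        rintro _ _ ⟨m, n, rfl⟩ ⟨m', n', rfl⟩
        exact ⟨m + m', n + n', by rw [(cm.symm.pow_pow n m').mul_mul_mul_comm, pow_add, pow_add]⟩
      one_mem' := ⟨0, 0, by simp⟩
      inv_mem' := by
        rintro _ ⟨m, n, rfl⟩
        exact ⟨m, n, inv_eq_of_mul_eq_one_right (sq m n)⟩ }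
  have hV : IsPGroup 2 V := by
    rintro ⟨_, m, n, rfl⟩
    exact ⟨1, Subtype.ext (by rw [pow_one, pow_two]; exact sq m n)⟩
  obtain ⟨T, hT⟩ := (hV.comap_of_ker_isPGroup (QuotientGroup.mk' _)
    (by rw [QuotientGroup.ker_mk']; exact t.pgrp.to_le t.cen_le)).exists_le_sylow
  obtain ⟨g, rfl⟩ := MulAction.exists_smul_eq P S T
  have key : ∀ x : P, (x : P ⧸ center P) ∈ V → (x : P ⧸ center P) * x = 1 → (x : P ⧸ center P) ≠ 1 →
      ∃ c : K9, σ (g⁻¹ * x * g) = c • Dm (-1) := fun x h1 h2 h3 => by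
    have h4 := hT (show x ∈ V.comap (QuotientGroup.mk' _) from h1)
    rw [Sylow.coe_subgroup_smul, Subgroup.mem_pointwise_smul_iff_inv_smul_mem, ← e] at h4
    refine t.inv_eq (by simpa using h4) ?_ fun h => h3 ?_
    · rw [← QuotientGroup.eq_one_iff]
      simp only [QuotientGroup.mk_mul, QuotientGroup.mk_inv, mul_assoc, mul_inv_cancel_left]
      rw [← mul_assoc (x : P ⧸ center P), h2, one_mul, inv_mul_cancel]
    · rw [← QuotientGroup.eq_one_iff] at h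
      simpa [mul_assoc, inv_mul_eq_one] using h
  obtain ⟨a, rfl⟩ := QuotientGroup.mk_surjective a
  obtain ⟨b, rfl⟩ := QuotientGroup.mk_surjective b
  obtain ⟨c, e1⟩ := key a ⟨1, 0, by simp⟩ a2 a1
  obtain ⟨d, e2⟩ := key b ⟨0, 1, by simp⟩ b2 b1
  have h5 := (QuotientGroup.eq_one_iff _).2 ((t.cen (g⁻¹ * a * g * (g⁻¹ * b * g))).2 ⟨c * d, by
    rw [map_mul, e1, e2, smul_mul_smul_comm, Dm_Dm, neg_mul_neg, one_mul, Dm_one]⟩)
  simp only [QuotientGroup.mk_mul, QuotientGroup.mk_inv, mul_assoc, mul_inv_cancel_left] at h5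
  rw [inv_mul_eq_one, ← mul_assoc, eq_comm, mul_eq_right, ← a2, mul_right_inj] at h5
  exact ab h5.symm

omit [Finite P] in
theorem inQ {x : K9} : (x ^ 4 = 1 → In σ (Dm x)) ∧ (x ^ 4 = -1 → In σ (Sm x)) := by
  have h1 : ∀ x : K9, x ^ 4 = 1 → In σ (Dm x) := fun x h => by
    rcases (by decide +kernel : ∀ x : K9, x ^ 4 = 1 → x = I ∨ x = I * I ∨ x = I * I * I ∨
      x = I * I * I * I) x h with h | h | h | h <;> simp only [h, ← Dm_Dm]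
    exacts [t.inD, t.inD.mul t.inD, (t.inD.mul t.inD).mul t.inD,
      ((t.inD.mul t.inD).mul t.inD).mul t.inD]
  refine ⟨h1 x, fun h => ?_⟩
  obtain ⟨y, h2, rfl⟩ := (by decide +kernel : ∀ x : K9, x ^ 4 = -1 → ∃ y, y ^ 4 = 1 ∧ x = y * W) x h
  exact Dm_Sm y W ▸ (h1 y h2).mul t.inS

theorem g12 : In σ G1 ∨ In σ G2 := by
  obtain ⟨g, hg, hn⟩ := t.exists_norm
  have cj : ∀ h ∈ H, ∀ {c : K9} {A : M4 K9}, c ≠ 0 → σ h = c • A → ∃ d x : K9,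
      x ^ 4 = 1 ∧ A * σ g = d • (σ g * Dm x) ∨ x ^ 4 = -1 ∧ A * σ g = d • (σ g * Sm x) :=
    fun h hh c A hc e => by
      have e1 : A * σ g = c⁻¹ • (σ g * σ (g⁻¹ * h * g)) := by
        rw [← map_mul, ← mul_assoc, mul_inv_cancel_left, map_mul, e, smul_mul_assoc, smul_smul,
          inv_mul_cancel₀ hc, one_smul]
      obtain ⟨d, x, ⟨-, h1, e'⟩ | ⟨-, h1, e'⟩⟩ := t.hH _ (hn h hh) <;>
        rw [e', mul_smul_comm, smul_smul] at e1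
      exacts [⟨_, x, Or.inl ⟨h1, e1⟩⟩, ⟨_, x, Or.inr ⟨h1, e1⟩⟩]
  obtain ⟨d, hd, c, hc, e⟩ := t.hD
  obtain ⟨s, hs, c', hc', e'⟩ := t.hS
  obtain ⟨d₁, x, hx⟩ := cj d hd hc e
  obtain ⟨d₂, y, hy⟩ := cj s hs (ne4 (Or.inr hc')) e'
  have hm := t.mem_of (g := g)
  have hu := t.uni g
  have hdet := t.det g
  have hin := In.of (σ := σ) g
  obtain ⟨a₀, a₁, a₂, a₃, b₀, b₁, b₂, b₃, c₀, c₁, c₂, c₃, l₀, l₁, l₂, l₃, eg⟩ := ex16 (σ g)
  rw [eg] at hx hy hm hu hdet hin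
  clear cj e e' eg
  have k1 : ∀ v w l l' : K9, I * v = l * v → I ^ 3 * w = l * w → W * w = l' * v →
      W ^ 3 * v = l' * w → v = 0 ∧ w = 0 := by decide +kernel
  have k2 : ∀ v w l : K9, W ^ 4 * v = l * v → w = l * w → v = 0 ∨ w = 0 := by decide +kernel
  have c0 : ∃ l l' : K9, I * b₀ = l * b₀ ∧ I ^ 3 * c₀ = l * c₀ ∧ W * c₀ = l' * b₀ ∧
      W ^ 3 * b₀ = l' * c₀ ∧ W ^ 4 * a₀ = l' * a₀ ∧ l₀ = l' * l₀ := by
    refine ⟨d₁ * x ^ 4, d₂ * y ^ 4, ?_⟩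
    rcases hx with ⟨-, hx⟩ | ⟨-, hx⟩ <;> rcases hy with ⟨-, hy⟩ | ⟨-, hy⟩ <;>
      simp only [Dm, Sm, mul4, sm4, em4, mul_zero, zero_mul, add_zero, zero_add, one_mul] at hx hy <;>
      simp only [mul_assoc, mul_comm (x ^ 4), mul_comm (y ^ 4)] <;>
      exact ⟨hx.2.2.2.2.1, hx.2.2.2.2.2.2.2.2.1, hy.2.2.2.2.1, hy.2.2.2.2.2.2.2.2.1, hy.1,
        hy.2.2.2.2.2.2.2.2.2.2.2.2.1⟩
  have c3 : I * b₃ = d₁ * b₃ ∧ I ^ 3 * c₃ = d₁ * c₃ ∧ W * c₃ = d₂ * b₃ ∧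
      W ^ 3 * b₃ = d₂ * c₃ ∧ W ^ 4 * a₃ = d₂ * a₃ ∧ l₃ = d₂ * l₃ := by
    rcases hx with ⟨-, hx⟩ | ⟨-, hx⟩ <;> rcases hy with ⟨-, hy⟩ | ⟨-, hy⟩ <;>
      simp only [Dm, Sm, mul4, sm4, em4, mul_zero, zero_mul, add_zero, zero_add, one_mul,
        mul_one] at hx hy <;>
      exact ⟨hx.2.2.2.2.2.2.2.1, hx.2.2.2.2.2.2.2.2.2.2.2.1, hy.2.2.2.2.2.2.2.1,
        hy.2.2.2.2.2.2.2.2.2.2.2.1, hy.2.2.2.1, hy.2.2.2.2.2.2.2.2.2.2.2.2.2.2.2⟩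
  obtain ⟨l, l', h1, h2, h3, h4, h5, h6⟩ := c0
  obtain ⟨rfl, rfl⟩ := k1 _ _ _ _ h1 h2 h3 h4
  obtain ⟨rfl, rfl⟩ := k1 _ _ _ _ c3.1 c3.2.1 c3.2.2.1 c3.2.2.2.1
  obtain rfl := (k2 _ _ _ h5 h6).resolve_right fun h => hg (hm rfl rfl h rfl)
  have u03 := hu ![1, 0, 0, 0] ![0, 0, 0, 1]
  have u01 := hu ![1, 0, 0, 0] ![0, 1, 0, 0]
  have u02 := hu ![1, 0, 0, 0] ![0, 0, 1, 0]
  have u31 := hu ![0, 0, 0, 1] ![0, 1, 0, 0]
  have u32 := hu ![0, 0, 0, 1] ![0, 0, 1, 0]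
  have u11 := hu ![0, 1, 0, 0] ![0, 1, 0, 0]
  have u22 := hu ![0, 0, 1, 0] ![0, 0, 1, 0]
  simp only [mv4, mul_zero, mul_one, add_zero, zero_add] at u03 u01 u02 u31 u32 u11 u22
  simp [hf] at u03
  have n1 : l₀ ≠ 0 := left_ne_zero_of_mul_eq_one u03
  have n2 : a₃ ≠ 0 := fun h => by simp [h] at u03
  obtain rfl := (k2 _ _ _ c3.2.2.2.2.1 c3.2.2.2.2.2).resolve_left n2
  simp [hf, n1, n2] at u01 u02 u31 u32
  subst u01 u02 u31 u32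
  simp [hf] at u11 u22
  rw [dm4] at hdet
  have k3 : ∀ a d e : K9, a ≠ 0 → I ^ 4 * a = d * a →
    W ^ 4 * a = e * a → d = 1 ∧ e = -1 := by decide +kernel
  have k4 : ∀ m₁ m₂ m₃ m₄ x : K9, I * m₁ = m₁ * x → I * m₂ = m₂ * x ^ 3 → I ^ 3 * m₃ = m₃ * x →
      I ^ 3 * m₄ = m₄ * x ^ 3 → m₁ = 0 ∧ m₄ = 0 ∨ m₂ = 0 ∧ m₃ = 0 := fun m₁ m₂ m₃ m₄ x => by
    have h1 : ∀ x m n : K9, x ≠ I → x ≠ I ^ 3 → I * m = m * x → I ^ 3 * n = n * x ^ 3 →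
      m = 0 ∧ n = 0 := by decide +kernel
    have h2 : ∀ m n : K9, (I * m = m * I ^ 3 → I ^ 3 * n = n * I → m = 0 ∧ n = 0) ∧
      (I * m = m * I ^ 3 → I ^ 3 * n = n * (I ^ 3) ^ 3 → m = 0 ∧ n = 0) := by decide +kernel
    intro e1 e2 e3 e4
    by_cases h3 : x = I
    · subst h3; exact Or.inr ((h2 _ _).1 e2 e3)
    by_cases h4 : x = I ^ 3
    · subst h4; exact Or.inl ((h2 _ _).2 e1 e4)
    exact Or.inl (h1 _ _ _ h3 h4 e1 e4)
  have k5 : ∀ m₁ : K9, m₁ * m₁ ^ 3 = 1 → ∀ y : K9, y ^ 4 = -1 → ∀ m₄, W * m₄ = -1 * (m₁ * y) →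
      ∀ l a, l * a ^ 3 = 1 → -(a * l * (m₁ * m₄)) = 1 → ∃ x, a = l * x ^ 4 ∧ m₁ = l * x ∧
        (x ^ 4 = 1 ∧ m₄ = -(l * x ^ 3) ∨ x ^ 4 = -1 ∧ m₄ = l * x ^ 3) := by decide +kernel
  have k6 : ∀ m₂ : K9, m₂ * m₂ ^ 3 = 1 → ∀ y : K9, y ^ 4 = -1 → ∀ m₃, W * m₃ = -1 * (m₂ * y ^ 3) →
      ∀ l a, l * a ^ 3 = 1 → a * l * (m₂ * m₃) = 1 → ∃ x, a = l * x ^ 4 ∧ m₃ = l * x ^ 3 ∧
        (x ^ 4 = -1 ∧ m₂ = -(l * x) ∨ x ^ 4 = 1 ∧ m₂ = l * x) := by decide +kernel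
  have k7 : ∀ l : K9, l ≠ 0 → l ≠ -1 * (l * 1) ∧ l ≠ 1 * (l * -1) := by decide +kernel
  obtain ⟨rfl, rfl⟩ : d₁ = 1 ∧ d₂ = -1 := by
    refine k3 a₃ _ _ n2 ?_ c3.2.2.2.2.1
    rcases hx with ⟨-, hx⟩ | ⟨-, hx⟩ <;>
      simpa [Dm, Sm, mul_apply, Fin.sum_univ_four] using congrFun (congrFun hx 0) 3
  obtain ⟨hx', hx⟩ := hx.resolve_right fun h => (k7 _ n1).2 (by
    simpa [Dm, Sm, mul_apply, Fin.sum_univ_four, h.1] using congrFun (congrFun h.2 3) 0)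
  obtain ⟨hy', hy⟩ := hy.resolve_left fun h => (k7 _ n1).1 (by
    simpa [Dm, Sm, mul_apply, Fin.sum_univ_four, h.1] using congrFun (congrFun h.2 3) 0)
  simp only [Dm, Sm, mul4, sm4, em4, mul_zero, zero_mul, add_zero, zero_add, one_mul,
    mul_one] at hx hy
  simp only [true_and] at hx hy
  obtain ⟨-, x1, x2, x3, x4, -⟩ := hx
  obtain ⟨-, y1, y2, -⟩ := hy
  rcases k4 b₁ b₂ c₁ c₂ x x1 x2 x3 x4 with ⟨rfl, rfl⟩ | ⟨rfl, rfl⟩
  · obtain ⟨z, rfl, rfl, ⟨h, rfl⟩ | ⟨h, rfl⟩⟩ := k6 b₂ (by linear_combination -u22) y hy' c₁ y1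
      l₀ a₃ u03 (by linear_combination hdet)
    · exact Or.inr ((t.inQ.2 h).cancel (In.of_smul (by
        convert hin using 1; rw [Sm, G2, mul4, sm4]; simp) n1))
    · exact Or.inl ((t.inQ.1 h).cancel (In.of_smul (by
        convert hin using 1; rw [Dm, G1, mul4, sm4]; simp) n1))
  · obtain ⟨z, rfl, rfl, ⟨h, rfl⟩ | ⟨h, rfl⟩⟩ := k5 b₁ (by linear_combination -u11) y hy' c₂ y2
      l₀ a₃ u03 (by linear_combination hdet)
    · exact Or.inr ((t.inQ.1 h).cancel (In.of_smul (by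
        convert hin using 1; rw [Dm, G2, mul4, sm4]; simp) n1))
    · exact Or.inl ((t.inQ.2 h).cancel (In.of_smul (by
        convert hin using 1; rw [Sm, G1, mul4, sm4]; simp) n1))

end B9

end Cfsg.Agent.L4.C
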