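import Cfsg.Agent.L4.C8

/-! Type II, tensor case: orbits on isotropic points. -/

set_option autoImplicit false

namespace Cfsg.Agent.L4.C

open Matrix Cfsg.Agent.L4.R Cfsg.Agent.L4.H Cfsg.Agent.H5.SU Cfsg.Agent.Cert
open Subgroup (normalizer center)

variable {P : Type*} [Group P] {σ : P →* M4 K9} {H : Subgroup P}

/-- a set of matrices closed under products and scalars -/
structure Cl (S : M4 K9 → Prop) : Prop where
  one : S 1
  mul : ∀ {A B}, S A → S B → S (A * B)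
  smul : ∀ {A} {c : K9}, S A → c ≠ 0 → S (c • A)

theorem Cl.orb {S : M4 K9 → Prop} (h : Cl S) {n : Fin 6} (hK : ∀ k, k ≠ n → S (Gm k))
    (root : ℕ → Prop) (pk : ℕ → Fin 6) (pj rk : ℕ → ℕ)
    (H : ∀ j < 280, root j ∨ pk j ≠ n ∧ pj j < 280 ∧ rk (pj j) < rk j ∧ pm (pk j) (pj j) = j) :
    ∀ m j, rk j = m → j < 280 → ∃ B r, S B ∧ root r ∧ B *ᵥ pt r = pt j := by
  intro m
  induction m using Nat.strong_induction_on with
  | _ m ih =>
    rintro j rfl hj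
    rcases H j hj with h0 | ⟨h1, h2, h3, h4⟩
    · exact ⟨1, j, h.one, h0, one_mulVec _⟩
    · obtain ⟨B, r, b1, b2, b3⟩ := ih _ h3 _ rfl h2
      obtain ⟨-, c1, c2⟩ := pm_spec (pk j) _ h2
      refine ⟨_, r, h.smul (h.mul (hK _ h1) b1) (inv_ne_zero c1), b2, ?_⟩
      rw [smul_mulVec, ← mulVec_mulVec, b3, c2, h4, smul_smul, inv_mul_cancel₀ c1, one_smul]

theorem Cl.inN {S : M4 K9 → Prop} (h : Cl S) (h0 : S (Um 1)) (h1 : S (Um W)) (h2 : S (Dm I))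
    (h3 : S (Sm W)) : (∀ x, S (Um x)) ∧ (∀ x, x ^ 4 = 1 → S (Dm x)) ∧ ∀ x, x ^ 4 = -1 → S (Sm x) := by
  have d : ∀ x : K9, x ^ 4 = 1 → S (Dm x) := fun x hx => by
    rcases (by decide +kernel : ∀ x : K9, x ^ 4 = 1 → x = I ∨ x = I * I ∨ x = I * I * I ∨
      x = I * I * I * I) x hx with e | e | e | e <;> simp only [e, ← Dm_Dm]
    exacts [h2, h.mul h2 h2, h.mul (h.mul h2 h2) h2, h.mul (h.mul (h.mul h2 h2) h2) h2]
  refine ⟨fun x => ?_, d, fun x hx => ?_⟩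
  · rcases span9 W x (by decide +kernel) (by decide +kernel) with e | e | e | e | e | e | e | e | e <;>
      simp only [e, ← Um_Um, Um_zero]
    exacts [h.one, h0, h.mul h0 h0, h1, h.mul h1 h0, h.mul (h.mul h1 h0) h0, h.mul h1 h1,
      h.mul (h.mul h1 h1) h0, h.mul (h.mul (h.mul h1 h1) h0) h0]
  · obtain ⟨y, e, rfl⟩ := (by decide +kernel : ∀ x : K9, x ^ 4 = -1 → ∃ y, y ^ 4 = 1 ∧ x = y * W) x hx
    exact Dm_Sm y W ▸ h.mul (d y e) h3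

theorem cl_in : Cl (In σ) := ⟨In.one, In.mul, fun h hc => h.smul hc⟩

theorem Cl.and {S S' : M4 K9 → Prop} (h : Cl S) (h' : Cl S') : Cl fun A => S A ∧ S' A :=
  ⟨⟨h.one, h'.one⟩, fun a b => ⟨h.mul a.1 b.1, h'.mul a.2 b.2⟩, fun a c => ⟨h.smul a.1 c, h'.smul a.2 c⟩⟩

/-- the orbit of the first basis vector -/
def Ob (σ : P →* M4 K9) (v : Fin 4 → K9) : Prop := ∃ A, In σ A ∧ A *ᵥ ![1, 0, 0, 0] = v

theorem Ob.mul {v : Fin 4 → K9} (h : Ob σ v) {A : M4 K9} (hA : In σ A) : Ob σ (A *ᵥ v) := by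
  obtain ⟨B, h1, rfl⟩ := h
  exact ⟨A * B, hA.mul h1, (mulVec_mulVec ..).symm⟩

theorem Ob.smul {v : Fin 4 → K9} (h : Ob σ v) {c : K9} (hc : c ≠ 0) : Ob σ (c • v) := by
  simpa [smul_mulVec] using h.mul (In.one.smul hc)

theorem Ob.of_smul {v : Fin 4 → K9} {c : K9} (h : Ob σ (c • v)) (hc : c ≠ 0) : Ob σ v := by
  simpa [smul_smul, hc] using h.smul (inv_ne_zero hc)

theorem Ob.ne {v : Fin 4 → K9} (h : Ob σ v) : v ≠ 0 := by
  obtain ⟨A, h1, rfl⟩ := h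
  obtain ⟨A', -, h2, -⟩ := h1.inv
  intro e
  have := congrArg (A' *ᵥ ·) e
  simp [h2] at this

theorem hf_smul (c : K9) (v : Fin 4 → K9) : hf (c • v) (c • v) = c ^ 4 * hf v v := by
  simp [hf]; ring

namespace B9

variable (t : B9 σ H)
include t

theorem iso {v : Fin 4 → K9} (h : Ob σ v) : hf v v = 0 := by
  obtain ⟨_, ⟨g, c, -, rfl⟩, rfl⟩ := h
  rw [smul_mulVec, hf_smul, t.uni]
  simp [hf]

theorem stab' {A : M4 K9} (h : In σ A) {c : K9} (e : A *ᵥ ![1, 0, 0, 0] = c • ![1, 0, 0, 0]) :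
    ∃ d x y : K9, d ≠ 0 ∧ (y ^ 4 = 1 ∧ A = d • (Um x * Dm y) ∨ y ^ 4 = -1 ∧ A = d • (Um x * Sm y)) := by
  obtain ⟨g, c', hc, rfl⟩ := h
  have e1 := congrFun e 1
  have e2 := congrFun e 2
  have e3 := congrFun e 3
  simp [mulVec, dotProduct, Fin.sum_univ_four, hc] at e1 e2 e3
  obtain ⟨x, h, hh, e4⟩ := t.stab g e1 e2 e3
  obtain ⟨d, y, ⟨h1, h2, e5⟩ | ⟨h1, h2, e5⟩⟩ := t.hH h hh
  · exact ⟨c' * d, x, y, mul_ne_zero hc (ne4 (Or.inl h1)), Or.inl ⟨h2, by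
      rw [e4, e5, mul_smul_comm, smul_smul]⟩⟩
  · exact ⟨c' * d, x, y, mul_ne_zero hc (ne4 (Or.inr h1)), Or.inr ⟨h2, by
      rw [e4, e5, mul_smul_comm, smul_smul]⟩⟩

theorem ob_pt {v : Fin 4 → K9} (h : Ob σ v) : ∃ j < 280, ∃ c : K9, c ≠ 0 ∧ v = c • pt j := by
  obtain ⟨a, b, c, d, rfl⟩ := ex4 v
  obtain ⟨h1, h2, h3⟩ := (ix_spec a b c d (t.iso h)).resolve_left h.ne
  exact ⟨_, h1, _, h2, h3⟩

theorem all_in {S : M4 K9 → Prop} (h : Cl S) (h0 : S (Um 1)) (h1 : S (Um W)) (h2 : S (Dm I))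
    (h3 : S (Sm W)) (H : ∀ j < 280, Ob σ (pt j) → ∃ B, (In σ B ∧ S B) ∧ B *ᵥ pt 0 = pt j)
    {A : M4 K9} (hA : In σ A) : S A := by
  obtain ⟨j, hj, c, hc, e⟩ := t.ob_pt ⟨A, hA, rfl⟩
  obtain ⟨B, ⟨b1, b2⟩, b3⟩ := H j hj (Ob.of_smul ⟨A, hA, e⟩ hc)
  obtain ⟨B', b4, b5, b6⟩ := b1.inv
  obtain ⟨n1, n2, n3⟩ := h.inN h0 h1 h2 h3
  have : S (B' * A) := by
    obtain ⟨d, x, y, hd, ⟨h4, e'⟩ | ⟨h4, e'⟩⟩ := t.stab' (b4.mul hA) (c := c) (by
      rw [← mulVec_mulVec, e, ← b3, mulVec_smul, mulVec_mulVec, b5, one_mulVec, pt_val.1]) <;> rw [e']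
    exacts [h.smul (h.mul (n1 x) (n2 y h4)) hd, h.smul (h.mul (n1 x) (n3 y h4)) hd]
  simpa [← mul_assoc, b6] using h.mul b2 this

theorem conj_stab {v : Fin 4 → K9} (h : Ob σ v) {Y : M4 K9} (hY : In σ Y) {c : K9}
    (e : Y *ᵥ v = c • v) : ∃ A A', In σ A' ∧ A' * A = 1 ∧ A * A' = 1 ∧ A' *ᵥ v = ![1, 0, 0, 0] ∧
      (A' * Y * A) *ᵥ ![1, 0, 0, 0] = c • ![1, 0, 0, 0] ∧ ∃ d x y : K9, d ≠ 0 ∧
      (y ^ 4 = 1 ∧ A' * Y * A = d • (Um x * Dm y) ∨ y ^ 4 = -1 ∧ A' * Y * A = d • (Um x * Sm y)) := by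
  obtain ⟨A, hA, rfl⟩ := h
  obtain ⟨A', a1, a2, a3⟩ := hA.inv
  have e1 : (A' * Y * A) *ᵥ ![1, 0, 0, 0] = c • ![1, 0, 0, 0] := by
    rw [← mulVec_mulVec, ← mulVec_mulVec, e, mulVec_smul, mulVec_mulVec, a2, one_mulVec]
  exact ⟨A, A', a1, a2, a3, by rw [mulVec_mulVec, a2, one_mulVec], e1,
    t.stab' ((a1.mul hY).mul hA) e1⟩

theorem not_r1 (g1 : In σ G1) : ¬ Ob σ ![1, 0, 0, -I] := fun h => by
  obtain ⟨A, A', -, a2, a3, -, -, d, x, y, -, h1⟩ := t.conj_stab h (t.inS.mul g1) (c := I)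
    (by decide +kernel)
  have e1 : (A' * (Sm W * G1) * A).trace = W + W ^ 3 := by
    rw [trace_mul_comm, ← mul_assoc, a3, one_mul]; decide +kernel
  have e2 : (A' * (Sm W * G1) * A).det = -1 := by
    rw [det_mul, mul_comm, ← det_mul, ← mul_assoc, a3, one_mul, Sm, G1, mul4, dm4]; decide +kernel
  rcases h1 with ⟨h1, e⟩ | ⟨h1, e⟩ <;> rw [e] at e1 e2
  · rw [Um, Dm, mul4, sm4] at e1 e2
    rw [dm4] at e2
    simp [trace, Fin.sum_univ_four] at e1 e2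
    exact (by decide +kernel : ∀ d y : K9, y ^ 4 = 1 → d * y ^ 4 + d * y + d * y ^ 3 + d = W + W ^ 3 →
      d * y ^ 4 * (d * y) * (d * y ^ 3 * d) ≠ -1) d y h1 e1 e2
  · rw [Um, Sm, mul4, sm4] at e1
    simp [trace, Fin.sum_univ_four, h1] at e1
    exact absurd e1 (by decide +kernel)

theorem line_ob (g1 : In σ G1) {a b : K9} (h : Ob σ ![a, 0, 0, b]) : a = 0 ∨ b = 0 := by
  have h1 := t.iso h
  simp only [hf, cons_val, mul_zero, zero_mul, sub_zero] at h1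
  rcases (by decide +kernel : ∀ a b : K9, a * b ^ 3 + b * a ^ 3 = 0 → (a = 0 ∨ b = 0) ∨ a ≠ 0 ∧
    (![a, 0, 0, b] = a • ![1, 0, 0, -I] ∨ Sm W *ᵥ ![a, 0, 0, b] = (-a) • ![1, 0, 0, -I])) a b h1 with
    h2 | ⟨h2, h3 | h3⟩
  · exact h2
  · exact (t.not_r1 g1 (Ob.of_smul (h3 ▸ h) h2)).elim
  · exact (t.not_r1 g1 (Ob.of_smul (h3 ▸ h.mul t.inS) (neg_ne_zero.2 h2))).elim

theorem not_r2 (g1 : In σ G1) : ¬ Ob σ ![0, 1, W, 0] := fun h => by
  obtain ⟨A, A', a1, a2, a3, a4, a5, d, x, y, -, h1⟩ := t.conj_stab h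
    (t.inQ (x := -1).1 (by decide +kernel)) (c := -1) (by decide +kernel)
  have e1 : (A' * Dm (-1) * A).trace = 0 := by
    rw [trace_mul_comm, ← mul_assoc, a3, one_mul]; decide +kernel
  have e2 : A' * Dm (-1) * A * (A' * Dm (-1) * A) = 1 := by
    rw [mul_assoc, ← mul_assoc A, ← mul_assoc A, a3, one_mul, ← mul_assoc, mul_assoc A', Dm_Dm,
      neg_mul_neg, one_mul, Dm_one, mul_one, a2]
  have e3 : A' * Dm (-1) * A = (-1 : K9) • (Um x * Dm (-1)) := by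
    rcases h1 with ⟨h1, e⟩ | ⟨h1, e⟩ <;> rw [e] at e1 a5 e2 ⊢
    · rw [Um, Dm, mul4, sm4] at e1 a5
      have a6 := congrFun a5 0
      simp [trace, Fin.sum_univ_four, mulVec, dotProduct, h1] at e1 a6
      subst a6
      rw [Um, Dm, mul4, sm4, mul4, one4, em4] at e2
      rw [(by decide +kernel : ∀ y : K9, -1 + -y + -y ^ 3 + -1 = 0 → y * y = 1 → y = -1) y
        (by linear_combination e1) (by linear_combination e2.2.2.2.2.2.1)]
    · rw [Um, Sm, mul4, sm4] at a5 e2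
      have a6 := congrFun a5 0
      simp [mulVec, dotProduct, Fin.sum_univ_four, h1] at a6
      subst a6
      rw [mul4, one4, em4] at e2
      exact absurd (show (-1 : K9) = 1 by linear_combination e2.2.2.2.2.2.1 - h1) (by decide +kernel)
  have e4 : Dm (-1) * (Um x * A') = (-1 : K9) • (Um x * A' * Dm (-1)) := by
    have e5 : A' * Dm (-1) = (-1 : K9) • (Um x * Dm (-1)) * A' := by
      rw [← e3, mul_assoc, a3, mul_one]
    have e6 : ∀ x : K9, Um x * (Um x * Dm (-1)) = Dm (-1) * Um x := by decide +kernel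
    rw [mul_assoc, e5, smul_mul_assoc, mul_smul_comm, smul_smul, ← mul_assoc, ← mul_assoc, e6]
    simp
  have hB := (t.inU x).mul a1
  have b0 : (Um x * A') *ᵥ ![0, 1, W, 0] = ![1, 0, 0, 0] := by
    rw [← mulVec_mulVec, a4, Um, mv4]; simp
  generalize Um x * A' = B at e4 hB b0
  have key : ∀ b : K9, ∃ s u, B *ᵥ ![0, 1, b, 0] = ![s, 0, 0, u] := fun b => by
    have e5 := congrArg (· *ᵥ ![0, 1, b, 0]) e4
    have e6 : Dm (-1) *ᵥ ![0, 1, b, 0] = (-1 : K9) • ![0, 1, b, 0] := by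
      rw [Dm, mv4, sv4]; simp; ring
    simp only [← mulVec_mulVec, smul_mulVec, e6, mulVec_smul, smul_smul] at e5
    obtain ⟨s, s₁, s₂, u, e⟩ := ex4 (B *ᵥ ![0, 1, b, 0])
    rw [e, Dm, mv4, sv4, ev4] at e5
    have k : ∀ s : K9, -s = s → s = 0 := by decide +kernel
    exact ⟨s, u, by
      rw [e, k s₁ (by linear_combination e5.2.1), k s₂ (by linear_combination e5.2.2.1)]⟩
  obtain ⟨s, u, e5⟩ := key (-W)
  have o2 : Ob σ ![0, 1, -W, 0] := Ob.of_smul (c := I) (by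
    convert h.mul t.inD using 1; decide +kernel) (by decide +kernel)
  have o3 : Ob σ ![0, 1, W ^ 7, 0] := Ob.of_smul (c := W) (by
    convert h.mul g1 using 1; decide +kernel) (by decide +kernel)
  obtain ⟨α, β, n1, n2, e6⟩ : ∃ α β : K9, α ≠ 0 ∧ β ≠ 0 ∧
    ![0, 1, W ^ 7, 0] = α • ![0, 1, W, 0] + β • ![0, 1, -W, 0] := by decide +kernel
  obtain ⟨B', -, b1, -⟩ := hB.inv
  have n3 : u ≠ 0 := by
    rintro rfl
    have e7 : ![0, 1, -W, 0] = s • ![0, 1, W, 0] := by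
      rw [← one_mulVec ![0, 1, -W, 0], ← one_mulVec ![0, 1, W, 0], ← b1, ← mulVec_mulVec,
        ← mulVec_mulVec, e5, b0, ← mulVec_smul, sv4]
      simp
    exact (by decide +kernel : ∀ s : K9, ![0, 1, -W, 0] ≠ s • ![0, 1, W, 0]) s e7
  obtain rfl := (t.line_ob g1 (e5 ▸ o2.mul hB)).resolve_right n3
  have o4 := o3.mul hB
  rw [e6, mulVec_add, mulVec_smul, mulVec_smul, b0, e5, sv4, sv4, av4] at o4
  simp only [mul_zero, add_zero, zero_add, mul_one] at o4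
  exact (t.line_ob g1 o4).elim n1 (mul_ne_zero n2 n3)

theorem not_g1 (g1 : In σ G1) : False := by
  let Q : M4 K9 := !![0, 0, 0, 1; 0, 0, -1, 0; 0, -1, 0, 0; 1, 0, 0, 0]
  have hS : Cl fun A => ∃ c : K9, ac (RingHom.id K9) A Q = c • Q :=
    ⟨⟨1, by rw [ac_one, one_smul]⟩, fun ⟨c, h⟩ ⟨d, h'⟩ => ⟨_, by
      rw [ac_mul, h', ac_smul, h, smul_smul]⟩, fun ⟨c, h⟩ _ => ⟨_, by rw [smul_ac, h, smul_smul]⟩⟩
  have hG : ∀ k, k ≠ 4 → ∃ c : K9, ac (RingHom.id K9) (Gm k) Q = c • Q := by decide +kernel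
  have hI : ∀ k, k ≠ 4 → In σ (Gm k) := fun k hk => by
    fin_cases k
    exacts [t.inU _, t.inU _, t.inD, t.inS, absurd rfl hk, g1]
  obtain ⟨s, -, c, hc, e⟩ := t.hS
  have h1 := simil_mat t.perf σ (RingHom.id K9) (M := Q) (i := 0) (j := 3) (by decide +kernel)
    (fun g => t.all_in hS (hG 0 (by decide)) (hG 1 (by decide)) (hG 2 (by decide)) (hG 3 (by decide))
      (fun j hj ho => by
        obtain ⟨B, r, b1, b2, b3⟩ := (cl_in.and hS).orb (fun k hk => ⟨hI k hk, hG k hk⟩) _ _ _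
          (fun j => lk T1' 15 32768 j / 4096) t1_spec _ j rfl hj
        obtain ⟨B', b4, b5, -⟩ := b1.1.inv
        have ho' := ho.mul b4
        rw [← b3, mulVec_mulVec, b5, one_mulVec] at ho'
        rcases b2 with rfl | rfl | rfl
        · exact ⟨B, b1, b3⟩
        · exact (t.not_r1 g1 (pt_val.2.1 ▸ ho')).elim
        · exact (t.not_r2 g1 (pt_val.2.2 ▸ ho')).elim) (In.of g)) s
  rw [e] at h1
  exact (by decide +kernel : ∀ c : K9, c ^ 4 = -1 → ac (RingHom.id K9) (c • Sm W) Q ≠ Q) c hc h1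

theorem all_g2 [Finite P] {S : M4 K9 → Prop} (h : Cl S) (hG : ∀ k, k ≠ 5 → S (Gm k)) {A : M4 K9}
    (hA : In σ A) : S A := by
  have hI : ∀ k, k ≠ 5 → In σ (Gm k) := fun k hk => by
    fin_cases k
    exacts [t.inU _, t.inU _, t.inD, t.inS, t.g12.resolve_left t.not_g1, absurd rfl hk]
  refine t.all_in h (hG 0 (by decide)) (hG 1 (by decide)) (hG 2 (by decide)) (hG 3 (by decide))
    (fun j hj _ => ?_) hA
  obtain ⟨B, _, b1, rfl, b3⟩ := (cl_in.and h).orb (fun k hk => ⟨hI k hk, hG k hk⟩) _ _ _ id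
    t2_spec _ j rfl hj
  exact ⟨B, b1, b3⟩

end B9

end Cfsg.Agent.L4.C
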