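import Cfsg.Agent.L4.Rb3

/-!
The exterior square of a four-dimensional module without invariant bilinear form is irreducible.
-/

set_option autoImplicit false
set_option linter.unusedSectionVars false
set_option linter.unusedSimpArgs false

namespace Cfsg.Agent.L4.G
open Matrix Cfsg.Agent.H1.Spin6 Cfsg.Agent.L4.R Cfsg.Agent.L4.H

variable {k : Type*} [Field k]

theorem co4 (a b c d e f g h i j l m n o p q : k) :
    co !![a, b, c, d; e, f, g, h; i, j, l, m; n, o, p, q] = ![b, c, d, g, h, m] := rfl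

theorem ψτ_L2 (A : M4 k) (y : Fin 6 → k) : Aᵀ * ψ (τ (L2 A y)) * A = A.det • ψ (τ y) := by
  obtain ⟨a, b, c, d, e, f, g, h, i, j, l, m, n, o, p, q, rfl⟩ := ex16 A
  simp only [L2_apply, ψ_def, τ_def, tm4, mul4, co4, dm4, sm4, em4, cons_val_zero, cons_val_one,
    cons_val]
  refine ⟨?_, ?_, ?_, ?_, ?_, ?_, ?_, ?_, ?_, ?_, ?_, ?_, ?_, ?_, ?_, ?_⟩ <;> ring

/-- second coefficient of the characteristic polynomial -/
def e2 (A : M4 k) : k :=
  A 0 0 * A 1 1 - A 0 1 * A 1 0 + (A 0 0 * A 2 2 - A 0 2 * A 2 0) + (A 0 0 * A 3 3 - A 0 3 * A 3 0) +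
  (A 1 1 * A 2 2 - A 1 2 * A 2 1) + (A 1 1 * A 3 3 - A 1 3 * A 3 1) + (A 2 2 * A 3 3 - A 2 3 * A 3 2)

theorem tr4 (a b c d e f g h i j l m n o p q : k) :
    trace !![a, b, c, d; e, f, g, h; i, j, l, m; n, o, p, q] = a + f + l + q := by
  simp [trace, Fin.sum_univ_four]

theorem two_e2 (A : M4 k) : 2 * e2 A = A.trace ^ 2 - (A * A).trace := by
  obtain ⟨a, b, c, d, e, f, g, h, i, j, l, m, n, o, p, q, rfl⟩ := ex16 A
  simp only [mul4, tr4, e2, of_apply, cons_val', cons_val_zero, cons_val_one, cons_val,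
    cons_val_fin_one]
  ring

theorem tr_L2 (A : M4 k) : LinearMap.trace k _ (L2 A) = e2 A := by
  obtain ⟨a, b, c, d, e, f, g, h, i, j, l, m, n, o, p, q, rfl⟩ := ex16 A
  rw [LinearMap.trace_eq_matrix_trace k (Pi.basisFun k (Fin 6))]
  simp [trace, Fin.sum_univ_succ, L2_apply, ψ_def, tm4, mul4, co4, e2]
  ring

set_option maxHeartbeats 800000 in
/-- Cayley-Hamilton -/
theorem ch4 (A : M4 k) : ∃ c : k, A ^ 4 - A.trace • A ^ 3 + e2 A • A ^ 2 - c • A + A.det • (1 : M4 k) = 0 := by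
  obtain ⟨a, b, c, d, e, f, g, h, i, j, l, m, n, o, p, q, rfl⟩ := ex16 A
  refine ⟨a * (f * l - g * j) - b * (e * l - g * i) + c * (e * j - f * i) +
    (a * (f * q - h * o) - b * (e * q - h * n) + d * (e * o - f * n)) +
    (a * (l * q - m * p) - c * (i * q - m * n) + d * (i * p - l * n)) +
    (f * (l * q - m * p) - g * (j * q - m * o) + h * (j * p - l * o)), ?_⟩
  rw [eq16]
  simp only [pow_succ, pow_zero, one_mul, mul4, tr4, dm4, e2, one4, sm4, of_apply, cons_val', cons_val_zero, cons_val_one, cons_val,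
    cons_val_fin_one, Matrix.add_apply, Matrix.sub_apply, Matrix.zero_apply]
  refine ⟨?_, ?_, ?_, ?_, ?_, ?_, ?_, ?_, ?_, ?_, ?_, ?_, ?_, ?_, ?_, ?_⟩ <;> ring


section Irr
variable {P : Type*} [Group P]

theorem hom_one (perf : commutator P = ⊤) {C : Type*} [CommGroup C] (χ : P →* C) (a : P) :
    χ a = 1 := by
  have : commutator P ≤ χ.ker := Abelianization.commutator_subset_ker χ
  exact this (perf.ge (Subgroup.mem_top a))

/-- a common eigenvector of a perfect group is fixed -/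
theorem eig_fix (perf : commutator P = ⊤) {N : Type*} [AddCommGroup N] [Module k N]
    (σ : P → N → N) (s1 : ∀ w, σ 1 w = w) (sm : ∀ g h w, σ (g * h) w = σ g (σ h w))
    (sl : ∀ g (c : k) w, σ g (c • w) = c • σ g w) {w : N} (h : ∀ g, ∃ c : k, σ g w = c • w) (g : P) :
    σ g w = w := by
  by_cases h0 : w = 0
  · obtain ⟨c, e⟩ := h g
    rw [e, h0, smul_zero]
  choose c hc using h
  have inj := smul_left_injective k h0
  let χ : P →* k := ⟨⟨c, inj (by simp only []; rw [← hc, s1, one_smul])⟩, fun a b => inj (by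
    simp only []; rw [← hc, sm, hc, sl, hc, smul_smul, mul_comm])⟩
  have := congrArg Units.val (hom_one perf χ.toHomUnits g)
  rw [hc, show c g = 1 from this, one_smul]

/-- the bivector of two vectors, as a traceless matrix -/
def B2 (x y : Fin 6 → k) : M4 k := ψ x * ψ (τ y) - ψ y * ψ (τ x)

/-- the two halves of the trivector of three vectors -/
def B3 (x y z : Fin 6 → k) : M4 k := ψ x * ψ (τ y) * ψ z - ψ z * ψ (τ y) * ψ x

theorem ex6 (x : Fin 6 → k) : ∃ a b c d e f, x = ![a, b, c, d, e, f] :=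
  ⟨x 0, x 1, x 2, x 3, x 4, x 5, by ext i; fin_cases i <;> rfl⟩

theorem B2_lin (x y : Fin 6 → k) (a b c d : k) :
    B2 (a • x + b • y) (c • x + d • y) = (a * d - b * c) • B2 x y := by
  simp only [B2, map_add, map_smul, add_mul, mul_add, smul_mul_assoc, mul_smul_comm]
  module

theorem B2_tr (x y : Fin 6 → k) : (B2 x y).trace = 0 := by
  simp [B2, ψ_def, τ_def, tr4]
  ring

theorem B2_zero (h2 : (2 : k) ≠ 0) {x y : Fin 6 → k} (h : B2 x y = 0) (i j : Fin 6) :
    x i * y j = x j * y i := by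
  obtain ⟨a, b, c, d, e, f, rfl⟩ := ex6 x
  obtain ⟨a', b', c', d', e', f', rfl⟩ := ex6 y
  rw [eq16] at h
  simp only [B2, ψ_def, τ_def, mul4, of_apply, cons_val', cons_val_zero, cons_val_one, cons_val,
    cons_val_fin_one, Matrix.sub_apply, Matrix.zero_apply] at h
  obtain ⟨h0, h1, h2', h3, h4, h5, h6, h7, h8, h9, h10, h11, h12, h13, h14, h15⟩ := h
  apply mul_left_cancel₀ (mul_ne_zero h2 h2)
  fin_cases i <;> fin_cases j <;> simp only [Fin.zero_eta, Fin.mk_one, Fin.reduceFinMk, cons_val_zero, cons_val_one, cons_val] <;> grind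

theorem B3_con (x y z w : Fin 6 → k) : B3 x y z * ψ (τ w) + ψ w * B3 (τ x) (τ y) (τ z) =
    Bw x w • B2 y z - Bw y w • B2 x z + Bw z w • B2 x y := by
  obtain ⟨a, b, c, d, e, f, rfl⟩ := ex6 x
  obtain ⟨a', b', c', d', e', f', rfl⟩ := ex6 y
  obtain ⟨a'', b'', c'', d'', e'', f'', rfl⟩ := ex6 z
  rw [eq16]
  simp only [B3, B2, Bw, ττ, ψ_def, τ_def, mul4, sm4, of_apply, cons_val', cons_val_zero, cons_val_one,
    cons_val, cons_val_fin_one, Matrix.sub_apply, Matrix.add_apply, Matrix.smul_apply, mul_apply,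
    Fin.sum_univ_four, smul_eq_mul]
  refine ⟨?_, ?_, ?_, ?_, ?_, ?_, ?_, ?_, ?_, ?_, ?_, ?_, ?_, ?_, ?_, ?_⟩ <;> ring

theorem B3_12 (x y z : Fin 6 → k) : B3 y x z = -B3 x y z := by
  have h1 := congrArg (· * ψ z) (ψ_anti x y)
  have h2 := congrArg (ψ z * ·) (ψ_anti' x y)
  simp only [add_mul, mul_add, smul_mul_assoc, mul_smul_comm, one_mul, mul_one, ← mul_assoc] at h1 h2
  unfold B3
  rw [eq_sub_of_add_eq' h1, eq_sub_of_add_eq h2]
  abel

theorem B3_13 (x y z : Fin 6 → k) : B3 z y x = -B3 x y z := by simp [B3]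

theorem B3_lin (x y z : Fin 6 → k) (a b c a' b' c' a'' b'' c'' : k) : ∃ d : k,
    B3 (a • x + b • y + c • z) (a' • x + b' • y + c' • z) (a'' • x + b'' • y + c'' • z) =
      d • B3 x y z := by
  have z1 : ∀ x z : Fin 6 → k, B3 x x z = 0 := fun x z => by
    simp [B3, mul_assoc (ψ z), ψ_sq, ψ_sq']
  have z2 : ∀ x z : Fin 6 → k, B3 z x x = 0 := fun x z => by rw [B3_13, z1, neg_zero]
  have z3 : ∀ x z : Fin 6 → k, B3 x z x = 0 := fun x z => sub_self _
  have l1 : ∀ x' x y z : Fin 6 → k, B3 (x + x') y z = B3 x y z + B3 x' y z := fun _ _ _ _ => by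
    simp only [B3, map_add, add_mul, mul_add]; abel
  have l2 : ∀ y' x y z : Fin 6 → k, B3 x (y + y') z = B3 x y z + B3 x y' z := fun _ _ _ _ => by
    simp only [B3, map_add, add_mul, mul_add]; abel
  have l3 : ∀ z' x y z : Fin 6 → k, B3 x y (z + z') = B3 x y z + B3 x y z' := fun _ _ _ _ => by
    simp only [B3, map_add, add_mul, mul_add]; abel
  have m : ∀ (a b c : k) (x y z : Fin 6 → k), B3 (a • x) (b • y) (c • z) = (a * b * c) • B3 x y z :=
    fun _ _ _ _ _ _ => by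
      simp only [B3, map_smul, smul_mul_assoc, mul_smul_comm]; module
  refine ⟨a * (b' * c'' - c' * b'') - b * (a' * c'' - c' * a'') + c * (a' * b'' - b' * a''), ?_⟩
  simp only [l1, l2, l3, m, z1, z2, z3]
  have e1 := B3_12 x y z
  have e2 := B3_13 x y z
  have e3 : B3 y z x = B3 x y z := by rw [B3_12, e2, neg_neg]
  have e4 : B3 x z y = -B3 x y z := by rw [B3_13, e3]
  have e5 : B3 z x y = B3 x y z := by rw [B3_12, e4, neg_neg]
  rw [e1, e2, e3, e4, e5]
  module

variable {A : M4 k} (hA : A.det = 1) (x y z : Fin 6 → k)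
include hA

theorem ψτ_L2' : Aᵀ * ψ (τ (L2 A y)) * A = ψ (τ y) := by rw [ψτ_L2, hA, one_smul]

theorem ψψ_L2 : ψ (L2 A x) * ψ (τ (L2 A y)) * A = A * (ψ x * ψ (τ y)) := by
  rw [ψ_L2, ← ψτ_L2' hA y]; simp only [mul_assoc]

theorem B2_L2 : B2 (L2 A x) (L2 A y) * A = A * B2 x y := by
  rw [B2, sub_mul, ψψ_L2 hA, ψψ_L2 hA, B2, mul_sub]

theorem B3_L2 : B3 (L2 A x) (L2 A y) (L2 A z) = A * B3 x y z * Aᵀ := by
  simp only [B3, ψ_L2, mul_sub, sub_mul]
  rw [← ψτ_L2' hA y]; simp only [mul_assoc]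

theorem B3_L2' : Aᵀ * B3 (τ (L2 A x)) (τ (L2 A y)) (τ (L2 A z)) * A = B3 (τ x) (τ y) (τ z) := by
  simp only [B3, ττ, ψ_L2, mul_sub, sub_mul]
  rw [← ψτ_L2' hA x, ← ψτ_L2' hA z]; simp only [mul_assoc]

end Irr

section Irr2
variable {P : Type*} [Group P] {ρ : P →* M4 k}

theorem rho_inv (g : P) : ρ g * ρ g⁻¹ = 1 ∧ ρ g⁻¹ * ρ g = 1 := by
  simp [← map_mul]

/-- Schur -/
theorem schur [IsAlgClosed k]
    (irr : ∀ X : Submodule k (Fin 4 → k), (∀ g, ∀ x ∈ X, ρ g *ᵥ x ∈ X) → X = ⊥ ∨ X = ⊤) {M : M4 k}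
    (h : ∀ g, ρ g * M = M * ρ g) : ∃ c : k, M = c • 1 := by
  obtain ⟨c, hc⟩ := Module.End.exists_eigenvalue M.mulVecLin
  refine ⟨c, ?_⟩
  rcases irr (Module.End.eigenspace M.mulVecLin c) (fun x v hv => by
    rw [Module.End.mem_eigenspace_iff, mulVecLin_apply] at hv ⊢
    rw [mulVec_mulVec, ← h, ← mulVec_mulVec, hv, mulVec_smul]) with e | e
  · exact absurd e hc
  · ext i j
    have := Module.End.mem_eigenspace_iff.1 (e.ge (Submodule.mem_top (x := Pi.single j 1)))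
    simpa [one_apply, Pi.single_apply] using congrFun this i

theorem irrW_of [IsAlgClosed k] (h2 : (2 : k) ≠ 0) (det : ∀ g, (ρ g).det = 1)
    (perf : commutator P = ⊤)
    (irr : ∀ X : Submodule k (Fin 4 → k), (∀ g, ∀ x ∈ X, ρ g *ᵥ x ∈ X) → X = ⊥ ∨ X = ⊤)
    (nb : ∀ J : M4 k, (∀ g, (ρ g)ᵀ * J * ρ g = J) → J = 0) (X : Submodule k (Fin 6 → k))
    (hX : ∀ g, ∀ x ∈ X, L2 (ρ g) x ∈ X) : X = ⊥ ∨ X = ⊤ := by
  have n1 : ∀ J : M4 k, (∀ g, ∃ c : k, (ρ g)ᵀ * J * ρ g = c • J) → J = 0 := fun J h =>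
    nb J fun g => by
      simpa using eig_fix (k := k) perf (fun g M => (ρ g⁻¹)ᵀ * M * ρ g⁻¹) (by simp)
        (by simp [mul_assoc]) (by simp) (fun g => h g⁻¹) g⁻¹
  have n2 : ∀ J : M4 k, (∀ g, ∃ c : k, ρ g * J * (ρ g)ᵀ = c • J) → J = 0 := fun J h => by
    have e := eig_fix (k := k) perf (fun g M => ρ g * M * (ρ g)ᵀ) (by simp)
      (by simp [mul_assoc]) (by simp) h
    rcases irr (LinearMap.range J.mulVecLin) (by
      rintro g _ ⟨v, rfl⟩
      refine ⟨(ρ g⁻¹)ᵀ *ᵥ v, ?_⟩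
      conv_lhs => rw [← e g]
      simp only [mulVecLin_apply, mulVec_mulVec, mul_assoc]
      rw [← transpose_mul, (rho_inv g).2, transpose_one, mul_one]) with f | f
    · exact toLin'.map_eq_zero_iff.1 (LinearMap.range_eq_bot.1 f)
    · have u : IsUnit J := mulVec_surjective_iff_isUnit.1 (LinearMap.range_eq_top.1 f)
      obtain ⟨J', j1, j2⟩ := exists_inv ((isUnit_iff_isUnit_det J).1 u).ne_zero
      have := nb J' fun g => by
        have : (ρ g)ᵀ * J' * ρ g * J = 1 := by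
          have : ρ g * J = J * (ρ g⁻¹)ᵀ := by
            conv_rhs => rw [← e g, mul_assoc, ← transpose_mul, (rho_inv g).2, transpose_one, mul_one]
          rw [mul_assoc, this, mul_assoc, ← mul_assoc J', j2, one_mul, ← transpose_mul,
            (rho_inv g).2, transpose_one]
        rw [← mul_one (_ * ρ g), ← j1, ← mul_assoc, this, one_mul]
      simp [this] at j1
  have n3 : ∀ x y, (∀ g, ∃ c : k, B2 (L2 (ρ g) x) (L2 (ρ g) y) = c • B2 x y) → B2 x y = 0 :=
    fun x y h => by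
      have e : ∀ g, ρ g * B2 x y * ρ g⁻¹ = B2 (L2 (ρ g) x) (L2 (ρ g) y) := fun g => by
        rw [← B2_L2 (det g), mul_assoc, (rho_inv g).1, mul_one]
      have e' := eig_fix (k := k) perf (fun g M => ρ g * M * ρ g⁻¹) (by simp)
        (by simp [mul_assoc]) (by simp) (w := B2 x y) (by simpa only [e] using h)
      obtain ⟨c, hc⟩ := schur irr (M := B2 x y) fun g => by
        conv_rhs => rw [← e' g]
        simp only [mul_assoc, (rho_inv g).2, mul_one]
      have := B2_tr x y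
      rw [hc] at this ⊢
      have h4 : (2 * 2) * c = 0 := by
        rw [trace_smul, trace_one] at this
        simp only [Fintype.card_fin, Nat.cast_ofNat, smul_eq_mul] at this
        linear_combination this
      rw [(mul_eq_zero.1 h4).resolve_left (mul_ne_zero h2 h2), zero_smul]
  have dep : ∀ x y : Fin 6 → k, B2 x y = 0 → ∀ i, (-y i) • x + x i • y = 0 := fun x y h i => by
    ext j; simp; linear_combination B2_zero h2 h i j
  have key : ∀ X : Submodule k (Fin 6 → k), (∀ g, ∀ x ∈ X, L2 (ρ g) x ∈ X) →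
      Module.finrank k X ≤ 3 → X = ⊥ := fun X hX hd => by
    by_contra h0
    have h1 := Submodule.finrank_eq_zero.not.2 h0
    obtain ⟨n, hn⟩ : ∃ n, Module.finrank k X = n := ⟨_, rfl⟩
    have b := Module.finBasisOfFinrankEq k X hn
    have sp : ∀ g i, ∃ c : Fin n → k, L2 (ρ g) (b i) = ∑ j, c j • (b j).1 := fun g i =>
      ⟨b.repr ⟨_, hX g _ (b i).2⟩, by
        simpa only [Submodule.coe_sum, Submodule.coe_smul] using
          (congrArg Subtype.val (b.sum_repr ⟨_, hX g _ (b i).2⟩)).symm⟩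
    have li : ∀ c : Fin n → k, ∑ j, c j • (b j).1 = 0 → ∀ j, c j = 0 := fun c hc =>
      Fintype.linearIndependent_iff.1 b.linearIndependent c (Subtype.ext (by simpa using hc))
    rcases (by omega : n = 1 ∨ n = 2 ∨ n = 3) with rfl | rfl | rfl
    · refine b.ne_zero 0 (Subtype.ext (ψ_inj ((n2 _ fun g => ?_).trans (by simp))))
      obtain ⟨c, hc⟩ := sp g 0
      exact ⟨c 0, by rw [← ψ_L2, hc]; simp⟩
    · refine b.ne_zero 0 (Subtype.ext (funext fun i => li ![-(b 1).1 i, (b 0).1 i] ?_ 1))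
      rw [Fin.sum_univ_two]
      refine dep _ _ (n3 _ _ fun g => ?_) i
      obtain ⟨c, hc⟩ := sp g 0
      obtain ⟨d, hd⟩ := sp g 1
      exact ⟨_, by rw [hc, hd, Fin.sum_univ_two, Fin.sum_univ_two, B2_lin]⟩
    · have t1 : B3 (b 0).1 (b 1).1 (b 2).1 = 0 := n2 _ fun g => by
        obtain ⟨c, hc⟩ := sp g 0
        obtain ⟨d, hd⟩ := sp g 1
        obtain ⟨e, he⟩ := sp g 2
        rw [← B3_L2 (det g), hc, hd, he]
        simp only [Fin.sum_univ_three]
        exact B3_lin ..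
      have t2 : B3 (τ (b 0).1) (τ (b 1).1) (τ (b 2).1) = 0 := n1 _ fun g => by
        obtain ⟨c, hc⟩ := sp g⁻¹ 0
        obtain ⟨d, hd⟩ := sp g⁻¹ 1
        obtain ⟨e, he⟩ := sp g⁻¹ 2
        have := B3_L2' (det g) (L2 (ρ g⁻¹) (b 0)) (L2 (ρ g⁻¹) (b 1)) (L2 (ρ g⁻¹) (b 2))
        simp only [← L2_mul, (rho_inv g).1, L2_one] at this
        rw [this, hc, hd, he]
        simp only [Fin.sum_univ_three, map_add, map_smul]
        exact B3_lin ..
      have t3 : B2 (b 0).1 (b 1).1 = 0 := by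
        ext r s
        refine li ![B2 (b 1).1 (b 2).1 r s, -B2 (b 0).1 (b 2).1 r s,
          B2 (b 0).1 (b 1).1 r s] (Bw_nd fun w => ?_) 2
        have := congrFun (congrFun (B3_con (b 0).1 (b 1).1 (b 2).1 w) r) s
        rw [t1, t2] at this
        simp only [Fin.sum_univ_three, add_Bw, smul_Bw, cons_val_zero, cons_val_one, cons_val, zero_mul,
          mul_zero, add_zero, Matrix.add_apply, Matrix.sub_apply, Matrix.smul_apply, smul_eq_mul,
          Matrix.zero_apply] at this ⊢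
        linear_combination -this
      refine b.ne_zero 0 (Subtype.ext (funext fun i => li ![-(b 1).1 i, (b 0).1 i, 0] ?_ 1))
      simpa [Fin.sum_univ_three] using dep _ _ t3 i
  by_cases hd : Module.finrank k X ≤ 3
  · exact .inl (key X hX hd)
  let B : LinearMap.BilinForm k (Fin 6 → k) := LinearMap.mk₂ k Bw add_Bw smul_Bw Bw_add Bw_smul
  have nd : B.Nondegenerate := ⟨fun x h => Bw_nd h, fun x h => Bw_nd fun y => Bw_comm y x ▸ h y⟩
  have := LinearMap.BilinForm.finrank_orthogonal nd X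
  have e := key (B.orthogonal X) (fun g x hx y hy => by
    have := hx _ (hX g⁻¹ y hy)
    change Bw _ _ = 0 at this ⊢
    rw [← this, ← one_mul (Bw (L2 _ y) x), ← det g, ← Bw_L2, ← L2_mul, (rho_inv g).1, L2_one])
    (by simp at this; omega)
  refine .inr (Submodule.eq_top_of_finrank_eq ?_)
  have h' := Submodule.finrank_le X
  rw [e, finrank_bot] at this
  omega

end Irr2

end Cfsg.Agent.L4.G
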