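import Cfsg.Agent.L4.Rb3

/-!
Traces in characteristic `p`, cyclically permuted eigenvectors, classes of even permutations of
degree seven.
-/

set_option autoImplicit false

namespace Cfsg.Agent.L4.GA

open Matrix Polynomial Equiv Equiv.Perm Cfsg.Agent.L4.H

theorem charpoly_pow_char {n k : Type*} [Fintype n] [DecidableEq n] [Field k] (p : ℕ)
    [hp : Fact p.Prime] [CharP k p] (M : Matrix n n k) :
    (M ^ p).charpoly = M.charpoly.map (frobenius k p) := by
  cases (isEmpty_or_nonempty n).symm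
  · apply expand_injective hp.out.pos
    rw [← map_expand, map_frobenius_expand]
    unfold charpoly
    rw [AlgHom.map_det, ← coe_detMonoidHom, ← (detMonoidHom : Matrix n n k[X] →* k[X]).map_pow]
    apply congr_arg det
    refine matPolyEquiv.injective ?_
    rw [map_pow, matPolyEquiv_charmatrix, sub_pow_char_of_commute, ← C_pow]
    · exact (id (matPolyEquiv_eq_X_pow_sub_C p M) :)
    · exact (C M).commute_X
  · simp [charpoly]

theorem trace_pow_char {n k : Type*} [Fintype n] [DecidableEq n] [Field k] (p : ℕ)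
    [Fact p.Prime] [CharP k p] (M : Matrix n n k) : (M ^ p).trace = M.trace ^ p := by
  cases isEmpty_or_nonempty n
  · simp [trace, (Fact.out : p.Prime).ne_zero]
  rw [trace_eq_neg_charpoly_coeff, trace_eq_neg_charpoly_coeff, charpoly_pow_char, coeff_map,
    ← map_neg, frobenius_def]

variable {k : Type*} [Field k]

theorem ex_eig [IsAlgClosed k] (B : Mt k) {W : Submodule k (Vc k)} (h0 : W ≠ ⊥)
    (hW : ∀ v ∈ W, B *ᵥ v ∈ W) : ∃ μ : k, ∃ v ∈ W, v ≠ 0 ∧ B *ᵥ v = μ • v := by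
  have := Submodule.nontrivial_iff_ne_bot.2 h0
  obtain ⟨μ, hμ⟩ := Module.End.exists_eigenvalue (B.mulVecLin.restrict (p := W) (q := W) hW)
  obtain ⟨v, hv⟩ := hμ.exists_hasEigenvector
  exact ⟨μ, v, v.2, fun e => hv.2 (Subtype.ext e), congrArg Subtype.val hv.apply_eq_smul⟩

theorem ex_eig_ne [IsAlgClosed k] {A : Mt k} {n : ℕ} (hn : (n : k) ≠ 0) (h : A ^ n = 1)
    (h1 : A ≠ 1) : ∃ (μ : k) (v : Vc k), μ ≠ 1 ∧ v ≠ 0 ∧ A *ᵥ v = μ • v := by
  obtain ⟨μ, _, ⟨u, rfl⟩, h2, h3⟩ := ex_eig A (W := LinearMap.range (A - 1).mulVecLin) (fun e => h1 (by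
    rw [LinearMap.range_eq_bot] at e
    exact sub_eq_zero.1 (toLin'.injective (e.trans (map_zero _).symm)))) (by
      rintro _ ⟨u, rfl⟩
      exact ⟨A *ᵥ u, by simp [mulVec_sub]⟩)
  refine ⟨μ, _, ?_, h2, h3⟩
  rintro rfl
  simp only [mulVecLin_apply, sub_mulVec, one_mulVec, one_smul] at h2 h3
  have : ∀ m : ℕ, A ^ m *ᵥ u = u + (m : k) • (A *ᵥ u - u) := fun m => by
    induction m with
    | zero => simp
    | succ m ih =>
      rw [pow_succ', ← mulVec_mulVec, ih, mulVec_add, mulVec_smul, h3]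
      push_cast
      module
  simpa [h, hn, h2] using this n

theorem eig_pow {A : Mt k} {μ : k} {v : Vc k} (h : A *ᵥ v = μ • v) (n : ℕ) :
    A ^ n *ᵥ v = μ ^ n • v := by
  induction n with
  | zero => simp
  | succ n ih => rw [pow_succ', ← mulVec_mulVec, ih, mulVec_smul, h, smul_smul, pow_succ]

theorem eig_one {A : Mt k} {μ : k} {v : Vc k} (h : A *ᵥ v = μ • v) (h0 : v ≠ 0) {n : ℕ}
    (e : A ^ n = 1) : μ ^ n = 1 := by
  have := eig_pow h n
  rw [e, one_mulVec] at this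
  exact smul_left_injective k h0 (this.symm.trans (one_smul _ _).symm)

theorem cyc {A T : Mt k} {v : Vc k} {c : k} {μ : Fin 4 → k} (hμ : Function.Injective μ) (h0 : v ≠ 0)
    (hd : A.det = 1) (hc : A ^ 4 = c • 1)
    (he : ∀ i : Fin 4, T *ᵥ (A ^ i.1 *ᵥ v) = μ i • (A ^ i.1 *ᵥ v)) :
    A.trace = 0 ∧ (A ^ 2).trace = 0 ∧ (A ^ 3).trace = 0 ∧ A ^ 4 = -1 := by
  have li := Fintype.linearIndependent_iff.1 (Module.End.eigenvectors_linearIndependent'
    T.mulVecLin μ hμ (fun i => A ^ i.1 *ᵥ v) fun i => ⟨Module.End.mem_eigenspace_iff.2 (he i),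
      mulVec_ne_zero (by simp [hd]) h0⟩)
  obtain ⟨B', hB⟩ := cols_inv (u := v) (v := A *ᵥ v) (w := A ^ 2 *ᵥ v) (z := A ^ 3 *ᵥ v)
    fun a b c d e => by
      have := li ![a, b, c, d] (by simpa [Fin.sum_univ_four] using e)
      exact ⟨this 0, this 1, this 2, this 3⟩
  generalize hB0 : cols v (A *ᵥ v) (A ^ 2 *ᵥ v) (A ^ 3 *ᵥ v) = B at hB
  have e : A * B = B * !![0, 0, 0, c; 1, 0, 0, 0; 0, 1, 0, 0; 0, 0, 1, 0] :=
    toLin'.injective (LinearMap.ext fun x => by
      obtain ⟨a, b, d, f, rfl⟩ := ex4 x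
      simp only [toLin'_apply, ← mulVec_mulVec, mv4, ← hB0, cols_mulVec, mulVec_add, mulVec_smul]
      simp only [mulVec_mulVec, ← pow_succ', ← sq, hc, smul_mulVec, one_mulVec]
      module)
  have e' : ∀ n : ℕ, A ^ n = B * !![0, 0, 0, c; 1, 0, 0, 0; 0, 1, 0, 0; 0, 0, 1, 0] ^ n * B' :=
    fun n => by
    induction n with
    | zero => simp [hB]
    | succ n ih => rw [pow_succ', ih, ← mul_assoc, ← mul_assoc, e, pow_succ', mul_assoc B]
  have t : ∀ n : ℕ, (A ^ n).trace = (!![0, 0, 0, c; 1, 0, 0, 0; 0, 1, 0, 0; 0, 0, 1, 0] ^ n).trace :=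
    fun n => by rw [e', trace_mul_cycle, mul_eq_one_comm.1 hB, one_mul]
  have d := congrArg det e
  rw [det_mul, det_mul, hd, dm4, mul_comm] at d
  have d := mul_left_cancel₀ (det_of_mul hB).1 d
  refine ⟨by simpa [trace, Fin.sum_univ_four] using t 1, ?_, ?_, ?_⟩
  · rw [t, sq, mul4]; simp [trace, Fin.sum_univ_four]
  · rw [t, pow_three, mul4, mul4]; simp [trace, Fin.sum_univ_four]
  · rw [hc, show c = -1 by linear_combination d, neg_smul, one_smul]

theorem ms7 (m : Multiset ℕ) (h1 : m.sum ≤ 7) (h2 : ∀ x ∈ m, 2 ≤ x) (h3 : Even (m.sum + m.card)) :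
    m ∈ ([0, {2, 2}, {3}, {3, 3}, {4, 2}, {5}, {3, 2, 2}, {7}] : List (Multiset ℕ)) := by
  have := Multiset.card_nsmul_le_sum h2
  rw [smul_eq_mul] at this
  obtain e | e | e | e : m.card = 0 ∨ m.card = 1 ∨ m.card = 2 ∨ m.card = 3 := by omega
  · rw [Multiset.card_eq_zero.1 e]; simp
  · obtain ⟨a, rfl⟩ := Multiset.card_eq_one.1 e
    simp only [Multiset.sum_singleton, Multiset.mem_singleton, forall_eq] at h1 h2
    revert h3
    interval_cases a <;> decide
  · obtain ⟨a, b, rfl⟩ := Multiset.card_eq_two.1 e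
    simp at h1 h2
    obtain ⟨ha, hb⟩ := h2
    have : a ≤ 5 := by omega
    have : b ≤ 7 - a := by omega
    revert h3
    interval_cases a <;> interval_cases b <;> decide
  · obtain ⟨a, b, c, rfl⟩ := Multiset.card_eq_three.1 e
    simp at h1 h2
    obtain ⟨ha, hb, hc⟩ := h2
    have : a ≤ 3 := by omega
    have : b ≤ 5 - a := by omega
    have : c ≤ 7 - a - b := by omega
    revert h3
    interval_cases a <;> interval_cases b <;> interval_cases c <;> decide

/-- An even permutation of order four. -/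
def r4 : Perm (Fin 7) := c[0, 1, 2, 3] * swap 4 5

theorem cls (σ : Perm (Fin 7)) (h : sign σ = 1) : ∃ τ, τ * σ * τ⁻¹ ∈ [1, r4 ^ 2, c[0, 2, 4],
    c[0, 2, 4] * c[1, 3, 5], r4, c[6, 0, 1, 3, 2], r4 ^ 2 * c[4, 5, 6], c[0, 1, 2, 3, 4, 5, 6]] := by
  have := ms7 σ.cycleType (by simpa using σ.sum_cycleType_le) (fun _ => two_le_of_mem_cycleType) (by
    rwa [sign_of_cycleType, neg_one_pow_eq_one_iff_even (by decide)] at h)
  rw [show ([0, {2, 2}, {3}, {3, 3}, {4, 2}, {5}, {3, 2, 2}, {7}] : List (Multiset ℕ)) =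
    ([1, r4 ^ 2, c[0, 2, 4], c[0, 2, 4] * c[1, 3, 5], r4, c[6, 0, 1, 3, 2], r4 ^ 2 * c[4, 5, 6],
      c[0, 1, 2, 3, 4, 5, 6]] : List (Perm (Fin 7))).map cycleType by decide +kernel] at this
  obtain ⟨r, h1, h2⟩ := List.mem_map.1 this
  obtain ⟨τ, rfl⟩ := isConj_iff.1 (isConj_iff_cycleType_eq.2 h2.symm)
  exact ⟨τ, h1⟩

end Cfsg.Agent.L4.GA
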