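import Cfsg.Agent.L4.GA0

/-!
The traces of the four-dimensional representations of the double cover of `A₇`.
-/

set_option autoImplicit false

namespace Cfsg.Agent.L4.GA

open Matrix Equiv Equiv.Perm Cfsg.Agent.L4.H Cfsg.Agent.L4.R Cfsg.Agent.L4.Rb Subgroup

variable {k : Type*} [Field k] {P : Type*} [Group P] {ρ : P →* M4 k}

/-- A linear group which is the alternating group modulo a sign. -/
structure Sg (ρ : P →* M4 k) (π : P →* Perm (Fin 7)) : Prop where
  det : ∀ g, (ρ g).det = 1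
  ker : ∀ x, π x = 1 → ∃ s : k, s * s = 1 ∧ ρ x = s • 1
  inj : ∀ x, ρ x = 1 → π x = 1
  sur : ∀ σ, sign σ = 1 → ∃ x, π x = σ

/-- The required property of the traces. -/
def Tr (p : ℕ) (a b : k) : Prop :=
  (p % 7 = 1 ∨ p % 7 = 2 ∨ p % 7 = 4 → a ^ p = a) ∧
    (p % 7 = 3 ∨ p % 7 = 5 ∨ p % 7 = 6 ∨ p = 7 → b = a ^ p)

theorem anti (h2 : (2 : k) ≠ 0) {A B : Mt k} (hB : B.det ≠ 0) (e : B * A = -(A * B)) :
    A.trace = 0 := by
  obtain ⟨B', h1, h3⟩ := exists_inv hB
  have : A.trace = -A.trace := by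
    calc A.trace = (B * A * B').trace := by rw [trace_mul_cycle, h3, one_mul]
      _ = _ := by rw [e, neg_mul, mul_assoc, h1, mul_one, trace_neg]
  exact mul_left_cancel₀ h2 (by linear_combination this)

theorem cast_ne (p : ℕ) [hp : Fact p.Prime] [CharP k p] {n : ℕ} (hn : n.Prime) (h : p ≠ n) :
    (n : k) ≠ 0 := fun e =>
  h ((Nat.prime_dvd_prime_iff_eq hp.out hn).1 ((CharP.cast_eq_zero_iff k p n).1 e))

namespace Sg

variable {π : P →* Perm (Fin 7)} (h : Sg ρ π)
include h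

theorem conj (τ : Perm (Fin 7)) : Sg ρ ((MulAut.conj τ).toMonoidHom.comp π) where
  det := h.det
  ker x e := h.ker x (by simpa using e)
  inj x e := by simp [h.inj x e]
  sur σ e := (h.sur (τ⁻¹ * σ * τ) (by simp [e])).imp fun x hx => by simp [hx, mul_assoc]

theorem pm {x y : P} (e : π x = π y) : ∃ s : k, s * s = 1 ∧ ρ x = s • ρ y := by
  obtain ⟨s, s2, hs⟩ := h.ker (x * y⁻¹) (by simp [e])
  exact ⟨s, s2, by rw [← inv_mul_cancel_right x y, map_mul, hs, smul_mul_assoc, one_mul]⟩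

theorem uniq {x y : P} (e : π x = π y) {n : ℕ} (hn : Odd n) (hx : ρ x ^ n = 1) (hy : ρ y ^ n = 1) :
    ρ x = ρ y := by
  obtain ⟨s, s2, hs⟩ := h.pm e
  obtain ⟨m, rfl⟩ := hn
  rw [hs, smul_pow, hy, pow_succ, pow_mul, sq, s2, one_pow, one_mul] at hx
  rw [hs, smul_cancel (by simp) (hx.trans (one_smul k _).symm), one_smul]

theorem odd_lift {g : P} {n : ℕ} (hn : Odd n) (e : π g ^ n = 1) :
    ∃ x, π x = π g ∧ ρ x ^ n = 1 := by
  obtain ⟨s, s2, hs⟩ := h.ker (g ^ n) (by rw [map_pow, e])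
  obtain ⟨m, hm⟩ := hn.add_one
  refine ⟨g ^ (n + 1), by rw [map_pow, pow_succ, e, one_mul], ?_⟩
  rw [← map_pow, ← pow_mul, mul_comm, pow_mul, map_pow, hs, smul_pow, hm, pow_add, ← mul_pow, s2]
  simp

theorem lift (σ : Perm (Fin 7)) (hs : sign σ = 1) {n : ℕ} (hn : Odd n) (e : σ ^ n = 1) :
    ∃ x, π x = σ ∧ ρ x ^ n = 1 := by
  obtain ⟨g, rfl⟩ := h.sur σ hs
  exact h.odd_lift hn e

theorem rel {x y z : P} (e : π z * π x = π y * π z) {n : ℕ} (hn : Odd n) (hx : ρ x ^ n = 1)
    (hy : ρ y ^ n = 1) : ρ z * ρ x = ρ y * ρ z := by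
  rw [← h.uniq (x := z * x * z⁻¹) (by simp [e]) hn (by
    rw [← map_pow, conj_pow, map_mul, map_mul, map_pow, hx, mul_one, ← map_mul, mul_inv_cancel,
      map_one]) hy, ← map_mul, ← map_mul, inv_mul_cancel_right]

theorem odd_case (p : ℕ) [hp : Fact p.Prime] [CharP k p] (h2 : p ≠ 2) {g : P} {n : ℕ}
    (hn : n = 3 ∨ n = 5 ∨ n = 7) (e : π g ^ n = 1) (y : Perm (Fin 7)) (hy : sign y = 1)
    (e' : y * π g = π g ^ 2 * y) : Tr p (ρ g).trace (ρ g⁻¹).trace := by
  have on : Odd n := by rcases hn with rfl | rfl | rfl <;> decide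
  obtain ⟨x, x1, x2⟩ := h.odd_lift on e
  obtain ⟨y, rfl⟩ := h.sur y hy
  have r := h.rel (x := x) (y := x ^ 2) (z := y) (by rw [map_pow, x1, e']) on x2 (by
    rw [map_pow, ← pow_mul, mul_comm, pow_mul, x2, one_pow])
  let f : ℕ → k := fun m => (ρ x ^ m).trace
  have f2 : ∀ m, f (2 * m) = f m := fun m => by
    have : ρ x ^ (2 * m) = ρ y * ρ x ^ m * ρ y⁻¹ := by
      rw [(SemiconjBy.pow_right r m).eq, mul_assoc, ← map_mul, mul_inv_cancel, map_one, mul_one,
        map_pow, pow_mul]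
    simp only [f]
    rw [this, trace_mul_cycle, ← map_mul, inv_mul_cancel, map_one, one_mul]
  have fm : ∀ m, f m = f (m % n) := fun m => congrArg trace (pow_eq_pow_mod m x2)
  have f4 : p = n → ∀ m, f m = 4 := fun e m => frobenius_inj k p (by
    rw [frobenius_def, ← trace_pow_char, ← pow_mul, mul_comm, pow_mul, show ρ x ^ p = 1 from e ▸ x2,
      one_pow, map_ofNat]
    simp)
  obtain ⟨s, s2, hs⟩ := h.pm x1.symm
  have sp : s ^ p = s := by
    obtain ⟨m, hm⟩ := hp.out.odd_of_ne_two h2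
    rw [hm, pow_succ, pow_mul, sq, s2, one_pow, one_mul]
  have t1 : (ρ g).trace = s * f 1 := by simp [f, hs]
  have t2 : (ρ g).trace ^ p = s * f p := by
    rw [t1, mul_pow, sp]; simp [f, trace_pow_char]
  have t3 : (ρ g⁻¹).trace = s * f (n - 1) := by
    have : ρ g⁻¹ = s • ρ x ^ (n - 1) := cancel_left (A := ρ g) (by simp [h.det]) (by
      rw [← map_mul, mul_inv_cancel, map_one, hs, smul_mul_smul_comm, s2, one_smul, ← pow_succ',
        Nat.sub_add_cancel on.pos, x2])
    simp [f, this]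
  rw [Tr, t2, t1, t3]
  by_cases hpn : p = n
  · simp only [f4 hpn, implies_true, and_self]
  have n0 : p % n ≠ 0 := fun e => hpn ((Nat.prime_dvd_prime_iff_eq (by
    rcases hn with rfl | rfl | rfl <;> norm_num) hp.out).1 (Nat.dvd_of_mod_eq_zero e)).symm
  have a1 : f 2 = f 1 := f2 1
  have a2 : f 4 = f 2 := f2 2
  have a3 : f 6 = f 3 := f2 3
  rw [fm p]
  rcases hn with rfl | rfl | rfl
  · obtain e | e : p % 3 = 1 ∨ p % 3 = 2 := by omega
    all_goals simp [e, a1]
  · have a4 : f 3 = f 4 := (fm 8).symm.trans (f2 4)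
    obtain e | e | e | e : p % 5 = 1 ∨ p % 5 = 2 ∨ p % 5 = 3 ∨ p % 5 = 4 := by omega
    all_goals simp [e, a1, a2, a4]
  · have a4 : f 5 = f 6 := (fm 12).symm.trans (f2 6)
    refine ⟨?_, ?_⟩
    · rintro (e | e | e) <;> simp [e, a1, a2]
    · rintro (e | e | e | e)
      all_goals first | exact absurd e hpn | simp [e, a3, a4]

theorem four [IsAlgClosed k] (p : ℕ) [hp : Fact p.Prime] [CharP k p] {x : P} (hx : π x = r4) :
    (ρ x).trace = 0 ∧ (ρ x ^ 2).trace = 0 ∧ (ρ x ^ 3).trace = 0 ∧ ρ x ^ 4 = -1 := by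
  obtain ⟨c, -, hc⟩ := h.ker (x ^ 4) (by rw [map_pow, hx]; decide +kernel)
  rw [map_pow] at hc
  by_cases h5 : p = 5
  · subst h5
    obtain ⟨a, a1, a3⟩ := h.lift c[0, 2, 4] (by decide +kernel) (n := 3) (by decide +kernel) (by decide +kernel)
    obtain ⟨b, b1, b3⟩ := h.lift c[1, 3, 5] (by decide +kernel) (n := 3) (by decide +kernel) (by decide +kernel)
    have r1 := h.rel (x := a) (y := b) (z := x) (by rw [a1, b1, hx]; decide +kernel) (by decide +kernel) a3 b3
    have r2 := h.rel (x := b ^ 2) (y := a) (z := x) (by rw [map_pow, a1, b1, hx]; decide +kernel)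
      (by decide +kernel) (by rw [map_pow, ← pow_mul, mul_comm, pow_mul, b3, one_pow]) a3
    have r3 := h.rel (x := a) (y := a) (z := b) (by rw [a1, b1]; decide +kernel) (by decide +kernel) a3 a3
    obtain ⟨l, w, l1, w0, hw⟩ := ex_eig_ne (cast_ne 5 Nat.prime_three (by omega)) a3 fun e => by
      have := h.inj a e
      rw [a1] at this
      exact absurd this (by decide +kernel)
    obtain ⟨m, v, hv, v0, hm⟩ := ex_eig (ρ b) (W := Module.End.eigenspace (ρ a).mulVecLin l)
      ((Submodule.ne_bot_iff _).2 ⟨w, Module.End.mem_eigenspace_iff.2 hw, w0⟩) fun v hv => by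
        rw [Module.End.mem_eigenspace_iff, mulVecLin_apply] at hv ⊢
        rw [mulVec_mulVec, ← r3, ← mulVec_mulVec, hv, mulVec_smul]
    rw [Module.End.mem_eigenspace_iff, mulVecLin_apply] at hv
    have st : ∀ {l m : k} {v : Vc k}, ρ a *ᵥ v = l • v ∧ ρ b *ᵥ v = m • v →
        ρ a *ᵥ (ρ x *ᵥ v) = m ^ 2 • (ρ x *ᵥ v) ∧ ρ b *ᵥ (ρ x *ᵥ v) = l • (ρ x *ᵥ v) := fun e =>
      ⟨by rw [mulVec_mulVec, ← r2, ← mulVec_mulVec, map_pow, eig_pow e.2, mulVec_smul],
        by rw [mulVec_mulVec, ← r1, ← mulVec_mulVec, e.1, mulVec_smul]⟩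
    have s1 := st ⟨hv, hm⟩
    have s2 := st s1
    have s3 := st s2
    simp only [mulVec_mulVec v (ρ x), ← sq, ← pow_succ'] at s2 s3
    have l3 := eig_one hw w0 a3
    have m3 := eig_one hm v0 b3
    have l2 : l ^ 2 + l + 1 = 0 := mul_left_cancel₀ (sub_ne_zero.2 l1) (by linear_combination l3)
    have c5 : (5 : k) = 0 := CharP.cast_eq_zero k 5
    refine cyc (T := ρ a + (2 : k) • ρ b)
      (μ := ![l + 2 * m, m ^ 2 + 2 * l, l ^ 2 + 2 * m ^ 2, (m ^ 2) ^ 2 + 2 * l ^ 2]) ?_ v0 (h.det x)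
      hc fun i => ?_
    · intro i j e
      fin_cases i <;> fin_cases j <;> first | rfl | exact absurd e (by simp; grind)
    · have : ∀ {l m : k} {v : Vc k}, ρ a *ᵥ v = l • v ∧ ρ b *ᵥ v = m • v →
          (ρ a + (2 : k) • ρ b) *ᵥ v = (l + 2 * m) • v := fun e => by
        rw [add_mulVec, smul_mulVec, e.1, e.2, add_smul, smul_smul]
      fin_cases i
      exacts [by simpa using this ⟨hv, hm⟩, (pow_one (ρ x)).symm ▸ this s1, this s2, this s3]
  · obtain ⟨a, a1, a5⟩ := h.lift c[6, 0, 1, 3, 2] (by decide +kernel) (n := 5) (by decide +kernel) (by decide +kernel)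
    have r := h.rel (x := a ^ 3) (y := a) (z := x) (by rw [map_pow, a1, hx]; decide +kernel)
      (by decide +kernel) (by rw [map_pow, ← pow_mul, mul_comm, pow_mul, a5, one_pow]) a5
    obtain ⟨l, v, l1, v0, hv⟩ := ex_eig_ne (cast_ne p Nat.prime_five h5) a5 fun e => by
      have := h.inj a e
      rw [a1] at this
      exact absurd this (by decide +kernel)
    have l5 := eig_one hv v0 a5
    have := Fact.mk Nat.prime_five
    have pr : IsPrimitiveRoot l 5 := orderOf_eq_prime l5 l1 ▸ IsPrimitiveRoot.orderOf l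
    refine cyc (T := ρ a) (μ := fun i => l ^ 3 ^ i.1) (fun i j e => ?_) v0 (h.det x) hc fun i => ?_
    · simp only [] at e
      rw [pow_eq_pow_mod _ l5, pow_eq_pow_mod (3 ^ j.1) l5] at e
      have := pr.pow_inj (Nat.mod_lt _ (by omega)) (Nat.mod_lt _ (by omega)) e
      clear e
      revert this i j
      decide
    · induction i.1 with
      | zero => simpa using hv
      | succ n ih =>
        rw [pow_succ', ← mulVec_mulVec, mulVec_mulVec _ (ρ a), ← r, ← mulVec_mulVec, map_pow,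
          eig_pow ih, mulVec_smul, ← pow_mul, ← pow_succ]

theorem all [IsAlgClosed k] (p : ℕ) [hp : Fact p.Prime] [CharP k p] (h2 : p ≠ 2) (g : P)
    (hg : sign (π g) = 1) : Tr p (ρ g).trace (ρ g⁻¹).trace := by
  obtain ⟨τ, hτ⟩ := cls _ hg
  replace h := h.conj τ
  change ((MulAut.conj τ).toMonoidHom.comp π) g ∈ _ at hτ
  generalize (MulAut.conj τ).toMonoidHom.comp π = π at h hτ
  obtain ⟨x, hx⟩ := h.sur r4 (by decide +kernel)
  obtain ⟨t1, t2, t3, t4⟩ := h.four p hx
  have z : ∀ {a b : P}, π a = π b → (ρ b).trace = 0 → (ρ a).trace = 0 := fun e e' => by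
    obtain ⟨s, -, hs⟩ := h.pm e
    rw [hs, trace_smul, e', smul_zero]
  have zz : ∀ {a b : k}, a = 0 → b = 0 → Tr p a b := by
    rintro _ _ rfl rfl
    simp [Tr, hp.out.ne_zero]
  simp only [List.mem_cons, List.not_mem_nil, or_false] at hτ
  rcases hτ with e | e | e | e | e | e | e | e
  · exact h.odd_case p h2 (n := 3) (by simp) (by simp [e]) 1 (by simp) (by simp [e])
  · exact zz (z (b := x ^ 2) (by simp [e, hx]) (by simpa using t2))
      (z (b := x ^ 2) (by rw [map_inv, map_pow, e, hx]; decide +kernel) (by simpa using t2))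
  · exact h.odd_case p h2 (n := 3) (by simp) (by rw [e]; decide +kernel) (swap 0 2 * swap 1 3) (by decide +kernel)
      (by rw [e]; decide +kernel)
  · exact h.odd_case p h2 (n := 3) (by simp) (by rw [e]; decide +kernel) (swap 0 2 * swap 1 3) (by decide +kernel)
      (by rw [e]; decide +kernel)
  · exact zz (z (b := x) (by simp [e, hx]) t1)
      (z (b := x ^ 3) (by rw [map_inv, map_pow, e, hx]; decide +kernel) (by simpa using t3))
  · exact h.odd_case p h2 (n := 5) (by simp) (by rw [e]; decide +kernel) r4 (by decide +kernel)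
      (by rw [e]; decide +kernel)
  · obtain ⟨y, hy⟩ := h.sur c[0, 1, 2] (by decide +kernel)
    obtain ⟨t, t1, t3⟩ := h.lift c[4, 5, 6] (by decide +kernel) (n := 3) (by decide +kernel) (by decide +kernel)
    have q : ∀ u a : P, π a = π (u * x ^ 2 * u⁻¹) → ρ a * ρ a = -1 := fun u a e => by
      obtain ⟨s, s2, hs⟩ := h.pm e
      rw [hs, smul_mul_smul_comm, s2, one_smul, ← map_mul, conj_mul, ← pow_add, map_mul, map_mul,
        map_pow, t4, mul_neg, neg_mul, mul_one, ← map_mul, mul_inv_cancel, map_one]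
    have q1 := q 1 (x ^ 2) (by simp)
    have q2 := q y _ rfl
    have q3 := q (y * y) (x ^ 2 * (y * x ^ 2 * y⁻¹)) (by
      simp only [map_mul, map_pow, map_inv, hx, hy]; decide +kernel)
    have r := h.rel (x := t) (y := t) (z := y * x ^ 2 * y⁻¹) (by
      simp only [map_mul, map_pow, map_inv, hx, hy, t1]; decide +kernel) (by decide +kernel) t3 t3
    have d := h.det (y * x ^ 2 * y⁻¹)
    rw [map_mul ρ (x ^ 2)] at q3
    generalize ρ (y * x ^ 2 * y⁻¹) = B at q2 q3 r d
    have an : B * ρ (x ^ 2) = -(ρ (x ^ 2) * B) := by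
      calc B * ρ (x ^ 2) = ρ (x ^ 2) * ρ (x ^ 2) * B * ρ (x ^ 2) * (B * B) := by
            rw [q1, q2]; simp
        _ = ρ (x ^ 2) * (ρ (x ^ 2) * B * (ρ (x ^ 2) * B)) * B := by simp only [mul_assoc]
        _ = _ := by rw [q3]; simp
    have k : ∀ n : ℕ, (ρ (x ^ 2 * t ^ n)).trace = 0 := fun n =>
      anti (cast_ne p Nat.prime_two h2) (d ▸ one_ne_zero) (by
        rw [map_mul, map_pow ρ t, ← mul_assoc, an, neg_mul, mul_assoc,
          (Commute.pow_right r n).eq, mul_assoc])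
    exact zz (z (by simp [e, hx, t1]) (k 1))
      (z (by simp only [map_mul, map_pow, map_inv, e, hx, t1]; decide +kernel) (k 2))
  · exact h.odd_case p h2 (n := 7) (by simp) (by rw [e]; decide +kernel) (c[1, 2, 4] * c[3, 6, 5])
      (by decide +kernel) (by rw [e]; decide +kernel)

end Sg

theorem a7_tr [Finite P] [IsAlgClosed k] {p : ℕ} [Fact p.Prime] [CharP k p] (h : Hy ρ) (hp : p ≠ 2)
    (e : (P ⧸ center P) ≃* alternatingGroup (Fin 7)) :
    (p % 7 = 1 ∨ p % 7 = 2 ∨ p % 7 = 4 → ∀ g, (ρ g).trace ^ p = (ρ g).trace) ∧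
      (p % 7 = 3 ∨ p % 7 = 5 ∨ p % 7 = 6 ∨ p = 7 → ∀ g, (ρ g⁻¹).trace = (ρ g).trace ^ p) := by
  let π : P →* alternatingGroup (Fin 7) := e.toMonoidHom.comp (QuotientGroup.mk' _)
  have hπ : Function.Surjective π := e.surjective.comp (QuotientGroup.mk'_surjective _)
  have hk : ∀ x, π x = 1 ↔ x ∈ center P := fun x =>
    e.map_eq_one_iff.trans (QuotientGroup.eq_one_iff x)
  have s : Sg ρ ((alternatingGroup (Fin 7)).subtype.comp π) := by
    refine ⟨h.det, fun z hz => ?_, fun x hx => ?_, fun σ hσ => ?_⟩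
    · have hz := (hk z).1 (Subtype.ext hz)
      obtain ⟨c, hc⟩ := (center_iff h).1 hz
      refine ⟨c, ?_, hc⟩
      let r : alternatingGroup (Fin 7) := ⟨r4, mem_alternatingGroup.2 (by decide +kernel)⟩
      let H := (zpowers r).comap π
      have hi : H.index = 630 := by
        have := (zpowers r).card_mul_index
        rw [Nat.card_zpowers, orderOf_eq_prime_pow (p := 2) (n := 1) (by decide +kernel) (by decide +kernel),
          nat_card_alternatingGroup] at this
        rw [index_comap_of_surjective _ hπ]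
        simp [Nat.factorial] at this
        omega
      have : IsMulCommutative H := ⟨⟨fun a b => by
        obtain ⟨x, hx⟩ := hπ r
        have k : ∀ a : H, ∃ (n : ℤ) (y : P), y ∈ center P ∧ a = y * x ^ n := fun a => by
          obtain ⟨n, hn⟩ := mem_zpowers_iff.1 (mem_comap.1 a.2)
          exact ⟨n, a * (x ^ n)⁻¹, (hk _).1 (by simp [hx, hn]), by simp⟩
        obtain ⟨n, y, h1, h2⟩ := k a
        obtain ⟨m, y', h3, h4⟩ := k b
        apply Subtype.ext
        rw [Subgroup.coe_mul, Subgroup.coe_mul, h2, h4, mul_assoc, mul_assoc, ← mul_assoc _ y',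
          ← mul_assoc _ y, mem_center_iff.1 h3, mem_center_iff.1 h1, mul_assoc, mul_assoc,
          zpow_mul_comm, ← mul_assoc, ← mul_assoc y', mem_center_iff.1 h3]⟩⟩
      open scoped IsMulCommutative in
      have t := MonoidHom.transfer_eq_pow (MonoidHom.id H) z fun n g _ => by
        rw [mul_assoc, ← mem_center_iff.1 (pow_mem hz n), inv_mul_cancel_left]
      open scoped IsMulCommutative in
      have t' := congrArg (fun x : H => ρ x 0 0) (t.symm.trans
        (Abelianization.commutator_subset_ker _ (h.perf.ge (mem_top z))))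
      have d := h.det z
      simp [hi, hc, smul_pow] at t' d
      rw [show 630 = 4 * 157 + 2 from rfl, pow_add, pow_mul, d, one_pow, one_mul, sq] at t'
      exact t'
    · rw [h.inj (hx.trans (map_one ρ).symm), map_one]
    · exact (hπ ⟨σ, mem_alternatingGroup.2 hσ⟩).imp fun x hx => congrArg Subtype.val hx
  have := fun g => s.all p hp g (mem_alternatingGroup.1 (π g).2)
  exact ⟨fun e g => (this g).1 e, fun e g => (this g).2 e⟩

end Cfsg.Agent.L4.GA
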