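import Cfsg.Agent.L4.G0
import Cfsg.Agent.L4.GA7

/-!
Matrices of small order in dimension four.
-/

set_option autoImplicit false
set_option linter.unusedSectionVars false

namespace Cfsg.Agent.L4.G
open Matrix Cfsg.Agent.L4.R Cfsg.Agent.L4.H Cfsg.Agent.L4.GA

variable {k : Type*} [Field k]

theorem tr_sim {A B M : M4 k} (hB : B.det ≠ 0) (h : A * B = B * M) : A.trace = M.trace := by
  obtain ⟨B', h1, h2⟩ := exists_inv hB
  rw [← mul_one A, ← h1, ← mul_assoc, h, trace_mul_cycle, h2, one_mul]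

theorem e2_sim (h2 : (2 : k) ≠ 0) {A B M : M4 k} (hB : B.det ≠ 0) (h : A * B = B * M) :
    e2 A = e2 M := by
  apply mul_left_cancel₀ h2
  rw [two_e2, two_e2, tr_sim hB h, tr_sim hB (A := A * A) (M := M * M)]
  rw [mul_assoc, h, ← mul_assoc, h, mul_assoc]

theorem e2_smul (s : k) (A : M4 k) : e2 (s • A) = s * s * e2 A := by
  simp [e2]; ring

theorem lin_zero {A : M4 k} (h : ∀ c : k, A ≠ c • 1) {a b : k} (e : a • A = b • 1) :
    a = 0 ∧ b = 0 := by
  by_cases h0 : a = 0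
  · exact ⟨h0, smul_cancel (A := 1) (by simp) (by rw [← e, h0, zero_smul, zero_smul])⟩
  · exact absurd (by rw [← inv_smul_smul₀ h0 A, e, smul_smul]) (h (a⁻¹ * b))

/-- an element whose square is a sign -/
theorem e2_inv {T : M4 k} (hd : T.det = 1) (h : ∀ c : k, T ≠ c • 1) {s : k} (s2 : s * s = 1)
    (e : T * T = s • 1) : e2 T = -2 * s := by
  obtain ⟨c, hc⟩ := ch4 T
  have e3 : T ^ 3 = s • T := by rw [pow_three, e]; simp
  have e4 : T ^ 4 = 1 := by rw [pow_succ, e3, smul_mul_assoc, e, smul_smul, s2, one_smul]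
  rw [e3, e4, sq, e, hd] at hc
  have := (lin_zero h (a := T.trace * s + c) (b := 2 + e2 T * s)
    (by linear_combination (norm := module) -hc)).2
  grind

/-- two quadratic matrices have a common invariant subspace -/
theorem two_quad [IsAlgClosed k] {T g : M4 k} {α β γ : k} (hT : T * T = γ • 1)
    (hg : g * g = α • g + β • 1) : ∃ X : Submodule k (Fin 4 → k), X ≠ ⊥ ∧ X ≠ ⊤ ∧
      (∀ x ∈ X, T *ᵥ x ∈ X) ∧ ∀ x ∈ X, g *ᵥ x ∈ X := by
  obtain ⟨c, w, -, w0, hw⟩ := ex_eig (T * g + g * T - α • T) (W := ⊤) top_ne_bot (by simp)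
  have cT : (T * g + g * T - α • T) * T = T * (T * g + g * T - α • T) := by
    simp only [add_mul, sub_mul, mul_add, mul_sub, smul_mul_assoc, mul_smul_comm, mul_assoc, hT,
      ← mul_assoc T T, mul_one, one_mul]
    abel
  obtain ⟨l, v, hv, v0, hl⟩ := ex_eig T
    (W := Module.End.eigenspace (T * g + g * T - α • T).mulVecLin c)
    (Submodule.ne_bot_iff _ |>.2 ⟨w, Module.End.mem_eigenspace_iff.2 hw, w0⟩) fun x hx => by
      rw [Module.End.mem_eigenspace_iff, mulVecLin_apply] at hx ⊢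
      rw [mulVec_mulVec, cT, ← mulVec_mulVec, hx, mulVec_smul]
  rw [Module.End.mem_eigenspace_iff, mulVecLin_apply, sub_mulVec, add_mulVec, ← mulVec_mulVec,
    ← mulVec_mulVec, smul_mulVec, hl, mulVec_smul] at hv
  refine ⟨Submodule.span k {v, g *ᵥ v}, Submodule.ne_bot_iff _ |>.2
    ⟨v, Submodule.subset_span (by simp), v0⟩, fun e => ?_, fun x hx => ?_, fun x hx => ?_⟩
  · have := finrank_range_le_card (R := k) ![v, g *ᵥ v]
    rw [Set.finrank, range_cons, range_cons, range_empty, Set.union_empty, Set.singleton_union, e] at this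
    simp at this
  · obtain ⟨a, b, rfl⟩ := Submodule.mem_span_pair.1 hx
    refine Submodule.mem_span_pair.2 ⟨a * l + b * (c + α * l), -b * l, ?_⟩
    rw [mulVec_add, mulVec_smul, mulVec_smul, hl]
    linear_combination (norm := module) (-b) • hv
  · obtain ⟨a, b, rfl⟩ := Submodule.mem_span_pair.1 hx
    refine Submodule.mem_span_pair.2 ⟨b * β, a + b * α, ?_⟩
    rw [mulVec_add, mulVec_smul, mulVec_smul, mulVec_mulVec, hg, add_mulVec, smul_mulVec,
      smul_mulVec, one_mulVec]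
    module

theorem e2_four {g : M4 k} (hd : g.det = 1) (h : ∀ c : k, g ≠ c • 1) (e : g ^ 4 = -1)
    (hq : ∀ α β : k, g * g ≠ α • g + β • 1) : e2 g = 0 := by
  obtain ⟨c, hc⟩ := ch4 g
  have : g.trace • (g * g) = e2 g • g - c • 1 := cancel_left (A := g) (by simp [hd]) (by
    rw [e, hd, pow_three, sq] at hc
    simp only [mul_smul_comm, mul_sub, mul_one]
    linear_combination (norm := module) -hc)
  by_cases h0 : g.trace = 0
  · exact (lin_zero h (b := c) (by rw [h0, zero_smul] at this; exact sub_eq_zero.1 this.symm)).1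
  · exact absurd (by rw [← inv_smul_smul₀ h0 (g * g), this]; module)
      (hq (g.trace⁻¹ * e2 g) (-g.trace⁻¹ * c))

theorem rank_inv (h2 : (2 : k) ≠ 0) {T : M4 k} (hd : T.det = 1) (h : ∀ c : k, T ≠ c • 1)
    (e : T * T = 1) : Module.finrank k (LinearMap.range (T - 1).mulVecLin) ≤ 2 := by
  have t := two_e2 T
  rw [e2_inv hd h (mul_one 1) (by simpa using e), e, trace_one] at t
  have t0 : T.trace = 0 := pow_eq_zero_iff two_ne_zero |>.1 (by
    simp only [Fintype.card_fin, Nat.cast_ofNat] at t; linear_combination -t)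
  have pr : LinearMap.IsProj (LinearMap.range (T - 1).mulVecLin)
      ((-(2 : k)⁻¹) • (T - 1)).mulVecLin := ⟨fun x => ⟨(-(2 : k)⁻¹) • x, by
      simp only [mulVecLin_apply, smul_mulVec, mulVec_smul]⟩, by
    rintro _ ⟨x, rfl⟩
    have : (-(2 : k)⁻¹) • (T - 1) * (T - 1) = T - 1 := by
      simp only [smul_mul_assoc, mul_sub, sub_mul, e, mul_one, one_mul]
      match_scalars <;> field_simp <;> ring
    simp only [mulVecLin_apply, mulVec_mulVec, this]⟩
  have := pr.trace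
  rw [← toLin'_apply', trace_toLin'_eq, trace_smul, trace_sub, t0, trace_one] at this
  have le := Submodule.finrank_le (LinearMap.range (T - 1).mulVecLin)
  simp only [Module.finrank_fin_fun] at le
  generalize Module.finrank k (LinearMap.range (T - 1).mulVecLin) = n at *
  by_contra hn
  rcases (by omega : n = 3 ∨ n = 4) with rfl | rfl <;>
    simp only [Fintype.card_fin, Nat.cast_ofNat, smul_eq_mul] at this <;> grind

theorem scott {T D : M4 k} (e : T * T = 1) {v : Fin 4 → k} (v0 : v ≠ 0) (hv : (T * D) *ᵥ v = v)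
    (r1 : Module.finrank k (LinearMap.range (T - 1).mulVecLin) ≤ 2)
    (r2 : Module.finrank k (LinearMap.range (D - 1).mulVecLin) ≤ 2)
    (irr : ∀ X : Submodule k (Fin 4 → k), (∀ x ∈ X, T *ᵥ x ∈ X) → (∀ x ∈ X, D *ᵥ x ∈ X) →
      X = ⊥ ∨ X = ⊤) : False := by
  have e1 : D *ᵥ v = T *ᵥ v := by
    conv_rhs => rw [← hv, mulVec_mulVec, ← mul_assoc, e, one_mul]
  have key : (T - 1) *ᵥ v = 0 := by
    have m : ∀ (A : M4 k) (X : Submodule k (Fin 4 → k)), LinearMap.range (A - 1).mulVecLin ≤ X →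
        ∀ x ∈ X, A *ᵥ x ∈ X := fun A X h x hx => by
      simpa [sub_mulVec] using add_mem (h ⟨x, rfl⟩) hx
    rcases irr _ (m T _ le_sup_left) (m D _ le_sup_right) with f | f
    · exact (le_sup_left.trans f.le) ⟨v, rfl⟩
    have := Submodule.finrank_sup_add_finrank_inf_eq (LinearMap.range (T - 1).mulVecLin)
      (LinearMap.range (D - 1).mulVecLin)
    rw [f, finrank_top, Module.finrank_fin_fun] at this
    exact (Submodule.finrank_eq_zero.1 (by omega : Module.finrank k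
      (LinearMap.range (T - 1).mulVecLin ⊓ LinearMap.range (D - 1).mulVecLin : Submodule k _) = 0)).le
        ⟨⟨v, rfl⟩, v, by simp [sub_mulVec, e1]⟩
  rw [sub_mulVec, one_mulVec, sub_eq_zero] at key
  have m : ∀ A : M4 k, A *ᵥ v = v → ∀ x ∈ k ∙ v, A *ᵥ x ∈ k ∙ v := fun A h x hx => by
    obtain ⟨c, rfl⟩ := Submodule.mem_span_singleton.1 hx
    rwa [mulVec_smul, h]
  rcases irr _ (m T key) (m D (e1.trans key)) with f | f
  · exact v0 (Submodule.span_singleton_eq_bot.1 f)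
  · have := finrank_span_singleton (K := k) v0
    rw [f] at this
    simp at this

/-- the Frobenius group of order `21` -/
theorem frob21 [IsAlgClosed k] (h2 : (2 : k) ≠ 0) (h7 : (7 : k) ≠ 0) {C D : M4 k} (dC : C.det = 1)
    (dD : D.det = 1) (c7 : C ^ 7 = 1) (c1 : C ≠ 1) (d3 : D ^ 3 = 1) (r : D * C = C ^ 2 * D) :
    e2 C = -1 ∧ C.trace ≠ (C ^ 6).trace ∧ (∃ v, v ≠ 0 ∧ C *ᵥ v = v) ∧ e2 D = 0 ∧
      Module.finrank k (LinearMap.range (D - 1).mulVecLin) ≤ 2 := by
  obtain ⟨ζ, v, z1, v0, hv⟩ := ex_eig_ne (by exact_mod_cast h7) c7 c1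
  have z7 := eig_one hv v0 c7
  have z6 : ζ ^ 6 + ζ ^ 5 + ζ ^ 4 + ζ ^ 3 + ζ ^ 2 + ζ + 1 = 0 :=
    mul_left_cancel₀ (sub_ne_zero.2 z1) (by linear_combination z7)
  have st : ∀ {l : k} {w}, C *ᵥ w = l • w → C *ᵥ (D *ᵥ w) = l ^ 4 • D *ᵥ w := fun hw => by
    have : C * D = D * C ^ 4 := by
      rw [(SemiconjBy.pow_right r 4).eq, ← pow_mul, show 2 * 4 = 7 + 1 from rfl, pow_succ, c7,
        one_mul]
    rw [mulVec_mulVec, this, ← mulVec_mulVec, eig_pow hw, mulVec_smul]
  have h1 := st hv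
  have h2' := st h1
  rw [show (ζ ^ 4) ^ 4 = ζ ^ 2 by linear_combination (ζ ^ 9 + ζ ^ 2) * z7] at h2'
  have h3 : D *ᵥ (D *ᵥ (D *ᵥ v)) = v := by
    rw [mulVec_mulVec, mulVec_mulVec, mul_assoc, ← pow_three, d3, one_mulVec]
  have li := Fintype.linearIndependent_iff.1 (Module.End.eigenvectors_linearIndependent'
    C.mulVecLin ![ζ, ζ ^ 4, ζ ^ 2] (fun i j e => by
      fin_cases i <;> fin_cases j <;> first | rfl | exact absurd e (by simp; grind))
    ![v, D *ᵥ v, D *ᵥ (D *ᵥ v)] fun i => by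
      have n := fun {w} => mulVec_ne_zero (A := D) (by simp [dD]) (v := w)
      fin_cases i
      exacts [⟨Module.End.mem_eigenspace_iff.2 hv, v0⟩, ⟨Module.End.mem_eigenspace_iff.2 h1, n v0⟩,
        ⟨Module.End.mem_eigenspace_iff.2 h2', n (n v0)⟩])
  obtain ⟨u, hu⟩ : ∃ u, u ∉ Submodule.span k (Set.range ![v, D *ᵥ v, D *ᵥ (D *ᵥ v)]) := by
    by_contra! h
    have := finrank_range_le_card (R := k) ![v, D *ᵥ v, D *ᵥ (D *ᵥ v)]
    rw [Set.finrank, Submodule.eq_top_iff'.2 h] at this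
    simp at this
  have ind : ∀ a b c d : k, a • u + b • v + c • D *ᵥ v + d • D *ᵥ (D *ᵥ v) = 0 →
      a = 0 ∧ b = 0 ∧ c = 0 ∧ d = 0 := fun a b c d e => by
    have a0 : a = 0 := by
      by_contra a0
      refine hu ((Submodule.mem_span_range_iff_exists_fun k).2
        ⟨![-b / a, -c / a, -d / a], smul_right_injective _ a0 ?_⟩)
      simp only [Fin.sum_univ_three, cons_val_zero, cons_val_one, cons_val, smul_add, smul_smul,
        mul_div_cancel₀ _ a0]
      linear_combination (norm := module) -e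
    have := li ![b, c, d] (by simpa [Fin.sum_univ_three, a0] using e)
    exact ⟨a0, this 0, this 1, this 2⟩
  obtain ⟨B', hB⟩ := cols_inv ind
  have sur : ∀ y, ∃ a b c d : k, y = a • u + b • v + c • D *ᵥ v + d • D *ᵥ (D *ᵥ v) := fun y => by
    obtain ⟨a, b, c, d, e⟩ := ex4 (B' *ᵥ y)
    exact ⟨a, b, c, d, by rw [← cols_mulVec, ← e, mulVec_mulVec, hB, one_mulVec]⟩
  obtain ⟨μ, a, b, c, hC⟩ := sur (C *ᵥ u)
  obtain ⟨ν, a', b', c', hD⟩ := sur (D *ᵥ u)
  generalize hB0 : cols u v (D *ᵥ v) (D *ᵥ (D *ᵥ v)) = B at hB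
  have dB := (det_of_mul hB).1
  have eC : C * B = B * !![μ, 0, 0, 0; a, ζ, 0, 0; b, 0, ζ ^ 4, 0; c, 0, 0, ζ ^ 2] :=
    toLin'.injective (LinearMap.ext fun x => by
      obtain ⟨x, y, z, w, rfl⟩ := ex4 x
      simp only [toLin'_apply, ← mulVec_mulVec, mv4, ← hB0, cols_mulVec, mulVec_add, mulVec_smul,
        hC, hv, h1, h2']
      module)
  have eD : D * B = B * !![ν, 0, 0, 0; a', 0, 0, 1; b', 1, 0, 0; c', 0, 1, 0] :=
    toLin'.injective (LinearMap.ext fun x => by
      obtain ⟨x, y, z, w, rfl⟩ := ex4 x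
      simp only [toLin'_apply, ← mulVec_mulVec, mv4, ← hB0, cols_mulVec, mulVec_add, mulVec_smul,
        hD, h3]
      module)
  have m1 : μ = 1 := by
    have d := congrArg det eC
    rw [det_mul, det_mul, dC, dm4, mul_comm] at d
    linear_combination -mul_left_cancel₀ dB d - μ * z7
  have n1 : ν = 1 := by
    have d := congrArg det eD
    rw [det_mul, det_mul, dD, dm4, mul_comm] at d
    linear_combination -mul_left_cancel₀ dB d
  subst m1 n1
  refine ⟨?_, fun e => ?_, ?_, ?_, ?_⟩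
  · rw [e2_sim h2 dB eC]
    simp [e2]
    linear_combination z6
  · rw [tr_sim dB eC, tr_sim dB (SemiconjBy.pow_right (show SemiconjBy B _ C from eC.symm) 6).eq.symm,
      show 6 = 2 * 3 from rfl, pow_mul, pow_two (_ : M4 k), mul4, pow_three, mul4, mul4, tr4, tr4] at e
    have e' : ζ + ζ ^ 2 + ζ ^ 4 - ζ ^ 3 - ζ ^ 5 - ζ ^ 6 = 0 := by
      linear_combination e + (ζ ^ 17 + ζ ^ 10 + ζ ^ 3 + ζ ^ 5) * z7
    exact h7 (by linear_combination ((7) * ζ ^ 0 + (-7) * ζ ^ 1 + (1) * ζ ^ 2 + (1) * ζ ^ 3 + (-3) * ζ ^ 4 + (1) * ζ ^ 5 + (1) * ζ ^ 6) * z6 -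
      (ζ + ζ ^ 2 + ζ ^ 4 - ζ ^ 3 - ζ ^ 5 - ζ ^ 6) * e')
  · refine exists_mulVec_eq_zero_iff.2 (show (C - 1).det = 0 from ?_) |>.imp fun w hw =>
      ⟨hw.1, by simpa [sub_mulVec, sub_eq_zero] using hw.2⟩
    apply mul_right_cancel₀ dB
    rw [← det_mul, sub_mul, eC, one_mul, ← mul_sub_one, det_mul, zero_mul]
    exact mul_eq_zero_of_right _ (det_eq_zero_of_row_eq_zero 0 fun j => by fin_cases j <;> simp)
  · rw [e2_sim h2 dB eD]
    simp [e2]
  · have s : a' + b' + c' = 0 := by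
      have : D *ᵥ (D *ᵥ (D *ᵥ u)) = u := by
        rw [mulVec_mulVec, mulVec_mulVec, mul_assoc, ← pow_three, d3, one_mulVec]
      simp only [hD, mulVec_add, mulVec_smul, h3] at this
      exact (ind 0 (a' + b' + c') (a' + b' + c') (a' + b' + c')
        (by linear_combination (norm := module) this)).2.1
    refine (Submodule.finrank_mono (t := Submodule.span k
      (Set.range ![D *ᵥ v - v, D *ᵥ (D *ᵥ v) - v])) ?_).trans
        (finrank_range_le_card (R := k) ![D *ᵥ v - v, D *ᵥ (D *ᵥ v) - v])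
    rintro _ ⟨y, rfl⟩
    obtain ⟨x, y, z, w, rfl⟩ := sur y
    refine (Submodule.mem_span_range_iff_exists_fun k).2 ⟨![x * b' + y - z, x * c' + z - w], ?_⟩
    simp only [Fin.sum_univ_two, cons_val_zero, cons_val_one, mulVecLin_apply, sub_mulVec,
      one_mulVec, mulVec_add, mulVec_smul, hD, h3, show a' = -b' - c' by linear_combination s]
    module

end Cfsg.Agent.L4.G
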