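import Cfsg.Agent.H2.Zass

/-!
Computations in the simple group of order `168`.
-/

set_option autoImplicit false

namespace Cfsg.Agent.L4.G
open Matrix Subgroup

/-- The field with two elements. -/
abbrev Z2 := ZMod 2

/-- The simple group of order `168`. -/
abbrev S8 := Matrix.SpecialLinearGroup (Fin 3) Z2

/-- An involution. -/
def a0 : S8 := ⟨!![1, 0, 0; 1, 1, 0; 0, 0, 1], by decide +kernel⟩
/-- An element of order three. -/
def d0 : S8 := ⟨!![0, 0, 1; 1, 0, 0; 0, 1, 0], by decide +kernel⟩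
/-- An element of order four. -/
def g0 : S8 := ⟨!![0, 0, 1; 1, 0, 1; 0, 1, 1], by decide +kernel⟩
/-- An element of order seven. -/
def c0 : S8 := ⟨!![0, 0, 1; 1, 0, 1; 0, 1, 0], by decide +kernel⟩
/-- An element squaring `c0`. -/
def d1 : S8 := ⟨!![1, 0, 0; 0, 0, 1; 0, 1, 1], by decide +kernel⟩
/-- An element squared by `d0`. -/
def c2 : S8 := ⟨!![0, 0, 1; 0, 1, 1; 1, 1, 1], by decide +kernel⟩
/-- An element conjugating `g0 ^ 2` to `a0`. -/
def z0 : S8 := ⟨!![0, 1, 0; 0, 0, 1; 1, 1, 1], by decide +kernel⟩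

/-- The product of two matrices. -/
def mm (A B : Matrix (Fin 3) (Fin 3) Z2) : Matrix (Fin 3) (Fin 3) Z2 :=
  of fun i j => A i 0 * B 0 j + A i 1 * B 1 j + A i 2 * B 2 j

theorem mm_eq (A B : Matrix (Fin 3) (Fin 3) Z2) : mm A B = A * B := by
  ext i j; simp [mm, mul_apply, Fin.sum_univ_three]

/-- Matrices as tuples of bits. -/
structure M9 where
  (a b c d e f g h i : Bool)
  deriving DecidableEq

namespace M9

/-- The product. -/
def mul (A B : M9) : M9 :=
  ⟨(A.a && B.a) ^^ (A.b && B.d) ^^ (A.c && B.g), (A.a && B.b) ^^ (A.b && B.e) ^^ (A.c && B.h),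
    (A.a && B.c) ^^ (A.b && B.f) ^^ (A.c && B.i), (A.d && B.a) ^^ (A.e && B.d) ^^ (A.f && B.g),
    (A.d && B.b) ^^ (A.e && B.e) ^^ (A.f && B.h), (A.d && B.c) ^^ (A.e && B.f) ^^ (A.f && B.i),
    (A.g && B.a) ^^ (A.h && B.d) ^^ (A.i && B.g), (A.g && B.b) ^^ (A.h && B.e) ^^ (A.i && B.h),
    (A.g && B.c) ^^ (A.h && B.f) ^^ (A.i && B.i)⟩

/-- The determinant. -/
def det (A : M9) : Bool :=
  (A.a && A.e && A.i) ^^ (A.a && A.f && A.h) ^^ (A.b && A.d && A.i) ^^ (A.b && A.f && A.g) ^^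
    (A.c && A.d && A.h) ^^ (A.c && A.e && A.g)

/-- A bit as a residue. -/
def z (b : Bool) : Z2 := if b then 1 else 0

theorem z_and : ∀ a b, z (a && b) = z a * z b := by decide
theorem z_xor : ∀ a b, z (a ^^ b) = z a + z b := by decide
theorem z_sur : ∀ x, ∃ b, z b = x := by decide
theorem z_inj : ∀ {a b}, z a = z b → a = b := by decide
theorem z_sub : ∀ x y : Z2, x - y = x + y := by decide

/-- The matrix. -/
def m (A : M9) : Matrix (Fin 3) (Fin 3) Z2 :=
  !![z A.a, z A.b, z A.c; z A.d, z A.e, z A.f; z A.g, z A.h, z A.i]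

theorem m_mul (A B : M9) : (A.mul B).m = A.m * B.m := by
  simp only [m, mul, z_and, z_xor, mul_fin_three]

theorem m_det (A : M9) : A.m.det = z A.det := by
  simp [m, det, z_and, z_xor, det_fin_three, z_sub, add_assoc]

theorem m_sur (A : Matrix (Fin 3) (Fin 3) Z2) : ∃ B : M9, B.m = A := by
  choose f hf using z_sur
  exact ⟨⟨f _, f _, f _, f _, f _, f _, f _, f _, f _⟩, by
    simp only [m, hf]; exact (eta_fin_three A).symm⟩

theorem m_inj {A B : M9} (h : A.m = B.m) : A = B := by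
  have e := fun i j => congrFun (congrFun h i) j
  cases A; cases B
  rw [mk.injEq]
  exact ⟨z_inj (e 0 0), z_inj (e 0 1), z_inj (e 0 2), z_inj (e 1 0), z_inj (e 1 1), z_inj (e 1 2),
    z_inj (e 2 0), z_inj (e 2 1), z_inj (e 2 2)⟩

/-- The identity. -/
def one : M9 := ⟨true, false, false, false, true, false, false, false, true⟩
/-- The element of order seven. -/
def cc : M9 := ⟨false, false, true, true, false, true, false, true, false⟩

/-- A candidate for a conjugating matrix. -/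
def XX (A : M9) (u v w x y z : Bool) : M9 :=
  ⟨u, (A.a && u) ^^ (A.b && v) ^^ (A.c && w), x, v, (A.d && u) ^^ (A.e && v) ^^ (A.f && w), y,
    w, (A.g && u) ^^ (A.h && v) ^^ (A.i && w), z⟩

/-- The test for the classes. -/
def Cl (A : M9) : Prop := A.det = true → A = one ∨ ∃ u v w x y z : Bool,
  (XX A u v w x y z).det = true ∧ ∃ R ∈ [⟨false, true, false, true, false, false, false, false, true⟩,
    ⟨false, false, true, true, false, false, false, true, false⟩,
    ⟨false, false, true, true, false, true, false, true, true⟩, cc,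
    ⟨false, false, true, true, false, false, false, true, true⟩],
      A.mul (XX A u v w x y z) = (XX A u v w x y z).mul R

instance (A : M9) : Decidable A.Cl := by unfold Cl; infer_instance

theorem cls0 : ∀ a b c d e f g h i : Bool, Cl ⟨a, b, c, d, e, f, g, h, i⟩ := by decide +kernel

/-- The test for the generators. -/
def Au (A : M9) : Prop := A.mul A = one → (A.mul cc).mul ((A.mul cc).mul (A.mul cc)) = one →
  ∃ j : Fin 7, A.mul (cc.mul^[j.1] one) =
    (cc.mul^[j.1] one).mul ⟨true, false, false, true, true, false, false, false, true⟩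

instance (A : M9) : Decidable A.Au := by unfold Au; infer_instance

theorem aut0 : ∀ a b c d e f g h i : Bool, Au ⟨a, b, c, d, e, f, g, h, i⟩ := by decide +kernel

theorem m_one : one.m = 1 := by decide +kernel

theorem m_cc : cc.m = c0.1 := by decide +kernel

theorem m_pow (j : ℕ) : (cc.mul^[j] one).m = (c0 ^ j).1 := by
  induction j with
  | zero => exact m_one
  | succ j ih => rw [Function.iterate_succ_apply', m_mul, ih, m_cc, pow_succ']; rfl

end M9

theorem cls8 (A : S8) : ∃ X : S8, X⁻¹ * A * X ∈ [1, a0, d0, g0, c0, c0⁻¹] := by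
  have k : ∀ X R : S8, A * X = X * R → X⁻¹ * A * X = R := fun X R h => by
    rw [mul_assoc, h, inv_mul_cancel_left]
  obtain ⟨B, hB⟩ := M9.m_sur A.1
  rcases (M9.cls0 _ _ _ _ _ _ _ _ _ : B.Cl) (M9.z_inj (by rw [← M9.m_det, hB]; exact A.2)) with
    h | ⟨u, v, w, x, y, z, hX, R, hR, h⟩
  · exact ⟨1, by simp [show A = 1 from Subtype.ext (hB.symm.trans ((congrArg M9.m h).trans M9.m_one))]⟩
  generalize B.XX u v w x y z = X at hX h
  let X' : S8 := ⟨X.m, by rw [M9.m_det, hX]; rfl⟩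
  replace h := congrArg M9.m h
  rw [M9.m_mul, M9.m_mul, hB] at h
  have k' : ∀ Y R' : S8, R.m * Y.1 = Y.1 * R'.1 → (X' * Y)⁻¹ * A * (X' * Y) = R' := fun Y R' e =>
    k _ _ (Subtype.ext (by
      change A.1 * (X.m * Y.1) = X.m * Y.1 * R'.1
      rw [← mul_assoc, h, mul_assoc, e, mul_assoc]))
  simp only [List.mem_cons, List.not_mem_nil, or_false] at hR ⊢
  rcases hR with rfl | rfl | rfl | rfl | rfl
  · exact ⟨_, .inr (.inl (k' ⟨!![0, 1, 0; 1, 1, 0; 0, 0, 1], by decide +kernel⟩ _ (by decide +kernel)))⟩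
  · exact ⟨_, .inr (.inr (.inl (k' 1 _ (by decide +kernel))))⟩
  · exact ⟨_, .inr (.inr (.inr (.inl (k' 1 _ (by decide +kernel)))))⟩
  · exact ⟨_, .inr (.inr (.inr (.inr (.inl (k' 1 _ (by decide +kernel))))))⟩
  · exact ⟨_, .inr (.inr (.inr (.inr (.inr
      (k' ⟨!![0, 0, 1; 0, 1, 0; 1, 0, 0], by decide +kernel⟩ _ (by decide +kernel))))))⟩

/-- The character of degree six. -/
def ch6 (A : S8) : ℤ := if A = 1 then 6 else if A ^ 2 = 1 then 2 else if A ^ 7 = 1 then -1 else 0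

theorem ch6_conj (X A : S8) : ch6 (X⁻¹ * A * X) = ch6 A := by
  have : ∀ n : ℕ, (X⁻¹ * A * X) ^ n = 1 ↔ A ^ n = 1 := fun n => by
    have e := conj_pow (a := X⁻¹) (b := A) (i := n)
    rw [inv_inv] at e
    rw [e, mul_assoc, inv_mul_eq_one, eq_comm, mul_eq_right]
  have h1 := this 1
  rw [pow_one, pow_one] at h1
  simp only [ch6, this, h1]

/-- The character of degree six, computed on matrices. -/
def ch6' (A : Matrix (Fin 3) (Fin 3) Z2) : ℤ :=
  if A = 1 then 6 else if mm A A = 1 then 2 else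
    if mm (mm A A) A = A + 1 ∨ mm (mm A A) A = mm A A + 1 then -1 else 0

theorem ch6_eq (A : S8) : ch6 A = ch6' A.1 := by
  obtain ⟨X, hX⟩ := cls8 A
  have e : ∀ n : ℕ, (A ^ n).1 = X.1 * ((X⁻¹ * A * X) ^ n).1 * (X⁻¹).1 := fun n => by
    have e := conj_pow (a := X⁻¹) (b := A) (i := n)
    rw [inv_inv] at e
    rw [e]
    exact congrArg Subtype.val (show A ^ n = X * (X⁻¹ * A ^ n * X) * X⁻¹ by group)
  have inj : ∀ M N : Matrix (Fin 3) (Fin 3) Z2, X.1 * M * (X⁻¹).1 = X.1 * N * (X⁻¹).1 ↔ M = N :=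
    fun M N => by
      have a : (X⁻¹).1 * X.1 = 1 := congrArg Subtype.val (inv_mul_cancel X)
      refine ⟨fun h => ?_, fun h => by rw [h]⟩
      simpa only [← mul_assoc, a, one_mul, mul_assoc _ (X⁻¹).1, mul_one] using
        congrArg (fun Y => (X⁻¹).1 * Y * X.1) h
  have e0 := e 0
  have e1 := e 1
  have e2 := e 2
  have e3 := e 3
  rw [pow_zero, pow_zero] at e0
  rw [pow_one, pow_one] at e1
  rw [← ch6_conj X A, ch6', mm_eq A.1 A.1, mm_eq, show A.1 * A.1 = (A ^ 2).1 by rw [sq]; rfl,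
    show (A ^ 2).1 * A.1 = (A ^ 3).1 by rw [pow_succ A 2]; rfl, e3, e2,
    show (1 : Matrix (Fin 3) (Fin 3) Z2) = _ from e0]
  generalize X⁻¹ * A * X = R at hX e1 ⊢
  rw [e1]
  simp only [← add_mul, ← mul_add, inj]
  revert R
  simp only [List.mem_cons, List.not_mem_nil, or_false]
  rintro R (rfl | rfl | rfl | rfl | rfl | rfl) - <;> decide +kernel

theorem ch6_sum : ∑ A : S8 with A.1 *ᵥ ![1, 0, 0] = ![0, 1, 0], ch6 A = -4 := by
  simp only [ch6_eq]
  decide +kernel

theorem card8 : Nat.card S8 = 168 := by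
  rw [Nat.card_eq_fintype_card]; decide +kernel

theorem aut8 {A : S8} (h1 : A * A = 1) (h2 : (A * c0) ^ 3 = 1) :
    ∃ j : ℕ, A * c0 ^ j = c0 ^ j * a0 := by
  obtain ⟨B, hB⟩ := M9.m_sur A.1
  obtain ⟨j, h⟩ := (M9.aut0 _ _ _ _ _ _ _ _ _ : B.Au)
    (M9.m_inj (by rw [M9.m_mul, hB, M9.m_one]; exact congrArg Subtype.val h1))
    (M9.m_inj (by
      simp only [M9.m_mul, hB, M9.m_one, M9.m_cc]
      exact congrArg Subtype.val ((pow_three (A * c0)).symm.trans h2)))
  replace h := congrArg M9.m h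
  rw [M9.m_mul, M9.m_mul, hB, M9.m_pow] at h
  exact ⟨j, Subtype.ext (h.trans (congrArg _ (by decide +kernel)))⟩

theorem gen8 (hp : commutator S8 = ⊤) (N : Subgroup S8) {a b c : S8} (ha : a ∈ N) (hb : b ∈ N)
    (hc : c ∈ N) (a1 : a ≠ 1) (a3 : a ^ 3 = 1) (b2 : b ^ 2 ≠ 1) (b4 : b ^ 4 = 1) (c1 : c ≠ 1)
    (c7 : c ^ 7 = 1) : N = ⊤ := by
  have : Fact (Nat.Prime 7) := ⟨by norm_num⟩
  have k1 := orderOf_dvd_natCard N ha
  have k2 := orderOf_dvd_natCard N hb
  have k3 := orderOf_dvd_natCard N hc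
  rw [orderOf_eq_prime a3 a1] at k1
  rw [orderOf_eq_prime_pow (p := 2) (n := 1) b2 b4] at k2
  rw [orderOf_eq_prime c7 c1] at k3
  have k4 := N.index_mul_card
  rw [card8] at k4
  have k5 : 84 ≤ Nat.card N := Nat.le_of_dvd Nat.card_pos (by omega)
  exact H2.Zass.eq_top_of_index_le hp N (by nlinarith)

theorem gen_ac (hp : commutator S8 = ⊤) (N : Subgroup S8) (ha : a0 ∈ N) (hc : c0 ∈ N) : N = ⊤ :=
  gen8 hp N (mul_mem ha hc) (mul_mem ha (pow_mem hc 3)) hc (by decide +kernel) (by decide +kernel)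
    (by decide +kernel) (by decide +kernel) (by decide +kernel) (by decide +kernel)

theorem gen_ag (hp : commutator S8 = ⊤) (N : Subgroup S8) (ha : a0 ∈ N) (hg : g0 ∈ N) : N = ⊤ :=
  gen8 hp N (mul_mem ha (pow_mem hg 2)) hg (mul_mem ha hg) (by decide +kernel) (by decide +kernel)
    (by decide +kernel) (by decide +kernel) (by decide +kernel) (by decide +kernel)

end Cfsg.Agent.L4.G
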