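import Cfsg.Agent.L4.GL1
import Cfsg.Agent.L4.GL2
import Cfsg.Agent.L4.T0

/-!
The four-dimensional representations of the double cover of the group of order `168`.
-/

set_option autoImplicit false
set_option linter.unusedSectionVars false

namespace Cfsg.Agent.L4.G
open Matrix Subgroup Cfsg.Agent.L4.R Cfsg.Agent.L4.H Cfsg.Agent.L4.GA Cfsg.Agent.L4.Rb

variable {k : Type*} [Field k] {P : Type*} [Group P] {ρ : P →* M4 k}

/-- A linear group which is the group of order `168` modulo a sign. -/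
structure Sg8 (ρ : P →* M4 k) (π : P →* S8) : Prop where
  hy : Hy ρ
  ker : ∀ x, π x = 1 → ∃ s : k, s * s = 1 ∧ ρ x = s • 1
  sc : ∀ x (c : k), ρ x = c • 1 → π x = 1
  sur : Function.Surjective π

theorem exists_sg8 [Finite P] [IsAlgClosed k] (h : Hy ρ) (e : (P ⧸ center P) ≃* S8) :
    ∃ π, Sg8 ρ π := by
  let π : P →* S8 := e.toMonoidHom.comp (QuotientGroup.mk' _)
  have hπ : Function.Surjective π := e.surjective.comp (QuotientGroup.mk'_surjective _)
  have hk : ∀ x, π x = 1 ↔ x ∈ center P := fun x =>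
    e.map_eq_one_iff.trans (QuotientGroup.eq_one_iff x)
  refine ⟨π, h, fun z hz => ?_, fun x c hx => (hk x).2 ((center_iff h).2 ⟨c, hx⟩), hπ⟩
  have hz := (hk z).1 hz
  obtain ⟨c, hc⟩ := (center_iff h).1 hz
  refine ⟨c, ?_, hc⟩
  let H := (zpowers g0).comap π
  have hi : H.index = 42 := by
    have := (zpowers g0).card_mul_index
    rw [Nat.card_zpowers, orderOf_eq_prime_pow (p := 2) (n := 1) (by decide +kernel)
      (by decide +kernel), card8] at this
    rw [index_comap_of_surjective _ hπ]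
    omega
  have : IsMulCommutative H := ⟨⟨fun a b => by
    obtain ⟨x, hx⟩ := hπ g0
    have k : ∀ a : H, ∃ (n : ℤ) (y : P), y ∈ center P ∧ a = y * x ^ n := fun a => by
      obtain ⟨n, hn⟩ := mem_zpowers_iff.1 (mem_comap.1 a.2)
      exact ⟨n, a * (x ^ n)⁻¹, (hk _).1 (by simp [hx, hn]), by simp⟩
    obtain ⟨n, y, h1, h2⟩ := k a
    obtain ⟨m, y', h3, h4⟩ := k b
    apply Subtype.ext
    rw [Subgroup.coe_mul, Subgroup.coe_mul, h2, h4, mul_assoc, mul_assoc, ← mul_assoc _ y',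
      ← mul_assoc _ y, mem_center_iff.1 h3, mem_center_iff.1 h1, mul_assoc, mul_assoc,
      zpow_mul_comm, ← mul_assoc, ← mul_assoc y', mem_center_iff.1 h3]⟩⟩
  open scoped IsMulCommutative in
  have t := MonoidHom.transfer_eq_pow (MonoidHom.id H) z fun n g _ => by
    rw [mul_assoc, ← mem_center_iff.1 (pow_mem hz n), inv_mul_cancel_left]
  open scoped IsMulCommutative in
  have t' := congrArg (fun x : H => ρ x 0 0) (t.symm.trans
    (Abelianization.commutator_subset_ker _ (h.perf.ge (mem_top z))))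
  have d := h.det z
  simp [hi, hc, smul_pow] at t' d
  rw [show 42 = 4 * 10 + 2 from rfl, pow_add, pow_mul, d, one_pow, one_mul, sq] at t'
  exact t'

namespace Sg8

variable {π : P →* S8} (h : Sg8 ρ π)
include h

theorem pm {x y : P} (e : π x = π y) : ∃ s : k, s * s = 1 ∧ ρ x = s • ρ y := by
  obtain ⟨s, s2, hs⟩ := h.ker (x * y⁻¹) (by rw [map_mul, map_inv, e, mul_inv_cancel])
  exact ⟨s, s2, by rw [← inv_mul_cancel_right x y, map_mul, hs, smul_mul_assoc, one_mul]⟩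

theorem uniq {x y : P} (e : π x = π y) {n : ℕ} (hn : Odd n) (hx : ρ x ^ n = 1) (hy : ρ y ^ n = 1) :
    ρ x = ρ y := by
  obtain ⟨s, s2, hs⟩ := h.pm e
  obtain ⟨m, rfl⟩ := hn
  rw [hs, smul_pow, hy, pow_succ, pow_mul, sq, s2, one_pow, one_mul] at hx
  rw [hs, smul_cancel (by simp) (hx.trans (one_smul k _).symm), one_smul]

theorem lift (σ : S8) {n : ℕ} (hn : Odd n) (e : σ ^ n = 1) : ∃ x, π x = σ ∧ ρ x ^ n = 1 := by
  obtain ⟨g, rfl⟩ := h.sur σ
  obtain ⟨s, s2, hs⟩ := h.ker (g ^ n) (by rw [map_pow, e])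
  obtain ⟨m, hm⟩ := hn.add_one
  refine ⟨g ^ (n + 1), by rw [map_pow, pow_succ, e, one_mul], ?_⟩
  rw [← map_pow, ← pow_mul, mul_comm, pow_mul, map_pow, hs, smul_pow, hm, pow_add, ← mul_pow, s2]
  simp

theorem rel {x y z : P} (e : π z * π x = π y * π z) {n : ℕ} (hn : Odd n) (hx : ρ x ^ n = 1)
    (hy : ρ y ^ n = 1) : ρ z * ρ x = ρ y * ρ z := by
  rw [← h.uniq (x := z * x * z⁻¹) (by rw [map_mul, map_mul, map_inv, e, mul_inv_cancel_right]) hn (by
    rw [← map_pow, conj_pow, map_mul, map_mul, map_pow, hx, mul_one, ← map_mul, mul_inv_cancel,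
      map_one]) hy, ← map_mul, ← map_mul, inv_mul_cancel_right]

theorem perf : commutator S8 = ⊤ := by
  rw [commutator_def, ← map_top_of_surjective π h.sur, ← map_commutator, ← commutator_def,
    h.hy.perf]

theorem ns {x : P} (e : π x ≠ 1) (c : k) : ρ x ≠ c • 1 := fun e' => e (h.sc x c e')

variable [Finite P]

theorem gen_all (Φ : P → Prop) (mul : ∀ a b, Φ a → Φ b → Φ (a * b)) (ker : ∀ x, π x = 1 → Φ x)
    {a b : P} (ha : Φ a) (hb : Φ b) (gen : ∀ N : Subgroup S8, π a ∈ N → π b ∈ N → N = ⊤) (g : P) :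
    Φ g := by
  obtain ⟨y, hy, e⟩ := (gen ((T.mkSub Φ (ker 1 (map_one π)) mul).map π) ⟨a, ha, rfl⟩
    ⟨b, hb, rfl⟩).ge (mem_top (π g))
  simpa using mul _ _ (ker (g * y⁻¹) (by rw [map_mul, map_inv, e, mul_inv_cancel])) hy

theorem irr {a b : P} (gen : ∀ N : Subgroup S8, π a ∈ N → π b ∈ N → N = ⊤)
    (X : Submodule k (Fin 4 → k)) (ha : ∀ x ∈ X, ρ a *ᵥ x ∈ X) (hb : ∀ x ∈ X, ρ b *ᵥ x ∈ X) :
    X = ⊥ ∨ X = ⊤ :=
  h.hy.irrV X (h.gen_all (fun g => ∀ x ∈ X, ρ g *ᵥ x ∈ X)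
    (fun a b ha hb x hx => by rw [map_mul, ← mulVec_mulVec]; exact ha _ (hb x hx))
    (fun g hg x hx => by
      obtain ⟨s, -, hs⟩ := h.ker g hg
      rw [hs, smul_mulVec, one_mulVec]
      exact X.smul_mem s hx) ha hb gen)

variable [IsAlgClosed k] (h2 : (2 : k) ≠ 0) (h7 : (7 : k) ≠ 0)
include h2 h7

theorem fr {c d : S8} (c7 : c ^ 7 = 1) (c1 : c ≠ 1) (d3 : d ^ 3 = 1) (r : d * c = c ^ 2 * d) :
    ∃ C D, π C = c ∧ π D = d ∧ ρ C ^ 7 = 1 ∧ e2 (ρ C) = -1 ∧ (ρ C).trace ≠ (ρ C ^ 6).trace ∧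
      (∃ v, v ≠ 0 ∧ ρ C *ᵥ v = v) ∧ e2 (ρ D) = 0 ∧
      Module.finrank k (LinearMap.range (ρ D - 1).mulVecLin) ≤ 2 := by
  obtain ⟨C, rfl, e1⟩ := h.lift c (by decide) c7
  obtain ⟨D, rfl, e2⟩ := h.lift d (by decide) d3
  refine ⟨C, D, rfl, rfl, e1, frob21 h2 h7 (h.hy.det C) (h.hy.det D) e1
    (fun e => h.ns c1 1 (by rw [e, one_smul])) e2 ?_⟩
  rw [← map_pow]
  exact h.rel (by rw [map_pow, r]) (by decide) e1
    (by rw [map_pow, ← pow_mul, mul_comm, pow_mul, e1, one_pow])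

theorem sq_a {T : P} (hT : π T = a0) : ρ T * ρ T = -1 := by
  obtain ⟨s, s2, hs⟩ := h.ker (T * T) (by rw [map_mul, hT]; decide +kernel)
  rw [map_mul] at hs
  rcases mul_self_eq_one_iff.1 s2 with rfl | rfl
  swap
  · rw [hs, neg_smul, one_smul]
  exfalso
  obtain ⟨C, -, hC, -, -, -, -, ⟨v, v0, hv⟩, -⟩ := h.fr h2 h7 (c := c0) (d := d1) (by decide +kernel)
    (by decide +kernel) (by decide +kernel) (by decide +kernel)
  obtain ⟨-, D, -, hD, -, -, -, -, -, r⟩ := h.fr h2 h7 (c := c2) (d := d0) (by decide +kernel)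
    (by decide +kernel) (by decide +kernel) (by decide +kernel)
  have e : π T * π D = c0 := by rw [hT, hD]; decide +kernel
  obtain ⟨s, s2, hs'⟩ := h.pm (x := C) (y := T * D) (by rw [map_mul, e, hC])
  have e' : s • ρ T * s • ρ T = 1 := by rw [smul_mul_smul_comm, s2, hs, one_smul, one_smul]
  have s0 : s ≠ 0 := left_ne_zero_of_mul_eq_one s2
  refine scott e' v0 (by rwa [smul_mul_assoc, ← map_mul, ← hs']) (rank_inv h2 ?_ (fun c hc => ?_) e') r
    fun X h1 h3 => h.irr (fun N ha hd => gen_ac h.perf N (hT ▸ ha) (e ▸ mul_mem ha hd)) X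
      (fun x hx => ?_) h3
  · rw [det_smul, h.hy.det, Fintype.card_fin]
    linear_combination (s * s + 1) * s2
  · exact h.ns (x := T) (hT ▸ by decide +kernel) (s⁻¹ * c) (by rw [mul_smul, ← hc, inv_smul_smul₀ s0])
  · simpa [smul_mulVec, s0] using X.smul_mem s⁻¹ (h1 x hx)

theorem chi (g : P) : e2 (ρ g) = ch6 (π g) := by
  obtain ⟨X, hX⟩ := cls8 (π g)
  obtain ⟨x, rfl⟩ := h.sur X
  rw [← ch6_conj (π x), e2_sim h2 (B := ρ x) (M := ρ (x⁻¹ * g * x)) (by simp [h.hy.det])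
    (by simp [← map_mul, mul_assoc])]
  rw [← map_inv, ← map_mul, ← map_mul] at hX ⊢
  generalize x⁻¹ * g * x = g at hX
  have k : ∀ {y : P} {R : S8} {c : ℤ}, π g = R → π y = R → e2 (ρ y) = c → ch6 R = c →
      e2 (ρ g) = ch6 (π g) := fun h1 h3 h4 h5 => by
    obtain ⟨s, s2, hs⟩ := h.pm (h1.trans h3.symm)
    rw [hs, e2_smul, s2, one_mul, h4, h1, h5]
  obtain ⟨T, hT⟩ := h.sur a0
  have t2 := h.sq_a h2 h7 hT
  simp only [List.mem_cons, List.not_mem_nil, or_false] at hX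
  rcases hX with e | e | e | e | e | e
  · exact k (c := 6) e (map_one π) (by simp [e2]; norm_num) (by decide +kernel)
  · exact k (c := 2) e hT (by
      simpa using e2_inv (h.hy.det T) (h.ns (hT ▸ by decide +kernel)) (s := -1) (by simp)
        (by simp [t2])) (by decide +kernel)
  · obtain ⟨-, D, -, hD, -, -, -, -, r, -⟩ := h.fr h2 h7 (c := c2) (d := d0) (by decide +kernel)
      (by decide +kernel) (by decide +kernel) (by decide +kernel)
    exact k (c := 0) e hD (by simp [r]) (by decide +kernel)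
  · refine k (c := 0) e e ?_ (by decide +kernel)
    obtain ⟨z, hz⟩ := h.sur z0
    have := h.sq_a h2 h7 (T := z⁻¹ * g ^ 2 * z)
      (by rw [map_mul, map_mul, map_inv, map_pow, hz, e]; decide +kernel)
    rw [Int.cast_zero]
    refine e2_four (h.hy.det g) (h.ns (e ▸ by decide +kernel)) ?_ fun α β e' => ?_
    · rw [← map_pow, show g ^ 4 = z * (z⁻¹ * g ^ 2 * z * (z⁻¹ * g ^ 2 * z)) * z⁻¹ by group, map_mul,
        map_mul, map_mul, this, mul_neg, neg_mul, mul_one, (rho_inv z).1]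
    · obtain ⟨X, h1, h3, h4, h5⟩ := two_quad (T := ρ T) (γ := -1) (by simp [t2]) e'
      exact (h.irr (fun N ha hg => gen_ag h.perf N (hT ▸ ha) (e ▸ hg)) X h4 h5).elim h1 h3
  · obtain ⟨C, -, hC, -, -, r, -⟩ := h.fr h2 h7 (c := c0) (d := d1) (by decide +kernel)
      (by decide +kernel) (by decide +kernel) (by decide +kernel)
    exact k (c := -1) e hC (by simp [r]) (by decide +kernel)
  · obtain ⟨C, -, hC, -, -, r, -⟩ := h.fr h2 h7 (c := c0⁻¹) (d := d1) (by decide +kernel)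
      (by decide +kernel) (by decide +kernel) (by decide +kernel)
    exact k (c := -1) e hC (by simp [r]) (by decide +kernel)

theorem aut (φ : P →* P) (ht : ∀ g, (ρ (φ g)).trace = (ρ g).trace)
    (hk : ∀ g, π g = 1 ↔ π (φ g) = 1) : ∃ y, ∀ g, π (φ g) = π (y * g * y⁻¹) := by
  obtain ⟨C, -, hC, -, c7, -, r, -⟩ := h.fr h2 h7 (c := c0) (d := d1) (by decide +kernel)
    (by decide +kernel) (by decide +kernel) (by decide +kernel)
  obtain ⟨T, hT⟩ := h.sur a0
  obtain ⟨X, hX⟩ := cls8 (π (φ C))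
  obtain ⟨x, rfl⟩ := h.sur X
  let ψ : P →* P := (MulAut.conj x⁻¹).toMonoidHom.comp φ
  have e : ∀ g, π (ψ g) = (π x)⁻¹ * π (φ g) * π x := fun g => by simp [ψ]
  have hk' : ∀ g, π g = 1 ↔ π (ψ g) = 1 := fun g => by
    rw [e, mul_assoc, inv_mul_eq_one, eq_comm (a := π x), mul_eq_right, hk]
  have C7 : C ^ 7 = 1 := h.hy.inj (by rw [map_pow, c7, map_one])
  have e7 : π (ψ C) ^ 7 = 1 := by rw [← map_pow, ← map_pow, C7, map_one, map_one]
  have e1 : π (ψ C) ≠ 1 := (hk' C).not.1 (hC ▸ by decide +kernel)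
  rw [← e] at hX
  have e0 : π (ψ C) = c0 := by
    simp only [List.mem_cons, List.not_mem_nil, or_false] at hX
    rcases hX with f | f | f | f | f | f
    · exact absurd f e1
    iterate 3 exact absurd (f ▸ e7) (by decide +kernel)
    · exact f
    refine absurd ?_ r
    rw [← map_pow, ← h.uniq (x := ψ C) (y := C ^ 6) (by rw [f, map_pow, hC]; decide +kernel) (n := 7) (by decide)
      (by rw [← map_pow, ← map_pow, C7, map_one, map_one])
      (by rw [map_pow, ← pow_mul, mul_comm, pow_mul, c7, one_pow]), ← ht C]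
    exact tr_sim (B := ρ x) (by simp [h.hy.det]) (by simp [ψ, ← map_mul, mul_assoc])
  obtain ⟨j, hj⟩ := aut8 (A := π (ψ T)) (by
    rw [← map_mul, ← map_mul, ← hk', map_mul, hT]; decide +kernel) (by
    rw [← e0, ← map_mul, ← map_mul, ← map_pow, ← map_pow, ← hk', map_pow, map_mul, hT, hC]
    decide +kernel)
  refine ⟨x * C ^ j, fun g => ?_⟩
  have := h.gen_all (fun g => π (ψ g) * c0 ^ j = c0 ^ j * π g)
    (fun a b ha hb => by rw [map_mul, map_mul, map_mul, mul_assoc, hb, ← mul_assoc, ha, mul_assoc])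
    (fun g hg => by rw [(hk' g).1 hg, hg, mul_one, one_mul]) (a := T) (b := C) (hT ▸ hj)
    (by rw [e0, hC, ← pow_succ, ← pow_succ']) (fun N ha hc => gen_ac h.perf N (hT ▸ ha) (hC ▸ hc)) g
  rw [e] at this
  rw [map_mul, map_mul, map_inv, map_mul, map_pow, hC, mul_assoc (π x), ← this]
  group

end Sg8

end Cfsg.Agent.L4.G
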