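import Cfsg.Agent.L4.GA0

/-!
Reflections of order three: linear algebra.
-/

set_option autoImplicit false

namespace Cfsg.Agent.L4.GU

open Matrix Cfsg.Agent.L4.H

variable {k : Type*} [Field k]

theorem ind_wts [Infinite k] {ι : Type*} [Finite ι] (X : Fin 4 → Mt k) {v : ι → Vc k}
    {χ : ι → Fin 4 → k} (hχ : Function.Injective χ) (h0 : ∀ j, v j ≠ 0)
    (h : ∀ i j, X i *ᵥ v j = χ j i • v j) : LinearIndependent k v := by
  obtain ⟨f, hf⟩ := Module.exists_dual_forall_apply_ne_zero (K := k)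
    (fun x : {x : ι × ι // x.1 ≠ x.2} => χ x.1.1 - χ x.1.2) fun x => sub_ne_zero.2 (hχ.ne x.2)
  refine Module.End.eigenvectors_linearIndependent'
    (∑ i, f (Pi.single i 1) • X i).mulVecLin (fun j => f (χ j)) (fun a b e => ?_) v
    fun j => ⟨Module.End.mem_eigenspace_iff.2 ?_, h0 j⟩
  · by_contra hc
    exact hf ⟨(a, b), hc⟩ (by rw [map_sub, sub_eq_zero]; exact e)
  · rw [mulVecLin_apply, sum_mulVec, LinearMap.pi_apply_eq_sum_univ f, Finset.sum_smul]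
    refine Finset.sum_congr rfl fun i _ => ?_
    rw [smul_mulVec, h, smul_smul, smul_eq_mul, mul_comm]
    congr 3
    ext l
    simp [Pi.single_apply, eq_comm]

theorem braid {ξ : k} (hξ : ξ ^ 2 + ξ + 1 = 0) {a α v φ : Vc k} (e : α ⬝ᵥ a = ξ - 1)
    (e' : φ ⬝ᵥ v = ξ - 1) (h : (1 + vecMulVec a α) * (1 + vecMulVec v φ) * (1 + vecMulVec a α) =
      (1 + vecMulVec v φ) * ((1 + vecMulVec a α) * (1 + vecMulVec v φ))) :
    (α ⬝ᵥ v * φ ⬝ᵥ a + ξ) * (α ⬝ᵥ v * φ ⬝ᵥ a + 3 * ξ) = 0 := by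
  have := congrArg (fun M => α ⬝ᵥ M *ᵥ a) h
  simp only [← mulVec_mulVec, r1_mulVec, dotProduct_add, dotProduct_smul, e, e', smul_eq_mul] at this
  grind

theorem comm {a α v φ : Vc k}
    (h : (1 + vecMulVec v φ) * (1 + vecMulVec a α) = (1 + vecMulVec a α) * (1 + vecMulVec v φ))
    (i j : Fin 4) : φ ⬝ᵥ a * (v i * α j) = α ⬝ᵥ v * (a i * φ j) := by
  rw [r1_mul, r1_mul, add_right_comm 1] at h
  exact congrFun (congrFun (add_left_cancel (G := Mt k) h) i) j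

/-- The reflections in the coordinate hyperplanes. -/
def Ei (ξ : k) (i : Fin 4) : Mt k := 1 + vecMulVec (Pi.single i (ξ - 1)) (Pi.single i 1)

theorem braid' {ξ : k} (hξ : ξ ^ 2 + ξ + 1 = 0) {v φ : Vc k} {i : Fin 4} (e' : φ ⬝ᵥ v = ξ - 1)
    (h : Ei ξ i * (1 + vecMulVec v φ) * Ei ξ i = (1 + vecMulVec v φ) * (Ei ξ i * (1 + vecMulVec v φ))) :
    (v i * φ i - (ξ - 1)) * (3 * (v i * φ i) - (ξ - 1)) = 0 := by
  have := braid hξ (by simp) e' h
  simp only [single_dotProduct, dotProduct_single, one_mul] at this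
  linear_combination (-ξ ^ 2) * this +
    ((3 - 3 * ξ + ξ ^ 2) * (v i * φ i) ^ 2 + 4 * (ξ - 1) ^ 2 * (v i * φ i) + 3 * ξ ^ 2 - 3 * ξ + 1) * hξ

theorem gram (h2 : (2 : k) ≠ 0) (h3 : (3 : k) ≠ 0) {ξ : k} (hξ : ξ ^ 2 + ξ + 1 = 0)
    {v φ v' φ' : Vc k} (e : φ ⬝ᵥ v = ξ - 1) (e' : φ' ⬝ᵥ v' = ξ - 1)
    (b : ∀ i, i ≠ 3 → Ei ξ i * (1 + vecMulVec v φ) * Ei ξ i =
      (1 + vecMulVec v φ) * (Ei ξ i * (1 + vecMulVec v φ)))
    (b' : ∀ i, i ≠ 0 → Ei ξ i * (1 + vecMulVec v' φ') * Ei ξ i =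
      (1 + vecMulVec v' φ') * (Ei ξ i * (1 + vecMulVec v' φ')))
    (c1 : (1 + vecMulVec v φ) * Ei ξ 3 = Ei ξ 3 * (1 + vecMulVec v φ))
    (c2 : (1 + vecMulVec v' φ') * Ei ξ 0 = Ei ξ 0 * (1 + vecMulVec v' φ'))
    (c3 : (1 + vecMulVec v φ) * (1 + vecMulVec v' φ') = (1 + vecMulVec v' φ') * (1 + vecMulVec v φ)) :
    ∃ d : Vc k, (∀ i, d i ≠ 0) ∧
      (∀ i j, (d i)⁻¹ * (v i * φ j) * d j = (ξ - 1) / 3 * (![1, 1, 1, 0] i * ![1, 1, 1, 0] j)) ∧
      ∀ i j, (d i)⁻¹ * (v' i * φ' j) * d j = (ξ - 1) / 3 * (![0, 1, -1, 1] i * ![0, 1, -1, 1] j) := by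
  have s0 : ξ - 1 ≠ 0 := fun e => h3 (by linear_combination hξ - (ξ + 2) * e)
  have key : ∀ {x y z : k}, (x - (ξ - 1)) * (3 * x - (ξ - 1)) = 0 →
      (y - (ξ - 1)) * (3 * y - (ξ - 1)) = 0 → (z - (ξ - 1)) * (3 * z - (ξ - 1)) = 0 →
      x + y + z = ξ - 1 → 3 * x = ξ - 1 ∧ 3 * y = ξ - 1 ∧ 3 * z = ξ - 1 := fun {x y z} a b c d => by
    generalize ξ - 1 = s at *
    grind
  have nz : ∀ {x y : k}, (x * y - (ξ - 1)) * (3 * (x * y) - (ξ - 1)) = 0 → x ≠ 0 ∧ y ≠ 0 :=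
    fun a => ⟨by rintro rfl; grind, by rintro rfl; grind⟩
  have t0 := braid' hξ e (b 0 (by decide))
  have t1 := braid' hξ e (b 1 (by decide))
  have t2 := braid' hξ e (b 2 (by decide))
  have u1 := braid' hξ e' (b' 1 (by decide))
  have u2 := braid' hξ e' (b' 2 (by decide))
  have u3 := braid' hξ e' (b' 3 (by decide))
  have v3 : v 3 = 0 := by simpa [s0, (nz t0).2] using comm c1 3 0
  have φ3 : φ 3 = 0 := by simpa [s0, (nz t0).1] using comm c1 0 3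
  have v0 : v' 0 = 0 := by simpa [s0, (nz u1).2] using comm c2 0 1
  have φ0 : φ' 0 = 0 := by simpa [s0, (nz u1).1] using comm c2 1 0
  have o : φ ⬝ᵥ v' = 0 := by simpa [v0, (nz u1).2, (nz t0).1] using comm c3 0 1
  simp only [dotProduct, Fin.sum_univ_four, v3, φ3, v0, φ0, mul_zero, zero_mul, add_zero,
    zero_add] at e e' o
  obtain ⟨a0, a1, a2⟩ := key t0 t1 t2 (by linear_combination e)
  obtain ⟨b1, b2, b3⟩ := key u1 u2 u3 (by linear_combination e')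
  have n0 := (nz t0).1
  have n1 := (nz t1).1
  have n2 := (nz t2).1
  have m1 := (nz u1).1
  have m3 := (nz u3).1
  have o' : v' 2 * v 1 = -(v' 1 * v 2) := mul_left_cancel₀ s0 (by
    linear_combination (3 * v 1 * v 2) * o - (v' 1 * v 2) * a1 - (v' 2 * v 1) * a2)
  have q : ∀ {x y : k}, x ≠ 0 → 3 * (x * y) = ξ - 1 → y = (ξ - 1) / 3 / x := fun h e => by
    rw [← e]; field_simp
  have w2 : v' 2 = -(v' 1 * v 2) / v 1 := eq_div_of_mul_eq n1 o'
  refine ⟨![v 0, v 1, v 2, v 1 * v' 3 / v' 1], fun i => ?_, fun i j => ?_, fun i j => ?_⟩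
  · fin_cases i <;> simp [n0, n1, n2, m1, m3]
  · generalize (ξ - 1) / 3 = θ at q
    fin_cases i <;> fin_cases j <;> simp [v3, φ3, q n0 a0, q n1 a1, q n2 a2] <;> field_simp
  · generalize (ξ - 1) / 3 = θ at q
    fin_cases i <;> fin_cases j <;>
      simp [v0, φ0, q m1 b1, q (nz u2).1 b2, q m3 b3, w2] <;> field_simp

variable (p : ℕ) [Fact p.Prime] [CharP k p]

/-- Rational, or unitary. -/
def Gd (A : Mt k) : Prop := (p % 3 = 1 → A.map (frobenius k p) = A) ∧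
  (p % 3 = 2 → (A.map (frobenius k p))ᵀ * A = 1)

variable {p}

theorem Gd.one : Gd p (1 : Mt k) := by simp [Gd]

theorem Gd.mul {A B : Mt k} (h : Gd p A) (h' : Gd p B) : Gd p (A * B) :=
  ⟨fun e => by rw [Matrix.map_mul, h.1 e, h'.1 e], fun e => by
    rw [Matrix.map_mul, transpose_mul, mul_assoc, ← mul_assoc _ A, h.2 e, one_mul, h'.2 e]⟩

theorem Gd.refl {c θ : k} (hc : c ^ 2 + c + 1 = 0) (h3 : (3 : k) ≠ 0) {u : Vc k}
    (hu : ∀ i, u i ^ p = u i) (e : θ * u ⬝ᵥ u = c ^ 2 - 1) :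
    Gd p (c • (1 + θ • vecMulVec u u)) := by
  have c3 : c ^ 3 = 1 := by linear_combination (c - 1) * hc
  have n0 : u ⬝ᵥ u ≠ 0 := fun h => h3 (by rw [h] at e; grind)
  have e1 : (c • (1 + θ • vecMulVec u u)).map (frobenius k p) =
      c ^ p • (1 + θ ^ p • vecMulVec u u) := by
    ext i j
    by_cases h : i = j <;> simp [vecMulVec_apply, frobenius_def, mul_pow, mul_add, add_pow_char, hu, h]
  have e2 := congrArg (frobenius k p) e
  simp only [dotProduct, map_mul, map_sum, map_sub, map_pow, map_one] at e2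
  simp only [frobenius_def, hu] at e2
  change θ ^ p * u ⬝ᵥ u = _ at e2
  rw [pow_eq_pow_mod p c3] at e1 e2
  refine ⟨fun h => ?_, fun h => ?_⟩ <;> rw [e1] <;> rw [h] at e2 ⊢
  · rw [pow_one] at e2 ⊢
    rw [mul_right_cancel₀ n0 (e2.trans e.symm)]
  · simp only [transpose_smul, transpose_add, transpose_one, transpose_vecMulVec, smul_mul_assoc,
      mul_smul_comm, mul_add, add_mul, mul_one, one_mul, EE]
    generalize θ ^ p = θ' at e2
    match_scalars <;> grind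

end Cfsg.Agent.L4.GU
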