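import Cfsg.Agent.L4.GU0
import Cfsg.Agent.L4.GU1
import Cfsg.Agent.L4.GA7

/-!
The traces of the four-dimensional representations of the double cover of `U₄(2)`.
-/

set_option autoImplicit false

namespace Cfsg.Agent.L4.GU

open Matrix Equiv Cfsg.Agent.L4.H Cfsg.Agent.L4.R Cfsg.Agent.L4.Rb Cfsg.Agent.L4.GA Subgroup

variable {k : Type*} [Field k] {P : Type*} [Group P] {ρ : P →* M4 k}

/-- Change of basis. -/
def cjm (ρ : P →* M4 k) {B B' : Mt k} (h : B * B' = 1) : P →* M4 k where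
  toFun g := B' * ρ g * B
  map_one' := by rw [map_one, mul_one, mul_eq_one_comm.1 h]
  map_mul' a b := by
    rw [map_mul, mul_assoc (B' * ρ a), ← mul_assoc B, ← mul_assoc B, h, one_mul, mul_assoc,
      mul_assoc, mul_assoc]

theorem cjm_tr {B B' : Mt k} (h : B * B' = 1) (g : P) : (cjm ρ h g).trace = (ρ g).trace := by
  show (B' * ρ g * B).trace = _
  rw [trace_mul_cycle, h, one_mul]

/-- The elements with a rational or unitary matrix. -/
def gdS (p : ℕ) [Fact p.Prime] [CharP k p] (ρ : P →* M4 k) : Subgroup P where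
  carrier := {g | Gd p (ρ g)}
  one_mem' := by simpa using Gd.one
  mul_mem' := fun h h' => by simpa using Gd.mul h h'
  inv_mem' := fun {g} h => by
    have e : ρ g⁻¹ * ρ g = 1 := by rw [← map_mul, inv_mul_cancel, map_one]
    have e' : (ρ g⁻¹).map (frobenius k p) * (ρ g).map (frobenius k p) = 1 := by
      rw [← Matrix.map_mul, e, map_one']
    refine ⟨fun c => cancel_right (det_of_mul e).2 (by rw [e, ← e', h.1 c]), fun c => ?_⟩
    nth_rewrite 2 [cancel_right (det_of_mul e).2 (e.trans (h.2 c).symm)]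
    rw [← transpose_mul, mul_eq_one_comm.1 e', transpose_one]

variable {f : SU 4 Q4 2 →* P ⧸ center P}

variable (f) in
/-- The element `x` lies over the matrix `M`. -/
def Ov (x : P) (M : Mt Q4) : Prop := ∃ g : SU 4 Q4 2, g.1.1 = M ∧ f g = x

theorem Ov.mul {x y : P} {M N : Mt Q4} (h : Ov f x M) (h' : Ov f y N) : Ov f (x * y) (M * N) := by
  obtain ⟨g, rfl, e⟩ := h
  obtain ⟨g', rfl, e'⟩ := h'
  exact ⟨g * g', rfl, by rw [map_mul, e, e', QuotientGroup.mk_mul]⟩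

theorem Ov.one : Ov f 1 1 := ⟨1, rfl, map_one f⟩

theorem Ov.ex {M : Mt Q4} (h : Un M) : ∃ x, Ov f x M :=
  (QuotientGroup.mk_surjective (f ⟨⟨M, h.1⟩, h.herm⟩)).imp fun _ e => ⟨_, rfl, e.symm⟩

theorem Ov.eq {x y : P} {M : Mt Q4} (h : Ov f x M) (h' : Ov f y M) : (x : P ⧸ center P) = y := by
  obtain ⟨g, rfl, e⟩ := h
  obtain ⟨g', e1, e'⟩ := h'
  rw [← e, ← e', show g' = g from Subtype.ext (Subtype.ext e1)]

theorem Ov.cent (hk : ∀ g, f g = 1 → g ∈ center _) {x : P} {M N : Mt Q4} (h : Ov f x M)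
    (hx : x ∈ center P) (hN : Un N) : M * N = N * M := by
  obtain ⟨g, rfl, e⟩ := h
  exact congrArg (·.1.1) (mem_center_iff.1 (hk g (e.trans ((QuotientGroup.eq_one_iff x).2 hx)))
    ⟨⟨N, hN.1⟩, hN.herm⟩).symm

variable [IsAlgClosed k] (h : Hy ρ)
include h

theorem cent4 {z : P} (hz : z ∈ center P) : z ^ 4 = 1 := by
  obtain ⟨c, hc⟩ := (center_iff h).1 hz
  have := h.det z
  rw [hc, det_smul, det_one, mul_one, Fintype.card_fin] at this
  exact h.inj (by rw [map_pow, hc, smul_pow, this, one_pow, one_smul, map_one])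

theorem eq3 {x y : P} (e : (x : P ⧸ center P) = y) (hx : x ^ 3 = 1) (hy : y ^ 3 = 1) : x = y := by
  have hz := QuotientGroup.eq.1 e
  have h3 : (x⁻¹ * y) ^ 3 = 1 := by
    rwa [← mul_inv_cancel_left x y, Commute.mul_pow (mem_center_iff.1 hz x), hx, one_mul] at hy
  have := cent4 h hz
  rw [pow_succ, h3, one_mul] at this
  exact inv_mul_eq_one.1 this

theorem ex3 {M : Mt Q4} (hM : Un M ∧ M * M * M = 1) : ∃ x, Ov f x M ∧ x ^ 3 = 1 := by
  obtain ⟨x, hx⟩ := Ov.ex (f := f) hM.1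
  have o : Ov f (x * x * x) 1 := hM.2 ▸ (hx.mul hx).mul hx
  refine ⟨_, mul_one M ▸ hx.mul o, ?_⟩
  rw [← cent4 h ((QuotientGroup.eq_one_iff _).1 (o.eq Ov.one)), ← pow_three', ← pow_succ',
    ← pow_mul, ← pow_mul]

theorem rel {x y z : P} {M M' N : Mt Q4} (hz : Ov f z N) (hx : Ov f x M) (hy : Ov f y M')
    (e : N * M = M' * N) (x3 : x ^ 3 = 1) (y3 : y ^ 3 = 1) : z * x = y * z :=
  mul_inv_eq_iff_eq_mul.1 (eq3 h (by
    rw [QuotientGroup.mk_mul, (hz.mul hx).eq (e ▸ hy.mul hz), ← QuotientGroup.mk_mul,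
      mul_inv_cancel_right]) (by rw [conj_pow, x3, mul_one, mul_inv_cancel]) y3)

theorem frame (h3 : (3 : k) ≠ 0) {x : Fin 4 → P} (hx : ∀ i, Ov f (x i) (T i))
    (x3 : ∀ i, x i ^ 3 = 1) (h0 : x 0 ≠ 1) : ∃ (c : k) (B B' : Mt k) (hB : B * B' = 1),
      c ^ 2 + c + 1 = 0 ∧ ∀ i, cjm ρ hB (x i) = c • Ei (c ^ 2) i := by
  classical
  have cm : ∀ i j, x i * x j = x j * x i := fun i j =>
    rel h (hx i) (hx j) (hx j) (T_facts.2.1 i j) (x3 j) (x3 j)
  have pr : x 0 * x 1 * x 2 * x 3 = 1 :=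
    eq3 h ((((hx 0).mul (hx 1)).mul (hx 2)).mul (hx 3) |>.eq (T_facts.2.2.1 ▸ Ov.one)) (by
      have c : ∀ i j, Commute (x i) (x j) := cm
      rw [Commute.mul_pow (((c _ _).mul_left (c _ _)).mul_left (c _ _)),
        Commute.mul_pow ((c _ _).mul_left (c _ _)), (c _ _).mul_pow]
      simp [x3]) (one_pow 3)
  have r3 : ∀ i, ρ (x i) ^ 3 = 1 := fun i => by rw [← map_pow, x3, map_one]
  let W : Fin 4 → k → Submodule k (Vc k) := fun i => Module.End.eigenspace (ρ (x i)).mulVecLin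
  have mW : ∀ i a v, v ∈ W i a ↔ ρ (x i) *ᵥ v = a • v := fun i a v => Module.End.mem_eigenspace_iff
  have iv : ∀ i j a, ∀ v ∈ W j a, ρ (x i) *ᵥ v ∈ W j a := fun i j a v hv => by
    rw [mW] at hv ⊢
    rw [mulVec_mulVec, ← map_mul, cm, map_mul, ← mulVec_mulVec, hv, mulVec_smul]
  obtain ⟨a0, v0, a1, n0, e0⟩ := ex_eig_ne h3 (r3 0) fun e => h0 (h.inj (e.trans (map_one ρ).symm))
  obtain ⟨a1, v1, m1, n1, e1⟩ := ex_eig (ρ (x 1)) (W := W 0 a0)
    ((Submodule.ne_bot_iff _).2 ⟨v0, (mW ..).2 e0, n0⟩) (iv 1 0 a0)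
  obtain ⟨a2, v2, m2, n2, e2⟩ := ex_eig (ρ (x 2)) (W := W 0 a0 ⊓ W 1 a1)
    ((Submodule.ne_bot_iff _).2 ⟨v1, ⟨m1, (mW ..).2 e1⟩, n1⟩)
    fun v hv => ⟨iv _ _ _ v hv.1, iv _ _ _ v hv.2⟩
  obtain ⟨a3, v, ⟨⟨w0, w1⟩, w2⟩, n3, w3⟩ := ex_eig (ρ (x 3)) (W := W 0 a0 ⊓ W 1 a1 ⊓ W 2 a2)
    ((Submodule.ne_bot_iff _).2 ⟨v2, ⟨m2, (mW ..).2 e2⟩, n2⟩)
    fun v hv => ⟨⟨iv _ _ _ v hv.1.1, iv _ _ _ v hv.1.2⟩, iv _ _ _ v hv.2⟩
  have hv : ∀ i, ρ (x i) *ᵥ v = ![a0, a1, a2, a3] i • v := fun i => by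
    fin_cases i
    exacts [(mW ..).1 w0, (mW ..).1 w1, (mW ..).1 w2, w3]
  have := Fact.mk Nat.prime_three
  have ω : IsPrimitiveRoot a0 3 :=
    orderOf_eq_prime (eig_one e0 n0 (r3 0)) ‹a0 ≠ 1› ▸ IsPrimitiveRoot.orderOf a0
  choose n n3' hn using fun i => ω.eq_pow_of_pow_eq_one (eig_one (hv i) n3 (r3 i))
  let Wt : (Fin 4 → Fin 3) → Prop := fun m => ∃ v, v ≠ 0 ∧ ∀ i, ρ (x i) *ᵥ v = a0 ^ (m i).1 • v
  have cl : ∀ m (σ : Perm (Fin 4)), Wt m → Wt (m ∘ σ) := by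
    rintro m σ ⟨v, v0, hv⟩
    obtain ⟨y, hy⟩ := Ov.ex (f := f) (PM_un σ).1
    refine ⟨ρ y *ᵥ v, mulVec_ne_zero (h.det y ▸ one_ne_zero) v0, fun i => ?_⟩
    rw [mulVec_mulVec, ← map_mul, ← rel h hy (hx _) (hx _) ((PM_un σ).2 i) (x3 _) (x3 _), map_mul,
      ← mulVec_mulVec, hv, mulVec_smul, Function.comp]
  have ij : ∀ {m m' : Fin 4 → Fin 3}, (fun i => a0 ^ (m i).1) = (fun i => a0 ^ (m' i).1) → m = m' :=
    fun {m m'} e => funext fun i => Fin.ext (ω.pow_inj (m i).2 (m' i).2 (congrFun e i))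
  have w : Wt fun i => ⟨n i, n3' i⟩ := ⟨v, n3, fun i => by rw [hv, ← hn]⟩
  rcases wts (fun i => ⟨n i, n3' i⟩) (by
      have := congrArg (fun g => ρ g *ᵥ v) pr
      simp only [map_mul, ← mulVec_mulVec, hv, mulVec_smul, ← hn, smul_smul, ← pow_add, map_one,
        one_mulVec] at this
      have := (ω.pow_eq_one_iff_dvd _).1 (smul_left_injective k n3 (this.trans (one_smul _ _).symm))
      apply Fin.ext
      simp only [Fin.val_add, Fin.val_zero]
      omega) (fun e => ‹a0 ≠ 1› (by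
        have := hn 0
        rw [show n 0 = 0 from congrArg Fin.val e, pow_zero] at this
        exact this.symm)) with ⟨σ, b, b0, hb⟩ | e
  · choose u u0 hu using fun j => cl _ (swap 0 j) (cl _ σ w)
    have c3 : (a0 ^ b.1) ^ 3 = 1 := by rw [← pow_mul, mul_comm, pow_mul, ω.pow_eq_one, one_pow]
    have c1 : a0 ^ b.1 ≠ 1 := ω.pow_ne_one_of_pos_of_lt (fun e => b0 (Fin.ext e)) b.2
    replace hu : ∀ i j, ρ (x i) *ᵥ u j = (if i = j then 1 else a0 ^ b.1) • u j := fun i j => by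
      rw [hu, Function.comp, Function.comp, hb]
      by_cases e : i = j <;> simp [e, swap_apply_eq_iff]
    generalize a0 ^ b.1 = c at c3 c1 hu
    have li := Fintype.linearIndependent_iff.1 (ind_wts (fun i => ρ (x i))
      (χ := fun j i => if i = j then 1 else c) (fun j l e => by
        by_contra hc
        simpa [hc, c1.symm] using congrFun e j) u0 hu)
    obtain ⟨B', hB⟩ := cols_inv (u := u 0) (v := u 1) (w := u 2) (z := u 3) fun a b c d e => by
      have := li ![a, b, c, d] (by simpa [Fin.sum_univ_four] using e)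
      exact ⟨this 0, this 1, this 2, this 3⟩
    refine ⟨c, _, B', hB, mul_left_cancel₀ (sub_ne_zero.2 c1) (by linear_combination c3),
      fun i => cancel_left (det_of_mul hB).1 (toLin'.injective (LinearMap.ext fun y => ?_))⟩
    obtain ⟨a, b, d, e, rfl⟩ := ex4 y
    rw [toLin'_apply, toLin'_apply, show cjm ρ hB (x i) = B' * ρ (x i) * _ from rfl, ← mul_assoc, ← mul_assoc, hB, one_mul, ← mulVec_mulVec, ← mulVec_mulVec, smul_mulVec, Ei,
      r1_mulVec]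
    simp only [mulVec_add, mulVec_smul, hu, mulVec_single, cols_mulVec]
    have : (cols (u 0) (u 1) (u 2) (u 3)).col i = u i := by
      ext l; fin_cases i <;> rfl
    rw [this, op_smul_eq_smul]
    clear * - c3
    fin_cases i <;> simp <;> match_scalars <;> grind
  · exfalso
    choose u u0 hu using fun m : (Finset.univ.image fun σ : Perm (Fin 4) =>
      (fun i => (⟨n i, n3' i⟩ : Fin 3)) ∘ σ) => show Wt m.1 by
        obtain ⟨σ, -, e⟩ := Finset.mem_image.1 m.2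
        exact e ▸ cl _ σ w
    have := (ind_wts (fun i => ρ (x i)) (fun a b e => Subtype.ext (ij e)) u0
      fun i j => hu j i).fintype_card_le_finrank
    rw [Fintype.card_coe, Module.finrank_fin_fun] at this
    omega

theorem core (p : ℕ) [Fact p.Prime] [CharP k p] (h2 : (2 : k) ≠ 0) (h3 : (3 : k) ≠ 0)
    (hf : Function.Surjective f) (hk : ∀ g, f g = 1 → g ∈ center _) :
    ∃ σ : P →* M4 k, (∀ g, (σ g).trace = (ρ g).trace) ∧ ∀ g, Gd p (σ g) := by
  obtain ⟨t1, -, -, t2, t3, t4, t5, t6, t7, t8, t9⟩ := T_facts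
  choose x hx x3 using fun i : Fin 4 => ex3 (f := f) h (S_un _ (t1 i))
  obtain ⟨y, hy, y3⟩ := ex3 (f := f) h (S_un _ t3)
  obtain ⟨z, hz, z3⟩ := ex3 (f := f) h (S_un _ t4)
  have nc : x 0 ∉ center P := fun e => t2 ((hx 0).cent hk e (S_un _ t3).1)
  obtain ⟨c, B, B', hB, hc, hE⟩ := frame h h3 hx x3 fun e => nc (e ▸ one_mem _)
  have c0 : c ≠ 0 := by rintro rfl; simp at hc
  have hm : ∀ {y : P} {i : Fin 4}, x i * y * x i = y * (x i * y) →
      ∃ v φ, φ ⬝ᵥ v = c ^ 2 - 1 ∧ cjm ρ hB y = c • (1 + vecMulVec v φ) := fun {y i} e => by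
    have e1 : cjm ρ hB (x i * y) * cjm ρ hB (x i * y)⁻¹ = 1 := by
      rw [← map_mul, mul_inv_cancel, map_one]
    refine ⟨_, _, (dot_conj e1 (Pi.single i (c ^ 2 - 1)) (Pi.single i 1)).trans (by simp), ?_⟩
    rw [← PR.conj_r1 e1, ← Ei, ← smul_mul_assoc, ← mul_smul_comm, ← hE, ← map_mul, ← map_mul, e,
      mul_inv_cancel_right]
  have by' := fun i hi => rel h ((hx i).mul hy) (hx i) hy (t5 i hi) (x3 i) y3
  have bz := fun i hi => rel h ((hx i).mul hz) (hx i) hz (t6 i hi) (x3 i) z3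
  obtain ⟨v, φ, e, hv⟩ := hm (by' 0 (by decide))
  obtain ⟨v', φ', e', hv'⟩ := hm (bz 1 (by decide))
  have br : ∀ {y : P} {i : Fin 4} {Y : Mt k}, x i * y * x i = y * (x i * y) →
      cjm ρ hB y = c • Y → Ei (c ^ 2) i * Y * Ei (c ^ 2) i = Y * (Ei (c ^ 2) i * Y) := fun e e' => by
    have := congrArg (cjm ρ hB) e
    simp only [map_mul, hE, e', smul_mul_assoc, mul_smul_comm] at this
    exact smul_right_injective _ c0 (smul_right_injective _ c0 (smul_right_injective _ c0 this))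
  have co : ∀ {y z : P} {Y Z : Mt k}, y * z = z * y → cjm ρ hB y = c • Y → cjm ρ hB z = c • Z →
      Y * Z = Z * Y := fun e e' e'' => by
    have := congrArg (cjm ρ hB) e
    simp only [map_mul, e', e'', smul_mul_assoc, mul_smul_comm] at this
    exact smul_right_injective _ c0 (smul_right_injective _ c0 this)
  obtain ⟨d, d0, d1, d2⟩ := gram h2 h3 (ξ := c ^ 2) (by grind) e e'
    (fun i hi => br (by' i hi) hv) (fun i hi => br (bz i hi) hv')
    (co (rel h hy (hx 3) (hx 3) t7 (x3 3) (x3 3)) hv (hE 3))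
    (co (rel h hz (hx 0) (hx 0) t8 (x3 0) (x3 0)) hv' (hE 0)) (co (rel h hy hz hz t9 z3 z3) hv hv')
  have hD : diagonal d * diagonal (fun i => (d i)⁻¹) = 1 := by
    simp [diagonal_mul_diagonal, d0]
  let σ := cjm (cjm ρ hB) hD
  have gd : ∀ {y : P} {v φ u : Vc k} {θ : k}, cjm ρ hB y = c • (1 + vecMulVec v φ) →
      (∀ i j, (d i)⁻¹ * (v i * φ j) * d j = θ * (u i * u j)) → (∀ i, u i ^ p = u i) →
      θ * u ⬝ᵥ u = c ^ 2 - 1 → y ∈ gdS p σ := fun {y v φ u θ} e1 e2 e3 e4 => by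
    have : σ y = c • (1 + θ • vecMulVec u u) := by
      show _ * cjm ρ hB y * _ = _
      rw [e1, mul_smul_comm, smul_mul_assoc, mul_add, add_mul, mul_one, mul_eq_one_comm.1 hD]
      congr 2
      ext i j
      simp [vecMulVec_apply, e2]
    exact show Gd p (σ y) from this ▸ Gd.refl hc h3 e3 e4
  have p0 := (Fact.out : p.Prime).ne_zero
  have gx : ∀ i, x i ∈ gdS p σ := fun i =>
    gd (u := Pi.single i 1) (θ := c ^ 2 - 1) (hE i) (fun a b => by
      by_cases ha : a = i <;> by_cases hb : b = i <;> simp [ha, hb, mul_right_comm, d0])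
      (fun a => by by_cases ha : a = i <;> simp [ha, p0]) (by simp)
  have gy := gd hv d1 (fun i => by fin_cases i <;> simp [p0]) (by rw [dot4]; field_simp; ring)
  have gz := gd hv' d2 (fun i => by fin_cases i <;> simp [p0, neg_one_pow_char])
    (by rw [dot4]; field_simp; ring)
  have all := reach (fun M => ∃ x ∈ gdS p σ, Ov f x M ∧ x ^ 3 = 1) (by
    rintro A B ⟨a, a1, a2, a3⟩ ⟨b, b1, b2, b3⟩
    refine ⟨_, mul_mem (mul_mem a1 b1) (mul_mem a1 a1), (a2.mul b2).mul (a2.mul a2), ?_⟩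
    rw [← inv_eq_of_mul_eq_one_right (show a * (a * a) = 1 by rw [← a3, pow_three]), conj_pow, b3,
      mul_one, mul_inv_cancel]) chain _ (by
    simp only [List.forall_mem_cons]
    exact ⟨⟨_, gx 0, hx 0, x3 0⟩, ⟨_, gx 1, hx 1, x3 1⟩, ⟨_, gx 2, hx 2, x3 2⟩, ⟨_, gx 3, hx 3, x3 3⟩,
      ⟨_, gy, hy, y3⟩, ⟨_, gz, hz, z3⟩, by simp⟩) chain_ok
  refine ⟨σ, fun g => (cjm_tr _ g).trans (cjm_tr _ g), fun g => ?_⟩
  rcases h.simp (normalClosure {x 0}) inferInstance with e | e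
  · exact (nc (e (subset_normalClosure rfl))).elim
  refine (closure_le (gdS p σ)).2 (fun a ha => ?_) (e.ge (mem_top g))
  obtain ⟨_, rfl, ha⟩ := Group.mem_conjugatesOfSet_iff.1 ha
  obtain ⟨a, rfl⟩ := isConj_iff.1 ha
  obtain ⟨M, hM⟩ := hf a
  obtain ⟨b, b1, b2, b3⟩ := all _ ((M.2 _ _).trans (t1 0))
  rwa [mul_inv_eq_iff_eq_mul.2 (rel h ⟨M, rfl, hM⟩ (hx 0) b2 (S_conj M.2 _) (x3 0) b3)]

theorem u42_tr {p : ℕ} [Fact p.Prime] [CharP k p] (hp : p ≠ 2) (h3 : p ≠ 3) {K : Type*} [Field K]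
    [Fintype K] (hK : Fintype.card K = 4) (e : (P ⧸ center P) ≃* PSU 4 K 2) :
    (p % 3 = 1 → ∀ g, (ρ g).trace ^ p = (ρ g).trace) ∧
      (p % 3 = 2 → ∀ g, (ρ g⁻¹).trace = (ρ g).trace ^ p) := by
  let φ : Q4 ≃+* K := FiniteField.ringEquivOfCardEq (by rw [hK]; decide)
  obtain ⟨σ, h1, h2⟩ := core (f := (e.symm.toMonoidHom.comp (QuotientGroup.mk' _)).comp
    (suMap φ 4 2)) h p (cast_ne p Nat.prime_two hp) (cast_ne p Nat.prime_three h3)
    (e.symm.surjective.comp ((QuotientGroup.mk'_surjective _).comp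
      (Function.RightInverse.surjective (suMap_inv φ.symm 4 2)))) fun g hg =>
      mem_center_iff.2 fun a => Function.LeftInverse.injective (suMap_inv φ 4 2) (by
        rw [map_mul, map_mul]
        exact mem_center_iff.1 ((QuotientGroup.eq_one_iff _).1 (e.symm.map_eq_one_iff.1 hg)) _)
  have t : ∀ g, ((σ g).map (frobenius k p)).trace = (ρ g).trace ^ p := fun g => by
    rw [← AddMonoidHom.map_trace, h1, frobenius_def]
  refine ⟨fun c g => by rw [← t, (h2 g).1 c, h1], fun c g => ?_⟩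
  have e1 : σ g⁻¹ * σ g = 1 := by rw [← map_mul, inv_mul_cancel, map_one]
  rw [← t, ← h1, cancel_right (det_of_mul e1).2 (e1.trans ((h2 g).2 c).symm), trace_transpose]

end Cfsg.Agent.L4.GU
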