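import Cfsg.Agent.L4.H0
import Cfsg.Prelude.Def_Classical

/-!
A model of the field with four elements and the unitary reflections in dimension four.
-/

set_option autoImplicit false
set_option maxRecDepth 100000

namespace Cfsg.Agent.L4.GU

open Matrix Equiv Cfsg.Agent.L4.H

/-- The codes of the elements of the field with four elements. -/
structure Q4 where
  /-- the code -/
  v : Fin 4
deriving DecidableEq

namespace Q4

/-- the element with a given code -/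
def of (n : ℕ) : Q4 := ⟨⟨n % 4, Nat.mod_lt _ (by decide)⟩⟩

instance iFin : Fintype Q4 :=
  Fintype.ofEquiv _ (⟨Q4.mk, Q4.v, fun _ => rfl, fun _ => rfl⟩ : Fin 4 ≃ Q4)
instance iZero : Zero Q4 := ⟨of 0⟩
instance iOne : One Q4 := ⟨of 1⟩
instance iAdd : Add Q4 := ⟨fun x y => of (x.v.1 ^^^ y.v.1)⟩
instance iMul : Mul Q4 :=
  ⟨fun x y => of (if x.v.1 = 0 ∨ y.v.1 = 0 then 0 else (x.v.1 + y.v.1 - 2) % 3 + 1)⟩
instance iNeg : Neg Q4 := ⟨id⟩
instance iInv : Inv Q4 := ⟨fun x => x * x⟩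

instance iField : Field Q4 := Field.ofMinimalAxioms Q4 (by decide +kernel) (by decide +kernel)
  (by decide +kernel) (by decide +kernel) (by decide +kernel) (by decide +kernel)
  (by decide +kernel) (by decide +kernel) (by decide +kernel) (by decide +kernel)

end Q4

/-- The unitary reflection in `a`, scaled to determinant one. -/
def S (a : Vc Q4) : Mt Q4 := Q4.of 3 • (1 : Mt Q4) + Q4.of 2 • vecMulVec a fun i => a i ^ 2

/-- The vector with a given code. -/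
def vec (n : ℕ) : Vc Q4 := fun i => Q4.of (n / 4 ^ i.1)

/-- Unitary of determinant one. -/
def Un (M : Mt Q4) : Prop := M.det = 1 ∧ Mᵀ * M.map (· ^ 2) = 1

instance iUn (M : Mt Q4) : Decidable (Un M) := inferInstanceAs (Decidable (_ ∧ _))

/-- Permutation matrices. -/
def PM (σ : Perm (Fin 4)) : Mt Q4 := Matrix.of fun i j => if σ i = j then 1 else 0

/-- How to reach all the reflections. -/
def chain : List (ℕ × ℕ × ℕ) :=
  [(23, 21, 1), (29, 21, 4), (92, 84, 4), (26, 21, 16), (116, 84, 16), (104, 84, 64), (22, 1, 21),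
  (25, 4, 21), (31, 16, 21), (88, 4, 84), (100, 16, 84), (124, 64, 84), (27, 4, 23), (30, 16, 23),
  (73, 84, 29), (108, 16, 92), (120, 64, 92), (97, 84, 26), (99, 84, 25), (75, 84, 31),
  (114, 21, 88), (78, 21, 100), (98, 84, 27), (74, 84, 30), (77, 4, 73), (71, 64, 73),
  (83, 21, 108), (113, 16, 97), (115, 16, 99), (82, 64, 99), (79, 4, 75), (70, 64, 75),
  (81, 64, 98), (69, 64, 74)]

/-- The check of the chain. -/
def ok : List ℕ → List (ℕ × ℕ × ℕ) → Bool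
  | L, [] => decide (∀ a : Vc Q4, hermForm 4 Q4 2 a a = 1 → ∃ n ∈ L, S (vec n) = S a)
  | L, (a, b, c) :: T => decide (b ∈ L ∧ c ∈ L ∧
      S (vec b) * S (vec c) * (S (vec b) * S (vec b)) = S (vec a)) && ok (a :: L) T

theorem chain_ok : ok [1, 4, 16, 64, 21, 84] chain = true := by decide +kernel

theorem reach (Ω : Mt Q4 → Prop) (h : ∀ A B, Ω A → Ω B → Ω (A * B * (A * A))) :
    ∀ (T : List (ℕ × ℕ × ℕ)) (L : List ℕ), (∀ n ∈ L, Ω (S (vec n))) → ok L T = true →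
      ∀ a : Vc Q4, hermForm 4 Q4 2 a a = 1 → Ω (S a)
  | [], L, h1, h2, a, ha => by
    obtain ⟨n, hn, e⟩ := of_decide_eq_true h2 a ha
    exact e ▸ h1 n hn
  | (a, b, c) :: T, L, h1, h2, x, hx => by
    rw [ok, Bool.and_eq_true, decide_eq_true_iff] at h2
    exact reach Ω h T (a :: L) (List.forall_mem_cons.2
      ⟨h2.1.2.2 ▸ h _ _ (h1 b h2.1.1) (h1 c h2.1.2.1), h1⟩) h2.2 x hx

theorem S_un : ∀ a : Vc Q4, hermForm 4 Q4 2 a a = 1 → Un (S a) ∧ S a * S a * S a = 1 := by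
  decide +kernel

/-- The reflections in the basis vectors. -/
def T (i : Fin 4) : Mt Q4 := S (vec (4 ^ i.1))

theorem PM_un : ∀ σ, Un (PM σ) ∧ ∀ i, PM σ * T (σ i) = T i * PM σ := by decide +kernel

theorem T_facts : (∀ i : Fin 4, hermForm 4 Q4 2 (vec (4 ^ i.1)) (vec (4 ^ i.1)) = 1) ∧
    (∀ i j, T i * T j = T j * T i) ∧ T 0 * T 1 * T 2 * T 3 = 1 ∧
    T 0 * S (vec 21) ≠ S (vec 21) * T 0 ∧
    hermForm 4 Q4 2 (vec 21) (vec 21) = 1 ∧ hermForm 4 Q4 2 (vec 84) (vec 84) = 1 ∧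
    (∀ i, i ≠ 3 → T i * S (vec 21) * T i = S (vec 21) * (T i * S (vec 21))) ∧
    (∀ i, i ≠ 0 → T i * S (vec 84) * T i = S (vec 84) * (T i * S (vec 84))) ∧
    S (vec 21) * T 3 = T 3 * S (vec 21) ∧ S (vec 84) * T 0 = T 0 * S (vec 84) ∧
    S (vec 21) * S (vec 84) = S (vec 84) * S (vec 21) := by decide +kernel

theorem wts : ∀ n : Fin 4 → Fin 3, (n 0 + n 1 + n 2 + n 3 = 0) → n 0 ≠ 0 →
    (∃ (σ : Perm (Fin 4)) (b : Fin 3), b ≠ 0 ∧ ∀ i, n (σ i) = if i = 0 then 0 else b) ∨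
      5 ≤ (Finset.univ.image fun σ : Perm (Fin 4) => n ∘ σ).card := by decide +kernel

theorem S_conj {M : Mt Q4}
    (h : ∀ u v, hermForm 4 Q4 2 (M *ᵥ u) (M *ᵥ v) = hermForm 4 Q4 2 u v) (a : Vc Q4) :
    M * S a = S (M *ᵥ a) * M := by
  have k : ∀ a x, S a *ᵥ x = Q4.of 3 • x + (Q4.of 2 * hermForm 4 Q4 2 x a) • a := fun a x => by
    rw [S, add_mulVec, smul_mulVec, smul_mulVec, one_mulVec, vecMulVec_mulVec, op_smul_eq_smul,
      smul_smul, dotProduct_comm]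
    rfl
  refine toLin'.injective (LinearMap.ext fun x => ?_)
  simp only [toLin'_apply, ← mulVec_mulVec, k, h, mulVec_add, mulVec_smul]

theorem Un.herm {M : Mt Q4} (h : Un M) (u v : Vc Q4) :
    hermForm 4 Q4 2 (M *ᵥ u) (M *ᵥ v) = hermForm 4 Q4 2 u v := by
  have c2 : ∀ x y : Q4, (x + y) ^ 2 = x ^ 2 + y ^ 2 := by decide +kernel
  have e : (fun i => (M *ᵥ v) i ^ 2) = M.map (· ^ 2) *ᵥ fun i => v i ^ 2 := by
    ext i
    simp [mulVec, dotProduct, Fin.sum_univ_four, c2, mul_pow]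
  show (M *ᵥ u) ⬝ᵥ (fun i => (M *ᵥ v) i ^ 2) = u ⬝ᵥ fun i => v i ^ 2
  rw [e, ← vecMul_transpose, ← dotProduct_mulVec, mulVec_mulVec, h.2, one_mulVec]

/-- Change of field for unitary groups. -/
def suMap {F K : Type*} [Field F] [Field K] (φ : F ≃+* K) (n q : ℕ) : SU n F q →* SU n K q :=
  MonoidHom.codRestrict ((SpecialLinearGroup.map (φ : F →+* K)).comp (SU n F q).subtype) _
    fun g u v => by
      have k : ∀ u v, hermForm n K q (φ ∘ u) (φ ∘ v) = φ (hermForm n F q u v) := fun u v => by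
        simp [hermForm]
      obtain ⟨u, rfl⟩ := φ.surjective.comp_left u
      obtain ⟨v, rfl⟩ := φ.surjective.comp_left v
      have m : ∀ u : Fin n → F, (g.1.1.map φ) *ᵥ (φ ∘ u) = φ ∘ (g.1.1 *ᵥ u) := fun u => by
        ext i
        exact ((φ : F →+* K).map_mulVec g.1.1 u i).symm
      show hermForm n K q (g.1.1.map φ *ᵥ (φ ∘ u)) (g.1.1.map φ *ᵥ (φ ∘ v)) =
        hermForm n K q (φ ∘ u) (φ ∘ v)
      rw [m, m, k, k]
      exact congrArg φ (g.2 u v)

theorem suMap_inv {F K : Type*} [Field F] [Field K] (φ : F ≃+* K) (n q : ℕ) (g : SU n F q) :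
    suMap φ.symm n q (suMap φ n q g) = g :=
  Subtype.ext (Subtype.ext (by ext i j; exact φ.symm_apply_apply _))

end Cfsg.Agent.L4.GU
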