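import Cfsg.Prelude.Def_GeometricClasses

/-! Projective representations of degree four: basic notions, homologies. -/

set_option autoImplicit false

namespace Cfsg.Agent.L4.H

open Matrix Subgroup

/-- `4 × 4` matrices -/
abbrev Mt (k : Type*) := Matrix (Fin 4) (Fin 4) k
/-- vectors -/
abbrev Vc (k : Type*) := Fin 4 → k

/-- A faithful projective representation of degree four, given by the relation
"the matrix `A` is a lift of `g`". -/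
structure PR (Γ : Type*) [Group Γ] (k : Type*) [Field k] where
  L : Γ → Mt k → Prop
  ex : ∀ g, ∃ A, L g A
  det : ∀ {g A}, L g A → A.det ≠ 0
  smul : ∀ {g A} {c : k}, L g A → c ≠ 0 → L g (c • A)
  uniq : ∀ {g A B}, L g A → L g B → ∃ c : k, B = c • A
  mul : ∀ {g h A B}, L g A → L h B → L (g * h) (A * B)
  inj : ∀ {g}, L g 1 → g = 1

variable {k : Type*} [Field k]

theorem eq16 {α : Type*} {A B : Matrix (Fin 4) (Fin 4) α} : A = B ↔
    A 0 0 = B 0 0 ∧ A 0 1 = B 0 1 ∧ A 0 2 = B 0 2 ∧ A 0 3 = B 0 3 ∧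
    A 1 0 = B 1 0 ∧ A 1 1 = B 1 1 ∧ A 1 2 = B 1 2 ∧ A 1 3 = B 1 3 ∧
    A 2 0 = B 2 0 ∧ A 2 1 = B 2 1 ∧ A 2 2 = B 2 2 ∧ A 2 3 = B 2 3 ∧
    A 3 0 = B 3 0 ∧ A 3 1 = B 3 1 ∧ A 3 2 = B 3 2 ∧ A 3 3 = B 3 3 :=
  ⟨by rintro rfl; simp, fun h => by ext i j; fin_cases i <;> fin_cases j <;> simp [h]⟩

theorem eq4 {α : Type*} {u v : Fin 4 → α} :
    u = v ↔ u 0 = v 0 ∧ u 1 = v 1 ∧ u 2 = v 2 ∧ u 3 = v 3 :=
  ⟨by rintro rfl; simp, fun h => by ext i; fin_cases i <;> simp [h]⟩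

section Explicit

variable {R : Type*} [CommRing R] (a b c d e f g h i j l m n o p q x y z w
  a' b' c' d' e' f' g' h' i' j' l' m' n' o' p' q' : R)

theorem mv4 : !![a, b, c, d; e, f, g, h; i, j, l, m; n, o, p, q] *ᵥ ![x, y, z, w] =
    ![a * x + b * y + c * z + d * w, e * x + f * y + g * z + h * w,
      i * x + j * y + l * z + m * w, n * x + o * y + p * z + q * w] := by
  simp only [eq4, mulVec, dotProduct, Fin.sum_univ_four]; exact ⟨rfl, rfl, rfl, rfl⟩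

theorem vm4 : ![x, y, z, w] ᵥ* !![a, b, c, d; e, f, g, h; i, j, l, m; n, o, p, q] =
    ![x * a + y * e + z * i + w * n, x * b + y * f + z * j + w * o,
      x * c + y * g + z * l + w * p, x * d + y * h + z * m + w * q] := by
  simp only [eq4, vecMul, dotProduct, Fin.sum_univ_four]; exact ⟨rfl, rfl, rfl, rfl⟩

theorem dot4 : ![a, b, c, d] ⬝ᵥ ![x, y, z, w] = a * x + b * y + c * z + d * w := by
  simp only [dotProduct, Fin.sum_univ_four]; rfl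

theorem r14 : 1 + vecMulVec ![a, b, c, d] ![x, y, z, w] =
    !![1 + a * x, a * y, a * z, a * w; b * x, 1 + b * y, b * z, b * w;
      c * x, c * y, 1 + c * z, c * w; d * x, d * y, d * z, 1 + d * w] := by
  simp [eq16, vecMulVec_apply]

theorem one4 : (1 : Matrix (Fin 4) (Fin 4) R) = !![1, 0, 0, 0; 0, 1, 0, 0; 0, 0, 1, 0; 0, 0, 0, 1] := by
  simp [eq16]

theorem mul4 : !![a, b, c, d; e, f, g, h; i, j, l, m; n, o, p, q] *
    !![a', b', c', d'; e', f', g', h'; i', j', l', m'; n', o', p', q'] =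
    !![a * a' + b * e' + c * i' + d * n', a * b' + b * f' + c * j' + d * o',
        a * c' + b * g' + c * l' + d * p', a * d' + b * h' + c * m' + d * q';
      e * a' + f * e' + g * i' + h * n', e * b' + f * f' + g * j' + h * o',
        e * c' + f * g' + g * l' + h * p', e * d' + f * h' + g * m' + h * q';
      i * a' + j * e' + l * i' + m * n', i * b' + j * f' + l * j' + m * o',
        i * c' + j * g' + l * l' + m * p', i * d' + j * h' + l * m' + m * q';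
      n * a' + o * e' + p * i' + q * n', n * b' + o * f' + p * j' + q * o',
        n * c' + o * g' + p * l' + q * p', n * d' + o * h' + p * m' + q * q'] := by
  simp only [eq16, mul_apply, Fin.sum_univ_four]
  exact ⟨rfl, rfl, rfl, rfl, rfl, rfl, rfl, rfl, rfl, rfl, rfl, rfl, rfl, rfl, rfl, rfl⟩

theorem sv4 : x • ![a, b, c, d] = ![x * a, x * b, x * c, x * d] := by simp [eq4]
theorem av4 : ![a, b, c, d] + ![x, y, z, w] = ![a + x, b + y, c + z, d + w] := by simp [eq4]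
theorem bv4 : ![a, b, c, d] - ![x, y, z, w] = ![a - x, b - y, c - z, d - w] := by simp [eq4]
theorem nv4 : -![a, b, c, d] = ![-a, -b, -c, -d] := by simp [eq4]
omit [CommRing R] in
theorem ev4 : ![a, b, c, d] = ![x, y, z, w] ↔ a = x ∧ b = y ∧ c = z ∧ d = w := by simp [eq4]
theorem zv4 : ![a, b, c, d] = 0 ↔ a = 0 ∧ b = 0 ∧ c = 0 ∧ d = 0 := by simp [eq4]

theorem sm4 : x • !![a, b, c, d; e, f, g, h; i, j, l, m; n, o, p, q] =
    !![x * a, x * b, x * c, x * d; x * e, x * f, x * g, x * h;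
      x * i, x * j, x * l, x * m; x * n, x * o, x * p, x * q] := by simp [eq16]

omit [CommRing R] in
theorem em4 : !![a, b, c, d; e, f, g, h; i, j, l, m; n, o, p, q] =
    !![a', b', c', d'; e', f', g', h'; i', j', l', m'; n', o', p', q'] ↔
    a = a' ∧ b = b' ∧ c = c' ∧ d = d' ∧ e = e' ∧ f = f' ∧ g = g' ∧ h = h' ∧ i = i' ∧ j = j' ∧
      l = l' ∧ m = m' ∧ n = n' ∧ o = o' ∧ p = p' ∧ q = q' := by
  rw [eq16]; exact Iff.rfl

omit [CommRing R] in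
theorem tm4 : (!![a, b, c, d; e, f, g, h; i, j, l, m; n, o, p, q])ᵀ =
    !![a, e, i, n; b, f, j, o; c, g, l, p; d, h, m, q] := by simp [eq16]

theorem dm4 : (!![a, b, c, d; e, f, g, h; i, j, l, m; n, o, p, q]).det =
    (a * f - b * e) * (l * q - m * p) - (a * g - c * e) * (j * q - m * o) +
      (a * h - d * e) * (j * p - l * o) + (b * g - c * f) * (i * q - m * n) -
      (b * h - d * f) * (i * p - l * n) + (c * h - d * g) * (i * o - j * n) := by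
  simp [det_succ_row_zero, Fin.sum_univ_succ, Fin.succAbove]; ring

omit [CommRing R] in
theorem ex4 (v : Fin 4 → R) : ∃ a b c d, v = ![a, b, c, d] := ⟨v 0, v 1, v 2, v 3, by simp [eq4]⟩

omit [CommRing R] in
theorem ex16 (A : Matrix (Fin 4) (Fin 4) R) : ∃ a b c d e f g h i j l m n o p q,
    A = !![a, b, c, d; e, f, g, h; i, j, l, m; n, o, p, q] :=
  ⟨A 0 0, A 0 1, A 0 2, A 0 3, A 1 0, A 1 1, A 1 2, A 1 3, A 2 0, A 2 1, A 2 2, A 2 3,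
    A 3 0, A 3 1, A 3 2, A 3 3, by simp [eq16]⟩

end Explicit

/-- diagonal matrices -/
abbrev dg (a b c d : k) : Mt k := !![a, 0, 0, 0; 0, b, 0, 0; 0, 0, c, 0; 0, 0, 0, d]

theorem dg_mul (a b c d a' b' c' d' : k) :
    dg a b c d * dg a' b' c' d' = dg (a * a') (b * b') (c * c') (d * d') := by
  simp [mul4]

theorem dg_pow (a b c d : k) (n : ℕ) : dg a b c d ^ n = dg (a ^ n) (b ^ n) (c ^ n) (d ^ n) := by
  induction n with
  | zero => simp [one4]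
  | succ n ih => rw [pow_succ, ih, dg_mul]; simp only [pow_succ]

theorem EE (u φ v χ : Vc k) : vecMulVec u φ * vecMulVec v χ = (φ ⬝ᵥ v) • vecMulVec u χ := by
  rw [vecMulVec_mul_vecMulVec, vecMulVec_smul]

theorem Esl (u v χ : Vc k) : (vecMulVec (u - v) χ : Mt k) = vecMulVec u χ - vecMulVec v χ := by
  ext; simp [vecMulVec_apply, sub_mul]

theorem Esr (u φ χ : Vc k) : (vecMulVec u (φ - χ) : Mt k) = vecMulVec u φ - vecMulVec u χ := by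
  ext; simp [vecMulVec_apply, mul_sub]

theorem Eal (u v χ : Vc k) : (vecMulVec (u + v) χ : Mt k) = vecMulVec u χ + vecMulVec v χ := by
  ext; simp [vecMulVec_apply, add_mul]

theorem Ear (u φ χ : Vc k) : (vecMulVec u (φ + χ) : Mt k) = vecMulVec u φ + vecMulVec u χ := by
  ext; simp [vecMulVec_apply, mul_add]

theorem Eml (c : k) (u χ : Vc k) : (vecMulVec (c • u) χ : Mt k) = c • vecMulVec u χ := by
  ext; simp [vecMulVec_apply, mul_assoc]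

theorem Emr (c : k) (u χ : Vc k) : (vecMulVec u (c • χ) : Mt k) = c • vecMulVec u χ := by
  ext; simp [vecMulVec_apply, mul_left_comm]

theorem r1_mul (v φ v' φ' : Vc k) : (1 + vecMulVec v φ) * (1 + vecMulVec v' φ') =
    1 + vecMulVec v φ + vecMulVec v' φ' + (φ ⬝ᵥ v') • vecMulVec v φ' := by
  rw [mul_add, mul_one, add_mul, one_mul, EE]; abel

theorem r1_mulVec (v φ w : Vc k) : (1 + vecMulVec v φ) *ᵥ w = w + (φ ⬝ᵥ w) • v := by
  rw [add_mulVec, one_mulVec, vecMulVec_mulVec, op_smul_eq_smul]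

theorem vecMul_r1 (v φ ψ : Vc k) : ψ ᵥ* (1 + vecMulVec v φ) = ψ + (ψ ⬝ᵥ v) • φ := by
  rw [vecMul_add, vecMul_one, vecMul_vecMulVec]

theorem dot_conj {A A' : Mt k} (h : A * A' = 1) (v φ : Vc k) :
    (φ ᵥ* A') ⬝ᵥ (A *ᵥ v) = φ ⬝ᵥ v := by
  rw [dotProduct_mulVec, vecMul_vecMul, mul_eq_one_comm.1 h, vecMul_one]

theorem det_r1 (v φ : Vc k) : (1 + vecMulVec v φ).det = 1 + φ ⬝ᵥ v := by
  obtain ⟨a, b, c, d, rfl⟩ := ex4 v
  obtain ⟨x, y, z, w, rfl⟩ := ex4 φ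
  rw [r14, dm4, dot4]; ring

theorem r1_pow {v φ : Vc k} (h : φ ⬝ᵥ v = 0) (n : ℕ) :
    (1 + vecMulVec v φ) ^ n = 1 + vecMulVec ((n : k) • v) φ := by
  induction n with
  | zero => simp
  | succ n ih =>
    rw [pow_succ, ih, r1_mul, h, zero_smul, add_zero, add_assoc, ← add_vecMulVec]
    simp [add_smul]

theorem exists_inv {A : Mt k} (h : A.det ≠ 0) : ∃ A' : Mt k, A * A' = 1 ∧ A' * A = 1 :=
  ⟨A⁻¹, mul_nonsing_inv A (Ne.isUnit h), nonsing_inv_mul A (Ne.isUnit h)⟩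

theorem cancel_left {A B C : Mt k} (h : A.det ≠ 0) (e : A * B = A * C) : B = C := by
  obtain ⟨A', -, h2⟩ := exists_inv h
  rw [← one_mul B, ← h2, mul_assoc, e, ← mul_assoc, h2, one_mul]

theorem cancel_right {A B C : Mt k} (h : A.det ≠ 0) (e : B * A = C * A) : B = C := by
  obtain ⟨A', h1, -⟩ := exists_inv h
  rw [← mul_one B, ← h1, ← mul_assoc, e, mul_assoc, h1, mul_one]

theorem ne_zero_of_det {A : Mt k} (h : A.det ≠ 0) : A ≠ 0 := by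
  rintro rfl; simp at h

theorem mulVec_ne_zero {A : Mt k} (h : A.det ≠ 0) {v : Vc k} (hv : v ≠ 0) : A *ᵥ v ≠ 0 :=
  fun e => hv (eq_zero_of_mulVec_eq_zero h e)

theorem vecMul_ne_zero {A : Mt k} (h : A.det ≠ 0) {v : Vc k} (hv : v ≠ 0) : v ᵥ* A ≠ 0 :=
  fun e => hv (eq_zero_of_vecMul_eq_zero h e)

theorem det_of_mul {B B' : Mt k} (h : B * B' = 1) : B.det ≠ 0 ∧ B'.det ≠ 0 := by
  have := congrArg Matrix.det h
  rw [det_mul, det_one] at this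
  exact ⟨left_ne_zero_of_mul_eq_one this, right_ne_zero_of_mul_eq_one this⟩

theorem smul_cancel {A : Mt k} (h : A.det ≠ 0) {c d : k} (e : c • A = d • A) : c = d :=
  smul_left_injective k (ne_zero_of_det h) e

section Map

variable {F : Type*} [Field F]

theorem map_smul' (ι : F →+* k) (c : F) (A : Mt F) : (c • A).map ι = ι c • A.map ι := by
  ext i j; simp

theorem map_inj (ι : F →+* k) {A B : Mt F} (h : A.map ι = B.map ι) : A = B :=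
  Matrix.map_injective ι.injective h

theorem det_map (ι : F →+* k) (A : Mt F) : (A.map ι).det = ι A.det := (ι.map_det A).symm

theorem map_one' (ι : F →+* k) : (1 : Mt F).map ι = 1 := Matrix.map_one _ ι.map_zero ι.map_one

theorem exists_scal (ι : F →+* k) {A B : Mt F} {c : k} (h : A ≠ 0) (e : B.map ι = c • A.map ι) :
    ∃ c' : F, c = ι c' ∧ B = c' • A := by
  obtain ⟨i, j, hij⟩ : ∃ i j, A i j ≠ 0 := by
    by_contra hc
    push Not at hc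
    exact h (by ext i j; exact hc i j)
  have e1 : ι (B i j) = c * ι (A i j) := congrFun (congrFun e i) j
  have e2 : c = ι (B i j / A i j) := by
    rw [map_div₀, e1, mul_div_cancel_right₀ _ ((map_ne_zero ι).2 hij)]
  exact ⟨_, e2, map_inj ι (by rw [map_smul', ← e2, e])⟩

end Map

/-- the matrix with the given columns -/
def cols (u v w z : Vc k) : Mt k := Matrix.of fun i j => ![u i, v i, w i, z i] j

theorem cols_mulVec (u v w z : Vc k) (a b c d : k) :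
    cols u v w z *ᵥ ![a, b, c, d] = a • u + b • v + c • w + d • z := by
  ext i; simp [cols, mulVec, dotProduct, Fin.sum_univ_four]; ring

theorem vecMul_cols (φ u v w z : Vc k) :
    φ ᵥ* cols u v w z = ![φ ⬝ᵥ u, φ ⬝ᵥ v, φ ⬝ᵥ w, φ ⬝ᵥ z] := by
  ext j; fin_cases j <;> simp [cols, vecMul, dotProduct]

theorem cols_inv {u v w z : Vc k} (h : ∀ a b c d : k, a • u + b • v + c • w + d • z = 0 →
    a = 0 ∧ b = 0 ∧ c = 0 ∧ d = 0) : ∃ B' : Mt k, cols u v w z * B' = 1 := by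
  refine (exists_inv fun e => ?_).imp fun _ h => h.1
  obtain ⟨x, h1, h2⟩ := exists_mulVec_eq_zero_iff.2 e
  obtain ⟨a, b, c, d, rfl⟩ := ex4 x
  exact h1 ((zv4 ..).2 (h a b c d (cols_mulVec u v w z a b c d ▸ h2)))

/-- two linear forms have two independent common zeros -/
theorem exists_ker (φ ψ : Vc k) : ∃ u w : Vc k, φ ⬝ᵥ u = 0 ∧ ψ ⬝ᵥ u = 0 ∧ φ ⬝ᵥ w = 0 ∧ ψ ⬝ᵥ w = 0 ∧
    ∀ c d : k, c • u + d • w = 0 → c = 0 ∧ d = 0 := by
  have key : ∀ χ : Vc k, ∃ u : Vc k, u ≠ 0 ∧ φ ⬝ᵥ u = 0 ∧ ψ ⬝ᵥ u = 0 ∧ χ ⬝ᵥ u = 0 := fun χ => by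
    obtain ⟨u, h1, h2⟩ := exists_mulVec_eq_zero_iff.2
      (show (Matrix.of ![φ, ψ, χ, 0]).det = 0 from det_eq_zero_of_row_eq_zero 3 fun _ => rfl)
    exact ⟨u, h1, congrFun h2 0, congrFun h2 1, congrFun h2 2⟩
  obtain ⟨u, u0, u1, u2, -⟩ := key 0
  obtain ⟨i, hi⟩ := Function.ne_iff.1 u0
  obtain ⟨w, w0, w1, w2, w3⟩ := key (Pi.single i 1)
  refine ⟨u, w, u1, u2, w1, w2, fun c d e => ?_⟩
  have w4 : w i = 0 := by simpa using w3
  have : c = 0 := by simpa [w4, show u i ≠ 0 from hi] using congrFun e i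
  exact ⟨this, by simpa [this, w0] using e⟩

/-- a basis adapted to a non-degenerate pair -/
theorem exists_pair {v φ v' φ' : Vc k} (h : φ ⬝ᵥ v * φ' ⬝ᵥ v' ≠ φ ⬝ᵥ v' * φ' ⬝ᵥ v) :
    ∃ (B B' : Mt k) (_ : B * B' = 1), B' *ᵥ v = ![1, 0, 0, 0] ∧ B' *ᵥ v' = ![0, 1, 0, 0] ∧
      φ ᵥ* B = ![φ ⬝ᵥ v, φ ⬝ᵥ v', 0, 0] ∧ φ' ᵥ* B = ![φ' ⬝ᵥ v, φ' ⬝ᵥ v', 0, 0] := by
  obtain ⟨u, w, u1, u2, w1, w2, hi⟩ := exists_ker φ φ'
  obtain ⟨B', hB⟩ := cols_inv (u := v) (v := v') (w := u) (z := w) fun a b c d e => by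
    have e1 := congrArg (φ ⬝ᵥ ·) e
    have e2 := congrArg (φ' ⬝ᵥ ·) e
    simp only [dotProduct_add, dotProduct_smul, u1, u2, w1, w2, smul_eq_mul, mul_zero, add_zero,
      dotProduct_zero] at e1 e2
    have ha : a = 0 := by grind
    have hb : b = 0 := by grind
    exact ⟨ha, hb, hi c d (by simpa [ha, hb] using e)⟩
  have hB' := mul_eq_one_comm.1 hB
  refine ⟨_, B', hB, ?_, ?_, by rw [vecMul_cols, u1, w1], by rw [vecMul_cols, u2, w2]⟩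
  · have : v = cols v v' u w *ᵥ ![1, 0, 0, 0] := by simp [cols_mulVec]
    rw [this, mulVec_mulVec, hB', one_mulVec]
  · have : v' = cols v v' u w *ᵥ ![0, 1, 0, 0] := by simp [cols_mulVec]
    rw [this, mulVec_mulVec, hB', one_mulVec]

namespace PR

variable {Γ : Type*} [Group Γ] (ρ : PR Γ k)

theorem uniq' {g : Γ} {A B : Mt k} (hA : ρ.L g A) (hB : ρ.L g B) : ∃ c : k, c ≠ 0 ∧ B = c • A := by
  obtain ⟨c, rfl⟩ := ρ.uniq hA hB
  exact ⟨c, by rintro rfl; simpa using ρ.det hB, rfl⟩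

theorem one : ρ.L 1 1 := by
  obtain ⟨A, hA⟩ := ρ.ex 1
  have h := ρ.mul hA hA
  rw [one_mul] at h
  obtain ⟨c, hc, e⟩ := ρ.uniq' hA h
  have : A = c • (1 : Mt k) := cancel_left (ρ.det hA) (by rw [e, mul_smul_comm, mul_one])
  have h2 := ρ.smul hA (inv_ne_zero hc)
  rwa [this, smul_smul, inv_mul_cancel₀ hc, one_smul] at h2

theorem scal {c : k} (hc : c ≠ 0) : ρ.L 1 (c • (1 : Mt k)) := ρ.smul ρ.one hc

theorem eq_one {g : Γ} {c : k} (h : ρ.L g (c • (1 : Mt k))) : g = 1 := by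
  have hc : c ≠ 0 := by rintro rfl; simpa using ρ.det h
  have := ρ.smul h (inv_ne_zero hc)
  rw [smul_smul, inv_mul_cancel₀ hc, one_smul] at this
  exact ρ.inj this

theorem inv {g : Γ} {A A' : Mt k} (hA : ρ.L g A) (h : A * A' = 1) : ρ.L g⁻¹ A' := by
  obtain ⟨B, hB⟩ := ρ.ex g⁻¹
  have h1 := ρ.mul hA hB
  rw [mul_inv_cancel] at h1
  obtain ⟨c, hc, e⟩ := ρ.uniq' ρ.one h1
  have : B = c • A' := cancel_left (ρ.det hA) (by rw [e, mul_smul_comm, h])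
  have h2 := ρ.smul hB (inv_ne_zero hc)
  rwa [this, smul_smul, inv_mul_cancel₀ hc, one_smul] at h2

theorem inv' {g : Γ} {A A' : Mt k} {c : k} (hA : ρ.L g A) (hc : c ≠ 0) (h : A * A' = c • 1) :
    ρ.L g⁻¹ A' := by
  have := ρ.smul (ρ.inv hA (A' := c⁻¹ • A') (by
    rw [mul_smul_comm, h, smul_smul, inv_mul_cancel₀ hc, one_smul])) hc
  rwa [smul_smul, mul_inv_cancel₀ hc, one_smul] at this

theorem inv_adj {g : Γ} {A : Mt k} (hA : ρ.L g A) : ρ.L g⁻¹ A.adjugate :=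
  ρ.inv' hA (ρ.det hA) (mul_adjugate A)

theorem eq_of {g h : Γ} {A : Mt k} (hg : ρ.L g A) (hh : ρ.L h A) : g = h := by
  obtain ⟨A', h1, h2⟩ := exists_inv (ρ.det hg)
  have := ρ.mul (ρ.inv hg h1) hh
  rw [h2] at this
  exact inv_mul_eq_one.1 (ρ.inj this)

theorem eq_of' {g h : Γ} {A : Mt k} {c : k} (hg : ρ.L g A) (hh : ρ.L h (c • A)) : g = h :=
  ρ.eq_of (ρ.smul hg (by rintro rfl; simpa using ρ.det hh)) hh

theorem eq_iff {g h : Γ} {A B : Mt k} (hg : ρ.L g A) (hh : ρ.L h B) :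
    g = h ↔ ∃ c : k, B = c • A :=
  ⟨by rintro rfl; exact ρ.uniq hg hh, by rintro ⟨c, rfl⟩; exact ρ.eq_of' hg hh⟩

theorem eq_one_iff {g : Γ} {A : Mt k} (hg : ρ.L g A) : g = 1 ↔ ∃ c : k, A = c • 1 := by
  rw [eq_comm]; exact ρ.eq_iff ρ.one hg

theorem pow {g : Γ} {A : Mt k} (hA : ρ.L g A) (n : ℕ) : ρ.L (g ^ n) (A ^ n) := by
  induction n with
  | zero => simpa using ρ.one
  | succ n ih => rw [pow_succ, pow_succ]; exact ρ.mul ih hA

theorem conj {g h : Γ} {A A' B : Mt k} (hA : ρ.L g A) (h1 : A * A' = 1) (hB : ρ.L h B) :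
    ρ.L (g * h * g⁻¹) (A * B * A') := ρ.mul (ρ.mul hA hB) (ρ.inv hA h1)

theorem comm_iff {g h : Γ} {A B : Mt k} (hA : ρ.L g A) (hB : ρ.L h B) :
    g * h = h * g ↔ ∃ c : k, B * A = c • (A * B) := ρ.eq_iff (ρ.mul hA hB) (ρ.mul hB hA)

theorem comm_of {g h : Γ} {A B : Mt k} (hA : ρ.L g A) (hB : ρ.L h B) (e : A * B = B * A) :
    g * h = h * g := (ρ.comm_iff hA hB).2 ⟨1, by rw [one_smul, e]⟩

theorem conj_iff {g h h' : Γ} {A B B' : Mt k} (hA : ρ.L g A) (hB : ρ.L h B) (hB' : ρ.L h' B') :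
    g * h * g⁻¹ = h' ↔ ∃ c : k, A * B = c • (B' * A) := by
  rw [mul_inv_eq_iff_eq_mul, eq_comm]
  exact ρ.eq_iff (ρ.mul hB' hA) (ρ.mul hA hB)

theorem split {g h : Γ} {C : Mt k} (hC : ρ.L (g * h) C) :
    ∃ A B, ρ.L g A ∧ ρ.L h B ∧ C = A * B := by
  obtain ⟨A, hA⟩ := ρ.ex g
  obtain ⟨B, hB⟩ := ρ.ex h
  obtain ⟨c, hc, rfl⟩ := ρ.uniq' (ρ.mul hA hB) hC
  exact ⟨_, B, ρ.smul hA hc, hB, by rw [smul_mul_assoc]⟩

theorem ex_det [IsAlgClosed k] (g : Γ) : ∃ A, ρ.L g A ∧ A.det = 1 := by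
  obtain ⟨A, hA⟩ := ρ.ex g
  obtain ⟨c, hc⟩ := IsAlgClosed.exists_pow_nat_eq (A.det)⁻¹ (n := 4) (by norm_num)
  have h0 : c ≠ 0 := by
    rintro rfl
    exact inv_ne_zero (ρ.det hA) (by simpa using hc.symm)
  exact ⟨c • A, ρ.smul hA h0, by simp [hc, ρ.det hA]⟩

/-- change of basis -/
def cj {B B' : Mt k} (h : B * B' = 1) : PR Γ k where
  L g A := ρ.L g (B * A * B')
  ex g := by
    obtain ⟨A, hA⟩ := ρ.ex g
    exact ⟨B' * A * B, by
      rwa [← mul_assoc, ← mul_assoc, h, one_mul, mul_assoc, h, mul_one]⟩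
  det hA := by
    have := ρ.det hA
    simp only [det_mul, mul_ne_zero_iff] at this
    exact this.1.2
  smul hA hc := by rw [mul_smul_comm, smul_mul_assoc]; exact ρ.smul hA hc
  uniq := fun {g A C} hA hC => by
    obtain ⟨c, hc⟩ := ρ.uniq hA hC
    refine ⟨c, cancel_left (det_of_mul h).1 (cancel_right (det_of_mul h).2 ?_)⟩
    rw [hc, mul_smul_comm, smul_mul_assoc]
  mul := fun {g g' A C} hA hC => by
    have := ρ.mul hA hC
    rwa [show B * A * B' * (B * C * B') = B * (A * (B' * B) * C) * B' by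
      simp only [mul_assoc], mul_eq_one_comm.1 h, mul_one] at this
  inj hA := ρ.inj (by rwa [mul_one, h] at hA)

theorem cj_L {B B' : Mt k} (h : B * B' = 1) {g : Γ} {A : Mt k} :
    (ρ.cj h).L g A ↔ ρ.L g (B * A * B') := Iff.rfl

theorem cj_L' {B B' : Mt k} (h : B * B' = 1) {g : Γ} {A : Mt k} :
    (ρ.cj h).L g (B' * A * B) ↔ ρ.L g A := by
  rw [cj_L, ← mul_assoc, ← mul_assoc, h, one_mul, mul_assoc, h, mul_one]

theorem cj_of {B B' : Mt k} (h : B * B' = 1) {g : Γ} {A C : Mt k} (hA : ρ.L g A)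
    (e : A * B = B * C) : (ρ.cj h).L g C := by
  rwa [cj_L, ← e, mul_assoc, h, mul_one]

/-- the dual representation -/
def tr : PR Γ k where
  L g A := ρ.L g⁻¹ Aᵀ
  ex g := by
    obtain ⟨A, hA⟩ := ρ.ex g⁻¹
    exact ⟨Aᵀ, hA⟩
  det hA := by simpa using ρ.det hA
  smul hA hc := by rw [transpose_smul]; exact ρ.smul hA hc
  uniq := fun {g A C} hA hC => by
    obtain ⟨c, hc⟩ := ρ.uniq hA hC
    exact ⟨c, by simpa using congrArg transpose hc⟩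
  mul hA hC := by rw [_root_.mul_inv_rev, transpose_mul]; exact ρ.mul hC hA
  inj hA := inv_eq_one.1 (ρ.inj (by rwa [transpose_one] at hA))

theorem tr_L {g : Γ} {A : Mt k} : ρ.tr.L g A ↔ ρ.L g⁻¹ Aᵀ := Iff.rfl

/-- restriction -/
def res {H : Type*} [Group H] (f : H →* Γ) (hf : Function.Injective f) : PR H k where
  L g A := ρ.L (f g) A
  ex _ := ρ.ex _
  det := ρ.det
  smul := ρ.smul
  uniq := ρ.uniq
  mul hA hC := by rw [map_mul]; exact ρ.mul hA hC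
  inj hA := hf (by rw [map_one]; exact ρ.inj hA)

/-- restriction to a subgroup -/
def sub (H : Subgroup Γ) : PR H k := ρ.res H.subtype H.subtype_injective

theorem sub_L {H : Subgroup Γ} {g : H} {A : Mt k} : (ρ.sub H).L g A ↔ ρ.L g A := Iff.rfl

/-- lifts of elements -/
def In (A : Mt k) : Prop := ∃ g, ρ.L g A

variable {ρ}

theorem In.det {A : Mt k} (h : ρ.In A) : A.det ≠ 0 := h.elim fun _ h => ρ.det h
theorem In.mul {A B : Mt k} (hA : ρ.In A) (hB : ρ.In B) : ρ.In (A * B) :=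
  hA.elim fun _ h => hB.elim fun _ h' => ⟨_, ρ.mul h h'⟩
theorem In.smul {A : Mt k} (hA : ρ.In A) {c : k} (hc : c ≠ 0) : ρ.In (c • A) :=
  hA.elim fun _ h => ⟨_, ρ.smul h hc⟩
theorem In.inv {A A' : Mt k} (hA : ρ.In A) (h : A * A' = 1) : ρ.In A' :=
  hA.elim fun _ h' => ⟨_, ρ.inv h' h⟩
theorem In.pow {A : Mt k} (hA : ρ.In A) (n : ℕ) : ρ.In (A ^ n) :=
  hA.elim fun _ h' => ⟨_, ρ.pow h' n⟩
theorem In.one : ρ.In 1 := ⟨1, ρ.one⟩

theorem in_cj {B B' : Mt k} (h : B * B' = 1) {A : Mt k} : (ρ.cj h).In A ↔ ρ.In (B * A * B') :=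
  Iff.rfl

theorem in_tr {A : Mt k} : ρ.tr.In A ↔ ρ.In Aᵀ :=
  ⟨fun ⟨g, h⟩ => ⟨g⁻¹, h⟩, fun ⟨g, h⟩ => ⟨g⁻¹, by rwa [tr_L, inv_inv]⟩⟩

variable (ρ) in
/-- `1 + v φ` is a lift -/
def R1 (v φ : Vc k) : Prop := ρ.In (1 + vecMulVec v φ)

theorem conj_r1 {A A' : Mt k} (h : A * A' = 1) (v φ : Vc k) :
    A * (1 + vecMulVec v φ) * A' = 1 + vecMulVec (A *ᵥ v) (φ ᵥ* A') := by
  rw [mul_add, add_mul, mul_one, h, mul_vecMulVec, vecMulVec_mul]

theorem R1.conj {v φ : Vc k} (h : ρ.R1 v φ) {A A' : Mt k} (hA : ρ.In A) (h1 : A * A' = 1) :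
    ρ.R1 (A *ᵥ v) (φ ᵥ* A') := by
  rw [R1, ← conj_r1 h1]; exact (hA.mul h).mul (hA.inv h1)

theorem r1_cj {B B' : Mt k} (h : B * B' = 1) {v φ : Vc k} :
    (ρ.cj h).R1 v φ ↔ ρ.R1 (B *ᵥ v) (φ ᵥ* B') := by
  rw [R1, in_cj, conj_r1 h, R1]

theorem r1_cj' {B B' : Mt k} (h : B * B' = 1) {v φ : Vc k} :
    (ρ.cj h).R1 (B' *ᵥ v) (φ ᵥ* B) ↔ ρ.R1 v φ := by
  rw [r1_cj, mulVec_mulVec, vecMul_vecMul, h, one_mulVec, vecMul_one]

theorem r1_tr {v φ : Vc k} : ρ.tr.R1 v φ ↔ ρ.R1 φ v := by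
  rw [R1, in_tr, transpose_add, transpose_one, transpose_vecMulVec, R1]

theorem R1.scale {v φ : Vc k} {c : k} : ρ.R1 (c • v) φ ↔ ρ.R1 v (c • φ) := by
  rw [R1, R1, smul_vecMulVec, vecMulVec_smul]

theorem R1.zero (φ : Vc k) : ρ.R1 0 φ := by simpa [R1] using In.one

variable (ρ) in
/-- the subgroup of the elements with a lift in a monoid of matrices -/
def grp [Finite Γ] (S : Mt k → Prop) (h1 : S 1) (hm : ∀ A B, S A → S B → S (A * B)) :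
    Subgroup Γ where
  carrier := {g | ∃ A, ρ.L g A ∧ S A}
  one_mem' := ⟨1, ρ.one, h1⟩
  mul_mem' := fun ⟨A, h, hA⟩ ⟨B, h', hB⟩ => ⟨_, ρ.mul h h', hm _ _ hA hB⟩
  inv_mem' := fun {g} ⟨A, h, hA⟩ => by
    have : ∀ n, S (A ^ n) := fun n => by
      induction n with
      | zero => rwa [pow_zero]
      | succ n ih => rw [pow_succ]; exact hm _ _ ih hA
    obtain ⟨n, hn⟩ := Nat.exists_eq_add_one_of_ne_zero (orderOf_pos g).ne'
    have e : g⁻¹ = g ^ n := by rw [inv_eq_iff_mul_eq_one, ← pow_succ', ← hn, pow_orderOf_eq_one]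
    exact ⟨_, e ▸ ρ.pow h n, this n⟩

theorem mem_grp [Finite Γ] {S : Mt k → Prop} {h1 : S 1} {hm : ∀ A B, S A → S B → S (A * B)}
    {g : Γ} : g ∈ ρ.grp S h1 hm ↔ ∃ A, ρ.L g A ∧ S A := Iff.rfl

/-- the projective representation given by a linear representation of a central extension -/
def ofHom {G : Type*} [Group G] (m : G →* Mt k) (f : G →* Γ) (hf : Function.Surjective f)
    (hk : ∀ x, f x = 1 ↔ ∃ c : k, m x = c • 1) : PR Γ k where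
  L g A := ∃ (x : G) (c : k), c ≠ 0 ∧ f x = g ∧ A = c • m x
  ex g := (hf g).elim fun x h => ⟨_, x, 1, one_ne_zero, h, rfl⟩
  det := by
    rintro g _ ⟨x, c, hc, -, rfl⟩
    simp [hc, (det_of_mul (show m x * m x⁻¹ = 1 by rw [← map_mul, mul_inv_cancel, map_one])).1]
  smul := by
    rintro g _ d ⟨x, c, hc, h, rfl⟩ hd
    exact ⟨x, d * c, mul_ne_zero hd hc, h, smul_smul _ _ _⟩
  uniq := by
    rintro g _ _ ⟨x, c, hc, h, rfl⟩ ⟨y, c', hc', h', rfl⟩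
    obtain ⟨d, hd⟩ := (hk (x⁻¹ * y)).1 (by rw [map_mul, map_inv, h, h', inv_mul_cancel])
    refine ⟨c' * d / c, ?_⟩
    rw [smul_smul, div_mul_cancel₀ _ hc, ← mul_inv_cancel_left x y, map_mul, hd, mul_smul_comm,
      mul_one, smul_smul]
  mul := by
    rintro g h _ _ ⟨x, c, hc, h, rfl⟩ ⟨y, c', hc', h', rfl⟩
    exact ⟨x * y, c * c', mul_ne_zero hc hc', by rw [map_mul, h, h'], by
      rw [map_mul, smul_mul_smul_comm]⟩
  inj := by
    rintro g ⟨x, c, hc, rfl, e⟩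
    exact (hk x).2 ⟨c⁻¹, by rw [e, smul_smul, inv_mul_cancel₀ hc, one_smul]⟩

theorem ofHom_L {G : Type*} [Group G] {m : G →* Mt k} {f : G →* Γ} {hf : Function.Surjective f}
    {hk : ∀ x, f x = 1 ↔ ∃ c : k, m x = c • 1} (x : G) : (ofHom m f hf hk).L (f x) (m x) :=
  ⟨x, 1, one_ne_zero, rfl, (one_smul _ _).symm⟩

variable (ρ) in
/-- irreducible -/
def Irr : Prop := ∀ W : Submodule k (Vc k), (∀ A, ρ.In A → ∀ v ∈ W, A *ᵥ v ∈ W) → W = ⊥ ∨ W = ⊤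

variable (ρ) in
/-- no transvections -/
def NoT : Prop := ∀ v φ : Vc k, φ ⬝ᵥ v = 0 → ρ.R1 v φ → v = 0 ∨ φ = 0

variable (ρ) in
/-- homologies with multiplier `ξ` -/
def Hm (ξ : k) (v φ : Vc k) : Prop := φ ⬝ᵥ v = ξ - 1 ∧ ρ.R1 v φ

theorem Irr.cj (h : ρ.Irr) {B B' : Mt k} (hB : B * B' = 1) : (ρ.cj hB).Irr := fun W hW => by
  have hB' := mul_eq_one_comm.1 hB
  rcases h (W.comap B'.mulVecLin) (fun A hA v hv => by
    have := hW (B' * A * B) (hA.imp fun g hg => (ρ.cj_L' hB).2 hg) _ hv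
    simpa [mulVec_mulVec, mul_assoc, hB] using this) with e | e
  · refine Or.inl (eq_bot_iff.2 fun v hv => ?_)
    have : B *ᵥ v ∈ W.comap B'.mulVecLin := by simpa [mulVec_mulVec, hB']
    rw [e] at this
    exact eq_zero_of_mulVec_eq_zero (det_of_mul hB).1 this
  · refine Or.inr (eq_top_iff.2 fun v _ => ?_)
    have : B *ᵥ v ∈ W.comap B'.mulVecLin := e ▸ Submodule.mem_top
    simpa [mulVec_mulVec, hB'] using this

theorem NoT.cj (h : ρ.NoT) {B B' : Mt k} (hB : B * B' = 1) : (ρ.cj hB).NoT := fun v φ h1 h2 =>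
  (h _ _ (by rw [dot_conj hB, h1]) ((r1_cj hB).1 h2)).imp
    (eq_zero_of_mulVec_eq_zero (det_of_mul hB).1) (eq_zero_of_vecMul_eq_zero (det_of_mul hB).2)

theorem NoT.tr (h : ρ.NoT) : ρ.tr.NoT := fun v φ h1 h2 =>
  (h φ v (by rwa [dotProduct_comm]) (r1_tr.1 h2)).symm

variable {ξ ξ' : k} {v φ v' φ' : Vc k}

theorem Hm.ne (h : ρ.Hm ξ v φ) : ξ ≠ 0 := by
  have := In.det h.2
  rwa [det_r1, h.1, add_sub_cancel] at this

theorem Hm.inv_eq (h : ρ.Hm ξ v φ) :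
    (1 + vecMulVec v φ) * (1 + vecMulVec v ((-ξ⁻¹) • φ)) = 1 := by
  rw [r1_mul, h.1, vecMulVec_smul]
  match_scalars
  · rfl
  · have := h.ne
    field_simp; ring

theorem Hm.inv (h : ρ.Hm ξ v φ) : ρ.Hm ξ⁻¹ v ((-ξ⁻¹) • φ) :=
  ⟨by have := h.ne; rw [smul_dotProduct, h.1, smul_eq_mul]; field_simp; ring,
    In.inv h.2 h.inv_eq⟩

theorem Hm.conj (h : ρ.Hm ξ v φ) {A A' : Mt k} (hA : ρ.In A) (h1 : A * A' = 1) :
    ρ.Hm ξ (A *ᵥ v) (φ ᵥ* A') := ⟨by rw [dot_conj h1, h.1], h.2.conj hA h1⟩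

theorem Hm.act (h : ρ.Hm ξ v φ) (h' : ρ.Hm ξ' v' φ') :
    ρ.Hm ξ' (v' + (φ ⬝ᵥ v') • v) (φ' - (ξ⁻¹ * φ' ⬝ᵥ v) • φ) := by
  have := h'.conj h.2 h.inv_eq
  rwa [r1_mulVec, vecMul_r1, smul_smul, mul_neg, neg_smul, ← sub_eq_add_neg, mul_comm] at this

theorem Hm.act' (h : ρ.Hm ξ v φ) (h' : ρ.Hm ξ' v' φ') :
    ρ.Hm ξ' (v' - (ξ⁻¹ * φ ⬝ᵥ v') • v) (φ' + (φ' ⬝ᵥ v) • φ) := by
  have := h'.conj h.inv.2 (mul_eq_one_comm.1 h.inv_eq)
  rwa [r1_mulVec, vecMul_r1, smul_dotProduct, smul_eq_mul, neg_mul, neg_smul,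
    ← sub_eq_add_neg] at this

theorem hm_cj {B B' : Mt k} (h : B * B' = 1) :
    (ρ.cj h).Hm ξ v φ ↔ ρ.Hm ξ (B *ᵥ v) (φ ᵥ* B') := by
  rw [Hm, Hm, r1_cj, dot_conj h]

theorem hm_cj' {B B' : Mt k} (h : B * B' = 1) :
    (ρ.cj h).Hm ξ (B' *ᵥ v) (φ ᵥ* B) ↔ ρ.Hm ξ v φ := by
  rw [hm_cj, mulVec_mulVec, vecMul_vecMul, h, one_mulVec, vecMul_one]

theorem hm_tr : ρ.tr.Hm ξ v φ ↔ ρ.Hm ξ φ v := by rw [Hm, Hm, r1_tr, dotProduct_comm]

theorem Hm.scale {c : k} : ρ.Hm ξ (c • v) φ ↔ ρ.Hm ξ v (c • φ) := by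
  rw [Hm, Hm, R1.scale, dotProduct_smul, smul_dotProduct]

theorem Hm.norm (h : ρ.Hm ξ v φ) {c : k} (hc : c ≠ 0) : ρ.Hm ξ (c • v) (c⁻¹ • φ) := by
  rwa [Hm.scale, smul_smul, mul_inv_cancel₀ hc, one_smul]

theorem Hm.v_ne (h : ρ.Hm ξ v φ) (h1 : ξ ≠ 1) : v ≠ 0 := by
  rintro rfl
  exact h1 (sub_eq_zero.1 (h.1.symm.trans (dotProduct_zero _)))

theorem Hm.φ_ne (h : ρ.Hm ξ v φ) (h1 : ξ ≠ 1) : φ ≠ 0 := (hm_tr.2 h).v_ne h1

theorem NoT.centre (hs : ρ.NoT) (h1 : ξ ≠ 1) (h : ρ.Hm ξ v φ) (h' : ρ.Hm ξ v φ') : φ' = φ := by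
  have e := In.mul h'.2 h.inv.2
  rw [r1_mul, h'.1] at e
  have h0 := h.ne
  rcases hs v (φ' - φ) (by rw [sub_dotProduct, h.1, h'.1, sub_self]) (by
    rw [R1]
    convert e using 1
    rw [vecMulVec_smul, vecMulVec_sub]
    match_scalars <;> field_simp <;> ring) with e | e
  · exact absurd e (h.v_ne h1)
  · exact sub_eq_zero.1 e

theorem NoT.axis (hs : ρ.NoT) (h1 : ξ ≠ 1) (h : ρ.Hm ξ v φ) (h' : ρ.Hm ξ v' φ) : v' = v :=
  hs.tr.centre h1 (hm_tr.2 h) (hm_tr.2 h')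

theorem NoT.orth (hs : ρ.NoT) (h1 : ξ ≠ 1) (h2 : ξ' ≠ 1) (h : ρ.Hm ξ v φ) (h' : ρ.Hm ξ' v' φ')
    (e : φ' ⬝ᵥ v = 0) : φ ⬝ᵥ v' = 0 := by
  have := h.act h'
  rw [e, mul_zero, zero_smul, sub_zero] at this
  simpa [h.v_ne h1] using hs.axis h2 h' this

/-- two unipotent elements of the stabiliser of a flag commute -/
theorem NoT.unip (hs : ρ.NoT) {a a' z χ η η' : Vc k} {c c' : k} (hz : z ≠ 0) (hχ : χ ≠ 0)
    (h1 : χ ⬝ᵥ a = 0) (h2 : χ ⬝ᵥ a' = 0) (h3 : χ ⬝ᵥ z = 0) (h4 : η ⬝ᵥ z = 0) (h5 : η' ⬝ᵥ z = 0)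
    (n : ρ.In (1 + vecMulVec a χ + vecMulVec z η + c • vecMulVec z χ))
    (n' : ρ.In (1 + vecMulVec a' χ + vecMulVec z η' + c' • vecMulVec z χ)) :
    η ⬝ᵥ a' = η' ⬝ᵥ a := by
  have e1 := n.mul n'
  have e2 := n'.mul n
  obtain ⟨A', i1, i2⟩ := exists_inv e2.det
  have e3 := (e2.inv i1).mul e1
  have : (1 + vecMulVec a χ + vecMulVec z η + c • vecMulVec z χ) *
      (1 + vecMulVec a' χ + vecMulVec z η' + c' • vecMulVec z χ) =
      (1 + vecMulVec a' χ + vecMulVec z η' + c' • vecMulVec z χ) *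
      (1 + vecMulVec a χ + vecMulVec z η + c • vecMulVec z χ) *
      (1 + vecMulVec ((η ⬝ᵥ a' - η' ⬝ᵥ a) • z) χ) := by
    simp only [mul_add, add_mul, mul_one, one_mul, smul_mul_assoc, mul_smul_comm, EE,
      smul_vecMulVec, h1, h2, h3, h4, h5, zero_smul, smul_zero, add_zero]
    module
  rw [this, ← mul_assoc A', i2, one_mul] at e3
  rcases hs _ _ (by rw [dotProduct_smul, h3, smul_zero]) e3 with e | e
  · exact sub_eq_zero.1 ((smul_eq_zero.1 e).resolve_right hz)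
  · exact absurd e hχ

/-- the two unipotent elements of a degenerate pair -/
theorem deg_in (h : ρ.Hm ξ v φ) (h' : ρ.Hm ξ v' φ') (e : φ ⬝ᵥ v' = ξ - 1) :
    ρ.In (1 + vecMulVec v (φ' - φ) + vecMulVec (v' - v) (ξ⁻¹ • φ) +
      (1 : k) • vecMulVec (v' - v) (φ' - φ)) ∨ φ' ⬝ᵥ v ≠ ξ - 1 := by
  by_cases e' : φ' ⬝ᵥ v = ξ - 1
  swap
  · exact Or.inr e'
  left
  have := In.mul h'.2 h.inv.2
  have h0 := h.ne
  rw [r1_mul, e'] at this
  convert this using 1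
  simp only [Emr, Esl, Esr]
  match_scalars <;> field_simp <;> ring

theorem NoT.deg (hs : ρ.NoT) (h2 : ξ ^ 2 ≠ 1) (h : ρ.Hm ξ v φ) (h' : ρ.Hm ξ v' φ')
    (hc : φ ⬝ᵥ v' * φ' ⬝ᵥ v = (ξ - 1) ^ 2) : ∃ c : k, c ≠ 0 ∧ v' = c • v ∧ φ = c • φ' := by
  have h1 : ξ ≠ 1 := by rintro rfl; simp at h2
  have t := sub_ne_zero.2 h1
  have h0 := h.ne
  have b0 : φ ⬝ᵥ v' ≠ 0 := left_ne_zero_of_mul (hc ▸ pow_ne_zero 2 t)
  have c0 : (ξ - 1) / φ ⬝ᵥ v' ≠ 0 := div_ne_zero t b0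
  have k' := h'.norm c0
  have e1 : φ ⬝ᵥ (((ξ - 1) / φ ⬝ᵥ v') • v') = ξ - 1 := by
    rw [dotProduct_smul, smul_eq_mul, div_mul_cancel₀ _ b0]
  have e2 : (((ξ - 1) / φ ⬝ᵥ v')⁻¹ • φ') ⬝ᵥ v = ξ - 1 := by
    rw [smul_dotProduct, smul_eq_mul]; field_simp; linear_combination hc
  suffices key : ((ξ - 1) / φ ⬝ᵥ v') • v' = v ∧ ((ξ - 1) / φ ⬝ᵥ v')⁻¹ • φ' = φ by
    refine ⟨((ξ - 1) / φ ⬝ᵥ v')⁻¹, inv_ne_zero c0, ?_, key.2.symm⟩
    rw [eq_inv_smul_iff₀ c0, key.1]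
  generalize ((ξ - 1) / φ ⬝ᵥ v') • v' = w at *
  generalize ((ξ - 1) / φ ⬝ᵥ v')⁻¹ • φ' = ψ at *
  by_cases hw : w = v
  · subst hw; exact ⟨rfl, hs.centre h1 h k'⟩
  by_cases hψ : ψ = φ
  · subst hψ; exact ⟨hs.axis h1 h k', rfl⟩
  exfalso
  have n1 := (deg_in h k' e1).resolve_right (not_not.2 e2)
  have n2 : ρ.In (1 + vecMulVec (ξ⁻¹ • v) (ψ - φ) + vecMulVec (w - v) φ +
      (1 : k) • vecMulVec (w - v) (ψ - φ)) := by
    have := In.mul h.inv.2 k'.2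
    rw [r1_mul, smul_dotProduct, e1, smul_eq_mul] at this
    convert this using 1
    simp only [Emr, Eml, Esl, Esr]
    match_scalars <;> field_simp <;> ring
  have := hs.unip (sub_ne_zero.2 hw) (sub_ne_zero.2 hψ) (by simp [e2, h.1]) (by simp [e2, h.1])
    (by simp [e1, e2, h.1, k'.1]) (by simp [e1, h.1]) (by simp [e1, h.1]) n1 n2
  simp only [smul_dotProduct, dotProduct_smul, h.1, smul_eq_mul] at this
  apply h2
  field_simp at this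
  linear_combination -this

theorem r1_ne_one {g : Γ} (h1 : ξ ≠ 1) (e : φ ⬝ᵥ v = ξ - 1) (hg : ρ.L g (1 + vecMulVec v φ)) :
    g ≠ 1 := fun h => by
  obtain ⟨c, hc⟩ := (ρ.eq_one_iff hg).1 h
  obtain ⟨a, b, c, d, rfl⟩ := ex4 v
  obtain ⟨x, y, z, w, rfl⟩ := ex4 φ
  rw [r14, one4, sm4, em4] at hc
  rw [dot4] at e
  clear * - hc e h1
  grind

/-- the homologies generate the group -/
theorem gen [Finite Γ] [IsSimpleGroup Γ] (h1 : ξ ≠ 1) (h : ρ.Hm ξ v φ) (Q : Mt k → Prop)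
    (q1 : Q 1) (qm : ∀ A B, Q A → Q B → Q (A * B))
    (qh : ∀ v φ, ρ.Hm ξ v φ → Q (1 + vecMulVec v φ)) (g : Γ) : ∃ A, ρ.L g A ∧ Q A := by
  let S : Set Γ := {g | ∃ v φ, ρ.Hm ξ v φ ∧ ρ.L g (1 + vecMulVec v φ)}
  have hN : (normalClosure S : Set Γ) ⊆ ρ.grp Q q1 qm := by
    refine (closure_le _).2 fun x hx => ?_
    obtain ⟨y, ⟨w, ψ, a1, a2⟩, hy⟩ := Group.mem_conjugatesOfSet_iff.1 hx
    obtain ⟨c, rfl⟩ := isConj_iff.1 hy
    obtain ⟨A, hA⟩ := ρ.ex c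
    obtain ⟨A', i1, -⟩ := exists_inv (ρ.det hA)
    exact ⟨_, conj_r1 i1 w ψ ▸ ρ.conj hA i1 a2, qh _ _ (a1.conj ⟨_, hA⟩ i1)⟩
  obtain ⟨t, ht⟩ := h.2
  rcases IsSimpleGroup.eq_bot_or_eq_top_of_normal (normalClosure S) inferInstance with e | e
  · exact absurd (mem_bot.1 (e ▸ subset_normalClosure ⟨v, φ, h, ht⟩)) (r1_ne_one h1 h.1 ht)
  · exact hN (e ▸ mem_top g)

theorem Irr.hm [Finite Γ] [IsSimpleGroup Γ] (hi : ρ.Irr) (h1 : ξ ≠ 1) (h : ρ.Hm ξ v φ)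
    {W : Submodule k (Vc k)} (w0 : W ≠ ⊥) (w1 : W ≠ ⊤) :
    ∃ y ψ, ρ.Hm ξ y ψ ∧ y ∉ W ∧ ∃ x ∈ W, ψ ⬝ᵥ x ≠ 0 := by
  by_contra hc
  push Not at hc
  refine (hi W fun A ⟨g, hA⟩ x hx => ?_).elim w0 w1
  obtain ⟨B, hB, q⟩ := gen h1 h (fun A => ∀ x ∈ W, A *ᵥ x ∈ W) (by simp)
    (fun A B a b x hx => mulVec_mulVec x A B ▸ a _ (b x hx)) (fun y ψ hy x hx => by
      rw [r1_mulVec]
      by_cases e : y ∈ W
      · exact W.add_mem hx (W.smul_mem _ e)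
      · rwa [hc y ψ hy e x hx, zero_smul, add_zero]) g
  obtain ⟨c, rfl⟩ := ρ.uniq hB hA
  rw [smul_mulVec]
  exact W.smul_mem _ (q x hx)

section Up

variable {F : Type*} [Field F]

/-- extension of scalars -/
def up (ρ : PR Γ F) (ι : F →+* k) : PR Γ k where
  L g A := ∃ (B : Mt F) (c : k), c ≠ 0 ∧ ρ.L g B ∧ A = c • B.map ι
  ex g := (ρ.ex g).elim fun B h => ⟨_, B, 1, one_ne_zero, h, rfl⟩
  det := by
    rintro g _ ⟨B, c, hc, h, rfl⟩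
    simp [det_map, hc, ρ.det h]
  smul := by
    rintro g _ d ⟨B, c, hc, h, rfl⟩ hd
    exact ⟨B, d * c, mul_ne_zero hd hc, h, smul_smul _ _ _⟩
  uniq := by
    rintro g _ _ ⟨B, c, hc, h, rfl⟩ ⟨B', c', hc', h', rfl⟩
    obtain ⟨d, rfl⟩ := ρ.uniq h h'
    exact ⟨c' * ι d / c, by rw [map_smul', smul_smul, smul_smul, div_mul_cancel₀ _ hc]⟩
  mul := by
    rintro g h _ _ ⟨B, c, hc, h, rfl⟩ ⟨B', c', hc', h', rfl⟩
    exact ⟨B * B', c * c', mul_ne_zero hc hc', ρ.mul h h', by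
      rw [Matrix.map_mul, smul_mul_smul_comm]⟩
  inj := by
    rintro g ⟨B, c, hc, h, e⟩
    obtain ⟨c', -, e'⟩ := exists_scal ι (A := 1) (B := B) (c := c⁻¹) one_ne_zero (by
      rw [map_one', e, smul_smul, inv_mul_cancel₀ hc, one_smul])
    exact ρ.eq_one (e' ▸ h)

theorem up_of {ρ : PR Γ F} {ι : F →+* k} {g : Γ} {B : Mt F} (h : ρ.L g B) :
    (ρ.up ι).L g (B.map ι) := ⟨B, 1, one_ne_zero, h, (one_smul _ _).symm⟩

theorem of_up {ρ : PR Γ F} {ι : F →+* k} {g : Γ} {B : Mt F} (h : (ρ.up ι).L g (B.map ι)) :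
    ρ.L g B := by
  obtain ⟨B', c, hc, h, e⟩ := h
  obtain ⟨c', rfl, rfl⟩ := exists_scal ι (ne_zero_of_det (ρ.det h)) e
  exact ρ.smul h ((map_ne_zero ι).1 hc)

/-- the projective representation of a linear group -/
def quo (X : Subgroup (GL (Fin 4) F)) : PR (X ⧸ (Geo.scalars (Fin 4) F).subgroupOf X) F :=
  ofHom ((Units.coeHom _).comp X.subtype) (QuotientGroup.mk' _) (QuotientGroup.mk'_surjective _)
    fun x => by
      rw [QuotientGroup.mk'_apply, QuotientGroup.eq_one_iff, mem_subgroupOf, Geo.mem_scalars_iff]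
      exact ⟨fun ⟨c, h⟩ => ⟨c, h⟩, fun ⟨c, h⟩ => ⟨Units.mk0 c (by
        rintro rfl; exact x.1.ne_zero (h.trans (zero_smul _ _))), h⟩⟩

theorem quo_L {X : Subgroup (GL (Fin 4) F)} (x : X) : (quo X).L x x.1.1 := ofHom_L x

end Up

end PR

end Cfsg.Agent.L4.H
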