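import Cfsg.Agent.L4.Kill3

/-!
Complex representations of degree four: the groups which survive.
-/

set_option autoImplicit false

namespace Cfsg.Agent.L4.Kill

open Matrix Subgroup Cfsg.Agent.L4.R Cfsg.Agent.L4.Rb Cfsg.Agent.L4.H Finset
open Cfsg.Agent.H1.Spin6

theorem tr_L2 (A : M4 ℂ) : LinearMap.trace ℂ _ (L2 A) = (A.trace ^ 2 - (A * A).trace) / 2 := by
  rw [LinearMap.trace_eq_matrix_trace ℂ (Pi.basisFun ℂ _)]
  simp [trace, LinearMap.toMatrix_apply, Fin.sum_univ_six, L2_apply, co, ψ_def, mul_apply,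
    Fin.sum_univ_four, Pi.single_apply]
  ring

theorem class_lt {Γ : Type*} [Group Γ] [Fintype Γ] [DecidableEq Γ] (n : Γ → ℝ) (h0 : ∀ a, 0 ≤ n a)
    (h1 : 0 < n 1) (hc : ∀ a y, n (y * a * y⁻¹) = n a) (hs : ∑ a, n a = Fintype.card Γ) {a : Γ}
    (ha : a ≠ 1) : n a < #{y | y * a = a * y} := by
  have e := sum_comp (s := univ) n fun y => y * a * y⁻¹
  rw [sum_congr rfl fun y _ => hc a y, sum_const, card_univ,
    sum_congr rfl (g := fun b => #{y | y * a = a * y} • n b) fun b hb => by
      obtain ⟨y, -, rfl⟩ := mem_image.1 hb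
      congr 1
      refine card_equiv (Equiv.mulLeft y⁻¹) fun x => ?_
      simp only [mem_filter, mem_univ, true_and, Equiv.coe_mulLeft]
      exact ⟨fun h => by
        calc y⁻¹ * x * a = y⁻¹ * (x * a * x⁻¹) * x := by group
          _ = _ := by rw [h]; group, fun h => by
        calc x * a * x⁻¹ = y * (y⁻¹ * x * a) * x⁻¹ := by group
          _ = _ := by rw [h]; group⟩, ← smul_sum] at e
  have l : ∑ b ∈ univ.image fun y => y * a * y⁻¹, n b < Fintype.card Γ :=
    hs ▸ sum_lt_sum_of_subset (subset_univ _) (mem_univ 1) (by simpa using ha) h1 fun j _ _ => h0 j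
  have p : (0 : ℝ) < #{y | y * a = a * y} := by
    exact_mod_cast card_pos.2 ⟨1, by simp⟩
  rw [nsmul_eq_mul, nsmul_eq_mul] at e
  have q : (0 : ℝ) < Fintype.card Γ := by exact_mod_cast Fintype.card_pos
  refine lt_of_mul_lt_mul_left (a := (Fintype.card Γ : ℝ)) ?_ q.le
  rw [e, mul_comm]
  exact mul_lt_mul_of_pos_right l p

variable {P : Type*} [Group P] {ρ : P →* M4 ℂ}

theorem irr_rW (h : Hy ρ) : (rW ρ).IsIrreducible :=
  haveI : Nontrivial (Subrepresentation (rW ρ)) :=
    ⟨⊥, ⊤, fun e => bot_ne_top (congrArg Subrepresentation.toSubmodule e)⟩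
  ⟨fun X => (h.irrW X.toSubmodule fun g _ hx => X.apply_mem_toSubmodule g hx).imp
    (fun e => Subrepresentation.toSubmodule_injective e)
    fun e => Subrepresentation.toSubmodule_injective e⟩

theorem bound [Finite P] (h : Hy ρ) {Γ : Type*} [Group Γ] [Fintype Γ] [DecidableEq Γ]
    (e : (P ⧸ center P) ≃* Γ) {g : P} (hg : e g ≠ 1) :
    Complex.normSq ((rW ρ).character g) < #{y | y * e g = e g * y} := by
  classical
  have := Fintype.ofFinite P
  have := irr_rW h
  let π : P →* Γ := e.toMonoidHom.comp (QuotientGroup.mk' _)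
  have hπ : Function.Surjective π := e.surjective.comp (QuotientGroup.mk'_surjective _)
  let n : Γ → ℝ := fun a => Complex.normSq ((rW ρ).character (Function.surjInv hπ a))
  have hn : ∀ x, n (π x) = Complex.normSq ((rW ρ).character x) := fun x => by
    obtain ⟨s, s2, hs⟩ := rW_eq h (e.injective (Function.surjInv_eq hπ (π x)))
    simp only [n, Representation.character]
    rw [hs]
    rcases mul_self_eq_one_iff.1 s2 with rfl | rfl <;> simp
  have fib : ∀ F : Γ → ℝ, ∑ x, F (π x) = #{x | π x = 1} * ∑ a, F a := fun F => by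
    rw [sum_comp, image_univ_of_surjective hπ, mul_sum]
    exact sum_congr rfl fun a _ => by
      rw [nsmul_eq_mul, MonoidHom.card_fiber_eq_of_mem_range π (hπ a) (hπ 1)]
  refine hn g ▸ class_lt n (fun a => Complex.normSq_nonneg _) ?_ (fun a y => ?_) ?_ hg
  · rw [← map_one π, hn]
    simp
  · obtain ⟨a, rfl⟩ := hπ a
    obtain ⟨y, rfl⟩ := hπ y
    rw [← map_inv, ← map_mul, ← map_mul, hn, hn, Representation.char_conj]
  · have e1 := Representation.char_orthonormal (rW ρ) (rW ρ)
    rw [if_pos ⟨Representation.Equiv.refl _⟩, inv_mul_eq_one₀ (by simp)] at e1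
    simp only [← H1.CharDecomp.conj_character, Complex.mul_conj] at e1
    have e2 := fib n
    have e3 := fib 1
    simp only [hn] at e2
    simp only [Pi.one_apply, sum_const, card_univ, nsmul_eq_mul, mul_one] at e3
    have p : (#{x | π x = 1} : ℝ) ≠ 0 := by exact_mod_cast (card_pos.2 ⟨1, by simp⟩).ne'
    refine mul_left_cancel₀ p ?_
    rw [← e2, ← e3, ← Nat.card_eq_fintype_card]
    exact_mod_cast e1.symm

theorem chi_eq (h : Hy ρ) {g : P} {X : M4 ℂ} {c : ℂ} (e : ρ g = c • X) :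
    (rW ρ).character g = c ^ 2 * ((X.trace ^ 2 - (X * X).trace) / 2) ∧ c ^ 4 * X.det = 1 := by
  refine ⟨?_, by simpa [e] using h.det g⟩
  show LinearMap.trace ℂ _ (L2 (ρ g)) = _
  rw [tr_L2, e]
  simp
  ring

theorem not_A5 [Finite P] (h : Hy ρ) (e : (P ⧸ center P) ≃* alternatingGroup (Fin 5)) : False := by
  obtain ⟨f1, f2, f3, f4, f5, f6, f7⟩ := z5_facts
  let σ := (pr h).res e.symm.toMonoidHom e.symm.injective
  obtain ⟨A, hA, a2⟩ := ex_inv σ f1
  obtain ⟨B, hB, b2⟩ := ex_inv σ f2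
  have t := (four f3 f4 (isConj_iff.2 f5) (isConj_iff.2 f6) hA hB a2 b2).1
  obtain ⟨g, hg⟩ := QuotientGroup.mk_surjective (e.symm z5)
  obtain ⟨c, hc⟩ := (pr h).uniq hA (hg ▸ pr_L h g)
  have b := bound h e (g := g) (by rw [hg, e.apply_symm_apply]; exact f3)
  obtain ⟨e1, e2⟩ := chi_eq h hc
  have e3 : Complex.normSq (c ^ 2) = 1 := by
    have d := congrArg (fun X => Complex.normSq (det X)) a2
    have := congrArg Complex.normSq e2
    simp only [det_mul, map_mul, det_one, map_one, map_pow] at d this ⊢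
    have p := Complex.normSq_nonneg A.det
    have p' := Complex.normSq_nonneg c
    rw [(mul_self_eq_one_iff.1 d).resolve_right (by linarith), mul_one,
      pow_eq_one_iff_of_nonneg p' (by omega)] at this
    rw [this, one_pow]
  rw [hg, e.apply_symm_apply, f7, e1, t, a2, map_mul, e3] at b
  norm_num at b

theorem not_A6 [Finite P] (h : Hy ρ) (e : (P ⧸ center P) ≃* alternatingGroup (Fin 6)) : False := by
  let σ := (pr h).res e.symm.toMonoidHom e.symm.injective
  have m : ∀ a ∈ centralizer {x6}, a * x6 = x6 * a := fun a ha => mem_centralizer_singleton_iff.1 ha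
  obtain ⟨a, a1, a2, X, x1, x2, x3, x4⟩ := nine σ (A := centralizer {x6}) (by
      rw [← (x6_facts x6 rfl).2.2 x6_ne, ← Nat.card_eq_finsetCard]
      exact Nat.card_congr (Equiv.subtypeEquivRight fun a => by
        simp [mem_centralizer_singleton_iff]))
    (fun a ha => (x6_facts a (m a ha)).1) (fun a ha => isConj_iff.2 (x6_facts a (m a ha)).2.1) (-2)
    (Or.inr rfl)
  have t := (real3 (isConj_iff.2 (x6_facts a (m a a1)).2.1) a2 x1 x2 x3).1
  obtain ⟨g, hg⟩ := QuotientGroup.mk_surjective (e.symm a)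
  obtain ⟨c, hc⟩ := (pr h).uniq x1 (hg ▸ pr_L h g)
  have b := bound h e (g := g) (by rw [hg, e.apply_symm_apply]; exact a2)
  obtain ⟨e1, e2⟩ := chi_eq h hc
  have e3 : Complex.normSq (c ^ 2) = 1 := by
    have := congrArg Complex.normSq e2
    simp only [x2, mul_one, map_one, map_pow] at this ⊢
    rw [(pow_eq_one_iff_of_nonneg (Complex.normSq_nonneg c) (by omega)).1 this, one_pow]
  rw [hg, e.apply_symm_apply, (x6_facts a (m a a1)).2.2 a2, e1, t, x4, map_mul, e3] at b
  norm_num at b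

theorem good [Finite P] (h : Hy ρ) (l : List2 (P ⧸ center P)) : Good (P ⧸ center P) := by
  rcases l with l | l | l | ⟨⟨e⟩⟩ | ⟨⟨e⟩⟩ | l
  exacts [(not_K1 h l).elim, (not_K2 (pr h) l).elim, (not_K3 (pr h) l).elim, (not_A5 h e).elim,
    (not_A6 h e).elim, l]

end Cfsg.Agent.L4.Kill
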