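import Cfsg.Agent.L4.Rb3
import Cfsg.Agent.H1.CharDecomp

/-!
Complex projective representations of degree four: four-groups and groups of order nine.
-/

set_option autoImplicit false

namespace Cfsg.Agent.L4.Kill

open Matrix Subgroup Cfsg.Agent.L4.H Cfsg.Agent.L4.R

theorem tr_eq (E : Mt ℂ) (h : E * E = E) :
    E.trace = Module.finrank ℂ (LinearMap.range (toLin' E)) := by
  rw [← trace_toLin'_eq]
  exact (LinearMap.IsIdempotentElem.isProj_range _ (by
    show toLin' E ∘ₗ toLin' E = _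
    rw [← toLin'_mul, h])).trace

theorem tr_nat (E : Mt ℂ) (h : E * E = E) : ∃ m : ℕ, E.trace = m := ⟨_, tr_eq E h⟩

theorem tr_zero {E : Mt ℂ} (h : E * E = E) (h0 : E.trace = 0) : E = 0 := by
  rw [tr_eq E h, Nat.cast_eq_zero, Submodule.finrank_eq_zero, LinearMap.range_eq_bot] at h0
  exact toLin'.injective (by rw [h0, map_zero])

theorem tr_one {E X : Mt ℂ} (h : E * E = E) (h1 : E.trace = 1) (hX : X * E = E * X) :
    ∃ c : ℂ, X * E = c • E := by
  rw [tr_eq E h, Nat.cast_eq_one, finrank_eq_one_iff'] at h1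
  obtain ⟨⟨_, v, rfl⟩, -, h2⟩ := h1
  obtain ⟨c, hc⟩ := h2 ⟨_, X *ᵥ v, rfl⟩
  refine ⟨c, toLin'.injective (LinearMap.ext fun u => ?_)⟩
  obtain ⟨d, hd⟩ := h2 ⟨_, u, rfl⟩
  have hc := congrArg Subtype.val hc
  have hd := congrArg Subtype.val hd
  simp only [toLin'_apply, SetLike.val_smul] at hc hd ⊢
  rw [← mulVec_mulVec, smul_mulVec, ← hd, mulVec_smul, mulVec_mulVec, hX, ← mulVec_mulVec, ← hc,
    smul_comm]

/-- The four idempotents of two commuting involutions. -/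
noncomputable def EE (A B : Mt ℂ) (s t : ℂ) : Mt ℂ :=
  (4 : ℂ)⁻¹ • (1 + s • A + t • B + (s * t) • (A * B))

theorem EE_idem {A B : Mt ℂ} (hA : A * A = 1) (hB : B * B = 1) (h : A * B = B * A) {s t : ℂ}
    (hs : s * s = 1) (ht : t * t = 1) : EE A B s t * EE A B s t = EE A B s t := by
  have e1 : A * (A * B) = B := by rw [← mul_assoc, hA, one_mul]
  have e2 : B * (A * B) = A := by rw [← mul_assoc, ← h, mul_assoc, hB, mul_one]
  have e3 : A * B * A = B := by rw [mul_assoc, ← h, e1]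
  have e4 : A * B * B = A := by rw [mul_assoc, hB, mul_one]
  have e5 : A * B * (A * B) = 1 := by rw [← mul_assoc, e3, hB]
  simp only [EE, mul_add, add_mul, smul_mul_assoc, mul_smul_comm, mul_one, one_mul, hA, hB, ← h,
    e1, e2, e3, e4, e5]
  match_scalars <;> grind

theorem EE_tr (A B : Mt ℂ) (s t : ℂ) : (EE A B s t).trace =
    4⁻¹ * (4 + s * A.trace + t * B.trace + s * t * (A * B).trace) := by
  simp [EE]
  ring

theorem EE_comm {A B X : Mt ℂ} (hA : X * A = A * X) (hB : X * B = B * X) (s t : ℂ) :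
    X * EE A B s t = EE A B s t * X := by
  have : X * (A * B) = A * B * X := by rw [← mul_assoc, hA, mul_assoc, hB, mul_assoc]
  simp only [EE, mul_add, add_mul, smul_mul_assoc, mul_smul_comm, mul_one, one_mul, hA, hB, this]

theorem EE_sum (A B : Mt ℂ) : EE A B 1 1 + EE A B 1 (-1) + EE A B (-1) 1 + EE A B (-1) (-1) = 1 := by
  simp only [EE]
  match_scalars <;> norm_num

theorem comm_of {A B X Y : Mt ℂ} (hA : A * A = 1) (hB : B * B = 1) (h : A * B = B * A)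
    (t1 : A.trace = 0) (t2 : B.trace = 0) (t3 : (A * B).trace = 0) (x1 : X * A = A * X)
    (x2 : X * B = B * X) (y1 : Y * A = A * Y) (y2 : Y * B = B * Y) : X * Y = Y * X := by
  have key : ∀ s t : ℂ, s * s = 1 → t * t = 1 → X * Y * EE A B s t = Y * X * EE A B s t :=
    fun s t hs ht => by
    have h1 : (EE A B s t).trace = 1 := by rw [EE_tr, t1, t2, t3]; norm_num
    obtain ⟨c, hc⟩ := tr_one (EE_idem hA hB h hs ht) h1 (EE_comm x1 x2 s t)
    obtain ⟨d, hd⟩ := tr_one (EE_idem hA hB h hs ht) h1 (EE_comm y1 y2 s t)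
    rw [mul_assoc, mul_assoc, hc, hd, mul_smul_comm, mul_smul_comm, hc, hd, smul_comm]
  rw [← mul_one (X * Y), ← mul_one (Y * X), ← EE_sum A B]
  simp only [mul_add, key, mul_one, mul_neg, neg_neg]

variable {Γ : Type*} [Group Γ] (σ : PR Γ ℂ)

theorem ex_inv {z : Γ} (h : z * z = 1) : ∃ A, σ.L z A ∧ A * A = 1 := by
  obtain ⟨A, hA⟩ := σ.ex z
  obtain ⟨c, h0, hc⟩ := σ.uniq' σ.one (h ▸ σ.mul hA hA)
  obtain ⟨s, hs⟩ := IsAlgClosed.exists_pow_nat_eq c⁻¹ (n := 2) two_pos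
  refine ⟨s • A, σ.smul hA (by rintro rfl; exact inv_ne_zero h0 (by simpa using hs.symm)), ?_⟩
  rw [smul_mul_smul_comm, hc, smul_smul, ← sq, hs, inv_mul_cancel₀ h0, one_smul]

variable {σ}

theorem tr_conj {a b : Γ} (h : IsConj a b) {A B : Mt ℂ} (hA : σ.L a A) (hB : σ.L b B) :
    ∃ (c : ℂ) (N N' : Mt ℂ), N * N' = 1 ∧ B = c • (N * A * N') ∧ B.trace = c * A.trace := by
  obtain ⟨g, rfl⟩ := isConj_iff.1 h
  obtain ⟨N, hN⟩ := σ.ex g
  obtain ⟨N', h1, h2⟩ := exists_inv (σ.det hN)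
  obtain ⟨c, rfl⟩ := σ.uniq (σ.conj hN h1 hA) hB
  exact ⟨c, N, N', h1, rfl, by
    rw [trace_smul, trace_mul_cycle, h2, one_mul, smul_eq_mul]⟩

theorem tr_sq {a b : Γ} (h : IsConj a b) {A B : Mt ℂ} (hA : σ.L a A) (hB : σ.L b B)
    (h1 : A * A = 1) (h2 : B * B = 1) : B.trace = A.trace ∨ B.trace = -A.trace := by
  obtain ⟨c, N, N', h3, rfl, e⟩ := tr_conj h hA hB
  rw [smul_mul_smul_comm, mul_assoc (N * A), ← mul_assoc N', ← mul_assoc N', mul_eq_one_comm.1 h3,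
    one_mul, mul_assoc, ← mul_assoc A, h1, one_mul, h3] at h2
  have : c * c = 1 := by simpa using congrFun (congrFun h2 0) 0
  rw [e]
  rcases mul_self_eq_one_iff.1 this with rfl | rfl <;> simp

theorem four {z z' : Γ} (h1 : z ≠ 1) (hc : z * z' = z' * z) (c1 : IsConj z z')
    (c2 : IsConj z (z * z')) {A B : Mt ℂ} (hA : σ.L z A) (hB : σ.L z' B) (a2 : A * A = 1)
    (b2 : B * B = 1) : A.trace = 0 ∧
      (B * A = -(A * B) ∨ A * B = B * A ∧ B.trace = 0 ∧ (A * B).trace = 0) := by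
  obtain ⟨l, hl⟩ := (σ.comm_iff hA hB).1 hc
  have h2 : l * l = 1 := by
    have : B = (l * l) • B := by
      calc B = B * A * A := by rw [mul_assoc, a2, mul_one]
        _ = l • (A * (B * A)) := by
          conv_lhs => rw [hl]
          rw [smul_mul_assoc, mul_assoc]
        _ = _ := by rw [hl, mul_smul_comm, ← mul_assoc, a2, one_mul, smul_smul]
    exact smul_cancel (σ.det hB) (this.symm.trans (one_smul _ _).symm)
  rcases mul_self_eq_one_iff.1 h2 with rfl | rfl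
  swap
  · rw [neg_smul, one_smul] at hl
    refine ⟨?_, Or.inl hl⟩
    have : A.trace = -A.trace := by
      calc A.trace = (B * A * B).trace := by rw [trace_mul_cycle, b2, one_mul]
        _ = _ := by rw [hl, neg_mul, mul_assoc, b2, mul_one, trace_neg]
    linear_combination this / 2
  rw [one_smul] at hl
  have t1 := tr_sq c1 hA hB a2 b2
  have t2 := tr_sq c2 hA (σ.mul hA hB) a2 (by
    rw [mul_assoc, ← mul_assoc B, hl, mul_assoc, b2, mul_one, a2])
  suffices h : A.trace = 0 by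
    rw [h, neg_zero, or_self] at t1 t2
    exact ⟨h, Or.inr ⟨hl.symm, t1, t2⟩⟩
  have id := fun s t hs ht => tr_nat _ (EE_idem a2 b2 hl.symm (s := s) (t := t) hs ht)
  obtain ⟨n1, e1⟩ := id 1 1 (by simp) (by simp)
  obtain ⟨n2, e2⟩ := id 1 (-1) (by simp) (by simp)
  obtain ⟨n3, e3⟩ := id (-1) 1 (by simp) (by simp)
  obtain ⟨n4, e4⟩ := id (-1) (-1) (by simp) (by simp)
  rw [EE_tr] at e1 e2 e3 e4
  have f0 : (n1 : ℤ) + n2 + n3 + n4 = 4 := by
    exact_mod_cast (show (n1 : ℂ) + n2 + n3 + n4 = 4 by linear_combination -e1 - e2 - e3 - e4)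
  have f1 : A.trace = ((n1 + n2 - n3 - n4 : ℤ) : ℂ) := by
    push_cast; linear_combination e1 + e2 - e3 - e4
  have f2 : B.trace = ((n1 - n2 + n3 - n4 : ℤ) : ℂ) := by
    push_cast; linear_combination e1 - e2 + e3 - e4
  have f3 : (A * B).trace = ((n1 - n2 - n3 + n4 : ℤ) : ℂ) := by
    push_cast; linear_combination e1 - e2 - e3 + e4
  have g : ∀ s : ℂ, s * s = 1 → A.trace ≠ 4 * s := fun s hs e => h1 ((σ.eq_one_iff hA).2 ⟨s, by
    have := tr_zero (E := (2 : ℂ)⁻¹ • (1 - s • A)) (by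
      simp only [mul_sub, sub_mul, smul_mul_assoc, mul_smul_comm, mul_one, one_mul, a2]
      match_scalars <;> grind) (by simp [e]; grind)
    rw [smul_eq_zero, sub_eq_zero] at this
    rw [this.resolve_left (by norm_num), smul_smul, hs, one_smul]⟩)
  have g1 := g 1 (by simp)
  have g2 := g (-1) (by simp)
  rw [f1] at g1 g2 t1 t2 ⊢
  rw [f2] at t1
  rw [f3] at t2
  rw [← Int.cast_neg, Int.cast_inj, Int.cast_inj] at t1 t2
  rw [Int.cast_eq_zero]
  have g3 : (n1 + n2 - n3 - n4 : ℤ) ≠ 4 := fun e => g1 (by rw [e]; norm_num)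
  have g4 : (n1 + n2 - n3 - n4 : ℤ) ≠ -4 := fun e => g2 (by rw [e]; norm_num)
  omega

theorem not_K3 [Finite Γ] (σ : PR Γ ℂ) : ¬ K3 Γ := by
  rintro ⟨z, z', a, b, c, d, h1, h2, h3, h4, h5, h6, h7⟩
  obtain ⟨A, hA, a2⟩ := ex_inv σ h1
  obtain ⟨B, hB, b2⟩ := ex_inv σ (z := z') (by
    obtain ⟨g, rfl⟩ := isConj_iff.1 h4
    rw [conj_mul, h1, mul_one, mul_inv_cancel])
  let K := σ.grp (fun X => X * A = A * X ∧ X * B = B * X) (by simp) fun X Y hX hY =>
    ⟨by rw [mul_assoc, hY.1, ← mul_assoc, hX.1, mul_assoc],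
      by rw [mul_assoc, hY.2, ← mul_assoc, hX.2, mul_assoc]⟩
  have key : ∀ x y : Γ, x * z = z * x ∧ x * z' = z' * x → y * z = z * y ∧ y * z' = z' * y →
      cm x y ∈ K := fun x y hx hy => by
    obtain ⟨X, hX⟩ := σ.ex x
    obtain ⟨Y, hY⟩ := σ.ex y
    obtain ⟨X', x1, x2⟩ := exists_inv (σ.det hX)
    obtain ⟨Y', y1, y2⟩ := exists_inv (σ.det hY)
    have e : X * Y * X' * Y' * (Y * X) = X * Y := by
      rw [mul_assoc _ Y', ← mul_assoc Y', y2, one_mul, mul_assoc, x2, mul_one]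
    have k : ∀ (w : Γ) (C : Mt ℂ), σ.L w C → x * w = w * x → y * w = w * y →
        X * Y * X' * Y' * C = C * (X * Y * X' * Y') := fun w C hC e1 e2 => by
      obtain ⟨l, hl⟩ := (σ.comm_iff hX hC).1 e1
      obtain ⟨m, hm⟩ := (σ.comm_iff hY hC).1 e2
      have f1 : C * (X * Y) = (l * m) • (X * Y * C) := by
        rw [← mul_assoc, hl, smul_mul_assoc, mul_assoc, hm, mul_smul_comm, smul_smul, mul_assoc]
      have f2 : C * (Y * X) = (l * m) • (Y * X * C) := by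
        rw [← mul_assoc, hm, smul_mul_assoc, mul_assoc, hl, mul_smul_comm, smul_smul, mul_assoc,
          mul_comm m]
      refine cancel_right (σ.det (σ.mul hY hX)) ?_
      rw [mul_assoc _ C, f2, mul_smul_comm, ← mul_assoc, e, mul_assoc C, e, f1]
    exact ⟨_, σ.mul (σ.conj hX x1 hY) (σ.inv hY y1), k z A hA hx.1 hy.1, k z' B hB hx.2 hy.2⟩
  have k1 := key a b (h6 a (by simp)) (h6 b (by simp))
  have k2 := key c d (h6 c (by simp)) (h6 d (by simp))
  rcases (four h2 h3 h4 h5 hA hB a2 b2) with ⟨t1, e | ⟨e, t2, t3⟩⟩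
  · obtain ⟨X, hX, -, x2⟩ : z ∈ K :=
      h7 ▸ mul_mem (mul_mem (mul_mem k1 k2) (inv_mem k1)) (inv_mem k2)
    obtain ⟨c, h0, rfl⟩ := σ.uniq' hA hX
    rw [smul_mul_assoc, mul_smul_comm, e] at x2
    have := smul_right_injective _ h0 x2
    exact ne_zero_of_det (σ.det (σ.mul hA hB)) (by
      have h : (2 : ℂ) • (A * B) = 0 := by rw [two_smul]; exact add_eq_zero_iff_eq_neg.2 this
      simpa using h)
  · obtain ⟨X, hX, x1, x2⟩ := k1
    obtain ⟨Y, hY, y1, y2⟩ := k2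
    apply h2
    rw [h7, cm, σ.comm_of hX hY (comm_of a2 b2 e t1 t2 t3 x1 x2 y1 y2)]
    group

theorem uniq3 {a : Γ} {X Y : Mt ℂ} (hX : σ.L a X) (hY : σ.L a Y) (x1 : X.det = 1) (y1 : Y.det = 1)
    (x3 : X ^ 3 = 1) (y3 : Y ^ 3 = 1) : Y = X := by
  obtain ⟨c, rfl⟩ := σ.uniq hX hY
  rw [det_smul, x1, mul_one, Fintype.card_fin] at y1
  rw [smul_pow, x3] at y3
  have : c ^ 3 = 1 := by simpa using congrFun (congrFun y3 0) 0
  rw [show c = 1 by linear_combination y1 - c * this, one_smul]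

theorem ex3 (σ : PR Γ ℂ) {a : Γ} (h : a ^ 3 = 1) : ∃ X, σ.L a X ∧ X.det = 1 ∧ X ^ 3 = 1 := by
  obtain ⟨X, hX, h1⟩ := σ.ex_det a
  obtain ⟨c, h0, hc⟩ := σ.uniq' σ.one (h ▸ σ.pow hX 3)
  have h2 : c ^ 4 = 1 := by simpa [h1] using (congrArg det hc).symm
  exact ⟨c • X, σ.smul hX h0, by rw [det_smul, h1, mul_one, Fintype.card_fin, h2], by
    rw [smul_pow, hc, smul_smul, ← pow_succ, h2, one_smul]⟩

theorem tr3 {a b : Γ} (h : IsConj a b) {X Y : Mt ℂ} (hX : σ.L a X) (hY : σ.L b Y) (x1 : X.det = 1)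
    (y1 : Y.det = 1) (x3 : X ^ 3 = 1) (y3 : Y ^ 3 = 1) : Y.trace = X.trace := by
  obtain ⟨g, rfl⟩ := isConj_iff.1 h
  obtain ⟨N, hN⟩ := σ.ex g
  obtain ⟨N', h1, h2⟩ := exists_inv (σ.det hN)
  rw [uniq3 (σ.conj hN h1 hX) hY (by rw [det_mul, det_mul, x1, mul_one, ← det_mul, h1, det_one])
    y1 (by
      have : ∀ M : Mt ℂ, N' * (N * M) = M := fun M => by rw [← mul_assoc, h2, one_mul]
      calc (N * X * N') ^ 3 = N * X ^ 3 * N' := by simp only [pow_succ, pow_zero, one_mul,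
              mul_assoc, this]
        _ = 1 := by rw [x3, mul_one, h1]) y3, trace_mul_cycle, h2, one_mul]

theorem real3 {a : Γ} (h : IsConj a a⁻¹) (h0 : a ≠ 1) {X : Mt ℂ} (hX : σ.L a X) (x1 : X.det = 1)
    (x3 : X ^ 3 = 1) : (X * X).trace = X.trace ∧ (X.trace = 1 ∨ X.trace = -2) := by
  have e1 : X * (X * X) = 1 := by rw [← x3, pow_three]
  have e2 : X * X * X = 1 := by rw [mul_assoc, e1]
  have e3 : X * X * (X * X) = X := by rw [← mul_assoc, e2, one_mul]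
  have t := tr3 h hX (σ.inv hX e1) x1 (by rw [det_mul, x1, one_mul]) x3 (by
    rw [pow_three, e3, mul_assoc, ← mul_assoc X X X, e2])
  refine ⟨t, ?_⟩
  obtain ⟨ω, hω⟩ : ∃ ω : ℂ, ω ^ 2 + ω + 1 = 0 := by
    obtain ⟨s, hs⟩ := IsAlgClosed.exists_pow_nat_eq (-3 : ℂ) (n := 2) two_pos
    exact ⟨(s - 1) / 2, by linear_combination hs / 4⟩
  have id : ∀ w : ℂ, w ^ 3 = 1 → ((3 : ℂ)⁻¹ • (1 + w • X + w ^ 2 • (X * X))) *
      ((3 : ℂ)⁻¹ • (1 + w • X + w ^ 2 • (X * X))) = (3 : ℂ)⁻¹ • (1 + w • X + w ^ 2 • (X * X)) :=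
    fun w hw => by
    simp only [mul_add, add_mul, smul_mul_assoc, mul_smul_comm, mul_one, one_mul, e1, e2, e3]
    match_scalars <;> grind
  obtain ⟨m, hm⟩ := tr_nat _ (id 1 (by simp))
  obtain ⟨n, hn⟩ := tr_nat _ (id ω (by grind))
  simp only [trace_smul, trace_add, trace_one, t, Fintype.card_fin, smul_eq_mul] at hm hn
  have f1 : X.trace = 4 - 3 * n := by linear_combination -3 * hn + X.trace * hω
  have f2 : (m : ℤ) + 2 * n = 4 := by
    exact_mod_cast (show (m : ℂ) + 2 * n = 4 by linear_combination -hm + 2 / 3 * f1)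
  have f3 : n ≠ 0 := by
    rintro rfl
    refine h0 ((σ.eq_one_iff hX).2 ⟨1, ?_⟩)
    have := tr_zero (E := 1 - (3 : ℂ)⁻¹ • (1 + (1 : ℂ) • X + (1 : ℂ) ^ 2 • (X * X))) (by
      rw [mul_sub, sub_mul, sub_mul, id 1 (by simp)]; simp) (by simp [t, f1]; norm_num)
    rw [sub_eq_zero] at this
    have h5 := congrArg (X * ·) this
    simp only [mul_add, mul_smul_comm, mul_one, e1] at h5
    rw [one_smul]
    refine h5.trans (Eq.trans ?_ this.symm)
    module
  rw [f1]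
  obtain rfl | rfl : n = 1 ∨ n = 2 := by omega
  all_goals norm_num

theorem nine (σ : PR Γ ℂ) {A : Subgroup Γ} (hc : Nat.card A = 9) (h3 : ∀ a ∈ A, a ^ 3 = 1)
    (hr : ∀ a ∈ A, IsConj a a⁻¹) (t : ℂ) (ht : t = 1 ∨ t = -2) : ∃ a ∈ A, a ≠ 1 ∧
      ∃ X, σ.L a X ∧ X.det = 1 ∧ X ^ 3 = 1 ∧ X.trace = t := by
  classical
  have : Finite A := Nat.finite_of_card_ne_zero (by omega)
  have := Fintype.ofFinite A
  have := Fact.mk Nat.prime_three
  choose s s1 s2 s3 using fun a : A => ex3 σ (h3 a a.2)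
  have hm : ∀ a b, s (a * b) = s a * s b := fun a b => by
    obtain ⟨l, hl⟩ := (σ.comm_iff (s1 a) (s1 b)).1 (congrArg Subtype.val
      ((IsPGroup.isMulCommutative_of_card_eq_prime_sq (p := 3) hc).1.1 a b))
    have l4 : l ^ 4 = 1 := by simpa [s2] using (congrArg det hl).symm
    have l3 : l ^ 3 = 1 := by
      have e : ∀ n : ℕ, s b * s a ^ n = l ^ n • (s a ^ n * s b) := fun n => by
        induction n with
        | zero => simp
        | succ n ih =>
          rw [pow_succ, ← mul_assoc, ih, smul_mul_assoc, mul_assoc, hl, mul_smul_comm, smul_smul,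
            ← mul_assoc, ← pow_succ]
      have := e 3
      rw [s3, mul_one, one_mul] at this
      exact smul_cancel (σ.det (s1 b)) (this.symm.trans (one_smul _ _).symm)
    rw [show l = 1 by linear_combination l4 - l * l3, one_smul] at hl
    exact uniq3 (σ.mul (s1 a) (s1 b)) (s1 (a * b)) (by rw [det_mul, s2, s2, one_mul]) (s2 _)
      (by rw [(Commute.mul_pow hl.symm 3), s3, s3, one_mul]) (s3 _)
  obtain ⟨n, hn⟩ := tr_nat ((9 : ℂ)⁻¹ • ∑ a, s a) (by
    have : ∀ a, s a * ∑ b, s b = ∑ b, s b := fun a => by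
      rw [Finset.mul_sum]
      exact Fintype.sum_equiv (Equiv.mulLeft a) _ _ fun b => (hm a b).symm
    rw [smul_mul_smul_comm, Finset.sum_mul]
    simp only [this, Finset.sum_const, Finset.card_univ, ← Nat.card_eq_fintype_card, hc]
    module)
  by_contra hne
  push Not at hne
  have h1 : ∀ a ∈ Finset.univ.erase (1 : A), (s a).trace = -1 - t := fun a ha => by
    have h2 : (a : Γ) ≠ 1 := fun e => (Finset.mem_erase.1 ha).1 (Subtype.ext e)
    have h4 := hne a a.2 h2 _ (s1 a) (s2 a) (s3 a)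
    rcases (real3 (hr a a.2) h2 (s1 a) (s2 a) (s3 a)).2 with e | e <;> rcases ht with rfl | rfl <;>
      first | exact absurd e h4 | (rw [e]; norm_num)
  rw [trace_smul, trace_sum, ← Finset.add_sum_erase _ _ (Finset.mem_univ 1),
    Finset.sum_congr rfl h1, uniq3 σ.one (s1 1) det_one (s2 1) (one_pow 3) (s3 1), Finset.sum_const,
    Finset.card_erase_of_mem (Finset.mem_univ _), Finset.card_univ, ← Nat.card_eq_fintype_card,
    hc, trace_one, Fintype.card_fin] at hn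
  rcases ht with rfl | rfl
  · have : (9 * n : ℤ) = -12 := by
      exact_mod_cast (show (9 * n : ℂ) = -12 by rw [← hn]; norm_num)
    omega
  · have : (9 * n : ℤ) = 12 := by
      exact_mod_cast (show (9 * n : ℂ) = 12 by rw [← hn]; norm_num)
    omega

theorem not_K2 (σ : PR Γ ℂ) : ¬ K2 Γ := by
  rintro ⟨A, h1, h2, h3⟩
  have h4 : ∀ a ∈ A, IsConj a a⁻¹ := fun a ha => by
    by_cases e : a = 1
    · rw [e, inv_one]
    · obtain ⟨n, -, hn⟩ := h3 a ha a⁻¹ (inv_mem ha) e (inv_ne_one.2 e)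
      exact isConj_iff.2 ⟨n, hn⟩
  obtain ⟨a, a1, a2, X, x1, x2, x3, x4⟩ := nine σ h1 h2 h4 1 (Or.inl rfl)
  obtain ⟨b, b1, b2, Y, y1, y2, y3, y4⟩ := nine σ h1 h2 h4 (-2) (Or.inr rfl)
  obtain ⟨n, -, hn⟩ := h3 a a1 b b1 a2 b2
  have := tr3 (isConj_iff.2 ⟨n, hn⟩) x1 y1 x2 y2 x3 y3
  rw [x4, y4] at this
  norm_num at this

end Cfsg.Agent.L4.Kill
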