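import Mathlib

/-!
Finite checks in small symmetric and alternating groups.
-/

set_option autoImplicit false

namespace Cfsg.Agent.L4.Kill

open Equiv

set_option maxRecDepth 100000 in
theorem perm6 : ∀ π : Perm (Fin 6), π ^ 4 = 1 ∨ π ^ 5 = 1 ∨ π ^ 6 = 1 := by decide +kernel

/-- A three-cycle. -/
def x6 : alternatingGroup (Fin 6) :=
  ⟨swap 0 1 * swap 1 2, Perm.mem_alternatingGroup.2 (by decide)⟩

set_option maxRecDepth 100000 in
theorem x6_facts : ∀ a : alternatingGroup (Fin 6), a * x6 = x6 * a → a ^ 3 = 1 ∧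
    (∃ g, g * a * g⁻¹ = a⁻¹) ∧ (a ≠ 1 → (Finset.univ.filter fun g => g * a = a * g).card = 9) := by
  decide +kernel

theorem x6_ne : x6 ≠ 1 := by decide

/-- An involution. -/
def z5 : alternatingGroup (Fin 5) :=
  ⟨swap 0 1 * swap 2 3, Perm.mem_alternatingGroup.2 (by decide)⟩

/-- Another involution. -/
def z5' : alternatingGroup (Fin 5) :=
  ⟨swap 0 2 * swap 1 3, Perm.mem_alternatingGroup.2 (by decide)⟩

theorem z5_facts : z5 * z5 = 1 ∧ z5' * z5' = 1 ∧ z5 ≠ 1 ∧ z5 * z5' = z5' * z5 ∧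
    (∃ g, g * z5 * g⁻¹ = z5') ∧ (∃ g, g * z5 * g⁻¹ = z5 * z5') ∧
    (Finset.univ.filter fun g => g * z5 = z5 * g).card = 4 := by decide +kernel

end Cfsg.Agent.L4.Kill
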