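import Cfsg.Agent.L4.Kill1
import Cfsg.Agent.L4.Kill2

/-!
Complex representations of degree four: elementary abelian two-groups with a Singer cycle.
-/

set_option autoImplicit false

namespace Cfsg.Agent.L4.Kill

open Matrix Subgroup Cfsg.Agent.L4.R Cfsg.Agent.L4.Rb Cfsg.Agent.L4.H Module Polynomial

theorem perm_le {α : Type*} [Fintype α] (h : Fintype.card α ≤ 6) (π : Equiv.Perm α) :
    ∃ m, 0 < m ∧ m ≤ 6 ∧ π ^ m = 1 := by
  obtain ⟨ι⟩ : Nonempty (α ↪ Fin 6) := Function.Embedding.nonempty_of_card_le (by simpa)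
  have k : ∀ m, Equiv.Perm.viaEmbeddingHom ι π ^ m = 1 → π ^ m = 1 := fun m e =>
    Equiv.Perm.viaEmbeddingHom_injective ι (by rw [map_pow, e, map_one])
  rcases perm6 (Equiv.Perm.viaEmbeddingHom ι π) with e | e | e
  exacts [⟨4, by omega, by omega, k _ e⟩, ⟨5, by omega, by omega, k _ e⟩,
    ⟨6, by omega, by omega, k _ e⟩]

theorem weights {ι W : Type*} [AddCommGroup W] [Module ℂ W] [FiniteDimensional ℂ W]
    (hW : finrank ℂ W ≤ 6) (f : ι → End ℂ W) (hc : ∀ i j, Commute (f i) (f j))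
    (h2 : ∀ i, f i * f i = 1) (σ : ι → ι) (hσ : Function.Surjective σ) (C : End ℂ W)
    (hC : Function.Injective C) (e : ∀ i, f i * C = C * f (σ i)) :
    ∃ m, 0 < m ∧ m ≤ 6 ∧ ∀ i, f (σ^[m] i) = f i := by
  classical
  have ss : ∀ i μ, (f i).maxGenEigenspace μ = (f i).eigenspace μ := fun i μ =>
    (End.isSemisimple_of_squarefree_aeval_eq_zero (p := X ^ 2 - Polynomial.C 1)
      (separable_X_pow_sub_C 1 (by norm_num) one_ne_zero).squarefree
      (by simp [sq, h2])).isFinitelySemisimple.maxGenEigenspace_eq_eigenspace μ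
  have ind := End.independent_iInf_maxGenEigenspace_of_forall_mapsTo f fun i j φ =>
    End.mapsTo_maxGenEigenspace_of_comm (hc j i) φ
  have top := End.iSup_iInf_maxGenEigenspace_eq_top_of_iSup_maxGenEigenspace_eq_top_of_commute f
    (fun i j _ => hc i j) fun i => End.iSup_maxGenEigenspace_eq_top _
  simp only [ss] at ind top
  let S := {χ : ι → ℂ // ⨅ i, (f i).eigenspace (χ i) ≠ ⊥}
  have : Finite S := WellFoundedGT.finite_ne_bot_of_iSupIndep ind
  have := Fintype.ofFinite S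
  let τ : S → S := fun χ => ⟨χ.1 ∘ σ, by
    obtain ⟨v, hv, h0⟩ := (Submodule.ne_bot_iff _).1 χ.2
    refine (Submodule.ne_bot_iff _).2 ⟨C v, ?_, fun h => h0 (hC (by rw [h, map_zero]))⟩
    simp only [Submodule.mem_iInf, End.mem_eigenspace_iff] at hv ⊢
    intro i
    rw [← End.mul_apply, e, End.mul_apply, hv, map_smul, Function.comp]⟩
  obtain ⟨m, m0, m6, hm⟩ := perm_le (ind.subtype_ne_bot_le_finrank.trans hW)
    (Equiv.ofBijective τ (Finite.injective_iff_bijective.1 fun χ χ' h =>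
      Subtype.ext (hσ.injective_comp_right (congrArg Subtype.val h))))
  have it : ∀ (n : ℕ) (χ : S), (τ^[n] χ).1 = χ.1 ∘ σ^[n] := fun n χ => by
    induction n with
    | zero => rfl
    | succ n ih => rw [Function.iterate_succ_apply', Function.iterate_succ, ← Function.comp_assoc,
        ← ih]
  refine ⟨m, m0, m6, fun i => LinearMap.ext fun v => ?_⟩
  refine Submodule.iSup_induction _ (motive := fun v => f (σ^[m] i) v = f i v)
    (top.ge (Submodule.mem_top (x := v))) (fun χ v hv => ?_) (by simp) fun x y hx hy => by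
      rw [map_add, map_add, hx, hy]
  by_cases h0 : v = 0
  · simp [h0]
  have := congrFun (it m ⟨χ, (Submodule.ne_bot_iff _).2 ⟨v, hv, h0⟩⟩) i
  rw [show τ^[m] = id from (Equiv.Perm.iterate_eq_pow (Equiv.ofBijective τ _) m).trans
    (congrArg _ hm)] at this
  simp only [Submodule.mem_iInf, End.mem_eigenspace_iff] at hv
  rw [hv, hv]
  exact congrArg (· • v) this.symm

variable {P : Type*} [Group P]

/-- The representation on the exterior square. -/
noncomputable def rW (ρ : P →* M4 ℂ) : Representation ℂ P (Fin 6 → ℂ) where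
  toFun g := L2 (ρ g)
  map_one' := LinearMap.ext fun x => by rw [map_one, L2_one]; rfl
  map_mul' g g' := LinearMap.ext fun x => by rw [map_mul, L2_mul]; rfl

variable {ρ : P →* M4 ℂ}

theorem rW_smul {x y : P} {c : ℂ} (e : ρ x = c • ρ y) : rW ρ x = (c * c) • rW ρ y :=
  LinearMap.ext fun v => by
    show L2 (ρ x) v = (c * c) • L2 (ρ y) v
    rw [e, L2_smul]

theorem rW_eq (h : Hy ρ) {x y : P} (e : (x : P ⧸ center P) = y) :
    ∃ s : ℂ, s * s = 1 ∧ rW ρ x = s • rW ρ y := by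
  obtain ⟨c, hc⟩ := (pr h).uniq (pr_L h y) (e ▸ pr_L h x)
  have := congrArg det hc
  rw [det_smul, h.det, h.det, Fintype.card_fin] at this
  exact ⟨_, by linear_combination -this, rW_smul hc⟩

theorem rW_ker (h : Hy ρ) : (rW ρ).ker ≤ center P := (h.simp _ inferInstance).resolve_right fun e => by
  rcases h.irrW (ℂ ∙ Pi.single 0 1) (fun g x hx => by
    have : L2 (ρ g) = 1 := e.ge (mem_top g)
    rwa [this]) with f | f
  · simp at f
  · obtain ⟨c, hc⟩ := Submodule.mem_span_singleton.1 (f.ge (Submodule.mem_top (x := Pi.single 1 1)))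
    simpa using congrFun hc 1

theorem not_K1 [Finite P] (h : Hy ρ) : ¬ K1 (P ⧸ center P) := by
  rintro ⟨E, c, h1, h2, h3, h4⟩
  obtain ⟨c, rfl⟩ := QuotientGroup.mk_surjective c
  have sq : ∀ x : P, (x : P ⧸ center P) ∈ E → ∃ a : ℂ, a ≠ 0 ∧ ρ x * ρ x = a • 1 := fun x hx =>
    (pr h).uniq' (pr h).one (h1 _ hx ▸ (pr h).mul (pr_L h x) (pr_L h x))
  have cm : ∀ x y : P, (x : P ⧸ center P) ∈ E → (y : P ⧸ center P) ∈ E →
      Commute (rW ρ x) (rW ρ y) := fun x y hx hy => by
    obtain ⟨l, hl⟩ := ((pr h).comm_iff (pr_L h x) (pr_L h y)).1 (by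
      rw [← inv_eq_of_mul_eq_one_right (h1 _ (mul_mem hx hy)), _root_.mul_inv_rev,
        inv_eq_of_mul_eq_one_right (h1 _ hx), inv_eq_of_mul_eq_one_right (h1 _ hy)])
    obtain ⟨a, a0, ha⟩ := sq x hx
    have e : (l * l * a) • ρ y = a • ρ y := by
      calc _ = l • (ρ x * (ρ y * ρ x)) := by
            rw [hl, mul_smul_comm, ← mul_assoc, ha, smul_mul_assoc, one_mul, smul_smul, smul_smul]
        _ = ρ y * ρ x * ρ x := by
            conv_rhs => rw [hl]
            rw [smul_mul_assoc, mul_assoc]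
        _ = _ := by rw [mul_assoc, ha, mul_smul_comm, mul_one]
    rw [← map_mul, ← map_mul] at hl
    rw [Commute, SemiconjBy, ← map_mul, ← map_mul, rW_smul hl, mul_right_cancel₀ a0
      ((smul_cancel (h.det y ▸ one_ne_zero) e).trans (one_mul a).symm), one_smul]
  have cj : ∀ x y : P, (x : P ⧸ center P) ∈ E → (y : P ⧸ center P) ∈ E → (x : P ⧸ center P) ≠ 1 →
      (y : P ⧸ center P) ≠ 1 → ∀ s : ℂ, rW ρ x * rW ρ x = s • 1 → rW ρ y * rW ρ y = s • 1 :=
    fun x y hx hy x1 y1 s hs => by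
    obtain ⟨n, hn⟩ := h4 _ hx _ hy x1 y1
    obtain ⟨t, t2, ht⟩ := rW_eq h (x := y) (y := c ^ n * x * (c ^ n)⁻¹) hn.symm
    rw [ht, smul_mul_smul_comm, t2, one_smul, ← map_mul, conj_mul, map_mul, map_mul, map_mul, hs,
      mul_smul_comm, smul_mul_assoc, mul_one, ← map_mul, mul_inv_cancel, map_one]
  have := Fintype.ofFinite E
  obtain ⟨a, b, d, n1, n2, n3⟩ := (Fintype.two_lt_card_iff (α := E)).1 (by
    rw [← Nat.card_eq_fintype_card]; omega)
  obtain ⟨x, hx⟩ := QuotientGroup.mk_surjective (s := center P) (a.1⁻¹ * b.1)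
  obtain ⟨y, hy⟩ := QuotientGroup.mk_surjective (s := center P) (d.1⁻¹ * a.1)
  have xE : (x : P ⧸ center P) ∈ E := hx ▸ mul_mem (inv_mem a.2) b.2
  have yE : (y : P ⧸ center P) ∈ E := hy ▸ mul_mem (inv_mem d.2) a.2
  have x1 : (x : P ⧸ center P) ≠ 1 := hx ▸ fun e => n1 (Subtype.ext (inv_mul_eq_one.1 e))
  have y1 : (y : P ⧸ center P) ≠ 1 := hy ▸ fun e => n2 (Subtype.ext (inv_mul_eq_one.1 e)).symm
  have xx : rW ρ x * rW ρ x = 1 := by
    obtain ⟨s, s2, hs⟩ := rW_eq h (x := x * x) (y := 1) (h1 _ xE)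
    rw [map_mul, map_one] at hs
    have e1 := cj x y xE yE x1 y1 s hs
    have e2 := cj x (y * x) xE (mul_mem yE xE) x1 (by
      rw [QuotientGroup.mk_mul, hx, hy, mul_assoc, mul_inv_cancel_left]
      exact fun e => n3 (Subtype.ext (inv_mul_eq_one.1 e)).symm) s hs
    rw [map_mul, mul_assoc, ← mul_assoc (rW ρ x), (cm x y xE yE).eq, mul_assoc, hs, ← mul_assoc,
      e1, smul_mul_smul_comm, s2, one_smul, mul_one] at e2
    rw [hs, ← e2]
  let σ : E.comap (QuotientGroup.mk' _) → E.comap (QuotientGroup.mk' _) := fun i =>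
    ⟨c * i * c⁻¹, h3 _ i.2⟩
  obtain ⟨m, m0, m6, hm⟩ := weights (by simp) (fun i : E.comap (QuotientGroup.mk' _) => rW ρ i)
    (fun i j => cm _ _ i.2 j.2) (fun i => by
      by_cases e : ((i : P) : P ⧸ center P) = 1
      · obtain ⟨s, s2, hs⟩ := rW_eq h (x := i) (y := 1) e
        rw [hs, map_one, smul_mul_smul_comm, s2, one_smul, one_mul]
      · rw [cj x i xE i.2 x1 e 1 (by rw [xx, one_smul]), one_smul]) σ
    (Finite.surjective_of_injective fun i j e => Subtype.ext (conj_injective (congrArg Subtype.val e)))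
    (rW ρ c⁻¹) (Function.LeftInverse.injective (g := rW ρ c) fun v => by simp) fun i => by
      rw [← map_mul, ← map_mul, ← mul_assoc, inv_mul_cancel_left]
  have it : ∀ (n : ℕ) i, (σ^[n] i).1 = c ^ n * i * (c ^ n)⁻¹ := fun n i => by
    induction n with
    | zero => simp
    | succ n ih =>
      rw [Function.iterate_succ_apply']
      show c * _ * c⁻¹ = _
      rw [ih]
      group
  have co : Commute ((c : P ⧸ center P) ^ m) x := by
    have := hm ⟨x, xE⟩
    rw [it, MonoidHom.eq_iff] at this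
    exact mul_inv_eq_iff_eq_mul.1 (QuotientGroup.eq.2 (rW_ker h this)).symm
  have := Nat.card_le_card_of_surjective (fun o : Option (Fin m) => o.elim (1 : E) fun n =>
    ⟨_, (σ^[n] ⟨x, xE⟩).2⟩) fun e => by
      by_cases e1 : e = 1
      · exact ⟨none, e1.symm⟩
      obtain ⟨n, hn⟩ := h4 _ xE _ e.2 x1 fun f => e1 (Subtype.ext f)
      refine ⟨some ⟨n % m, Nat.mod_lt _ m0⟩, Subtype.ext ?_⟩
      show ((σ^[n % m] ⟨x, xE⟩).1 : P ⧸ center P) = e
      rw [it, ← hn]
      conv_rhs => rw [← Nat.mod_add_div n m, pow_add, pow_mul, mul_assoc _ _ (x : P ⧸ center P),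
        (co.pow_left _).eq]
      simp [mul_assoc]
  rw [Finite.card_option, Nat.card_fin] at this
  omega

end Cfsg.Agent.L4.Kill
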