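import Cfsg.Agent.L4.H0
import Cfsg.Prelude.Def_Classical

/-! The list of simple subgroups of `PGL₄` in characteristic two: definitions. -/

set_option autoImplicit false

namespace Cfsg.Agent.L4.L2

open Matrix MatrixGroups

/-- a large root group with a torus acting on it -/
def Big (Γ : Type*) [Group Γ] : Prop :=
  ∃ (K : Type) (_ : Field K) (_ : Fintype K) (_ : CharP K 2), 8 ≤ Fintype.card K ∧
    ∃ x : K → Γ, Function.Injective x ∧ (∀ a b, x (a + b) = x a * x b) ∧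
      ∀ l : K, l ≠ 0 → ∃ h : Γ, ∀ a, h * x a * h⁻¹ = x (l * a)

/-- the small groups -/
def Small (Γ : Type*) [Group Γ] : Prop :=
  Nonempty (Γ ≃* alternatingGroup (Fin 5)) ∨ Nonempty (Γ ≃* alternatingGroup (Fin 6)) ∨
  Nonempty (Γ ≃* alternatingGroup (Fin 7)) ∨ Nonempty (Γ ≃* PSL(3, ZMod 2)) ∨
  (∃ (K : Type) (_ : Field K) (_ : Fintype K), Fintype.card K = 4 ∧ Nonempty (Γ ≃* PSL(3, K))) ∨
  (∃ (K : Type) (_ : Field K) (_ : Fintype K), Fintype.card K = 16 ∧ Nonempty (Γ ≃* PSU 3 K 4)) ∨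
  (∃ (K : Type) (_ : Field K) (_ : Fintype K), Fintype.card K = 4 ∧ Nonempty (Γ ≃* PSU 4 K 2))

variable {Γ Δ : Type*} [Group Γ] [Group Δ]

theorem Big.of_inj (h : Big Δ) (j : Δ →* Γ) (hj : Function.Injective j) : Big Γ := by
  obtain ⟨K, _, _, _, h8, x, h1, h2, h3⟩ := h
  refine ⟨K, _, _, inferInstance, h8, fun a => j (x a), hj.comp h1, fun a b => by
    simp only [h2, map_mul], fun l hl => ?_⟩
  obtain ⟨g, hg⟩ := h3 l hl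
  exact ⟨j g, fun a => by rw [← map_inv, ← map_mul, ← map_mul, hg]⟩

theorem Small.of_equiv (h : Small Δ) (e : Γ ≃* Δ) : Small Γ := by
  rcases h with ⟨⟨f⟩⟩ | ⟨⟨f⟩⟩ | ⟨⟨f⟩⟩ | ⟨⟨f⟩⟩ | ⟨K, _, _, h, ⟨f⟩⟩ | ⟨K, _, _, h, ⟨f⟩⟩ |
    ⟨K, _, _, h, ⟨f⟩⟩
  · exact Or.inl ⟨e.trans f⟩
  · exact Or.inr (Or.inl ⟨e.trans f⟩)
  · exact Or.inr (Or.inr (Or.inl ⟨e.trans f⟩))
  · exact Or.inr (Or.inr (Or.inr (Or.inl ⟨e.trans f⟩)))
  · exact Or.inr (Or.inr (Or.inr (Or.inr (Or.inl ⟨K, _, _, h, ⟨e.trans f⟩⟩))))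
  · exact Or.inr (Or.inr (Or.inr (Or.inr (Or.inr (Or.inl ⟨K, _, _, h, ⟨e.trans f⟩⟩)))))
  · exact Or.inr (Or.inr (Or.inr (Or.inr (Or.inr (Or.inr ⟨K, _, _, h, ⟨e.trans f⟩⟩)))))

end Cfsg.Agent.L4.L2
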