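import Mathlib

/-!
Lifting a matrix representation along a complete ring by successive approximation.
-/

set_option autoImplicit false
set_option linter.unusedSectionVars false

namespace Cfsg.Agent.L4.Lift
open Matrix

variable {P k R ι : Type*} [Group P] [Fintype P] [Field k] [CommRing R] [Fintype ι] [DecidableEq ι]

theorem tr_conj (m : P →* Matrix ι ι k) (g : P) (X : Matrix ι ι k) :
    (m g * X * m g⁻¹).trace = X.trace := by
  rw [trace_mul_cycle, ← map_mul, inv_mul_cancel, map_one, one_mul]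

/-- Traceless cocycles are coboundaries. -/
theorem cobound (m : P →* Matrix ι ι k) (θ : Matrix ι ι k →ₗ[k] Matrix ι ι k)
    (hθ : ∀ X : Matrix ι ι k, X.trace = 0 → ∑ g, m g * θ (m g⁻¹ * X * m g) * m g⁻¹ = X)
    (c : P → P → Matrix ι ι k) (ht : ∀ g h, (c g h).trace = 0)
    (hc : ∀ g h l, c (g * h) l + c g h = c g (h * l) + m g * c h l * m g⁻¹) :
    ∃ b : P → Matrix ι ι k, ∀ g h, c g h = b g + m g * b h * m g⁻¹ - b (g * h) := by
  let T : P → Matrix ι ι k → Matrix ι ι k := fun x X => m x * θ (m x⁻¹ * X * m x) * m x⁻¹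
  have T1 : ∀ x X Y Z, T x (X + Y - Z) = T x X + T x Y - T x Z := fun x X Y Z => by
    simp only [T, mul_add, add_mul, mul_sub, sub_mul, map_add, map_sub]
  have T2 : ∀ g x X, T (g * x) (m g * X * m g⁻¹) = m g * T x X * m g⁻¹ := fun g x X => by
    have e : m (g * x)⁻¹ * (m g * X * m g⁻¹) * m (g * x) = m x⁻¹ * X * m x := by
      rw [← mul_assoc, ← mul_assoc, ← map_mul, mul_assoc _ (m g⁻¹), ← map_mul]
      congr 3 <;> group
    simp only [T]
    rw [e, _root_.mul_inv_rev, map_mul m, map_mul m]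
    simp only [mul_assoc]
  refine ⟨fun g => ∑ l, T (g * l) (c g l), fun g h => ?_⟩
  have e1 : c g h = ∑ l, T (g * h * l) (c g h) :=
    (hθ _ (ht g h)).symm.trans (Equiv.sum_comp (Equiv.mulLeft (g * h)) fun x => T x (c g h)).symm
  have e3 : ∑ l, T (g * (h * l)) (c g (h * l)) = ∑ l, T (g * l) (c g l) :=
    Equiv.sum_comp (Equiv.mulLeft h) fun x => T (g * x) (c g x)
  have e2 : ∀ l, T (g * h * l) (c g h) = T (g * (h * l)) (c g (h * l)) +
      m g * T (h * l) (c h l) * m g⁻¹ - T (g * h * l) (c (g * h) l) := fun l => by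
    rw [← T2, ← mul_assoc, ← T1, ← hc, add_sub_cancel_left]
  rw [e1, Finset.sum_congr rfl fun l _ => e2 l, Finset.sum_sub_distrib, Finset.sum_add_distrib,
    e3, Finset.mul_sum, Finset.sum_mul]

/-- A ring with a uniformiser. -/
structure Unif (π : R →+* k) (t : R) : Prop where
  surj : Function.Surjective π
  ker : ∀ x, π x = 0 ↔ t ∣ x
  reg : ∀ x, t * x = 0 → x = 0
  unit : ∀ x, π x ≠ 0 → IsUnit x

/-- An approximate representation. -/
structure Ap (π : R →+* k) (t : R) (m : P →* Matrix ι ι k) (n : ℕ) (f : P → Matrix ι ι R) :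
    Prop where
  red : ∀ g, (f g).map π = m g
  mul : ∀ g h, ∃ C, f g * f h = f (g * h) + t ^ (n + 1) • C
  det : ∀ g, ∃ d, (f g).det = 1 + t ^ (n + 1) * d

variable {π : R →+* k} {t : R}

namespace Unif
variable (u : Unif π t)
include u

theorem pi_t : π t = 0 := (u.ker t).2 dvd_rfl

theorem pi_pow (n : ℕ) : π (t ^ (n + 1)) = 0 := by rw [pow_succ, map_mul, u.pi_t, mul_zero]

theorem reg_pow (n : ℕ) {x : R} (h : t ^ n * x = 0) : x = 0 := by
  induction n generalizing x with
  | zero => simpa using h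
  | succ n ih => exact u.reg _ (ih (by rw [← h]; ring))

theorem cancel (n : ℕ) {A B : Matrix ι ι R} (h : t ^ n • A = t ^ n • B) : A = B := by
  ext i j
  have := congrFun (congrFun h i) j
  simp only [Matrix.smul_apply, smul_eq_mul] at this
  exact sub_eq_zero.1 (u.reg_pow n (by rw [mul_sub, this, sub_self]))

theorem exists_of_map {A : Matrix ι ι R} (h : A.map π = 0) : ∃ C, A = t • C := by
  have : ∀ i j, ∃ c, A i j = t * c := fun i j => (u.ker _).1 (congrFun (congrFun h i) j)
  choose C hC using this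
  exact ⟨Matrix.of C, by ext i j; exact hC i j⟩

theorem exists_lift (B : Matrix ι ι k) : ∃ A : Matrix ι ι R, A.map π = B :=
  ⟨B.map (Function.surjInv u.surj), by ext i j; exact Function.surjInv_eq u.surj _⟩

theorem start (m : P →* Matrix ι ι k) (hd : ∀ g, (m g).det = 1) : ∃ f, Ap π t m 0 f := by
  choose f hf using fun g => u.exists_lift (m g)
  refine ⟨f, hf, fun g h => ?_, fun g => ?_⟩
  · obtain ⟨C, hC⟩ := u.exists_of_map (A := f g * f h - f (g * h)) (by
      rw [Matrix.map_sub _ (map_sub π), Matrix.map_mul, hf, hf, hf, map_mul, sub_self])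
    exact ⟨C, by rw [zero_add, pow_one, ← hC, add_sub_cancel]⟩
  · obtain ⟨d, hd'⟩ := (u.ker ((f g).det - 1)).1 (by
      rw [map_sub, RingHom.map_det, RingHom.mapMatrix_apply, hf, hd, map_one, sub_self])
    exact ⟨d, by rw [zero_add, pow_one, ← hd', add_sub_cancel]⟩

theorem step (m : P →* Matrix ι ι k) (hι : (Fintype.card ι : k) ≠ 0)
    (θ : Matrix ι ι k →ₗ[k] Matrix ι ι k)
    (hθ : ∀ X : Matrix ι ι k, X.trace = 0 → ∑ g, m g * θ (m g⁻¹ * X * m g) * m g⁻¹ = X)
    {n : ℕ} {f : P → Matrix ι ι R} (hf : Ap π t m n f) :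
    ∃ f', Ap π t m (n + 1) f' ∧ ∀ g, ∃ B, f' g = f g + t ^ (n + 1) • B := by
  choose C hC using hf.mul
  choose d hd using hf.det
  set s := t ^ (n + 1) with hs
  have hs0 : π s = 0 := u.pi_pow n
  let φ := π.mapMatrix (m := ι)
  have hφ : ∀ g, φ (f g) = m g := hf.red
  have hφs : ∀ A, φ (s • A) = 0 := fun A => by ext i j; simp [φ, hs0]
  have mi : ∀ g, m g⁻¹ * m g = 1 := fun g => by rw [← map_mul, inv_mul_cancel, map_one]
  have mi' : ∀ g, m g * m g⁻¹ = 1 := fun g => by rw [← map_mul, mul_inv_cancel, map_one]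
  let c : P → P → Matrix ι ι k := fun g h => φ (C g h) * m (g * h)⁻¹
  have hc0 : ∀ g h, φ (C g h) = c g h * m (g * h) := fun g h => by
    simp only [c]; rw [mul_assoc, mi, mul_one]
  have hc : ∀ g h l, c (g * h) l + c g h = c g (h * l) + m g * c h l * m g⁻¹ := fun g h l => by
    have e : C (g * h) l + C g h * f l = C g (h * l) + f g * C h l := u.cancel (n + 1) (by
      have := mul_assoc (f g) (f h) (f l)
      rw [hC, hC h, add_mul, mul_add, hC, hC, mul_assoc, add_assoc, add_assoc, add_right_inj,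
        smul_mul_assoc, mul_smul_comm] at this
      rw [smul_add, smul_add]; exact this)
    have e' := congrArg (fun A => φ A * m (g * h * l)⁻¹) e
    simp only [map_add, map_mul, hφ, add_mul] at e'
    simp only [c]
    convert e' using 2
    · rw [mul_assoc, ← map_mul]; congr 2; group
    · rw [mul_assoc]
    · rw [mul_assoc, mul_assoc, mul_assoc, ← map_mul]; congr 3; group
  have htr : ∀ g h, (c g h).trace = π (d g) + π (d h) - π (d (g * h)) := fun g h => by
    have hu : IsUnit (f (g * h)).det := u.unit _ (by rw [hd, map_add, map_mul, hs0]; simp)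
    have e : f g * f h = (1 + s • (C g h * (f (g * h))⁻¹)) * f (g * h) := by
      rw [add_mul, one_mul, smul_mul_assoc, mul_assoc, nonsing_inv_mul _ hu, mul_one, hC]
    have e1 := congrArg det e
    rw [det_mul, det_mul, det_one_add_smul, hd, hd, hd] at e1
    have e2 : φ (f (g * h))⁻¹ = m (g * h)⁻¹ := by
      rw [← mul_one (φ _), ← mi' (g * h), ← mul_assoc, ← hφ, ← map_mul, nonsing_inv_mul _ hu, map_one,
        one_mul]
    have e3 : π (C g h * (f (g * h))⁻¹).trace = (c g h).trace := by
      rw [AddMonoidHom.map_trace]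
      show (φ _).trace = _
      rw [map_mul, e2]
    generalize Polynomial.eval s _ = w at e1
    generalize (C g h * (f (g * h))⁻¹).trace = τ at e1 e3
    have e4 := u.reg_pow (n + 1) (x := d g + d h - d (g * h) - τ +
      s * (d g * d h - w - τ * d (g * h) - w * s * d (g * h))) (by rw [← hs]; linear_combination e1)
    have e5 := congrArg π e4
    simp only [map_add, map_sub, map_mul, hs0, zero_mul, add_zero, map_zero] at e5
    rw [← e3]; linear_combination -e5
  obtain ⟨b, hb⟩ := cobound m θ hθ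
    (fun g h => c g h - ((π (d g) + π (d h) - π (d (g * h))) / Fintype.card ι) • 1)
    (fun g h => by
      rw [trace_sub, trace_smul, trace_one, htr, smul_eq_mul, div_mul_cancel₀ _ hι, sub_self])
    (fun g h l => by
      rw [mul_sub, sub_mul, mul_smul_comm, mul_one, smul_mul_assoc, mi', sub_add_sub_comm,
        sub_add_sub_comm, hc, ← add_smul, ← add_smul, mul_assoc g h l]
      congr 2; ring)
  have hbt : ∀ g h, (b g).trace + (b h).trace - (b (g * h)).trace = 0 := fun g h => by
    have := congrArg trace (hb g h)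
    rw [trace_sub, trace_smul, trace_one, htr, smul_eq_mul, div_mul_cancel₀ _ hι, sub_self,
      trace_sub, trace_add, tr_conj] at this
    exact this.symm
  let β : P → Matrix ι ι k := fun g => b g + ((π (d g) - (b g).trace) / Fintype.card ι) • 1
  have hβ : ∀ g h, c g h = β g + m g * β h * m g⁻¹ - β (g * h) := fun g h => by
    have := hb g h
    rw [sub_eq_iff_eq_add] at this
    simp only [β]
    rw [this, mul_add, add_mul, mul_smul_comm, mul_one, smul_mul_assoc, mi']
    have e : (π (d g) + π (d h) - π (d (g * h))) / (Fintype.card ι : k) =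
        (π (d g) - (b g).trace) / Fintype.card ι + (π (d h) - (b h).trace) / Fintype.card ι -
          (π (d (g * h)) - (b (g * h)).trace) / Fintype.card ι := by
      field_simp; linear_combination hbt g h
    rw [e, sub_smul, add_smul]; abel
  have hβt : ∀ g, (β g).trace = π (d g) := fun g => by
    simp only [β]
    rw [trace_add, trace_smul, trace_one, smul_eq_mul, div_mul_cancel₀ _ hι, add_sub_cancel]
  choose B hB using fun g => u.exists_lift (β g)
  have hB' : ∀ g, φ (B g) = β g := hB
  refine ⟨fun g => (1 + s • -B g) * f g, ⟨fun g => ?_, fun g h => ?_, fun g => ?_⟩,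
    fun g => ⟨-B g * f g, by simp only [add_mul, one_mul, smul_mul_assoc]⟩⟩
  · show φ _ = _
    rw [map_mul, map_add, hφs, map_one, add_zero, one_mul, hφ]
  · obtain ⟨E, hE⟩ := u.exists_of_map (A := C g h - B g * f g * f h - f g * B h * f h +
        B (g * h) * f (g * h) + s • (B g * f g * B h * f h)) (by
      show φ _ = _
      simp only [map_add, map_sub, map_mul φ, hφs, hφ, hB', hc0, hβ, add_zero]
      rw [sub_mul, add_mul, mul_assoc (m g * β h), ← map_mul, inv_mul_cancel_left, map_mul,
        mul_assoc (β g)]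
      abel)
    refine ⟨E, ?_⟩
    rw [pow_succ t (n + 1), mul_smul, ← hE, ← hs]
    have e : f (g * h) = f g * f h - s • C g h := by rw [hC, add_sub_cancel_right]
    simp only [add_mul, mul_add, one_mul, smul_mul_assoc, mul_smul_comm, smul_add, smul_sub, neg_mul,
      mul_neg, smul_neg, neg_neg, mul_assoc]
    conv_rhs => rw [e]
    rw [← e]
    abel_nf
    rw [e]
    abel
  · have e : π (d g - (B g).trace) = 0 := by
      rw [map_sub, AddMonoidHom.map_trace, hB, hβt, sub_self]
    obtain ⟨e', he⟩ := (u.ker _).1 e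
    rw [det_mul, det_one_add_smul, hd, trace_neg]
    generalize Polynomial.eval s _ = w
    refine ⟨e' + t ^ n * (w - (B g).trace * d g + w * s * d g), ?_⟩
    rw [pow_succ t (n + 1), ← hs]
    have : s * s = s * t * t ^ n := by rw [hs]; ring
    linear_combination s * he + (w - (B g).trace * d g + w * s * d g) * this

theorem smod {n : ℕ} {x y : R} :
    x ≡ y [SMOD (Ideal.span {t} ^ n • ⊤ : Submodule R R)] ↔ t ^ n ∣ x - y := by
  rw [SModEq.sub_mem, smul_eq_mul, Ideal.mul_top, Ideal.span_singleton_pow, Ideal.mem_span_singleton]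

/-- The lifting theorem. -/
theorem lift [hR : IsAdicComplete (Ideal.span {t}) R] (m : P →* Matrix ι ι k)
    (hd : ∀ g, (m g).det = 1) (hι : (Fintype.card ι : k) ≠ 0) (θ : Matrix ι ι k →ₗ[k] Matrix ι ι k)
    (hθ : ∀ X : Matrix ι ι k, X.trace = 0 → ∑ g, m g * θ (m g⁻¹ * X * m g) * m g⁻¹ = X) :
    ∃ M : P →* Matrix ι ι R, (∀ g, (M g).map π = m g) ∧ ∀ g, (M g).det = 1 := by
  obtain ⟨f₀, h₀⟩ := u.start m hd
  choose nx h1 h2 using fun n (f : {f // Ap π t m n f}) => u.step m hι θ hθ f.2
  let F : ∀ n, {f // Ap π t m n f} := fun n => Nat.rec ⟨f₀, h₀⟩ (fun n f => ⟨nx n f, h1 n f⟩) n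
  have hF : ∀ a b, a ≤ b → ∀ g i j, t ^ (a + 1) ∣ (F a).1 g i j - (F b).1 g i j := by
    intro a b hab g i j
    induction b, hab using Nat.le_induction with
    | base => simp
    | succ b hab ih =>
      obtain ⟨B, hB⟩ := h2 b (F b) g
      have e : (F (b + 1)).1 g i j = (F b).1 g i j + t ^ (b + 1) * B i j :=
        congrFun (congrFun hB i) j
      rw [e, ← sub_sub]
      exact dvd_sub ih ((pow_dvd_pow t (by omega)).mul_right _)
  have hL : ∀ g i j, ∃ L : R, ∀ n, t ^ n ∣ (F n).1 g i j - L := fun g i j => by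
    obtain ⟨L, hL⟩ := hR.toIsPrecomplete.prec (f := fun n => (F n).1 g i j) fun {a b} hab =>
      u.smod.2 ((pow_dvd_pow t a.le_succ).trans (hF a b hab g i j))
    exact ⟨L, fun n => u.smod.1 (hL n)⟩
  choose L hL using hL
  let q : ∀ n, R →+* R ⧸ Ideal.span {t ^ n} := fun n => Ideal.Quotient.mk _
  have hq : ∀ n x y, q n x = q n y ↔ t ^ n ∣ x - y := fun n x y => by
    rw [Ideal.Quotient.eq, Ideal.mem_span_singleton]
  have hq0 : ∀ n, q n (t ^ (n + 1)) = 0 := fun n => by
    rw [← map_zero (q n), hq, sub_zero]; exact pow_dvd_pow t n.le_succ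
  have haus : ∀ x y, (∀ n, q n x = q n y) → x = y := fun x y h =>
    (IsHausdorff.eq_iff_smodEq (I := Ideal.span {t})).2 fun n => u.smod.2 ((hq n x y).1 (h n))
  have hLF : ∀ n g, (q n).mapMatrix (Matrix.of (L g)) = (q n).mapMatrix ((F n).1 g) := fun n g => by
    ext i j
    exact ((hq n _ _).2 (hL g i j n)).symm
  have hmul : ∀ g h, Matrix.of (L (g * h)) = Matrix.of (L g) * Matrix.of (L h) := fun g h => by
    ext i j
    refine haus _ _ fun n => ?_
    obtain ⟨C, hC⟩ := (F n).2.mul g h
    have e : (q n).mapMatrix (Matrix.of (L (g * h))) =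
        (q n).mapMatrix (Matrix.of (L g) * Matrix.of (L h)) := by
      rw [map_mul, hLF, hLF, hLF, ← map_mul, hC, map_add]
      have : (q n).mapMatrix (t ^ (n + 1) • C) = 0 := by ext i j; simp [hq0 n, -map_pow]
      rw [this, add_zero]
    exact congrFun (congrFun e i) j
  have hdet : ∀ g, (Matrix.of (L g)).det = 1 := fun g => haus _ _ fun n => by
    obtain ⟨d, hd⟩ := (F n).2.det g
    rw [RingHom.map_det, hLF, ← RingHom.map_det, hd, map_add, map_mul, hq0, zero_mul, add_zero]
  have hone : Matrix.of (L 1) = 1 := by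
    have hu : IsUnit (Matrix.of (L 1)) := (isUnit_iff_isUnit_det _).2 (hdet 1 ▸ isUnit_one)
    exact hu.mul_left_cancel (by rw [← hmul, mul_one, mul_one])
  refine ⟨⟨⟨fun g => Matrix.of (L g), hone⟩, hmul⟩, fun g => ?_, hdet⟩
  rw [← (F 1).2.red g]
  ext i j
  have := (u.ker _).2 (pow_one t ▸ hL g i j 1)
  rw [map_sub, sub_eq_zero] at this
  exact this.symm

end Unif

end Cfsg.Agent.L4.Lift
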