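import Cfsg.Agent.L4.Lift1
import Cfsg.Agent.L4.R0
import Cfsg.Agent.H1.Burnside

/-!
Lifting a representation of degree four to the complex numbers.
-/

set_option autoImplicit false
set_option linter.unusedSectionVars false

namespace Cfsg.Agent.L4.Lift
open Matrix Cardinal Cfsg.Agent.L4.R

universe u

/-- A countable domain of characteristic zero embeds in the complex numbers. -/
theorem exists_emb (A : Type u) [CommRing A] [IsDomain A] [CharZero A] (hA : #A ≤ ℵ₀) :
    ∃ j : A →+* ℂ, Function.Injective j := by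
  let B := MvPolynomial ℂ A
  let L := AlgebraicClosure (FractionRing B)
  let φ : A →+* L := (algebraMap (FractionRing B) L).comp
    ((algebraMap B (FractionRing B)).comp MvPolynomial.C)
  have hφ : Function.Injective φ := (algebraMap (FractionRing B) L).injective.comp
    ((IsFractionRing.injective B (FractionRing B)).comp (MvPolynomial.C_injective ℂ A))
  haveI : CharZero L := charZero_of_injective_ringHom hφ
  have h1 : #B = 𝔠 := by
    rw [MvPolynomial.cardinalMk_eq_max_lift, mk_complex, lift_continuum, lift_uzero,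
      sup_eq_right.2 (hA.trans aleph0_le_continuum), sup_eq_left.2 aleph0_le_continuum]
  have h2 : #(FractionRing B) = 𝔠 := by rw [FractionRing.cardinalMk, h1]
  have h3 : #L = 𝔠 := le_antisymm
    ((Algebra.IsAlgebraic.cardinalMk_le_max (FractionRing B) L).trans
      (max_le h2.le aleph0_le_continuum))
    (h2 ▸ mk_le_of_injective (algebraMap (FractionRing B) L).injective)
  obtain ⟨e⟩ := IsAlgClosed.ringEquiv_of_equiv_of_charZero (K := L) (L := ℂ)
    (h3 ▸ aleph0_lt_continuum) (lift_mk_eq'.1 (by rw [h3, mk_complex, lift_continuum, lift_continuum]))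
  exact ⟨e.toRingHom.comp φ, e.injective.comp hφ⟩

theorem exists_sub {R : Type u} [CommRing R] [IsDomain R] [CharZero R] {τ : Type*} [Finite τ]
    (s : τ → R) : ∃ (A : Subring R) (j : A →+* ℂ), (∀ t, s t ∈ A) ∧ Function.Injective j := by
  let ψ : MvPolynomial τ ℤ →+* R := MvPolynomial.eval₂Hom (Int.castRingHom R) s
  have h1 : Countable (MvPolynomial τ ℤ) := by
    rw [← mk_le_aleph0_iff]
    refine MvPolynomial.cardinalMk_le_max_lift.trans ?_
    simp [(lt_aleph0_of_finite τ).le]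
  have h2 : Countable ψ.range := ψ.rangeRestrict_surjective.countable
  obtain ⟨j, hj⟩ := exists_emb ψ.range mk_le_aleph0
  exact ⟨ψ.range, j, fun t => ⟨MvPolynomial.X t, by simp [ψ]⟩, hj⟩

section Irr
variable {P ι : Type*} [Group P] [Fintype ι] [DecidableEq ι]

theorem span_top {k : Type*} [Field k] [IsAlgClosed k] [Nonempty ι] (B : P → Matrix ι ι k)
    (h1 : ∀ x, B 1 *ᵥ x = x) (hm : ∀ g h x, B (g * h) *ᵥ x = B g *ᵥ B h *ᵥ x)
    (irr : ∀ X : Submodule k (ι → k), (∀ g, ∀ x ∈ X, B g *ᵥ x ∈ X) → X = ⊥ ∨ X = ⊤) :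
    Submodule.span k (Set.range B) = ⊤ := by
  let S := Submodule.span k (Set.range fun g => toLin' (B g))
  have hS : ∀ g, toLin' (B g) ∈ S := fun g => Submodule.subset_span ⟨g, rfl⟩
  have e1 : toLin' (B 1) = 1 := LinearMap.ext fun x => h1 x
  have h := H1.Burnside.eq_top_of_irred (F := k) (M := ι → k)
    (S.toSubalgebra (e1 ▸ hS 1) fun x y hx hy => by
      have : S * S ≤ S := by
        rw [Submodule.span_mul_span, Submodule.span_le]
        rintro _ ⟨_, ⟨g, rfl⟩, _, ⟨h, rfl⟩, rfl⟩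
        have e : toLin' (B g) * toLin' (B h) = toLin' (B (g * h)) :=
          LinearMap.ext fun x => (hm g h x).symm
        show toLin' (B g) * toLin' (B h) ∈ S
        rw [e]; exact hS _
      exact this (Submodule.mul_mem_mul hx hy))
    (fun N hN => irr N fun g x hx => hN _ (hS g) x hx) fun z hz => by
      obtain ⟨c, hc⟩ := Module.End.exists_eigenvalue z
      rcases irr (z.eigenspace c) (fun g x hx => by
        rw [Module.End.mem_eigenspace_iff] at hx ⊢
        have := LinearMap.congr_fun (hz _ (hS g)) x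
        simp only [Module.End.mul_apply, toLin'_apply] at this
        rw [this, hx, mulVec_smul]) with e | e
      · exact absurd e hc
      · exact ⟨c, fun x => Module.End.mem_eigenspace_iff.1 (e ▸ Submodule.mem_top)⟩
  rw [eq_top_iff]
  intro X _
  have h2 : toLin' X ∈ S := h.ge (Algebra.mem_top (x := toLin' X))
  have h3 : S = (Submodule.span k (Set.range B)).map toLin'.toLinearMap := by
    rw [Submodule.map_span, ← Set.range_comp]; rfl
  rw [h3] at h2
  obtain ⟨Y, hY, e⟩ := h2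
  exact toLin'.injective e ▸ hY

theorem exists_det {k : Type*} [Field k] (B : P → Matrix ι ι k)
    (h : Submodule.span k (Set.range B) = ⊤) :
    ∃ s : ι × ι → P, (Matrix.of fun t t' : ι × ι => B (s t) t'.1 t'.2).det ≠ 0 := by
  obtain ⟨κ, a, -, h2, h3⟩ := exists_linearIndependent' k B
  let b := Module.Basis.mk h3 (h2.trans h).ge
  let e := b.indexEquiv (Matrix.stdBasis k ι ι)
  refine ⟨fun t => a (e.symm t), ((isUnit_iff_isUnit_det _).1
    (linearIndependent_rows_iff_isUnit.1 ?_)).ne_zero⟩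
  exact (h3.comp e.symm e.symm.injective).map' (LinearEquiv.curry k k ι ι).symm.toLinearMap
    (LinearEquiv.ker _)

theorem irr_of_det {K : Type*} [Field K] (B : P → Matrix ι ι K) (s : ι × ι → P)
    (h : (Matrix.of fun t t' : ι × ι => B (s t) t'.1 t'.2).det ≠ 0) (X : Submodule K (ι → K))
    (hX : ∀ g, ∀ x ∈ X, B g *ᵥ x ∈ X) : X = ⊥ ∨ X = ⊤ := by
  refine or_iff_not_imp_left.2 fun h0 => eq_top_iff.2 fun y _ => ?_
  obtain ⟨x, hx, hx0⟩ := Submodule.exists_mem_ne_zero_of_ne_bot h0
  obtain ⟨i, hi⟩ := Function.ne_iff.1 hx0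
  obtain ⟨c, hc⟩ := vecMul_surjective_iff_isUnit.2 ((isUnit_iff_isUnit_det _).2 h.isUnit)
    fun t => vecMulVec y (Pi.single i (x i)⁻¹) t.1 t.2
  have e : vecMulVec y (Pi.single i (x i)⁻¹) = ∑ t, c t • B (s t) := by
    ext a b
    rw [Matrix.sum_apply]
    exact (congrFun hc (a, b)).symm
  have e2 : y = vecMulVec y (Pi.single i (x i)⁻¹) *ᵥ x := by
    rw [vecMulVec_mulVec, single_dotProduct, inv_mul_cancel₀ hi]; simp
  rw [e2, e, sum_mulVec]
  exact X.sum_mem fun t _ => smul_mulVec (c t) (B (s t)) x ▸ X.smul_mem _ (hX _ x hx)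

/-- Irreducibility passes from the special to the generic fibre. -/
theorem irr_transfer {k K A : Type*} [Field k] [IsAlgClosed k] [Field K] [CommRing A] [Nonempty ι]
    (π : A →+* k) (j : A →+* K) (hj : Function.Injective j) (B : P → Matrix ι ι A)
    (h1 : ∀ x, (B 1).map π *ᵥ x = x)
    (hm : ∀ g h x, (B (g * h)).map π *ᵥ x = (B g).map π *ᵥ (B h).map π *ᵥ x)
    (irr : ∀ X : Submodule k (ι → k), (∀ g, ∀ x ∈ X, (B g).map π *ᵥ x ∈ X) → X = ⊥ ∨ X = ⊤)
    (X : Submodule K (ι → K)) (hX : ∀ g, ∀ x ∈ X, (B g).map j *ᵥ x ∈ X) : X = ⊥ ∨ X = ⊤ := by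
  obtain ⟨s, hs⟩ := exists_det _ (span_top (fun g => (B g).map π) h1 hm irr)
  refine irr_of_det (fun g => (B g).map j) s (fun e => hs ?_) X hX
  have e1 := j.map_det (Matrix.of fun t t' : ι × ι => B (s t) t'.1 t'.2)
  have e2 := π.map_det (Matrix.of fun t t' : ι × ι => B (s t) t'.1 t'.2)
  exact e2.symm.trans (by rw [hj ((e1.trans e).trans j.map_zero.symm), map_zero])

end Irr

/-- The matrix of the exterior square. -/
def Lm {R : Type*} [CommRing R] (A : M4 R) : Matrix (Fin 6) (Fin 6) R := Matrix.of fun a b =>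
  A (![0, 0, 0, 1, 1, 2] a) (![0, 0, 0, 1, 1, 2] b) * A (![1, 2, 3, 2, 3, 3] a) (![1, 2, 3, 2, 3, 3] b) -
  A (![0, 0, 0, 1, 1, 2] a) (![1, 2, 3, 2, 3, 3] b) * A (![1, 2, 3, 2, 3, 3] a) (![0, 0, 0, 1, 1, 2] b)

theorem Lm_map {R S : Type*} [CommRing R] [CommRing S] (f : R →+* S) (A : M4 R) :
    (Lm A).map f = Lm (A.map f) := by
  ext a b; simp [Lm]

theorem Lm_mulVec {k : Type*} [Field k] (A : M4 k) (x : Fin 6 → k) : Lm A *ᵥ x = L2 A x := by
  ext a
  fin_cases a <;>
    simp [Lm, L2_apply, H1.Spin6.co, H1.Spin6.ψ_def, mulVec, dotProduct, Fin.sum_univ_six, mul_apply,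
      Fin.sum_univ_four] <;> ring

theorem unif (p : ℕ) [Fact p.Prime] (k : Type*) [Field k] [CharP k p] [PerfectRing k p] :
    Unif (WittVector.constantCoeff : WittVector p k →+* k) p where
  surj := WittVector.constantCoeff_surjective p
  ker x := by rw [← Ideal.mem_span_singleton, ← WittVector.ker_constantCoeff, RingHom.mem_ker]
  reg x h := WittVector.eq_zero_of_p_mul_eq_zero x (by rw [mul_comm]; exact h)
  unit x h := WittVector.isUnit_of_coeff_zero_ne_zero x (by rwa [WittVector.constantCoeff_apply] at h)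

theorem charZero_witt (p : ℕ) [hp : Fact p.Prime] (k : Type*) [Field k] [CharP k p]
    [PerfectRing k p] : CharZero (WittVector p k) := by
  refine charZero_of_inj_zero fun n hn => ?_
  by_contra h0
  obtain ⟨e, m, hm, rfl⟩ := Nat.exists_eq_pow_mul_and_not_dvd h0 p hp.out.ne_one
  rw [Nat.cast_mul, Nat.cast_pow] at hn
  have := congrArg WittVector.constantCoeff ((unif p k).reg_pow e hn)
  rw [map_natCast, map_zero, CharP.cast_eq_zero_iff k p] at this
  exact hm this

/-- The lift, with its integral form. -/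
theorem lift' {P k : Type*} [Group P] [Fintype P] [Field k] [IsAlgClosed k] {ρ : P →* M4 k} {p : ℕ}
    [Fact p.Prime] [CharP k p] (hp : p ≠ 2) (hd : ∀ g, (ρ g).det = 1) (hθ : Proj ρ) :
    ∃ (A : Subring (WittVector p k)) (π : A →+* k) (j : A →+* ℂ) (B : P →* M4 A),
      Function.Injective j ∧ (∀ g, (B g).map π = ρ g) ∧ ∀ g, (B g).det = 1 := by
  obtain ⟨θ, hθ⟩ := hθ
  haveI := charZero_witt p k
  obtain ⟨M, h1, h2⟩ := (unif p k).lift ρ hd (by
    rw [Fintype.card_fin, Ne, CharP.cast_eq_zero_iff k p]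
    exact fun e => hp ((Nat.prime_dvd_prime_iff_eq Fact.out Nat.prime_two).1
      ((Fact.out : p.Prime).dvd_of_dvd_pow (n := 2) e))) θ hθ
  obtain ⟨A, j, h3, h4⟩ := exists_sub fun t : P × Fin 4 × Fin 4 => M t.1 t.2.1 t.2.2
  let B : P → M4 A := fun g => Matrix.of fun a b => ⟨M g a b, h3 (g, a, b)⟩
  have hB : ∀ g, A.subtype.mapMatrix (B g) = M g := fun _ => rfl
  have hi : Function.Injective (A.subtype.mapMatrix (m := Fin 4)) :=
    Matrix.map_injective Subtype.val_injective
  refine ⟨A, WittVector.constantCoeff.comp A.subtype, j, ⟨⟨B, hi (by rw [hB, map_one, map_one])⟩,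
    fun g h => hi (by rw [map_mul, hB, hB, hB, map_mul])⟩, h4, h1, fun g => Subtype.val_injective ?_⟩
  exact (A.subtype.map_det (B g)).trans (h2 g)

/-- LIFT. -/
theorem lift {P k : Type*} [Group P] [Fintype P] [Field k] [IsAlgClosed k] {ρ : P →* M4 k} {p : ℕ}
    [Fact p.Prime] [CharP k p] (hp : p ≠ 2) (h : Hy ρ) (hθ : Proj ρ) : ∃ ρ₀ : P →* M4 ℂ, Hy ρ₀ := by
  obtain ⟨A, π, j, B, h1, h2, h3⟩ := lift' hp h.det hθ
  refine ⟨j.mapMatrix.toMonoidHom.comp B, fun g g' e => h.inj ?_, fun g => ?_, h.perf, h.simp,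
    irr_transfer π j h1 B (fun x => by rw [h2, map_one, one_mulVec])
      (fun g g' x => by rw [h2, h2, h2, map_mul, mulVec_mulVec]) (by simpa only [h2] using h.irrV),
    fun X hX => irr_transfer π j h1 (fun g => Lm (B g)) (fun x => ?_) (fun g g' x => ?_) ?_ X ?_⟩
  · rw [← h2, ← h2, Matrix.map_injective h1 e]
  · exact (j.map_det (B g)).symm.trans (by rw [h3, map_one])
  · rw [Lm_map, h2, Lm_mulVec, map_one, L2_one]
  · simp only [Lm_map, h2, Lm_mulVec, map_mul ρ, L2_mul]
  · simpa only [Lm_map, h2, Lm_mulVec] using h.irrW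
  · simp only [Lm_map, Lm_mulVec]; exact hX

end Cfsg.Agent.L4.Lift
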