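import Cfsg.Agent.L4.R0

/-!
Degrees of functions on a group with respect to an elementary abelian subgroup, and the transfer
lemma for trivial intersection subgroups.
-/

set_option autoImplicit false

namespace Cfsg.Agent.L4.R
open Finset
open Subgroup (normalizer)

variable {P k : Type*} [Group P] [Field k] {U : Subgroup P}

/-- All `n`-fold differences of `f` along `U` vanish. -/
def Dg (U : Subgroup P) : ℕ → (P → k) → Prop
  | 0, f => ∀ g, f g = 0
  | n + 1, f => ∀ u ∈ U, Dg U n fun g => f (u * g) - f g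

theorem Dg.congr {n : ℕ} {f f' : P → k} (h : Dg U n f) (e : ∀ g, f' g = f g) : Dg U n f' :=
  (funext e : f' = f) ▸ h

theorem Dg.zero : ∀ (n : ℕ) {f : P → k}, (∀ g, f g = 0) → Dg U n f
  | 0, _, h => h
  | n + 1, _, h => fun _ _ => Dg.zero n fun g => by simp [h]

theorem Dg.succ : ∀ {n : ℕ} {f : P → k}, Dg U n f → Dg U (n + 1) f
  | 0, _, h => Dg.zero 1 h
  | _ + 1, _, h => fun u hu => (h u hu).succ

theorem Dg.mono {m n : ℕ} {f : P → k} (h : Dg U m f) (e : m ≤ n) : Dg U n f := by
  induction e with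
  | refl => exact h
  | step _ ih => exact ih.succ

theorem Dg.add : ∀ {n : ℕ} {f f' : P → k}, Dg U n f → Dg U n f' → Dg U n fun g => f g + f' g
  | 0, _, _, h, h' => fun g => by simp [h g, h' g]
  | _ + 1, _, _, h, h' => fun u hu => ((h u hu).add (h' u hu)).congr fun g => by ring

theorem Dg.cmul (c : k) : ∀ {n : ℕ} {f : P → k}, Dg U n f → Dg U n fun g => c * f g
  | 0, _, h => fun g => by simp [h g]
  | _ + 1, _, h => fun u hu => (Dg.cmul c (h u hu)).congr fun g => by ring

theorem Dg.sub {n : ℕ} {f f' : P → k} (h : Dg U n f) (h' : Dg U n f') :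
    Dg U n fun g => f g - f' g := (h.add (h'.cmul (-1))).congr fun g => by ring

theorem Dg.const (c : k) : Dg U 1 fun _ => c := fun _ _ _ => sub_self c

theorem Dg.shift {u : P} (hu : u ∈ U) : ∀ {n : ℕ} {f : P → k}, Dg U n f → Dg U n fun g => f (u * g)
  | 0, _, h => fun _ => h _
  | _ + 1, _, h => (Dg.add h (h u hu).succ).congr fun g => by ring

theorem Dg.right (a : P) : ∀ {n : ℕ} {f : P → k}, Dg U n f → Dg U n fun g => f (g * a)
  | 0, _, h => fun _ => h _
  | _ + 1, _, h => fun u hu => (Dg.right a (h u hu)).congr fun g => by simp only [mul_assoc]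

theorem Dg.mul' : ∀ (n a b : ℕ) {f f' : P → k}, a + b = n → Dg U a f → Dg U b f' →
    Dg U (a + b - 1) fun g => f g * f' g
  | _, 0, _, _, _, _, h, _ => Dg.zero _ fun g => by simp [h g]
  | _, _ + 1, 0, _, _, _, _, h => Dg.zero _ fun g => by simp [h g]
  | 0, _ + 1, _ + 1, _, _, e, _, _ => absurd e (by omega)
  | n + 1, a + 1, b + 1, f, f', e, h, h' => by
    rw [show a + 1 + (b + 1) - 1 = a + b + 1 by omega]
    intro u hu
    have h1 := Dg.mul' n a (b + 1) (by omega) (h u hu) (h'.shift hu)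
    have h2 := Dg.mul' n (a + 1) b (by omega) h (h' u hu)
    rw [show a + (b + 1) - 1 = a + b by omega] at h1
    rw [show a + 1 + b - 1 = a + b by omega] at h2
    exact (h1.add h2).congr fun g => by ring

theorem Dg.mul {a b : ℕ} {f f' : P → k} (h : Dg U (a + 1) f) (h' : Dg U (b + 1) f') :
    Dg U (a + b + 1) fun g => f g * f' g := by
  simpa only [show a + 1 + (b + 1) - 1 = a + b + 1 by omega] using Dg.mul' _ _ _ rfl h h'

theorem Dg.frob (p : ℕ) [ExpChar k p] (i : ℕ) :
    ∀ {n : ℕ} {f : P → k}, Dg U n f → Dg U n fun g => f g ^ p ^ i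
  | 0, _, h => fun g => by simp [h g, (expChar_pos k p).ne']
  | _ + 1, _, h => fun u hu => (Dg.frob p i (h u hu)).congr fun g => (sub_pow_expChar_pow ..).symm

theorem Dg.prod {ι : Type*} (s : Finset ι) (d : ι → ℕ) (f : ι → P → k)
    (h : ∀ i ∈ s, Dg U (d i + 1) (f i)) : Dg U (∑ i ∈ s, d i + 1) fun g => ∏ i ∈ s, f i g := by
  classical
  induction s using Finset.induction_on with
  | empty => simpa using Dg.const 1
  | insert a s ha ih =>
    simp only [sum_insert ha, prod_insert ha]
    exact (h a (mem_insert_self _ _)).mul (ih fun i hi => h i (mem_insert_of_mem hi))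

theorem Dg.sum {ι : Type*} (s : Finset ι) {n : ℕ} (f : ι → P → k)
    (h : ∀ i ∈ s, Dg U n (f i)) : Dg U n fun g => ∑ i ∈ s, f i g := by
  classical
  induction s using Finset.induction_on with
  | empty => exact Dg.zero _ fun g => by simp
  | insert a s ha ih =>
    simp only [sum_insert ha]
    exact (h a (mem_insert_self _ _)).add (ih fun i hi => h i (mem_insert_of_mem hi))

theorem dg_of_filt {Y : Type*} (ev : Y → P → k) (F : ℕ → Set Y) (h0 : ∀ y ∈ F 0, ∀ g, ev y g = 0)
    (hs : ∀ i, ∀ y ∈ F (i + 1), ∀ u ∈ U, ∃ y' ∈ F i, ∀ g, ev y (u * g) - ev y g = ev y' g) :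
    ∀ (i : ℕ), ∀ y ∈ F i, Dg U i (ev y)
  | 0, y, hy => h0 y hy
  | i + 1, y, hy => fun u hu => by
    obtain ⟨y', h1, h2⟩ := hs i y hy u hu
    exact (dg_of_filt ev F h0 hs i y' h1).congr h2

theorem Dg.cyc (p : ℕ) [hp : Fact p.Prime] [CharP k p] {u : P} (hu : u ∈ U) {n : ℕ} {f : P → k}
    (h : Dg U n f) : Dg U (n - (p - 1)) fun g => ∑ j ∈ range p, f (u ^ j * g) := by
  let τ : Module.End k (P → k) := LinearMap.funLeft k k (u * ·)
  have h1 : ∀ i, Dg U (n - i) (((τ - 1) ^ i) f) := fun i => by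
    induction i with
    | zero => exact h
    | succ i ih =>
      rw [pow_succ', Module.End.mul_apply]
      rcases e : n - i with _ | m
      · rw [e] at ih
        exact Dg.zero _ fun g => by simp [τ, LinearMap.funLeft_apply, ih _]
      · rw [e] at ih
        rw [show n - (i + 1) = m by omega]
        exact ih u hu
  have h2 : ∀ (j : ℕ) (g : P), (τ ^ j) f g = f (u ^ j * g) := fun j => by
    induction j with
    | zero => simp
    | succ j ih =>
      intro g
      rw [pow_succ', Module.End.mul_apply]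
      exact (ih (u * g)).trans (by rw [pow_succ, mul_assoc])
  have h3 : (∑ j ∈ range p, Polynomial.X ^ j : Polynomial k) = (Polynomial.X - 1) ^ (p - 1) := by
    refine mul_right_cancel₀ (Polynomial.X_sub_C_ne_zero 1) ?_
    rw [map_one, geom_sum_mul, ← pow_succ, Nat.sub_add_cancel hp.out.one_le, sub_pow_char, one_pow]
  have h4 := congrArg (Polynomial.aeval τ) h3
  simp only [map_sum, map_pow, Polynomial.aeval_X, map_sub, map_one] at h4
  refine (h1 (p - 1)).congr fun g => ?_
  rw [← h4, LinearMap.sum_apply, Finset.sum_apply]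
  exact sum_congr rfl fun j _ => (h2 j g).symm

theorem Dg.sum_sub [Finite P] (p : ℕ) [hp : Fact p.Prime] [CharP k p] (he : ∀ u ∈ U, u ^ p = 1)
    {n : ℕ} {f : P → k} (h : Dg U n f) : ∀ (s : ℕ) (V : Subgroup P), V ≤ U → Nat.card V = p ^ s →
      Dg U (n - s * (p - 1)) fun g => ∑ᶠ v : V, f (v * g)
  | 0, V, _, e => by
    obtain rfl : V = ⊥ := Subgroup.card_eq_one.1 (by simpa using e)
    rw [Nat.zero_mul, Nat.sub_zero]
    refine h.congr fun g => ?_
    rw [finsum_unique, Subsingleton.elim (default : (⊥ : Subgroup P)) 1, OneMemClass.coe_one, one_mul]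
  | s + 1, V, hV, e => by
    classical
    obtain ⟨K, hK⟩ := Sylow.exists_subgroup_card_pow_prime (G := V) p (n := s)
      (e ▸ pow_dvd_pow p s.le_succ)
    have hc : Nat.card (K.map V.subtype) = p ^ s := by rw [Subgroup.card_subtype, hK]
    have hle : K.map V.subtype ≤ V := Subgroup.map_subtype_le K
    generalize K.map V.subtype = V' at hc hle
    obtain ⟨u, hu, hu'⟩ : ∃ u ∈ V, u ∉ V' := by
      by_contra! h1
      have := Subgroup.card_le_of_le (show V ≤ V' from h1)
      rw [e, hc] at this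
      exact absurd this (Nat.pow_lt_pow_right hp.out.one_lt s.lt_succ_self).not_ge
    have key : ∀ {i j : ℕ} {v w : P}, v ∈ V' → w ∈ V' → i < j → j < p → v * u ^ i ≠ w * u ^ j := by
      intro i j v w hv hw hij hj e1
      have h1 : u ^ (j - i) ∈ V' := by
        have : u ^ (j - i) = w⁻¹ * v := by
          rw [eq_inv_mul_iff_mul_eq, ← mul_left_inj (u ^ i), e1, mul_assoc, ← pow_add,
            Nat.sub_add_cancel hij.le]
        exact this ▸ mul_mem (inv_mem hw) hv
      obtain ⟨m, hm⟩ := exists_pow_eq_self_of_coprime (x := u) (n := j - i)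
        (((Nat.coprime_of_lt_prime (by omega) (by omega) hp.out).symm).coprime_dvd_right
          (orderOf_dvd_of_pow_eq_one (he u (hV hu))))
      exact hu' (hm ▸ pow_mem h1 m)
    let φ : V' × Fin p → V := fun x => ⟨x.1 * u ^ (x.2 : ℕ), mul_mem (hle x.1.2) (pow_mem hu _)⟩
    have hφ : Function.Bijective φ := by
      refine (Nat.bijective_iff_injective_and_card φ).2 ⟨?_, by simp [hc, e, pow_succ]⟩
      rintro ⟨v, i⟩ ⟨w, j⟩ e1
      have e2 : (v : P) * u ^ (i : ℕ) = w * u ^ (j : ℕ) := congrArg Subtype.val e1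
      rcases lt_trichotomy (i : ℕ) j with h1 | h1 | h1
      · exact absurd e2 (key v.2 w.2 h1 j.2)
      · rw [h1, mul_left_inj] at e2
        exact Prod.ext (Subtype.ext e2) (Fin.ext h1)
      · exact absurd e2.symm (key w.2 v.2 h1 i.2)
    have := (Dg.sum_sub p he h s V' (hle.trans hV) hc).cyc p (hV hu)
    rw [Nat.sub_sub, ← Nat.succ_mul] at this
    refine this.congr fun g => ?_
    letI := Fintype.ofFinite V
    letI := Fintype.ofFinite V'
    simp only [finsum_eq_sum_of_fintype]
    rw [← hφ.sum_comp, Fintype.sum_prod_type_right, Finset.sum_range]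
    simp only [φ, mul_assoc]

/-- A function of small degree sums to zero over every coset. -/
theorem Dg.sum_zero [Finite P] (p : ℕ) [Fact p.Prime] [CharP k p] (he : ∀ u ∈ U, u ^ p = 1) {r : ℕ}
    (hc : Nat.card U = p ^ r) {n : ℕ} (hn : n ≤ r * (p - 1)) {f : P → k} (h : Dg U n f) (g : P) :
    ∑ᶠ u : U, f (u * g) = 0 := by
  have := h.sum_sub p he r U le_rfl hc
  rw [Nat.sub_eq_zero_of_le hn] at this
  exact this g

/-- The sum over the left cosets of `N`. -/
noncomputable def tr (N : Subgroup P) (f : P → k) : k := ∑ᶠ q : P ⧸ N, f q.out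

theorem out_eq {N : Subgroup P} {f : P → k} (hf : ∀ g, ∀ n ∈ N, f (g * n) = f g) (g : P) :
    f (QuotientGroup.mk g : P ⧸ N).out = f g := by
  obtain ⟨n, e⟩ := QuotientGroup.mk_out_eq_mul N g
  rw [e, hf g n n.2]

theorem smul_out {N : Subgroup P} {f : P → k} (hf : ∀ g, ∀ n ∈ N, f (g * n) = f g) (a : P)
    (q : P ⧸ N) : f (a • q).out = f (a * q.out) := by
  rw [← out_eq hf (a * q.out), ← smul_eq_mul, ← MulAction.Quotient.smul_mk, QuotientGroup.out_eq']

theorem tr_left {N : Subgroup P} {f : P → k} (hf : ∀ g, ∀ n ∈ N, f (g * n) = f g) (a : P) :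
    tr N (fun g => f (a * g)) = tr N f := by
  unfold tr
  rw [← finsum_comp_equiv (MulAction.toPerm a) (f := fun q : P ⧸ N => f q.out)]
  exact finsum_congr fun q => (smul_out hf a q).symm

theorem tr_add [Finite P] (N : Subgroup P) (f f' : P → k) :
    tr N (fun g => f g + f' g) = tr N f + tr N f' :=
  finsum_add_distrib (Set.toFinite _) (Set.toFinite _)

theorem tr_mul [Finite P] (N : Subgroup P) (c : k) (f : P → k) :
    tr N (fun g => c * f g) = c * tr N f := (mul_finsum _ _).symm

/-- The transfer lemma. -/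
theorem tr_eq [Finite P]
    (ti : ∀ g : P, ∀ u ∈ U, u ≠ 1 → g * u * g⁻¹ ∈ U → g ∈ normalizer (U : Set P))
    (hp : ∀ g : P, ∀ u ∈ U, g * u * g⁻¹ ∈ normalizer (U : Set P) → g * u * g⁻¹ ∈ U) {f : P → k}
    (hf : ∀ g, ∀ n ∈ normalizer (U : Set P), f (g * n) = f g)
    (hz : ∀ g, ∑ᶠ u : U, f (u * g) = 0) : tr (normalizer (U : Set P)) f = f 1 := by
  classical
  let X := P ⧸ normalizer (U : Set P)
  letI := Fintype.ofFinite X
  letI := Fintype.ofFinite U
  letI := Fintype.ofFinite (Quotient (MulAction.orbitRel U X))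
  let x0 : X := QuotientGroup.mk 1
  have h0 : ∀ u : U, u • x0 = x0 := fun u =>
    QuotientGroup.eq.2 (by simpa using Subgroup.le_normalizer u.2)
  unfold tr
  rw [finsum_eq_sum_of_fintype, ← Finset.sum_fiberwise univ (Quotient.mk (MulAction.orbitRel U X)),
    Finset.sum_eq_single (Quotient.mk _ x0) _ (by simp), ← out_eq hf 1]
  · refine Finset.sum_eq_single_of_mem x0 (by simp) fun y hy h => (h ?_).elim
    obtain ⟨u, e⟩ := Quotient.exact (mem_filter.1 hy).2
    exact e.symm.trans (h0 u)
  · intro ω _ hω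
    obtain ⟨x, rfl⟩ := Quotient.exists_rep ω
    have e : (univ.filter fun y => Quotient.mk (MulAction.orbitRel U X) y = Quotient.mk _ x) =
        univ.image fun u : U => u • x := by
      ext y
      simp only [mem_filter, mem_univ, true_and, mem_image]
      exact ⟨fun h => Quotient.exact h, fun h => Quotient.sound h⟩
    rw [e, Finset.sum_image]
    · have := hz x.out
      rw [finsum_eq_sum_of_fintype] at this
      rw [← this]
      exact sum_congr rfl fun u _ => smul_out hf u.1 x
    · intro u _ v _ e1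
      by_contra hne
      obtain ⟨g, rfl⟩ := QuotientGroup.mk_surjective x
      have h1 : g⁻¹ * ((u : P)⁻¹ * v) * g⁻¹⁻¹ ∈ normalizer (U : Set P) := by
        simpa [mul_assoc] using (QuotientGroup.eq (s := normalizer (U : Set P))).1 e1
      have h2 := mul_mem (inv_mem u.2) v.2
      have h3 := ti _ _ h2 (fun e => hne (Subtype.ext (inv_mul_eq_one.1 e))) (hp _ _ h2 h1)
      exact hω (congrArg _ (QuotientGroup.eq.2 (by simpa using h3)))

theorem mem_of_norm [Finite P] {p : ℕ} [hp : Fact p.Prime] (hs : ¬ p ∣ U.index)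
    {x : P} (hx : x ^ p = 1) (h : x ∈ normalizer (U : Set P)) : x ∈ U := by
  have h1 : ¬ p ∣ Nat.card (normalizer (U : Set P) ⧸ U.subgroupOf (normalizer (U : Set P))) :=
    fun e => hs (e.trans (Subgroup.relIndex_dvd_index_of_le Subgroup.le_normalizer))
  have h2 : (QuotientGroup.mk ⟨x, h⟩ :
      normalizer (U : Set P) ⧸ U.subgroupOf (normalizer (U : Set P))) ^ p = 1 := by
    rw [← QuotientGroup.mk_pow, show (⟨x, h⟩ : normalizer (U : Set P)) ^ p = 1 from Subtype.ext hx]
    rfl
  rcases (Nat.dvd_prime hp.out).1 (orderOf_dvd_of_pow_eq_one h2) with e | e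
  · exact (QuotientGroup.eq_one_iff (N := U.subgroupOf _) _).1 (orderOf_eq_one_iff.1 e)
  · exact absurd (e ▸ orderOf_dvd_natCard _) h1

/-- Power sums over a finite additive group. -/
theorem pow_sum [Finite P] {x : P → k} (ha : ∀ u ∈ U, ∀ v ∈ U, x (u * v) = x u + x v)
    (hi : ∀ u ∈ U, x u = 0 → u = 1) {m : ℕ} (hm : m + 1 < Nat.card U) :
    ∑ᶠ u : U, x u ^ m = 0 := by
  classical
  letI := Fintype.ofFinite U
  have h1 : x 1 = 0 := by simpa using ha 1 (one_mem _) 1 (one_mem _)
  have h2 : ∀ u v : U, x u - x v = x (u * v⁻¹ : U) := fun u v => by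
    have := ha (u * v⁻¹ : U) (u * v⁻¹).2 v v.2
    rw [sub_eq_iff_eq_add, ← this]; simp
  have inj : Function.Injective fun u : U => x u := fun u v e => by
    have := hi _ (u * v⁻¹).2 (by rw [← h2]; exact sub_eq_zero.2 e)
    exact mul_inv_eq_one.1 (Subtype.ext this)
  rw [Nat.card_eq_fintype_card] at hm
  have h3 := Lagrange.coeff_eq_sum (s := univ) inj.injOn (P := Polynomial.X ^ m)
    (by rw [Polynomial.degree_X_pow, card_univ]; exact_mod_cast by omega)
  have h4 : ∀ u : U, ∏ v ∈ univ.erase u, (x u - x v) = ∏ v ∈ (univ : Finset U).erase 1, x v :=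
    fun u => Finset.prod_bijective (fun v => u * v⁻¹)
      ((Equiv.inv U).trans (Equiv.mulLeft u)).bijective
      (fun v => by simp [mul_inv_eq_one, eq_comm]) fun v _ => h2 u v
  have h5 : ∏ v ∈ (univ : Finset U).erase 1, x v ≠ 0 := prod_ne_zero_iff.2 fun v hv e =>
    (mem_erase.1 hv).1 (Subtype.ext (hi v v.2 e))
  simp only [h4, Polynomial.eval_pow, Polynomial.eval_X, ← Finset.sum_div, Polynomial.coeff_X_pow,
    card_univ] at h3
  rw [if_neg (by omega), eq_comm, div_eq_zero_iff] at h3
  rw [finsum_eq_sum_of_fintype]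
  exact h3.resolve_right h5

end Cfsg.Agent.L4.R
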