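import Cfsg.Agent.L4.R1

/-!
Matrix coefficients in type II and the lower bound for the order of a weight.
-/

set_option autoImplicit false

namespace Cfsg.Agent.L4.R
open Finset Matrix Cfsg.Agent.H1.Spin6
open Subgroup (normalizer)

variable {P k : Type*} [Group P] [Field k] {U H : Subgroup P}

theorem Dg.res : ∀ {n : ℕ} {f : P → k}, Dg U n f → Dg (⊤ : Subgroup U) n fun u => f u
  | 0, _, h => fun _ => h _
  | _ + 1, _, h => fun u _ => Dg.res (h u u.2)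

theorem sum_top [Finite P] (p : ℕ) [Fact p.Prime] [CharP k p] (he : ∀ u ∈ U, u ^ p = 1) {r : ℕ}
    (hc : Nat.card U = p ^ r) {n : ℕ} (hn : n ≤ r * (p - 1)) {f : U → k}
    (h : Dg (⊤ : Subgroup U) n f) : ∑ᶠ u : U, f u = 0 := by
  have := h.sum_zero p (fun u _ => Subtype.ext (he u u.2)) (by simpa using hc) hn 1
  rw [← this, ← finsum_comp_equiv Subgroup.topEquiv.toEquiv]
  simp

theorem Dg.pw (p : ℕ) [ExpChar k p] {d : ℕ} {f : P → k} (h : Dg U (d + 1) f) : ∀ l : List ℕ,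
    Dg U (d * l.length + 1) fun g => f g ^ (l.map (p ^ ·)).sum
  | [] => by simpa using Dg.const 1
  | a :: l => by
    have := (h.frob p a).mul (h.pw p l)
    simp only [List.length_cons, List.map_cons, List.sum_cons, pow_add]
    rwa [show d * (l.length + 1) = d + d * l.length by ring]

theorem Dg.pw_sub (p : ℕ) [ExpChar k p] {d : ℕ} {f f' : P → k} (h : Dg U (d + 1) f)
    (h' : Dg U (d + 1) f') (e : Dg U d fun g => f g - f' g) : ∀ l : List ℕ,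
    Dg U (d * l.length) fun g => f g ^ (l.map (p ^ ·)).sum - f' g ^ (l.map (p ^ ·)).sum
  | [] => Dg.zero _ fun g => by simp
  | a :: l => by
    have h1 := Dg.mul' _ _ _ rfl (e.frob p a) (h.pw p l)
    have h2 := Dg.mul' _ _ _ rfl (h'.frob p a) (Dg.pw_sub p h h' e l)
    rw [show d + (d * l.length + 1) - 1 = d * (l.length + 1) by rw [mul_add, mul_one]; omega] at h1
    rw [show d + 1 + d * l.length - 1 = d * (l.length + 1) by rw [mul_add, mul_one]; omega] at h2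
    refine (h1.add h2).congr fun g => ?_
    simp only [List.map_cons, List.sum_cons, pow_add, sub_pow_expChar_pow]
    ring

theorem digits (p : ℕ) (hp : 0 < p) : ∀ (r m m' : ℕ), m + m' + 1 = p ^ r → ∃ l l' : List ℕ,
    (l.map (p ^ ·)).sum = m ∧ (l'.map (p ^ ·)).sum = m' ∧ l.length + l'.length = r * (p - 1)
  | 0, m, m', e => ⟨[], [], by simp at e ⊢; omega, by simp at e ⊢; omega, by simp⟩
  | r + 1, m, m', e => by
    have hq : 0 < p ^ r := pow_pos hp r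
    have h1 := Nat.div_add_mod m (p ^ r)
    have h2 := Nat.mod_lt m hq
    have h3 : m / p ^ r < p := (Nat.div_lt_iff_lt_mul hq).2 (by rw [pow_succ'] at e; omega)
    obtain ⟨l, l', e1, e2, e3⟩ := digits p hp r (m % p ^ r) (p ^ r - 1 - m % p ^ r) (by omega)
    obtain ⟨b, hb⟩ : ∃ b, p = m / p ^ r + b + 1 := ⟨p - 1 - m / p ^ r, by omega⟩
    refine ⟨List.replicate (m / p ^ r) r ++ l, List.replicate b r ++ l', ?_, ?_, ?_⟩
    · simp [e1, mul_comm, h1]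
    · have : p ^ (r + 1) = p ^ r * (m / p ^ r) + b * p ^ r + p ^ r := by
        rw [pow_succ]; nth_rewrite 2 [hb]; ring
      simp [e2]; omega
    · simp [add_mul]; omega

theorem L2_hz (f₁ f₂ v₁ v₂ z : k) (x : Fin 6 → k) : L2 (hz f₁ f₂ v₁ v₂ z) x =
    ![x 0 + v₁ * x 2 - f₂ * x 3 + (f₁ * v₁ - z) * x 4 + f₂ * v₁ * x 5,
      x 1 + v₂ * x 2 + f₁ * x 3 + f₁ * v₂ * x 4 + (f₂ * v₂ - z) * x 5,
      x 2 + f₁ * x 4 + f₂ * x 5, x 3 + v₂ * x 4 - v₁ * x 5, x 4, x 5] := by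
  ext i
  fin_cases i <;> simp [L2_apply, co, hz, ψ_def, mul_apply, Fin.sum_univ_four, vecMul, dotProduct] <;>
    ring

theorem L2_bd (a b₁ b₂ b₃ b₄ c : k) (x : Fin 6 → k) : L2 (bd a b₁ b₂ b₃ b₄ c) x =
    ![a * (b₁ * x 0 + b₂ * x 1), a * (b₃ * x 0 + b₄ * x 1), a * c * x 2, (b₁ * b₄ - b₂ * b₃) * x 3,
      c * (b₁ * x 4 + b₂ * x 5), c * (b₃ * x 4 + b₄ * x 5)] := by
  ext i
  fin_cases i <;> simp [L2_apply, co, bd, ψ_def, mul_apply, Fin.sum_univ_four, vecMul, dotProduct] <;>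
    ring

theorem hz_mul (f₁ f₂ v₁ v₂ z f₁' f₂' v₁' v₂' z' : k) : hz f₁ f₂ v₁ v₂ z * hz f₁' f₂' v₁' v₂' z' =
    hz (f₁ + f₁') (f₂ + f₂') (v₁ + v₁') (v₂ + v₂') (z + z' + f₁ * v₁' + f₂ * v₂') := by
  ext i j
  fin_cases i <;> fin_cases j <;> simp [hz, mul_apply, Fin.sum_univ_four] <;> ring

theorem hz_mulVec (f₁ f₂ v₁ v₂ z : k) (x : Fin 4 → k) : hz f₁ f₂ v₁ v₂ z *ᵥ x =
    ![x 0 + f₁ * x 1 + f₂ * x 2 + z * x 3, x 1 + v₁ * x 3, x 2 + v₂ * x 3, x 3] := by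
  ext i
  fin_cases i <;> simp [hz, mulVec, dotProduct, Fin.sum_univ_four]

variable {ρ : P →* M4 k}

theorem L2_map (g g' : P) (w : Fin 6 → k) : L2 (ρ (g * g')) w = L2 (ρ g) (L2 (ρ g') w) := by
  rw [map_mul, L2_mul]

theorem Bw_adj (hd : ∀ g, (ρ g).det = 1) (g : P) (φ w : Fin 6 → k) :
    Bw φ (L2 (ρ g) w) = Bw (L2 (ρ g⁻¹) φ) w := by
  rw [← one_mul (Bw (L2 _ φ) w), ← hd g, ← Bw_L2, ← L2_map, mul_inv_cancel, map_one, L2_one]

theorem sub_Bw (x y z : Fin 6 → k) : Bw (x - y) z = Bw x z - Bw y z := by simp [Bw]; ring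

theorem dg_adj (hd : ∀ g, (ρ g).det = 1) {n : ℕ} {φ w : Fin 6 → k}
    (h : ∀ u ∈ U, Dg U n fun g => Bw (L2 (ρ u) φ - φ) (L2 (ρ g) w)) :
    Dg U (n + 1) fun g => Bw φ (L2 (ρ g) w) := fun u hu =>
  (h u⁻¹ (inv_mem hu)).congr fun g => by
    simp only []; rw [L2_map, Bw_adj hd, sub_Bw]

theorem dgW1 (hd : ∀ g, (ρ g).det = 1) {φ : Fin 6 → k} (h : ∀ u ∈ U, L2 (ρ u) φ = φ)
    (w : Fin 6 → k) : Dg U 1 fun g => Bw φ (L2 (ρ g) w) :=
  dg_adj hd fun u hu g => by simp [h u hu, Bw]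

namespace T2
variable {p r : ℕ}

theorem dgW2 (t : T2 p r ρ U H) (hd : ∀ g, (ρ g).det = 1) {φ : Fin 6 → k} (h4 : φ 4 = 0)
    (h5 : φ 5 = 0) (w : Fin 6 → k) : Dg U 2 fun g => Bw φ (L2 (ρ g) w) :=
  dg_adj hd fun u hu => dgW1 hd (fun v hv => by
    obtain ⟨a, b, c, d, e, h1, -⟩ := t.shape u hu
    obtain ⟨a', b', c', d', e', h2, -⟩ := t.shape v hv
    rw [h1, h2, L2_hz, L2_hz]
    ext i; fin_cases i <;> simp [h4, h5]) w

theorem dgW (t : T2 p r ρ U H) (hd : ∀ g, (ρ g).det = 1) (φ w : Fin 6 → k) :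
    Dg U 3 fun g => Bw φ (L2 (ρ g) w) :=
  dg_adj hd fun u hu => by
    obtain ⟨a, b, c, d, e, h1, -⟩ := t.shape u hu
    exact t.dgW2 hd (by simp [h1, L2_hz]) (by simp [h1, L2_hz]) w

theorem dgV1 (t : T2 p r ρ U H) (v : Fin 4 → k) : Dg U 1 fun g => (ρ g *ᵥ v) 3 := fun u hu g => by
  obtain ⟨a, b, c, d, e, h1, -⟩ := t.shape u hu
  simp only [map_mul, ← mulVec_mulVec, h1, hz_mulVec]; simp

theorem dgV2 (t : T2 p r ρ U H) (v : Fin 4 → k) {i : Fin 4} (hi : i ≠ 0) :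
    Dg U 2 fun g => (ρ g *ᵥ v) i := fun u hu => by
  obtain ⟨a, b, c, d, e, h1, -⟩ := t.shape u hu
  refine ((t.dgV1 v).cmul (if i = 3 then 0 else ρ u i 3)).congr fun g => ?_
  simp only [map_mul, ← mulVec_mulVec, h1, hz_mulVec]
  fin_cases i <;> simp [hz] at hi ⊢

theorem dgV (t : T2 p r ρ U H) (v : Fin 4 → k) (i : Fin 4) :
    Dg U 3 fun g => (ρ g *ᵥ v) i := by
  by_cases hi : i = 0
  · intro u hu
    obtain ⟨a, b, c, d, e, h1, -⟩ := t.shape u hu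
    refine ((((t.dgV2 v (i := 1) (by simp)).cmul a).add ((t.dgV2 v (i := 2) (by simp)).cmul b)).add
      ((t.dgV2 v (i := 3) (by simp)).cmul e)).congr fun g => ?_
    simp only [map_mul, ← mulVec_mulVec, h1, hz_mulVec, hi]
    simp
    ring
  · exact (t.dgV2 v hi).succ

variable [Finite P] [hp : Fact p.Prime]

theorem exists_ne (t : T2 p r ρ U H) : ∃ u ∈ U, u ≠ 1 := by
  have : U ≠ ⊥ := fun e => by
    have := t.card
    rw [e, Subgroup.card_bot] at this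
    exact absurd this (Nat.one_lt_pow t.pos.ne' hp.out.one_lt).ne
  obtain ⟨⟨u, hu⟩, h⟩ := Subgroup.ne_bot_iff_exists_ne_one.1 this
  exact ⟨u, hu, fun e => h (Subtype.ext e)⟩

theorem two_ne [CharP k p] (t : T2 p r ρ U H) : (2 : k) ≠ 0 := by
  intro h2
  obtain rfl : p = 2 := ((Nat.prime_dvd_prime_iff_eq hp.out Nat.prime_two).1
    ((CharP.cast_eq_zero_iff k p 2).1 h2))
  obtain ⟨u, hu, h⟩ := t.exists_ne
  obtain ⟨a, b, c, d, e, h1, h3⟩ := t.shape u hu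
  have h4 := congrArg (fun g => ρ g 0 3) (t.exp u hu)
  simp only [pow_two, map_mul, h1, hz_mul, map_one] at h4
  simp [hz] at h4
  exact h3 h (by linear_combination h4 - e * h2)

/-- The transfer lemma in type II. -/
theorem tt (t : T2 p r ρ U H) {f : P → k} (hf : ∀ g, ∀ n ∈ normalizer (U : Set P), f (g * n) = f g)
    (hz : ∀ g, ∑ᶠ u : U, f (u * g) = 0) : tr (normalizer (U : Set P)) f = f 1 :=
  tr_eq t.ti (fun g u hu h => mem_of_norm t.syl (by rw [conj_pow, t.exp u hu]; simp) h) hf hz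

theorem tt' [CharP k p] (t : T2 p r ρ U H) {f : P → k}
    (hf : ∀ g, ∀ n ∈ normalizer (U : Set P), f (g * n) = f g) {n : ℕ} (hn : n ≤ r * (p - 1))
    (h : Dg U n f) : tr (normalizer (U : Set P)) f = f 1 :=
  t.tt hf (h.sum_zero p t.exp t.card hn)

end T2

/-- A semilinear family of invariant functionals vanishing at one vector vanishes. -/
theorem van_of_irr (h : Hy ρ) {ι : Type*} (Z : (Fin 6 → k) → ι → k)
    (ha : ∀ φ φ' i, Z (φ + φ') i = Z φ i + Z φ' i) (hs : ∀ (c : k) φ i, Z φ i = 0 → Z (c • φ) i = 0)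
    (hg : ∀ g φ i, ∃ j, Z (L2 (ρ g) φ) i = Z φ j) {s : Fin 6 → k} (h0 : s ≠ 0) (hz : ∀ i, Z s i = 0)
    (φ : Fin 6 → k) (i : ι) : Z φ i = 0 := by
  let X : Submodule k (Fin 6 → k) :=
    { carrier := {φ | ∀ i, Z φ i = 0}
      add_mem' := fun {a b} h1 h2 i => by rw [ha, h1 i, h2 i, add_zero]
      zero_mem' := fun i => by simpa using ha 0 0 i
      smul_mem' := fun c a h1 i => hs c a i (h1 i) }
  rcases h.irrW X (fun g x hx i => by obtain ⟨j, e⟩ := hg g x i; rw [e]; exact hx j) with e | e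
  · exact absurd ((Submodule.mem_bot k).1 (e ▸ (hz : s ∈ X))) h0
  · exact (e ▸ Submodule.mem_top : φ ∈ X) i

theorem lemL_aux [Finite P] {p r : ℕ} [hp : Fact p.Prime] [CharP k p] (h : Hy ρ) (t : T2 p r ρ U H)
    {t₁ t₂ tv s : Fin 6 → k} (h0 : s ≠ 0) (hs : ∀ u ∈ U, L2 (ρ u) s = s) (s1 : Bw s t₁ = 0)
    (s2 : Bw s t₂ = 0) (v1 : Bw tv t₁ = 1) (v2 : Bw tv t₂ = 0) (x : P → k)
    (ha : ∀ u ∈ U, ∀ v ∈ U, x (u * v) = x u + x v) (hi : ∀ u ∈ U, x u = 0 → u = 1)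
    (hx : ∀ w, ∃ c, ∀ u ∈ U, ∀ v ∈ U, Bw tv (L2 (ρ (u * v)) w) - Bw tv (L2 (ρ u) w) -
      Bw tv (L2 (ρ v) w) + Bw tv w = c * x u * x v) (l : List ℕ) (hl : l ≠ [])
    (hN : ∀ n ∈ normalizer (U : Set P), ∃ c c' : k, c ^ (l.map (p ^ ·)).sum = 1 ∧
      c' ^ (l.map (p ^ ·)).sum = 1 ∧ (L2 (ρ n) t₁ = c • t₁ ∧ L2 (ρ n) t₂ = c' • t₂ ∨
        L2 (ρ n) t₁ = c • t₂ ∧ L2 (ρ n) t₂ = c' • t₁)) (hD : 2 * l.length ≤ r * (p - 1)) :
    2 * l.length = r * (p - 1) ∧ p ^ r ≤ 2 * (l.map (p ^ ·)).sum + 1 := by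
  obtain ⟨a, l, rfl⟩ := List.exists_cons_of_ne_nil hl
  simp only [List.map_cons, List.sum_cons, List.length_cons] at hN hD ⊢
  set m := (l.map (p ^ ·)).sum with hm
  have hq : p ^ a ≠ 0 := pow_ne_zero _ hp.out.ne_zero
  let E : (Fin 6 → k) → (Fin 6 → k) → (Fin 6 → k) → P → k := fun φ χ w g =>
    Bw φ (L2 (ρ g) w) ^ p ^ a * Bw χ (L2 (ρ g) w) ^ m
  let F : (Fin 6 → k) → (Fin 6 → k) → P → k := fun φ χ g => E φ χ t₁ g + E φ χ t₂ g
  have hE : ∀ {φ χ w w' : Fin 6 → k} {n : P} {c : k} (g : P), c ^ (p ^ a + m) = 1 →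
      L2 (ρ n) w = c • w' → E φ χ w (g * n) = E φ χ w' g := fun {φ χ w w' n c} g h1 h2 => by
    simp only [E, L2_map, h2, map_smul, Bw_smul, mul_pow]
    rw [pow_add] at h1
    linear_combination (Bw φ (L2 (ρ g) w') ^ p ^ a * Bw χ (L2 (ρ g) w') ^ m) * h1
  have hF : ∀ φ χ g, ∀ n ∈ normalizer (U : Set P), F φ χ (g * n) = F φ χ g := fun φ χ g n hn => by
    obtain ⟨c, c', h1, h2, ⟨h3, h4⟩ | ⟨h3, h4⟩⟩ := hN n hn
    · simp only [F, hE g h1 h3, hE g h2 h4]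
    · simp only [F, hE g h1 h3, hE g h2 h4, add_comm]
  have hZ : ∀ φ χ, tr (normalizer (U : Set P)) (F φ χ) = 0 := by
    refine van_of_irr h (fun φ χ => tr _ (F φ χ)) (fun φ φ' χ => ?_) (fun c φ χ e => ?_)
      (fun g φ χ => ⟨L2 (ρ g⁻¹) χ, ?_⟩) h0 fun χ => ?_
    · rw [← tr_add]
      congr 1; funext g
      simp only [F, E, add_Bw, add_pow_char_pow]; ring
    · rw [← mul_zero (c ^ p ^ a), ← e, ← tr_mul]
      congr 1; funext g
      simp only [F, E, smul_Bw, mul_pow]; ring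
    · rw [← tr_left (hF _ _) g]
      congr 1; funext y
      simp only [F, E, L2_map, Bw_L2, h.det, one_mul, Bw_adj h.det g χ]
    · have e : ∀ w, Dg U (0 + 2 * l.length + 1) (E s χ w) := fun w =>
        ((dgW1 h.det hs w).frob p a).mul ((t.dgW h.det χ w).pw p l)
      rw [t.tt' (hF _ _) (by omega) ((e t₁).add (e t₂))]
      simp [F, E, L2_one, s1, s2, zero_pow hq]
  by_contra hc
  have key : ∀ w, ∑ᶠ u : U, Bw tv (L2 (ρ u) w) ^ (p ^ a + m) = 0 := fun w => by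
    have d1 := (t.dgW h.det tv w).res
    by_cases e : 2 * (l.length + 1) = r * (p - 1)
    · obtain ⟨c, hc'⟩ := hx w
      have dx : Dg (⊤ : Subgroup U) 2 fun u => x u := fun u _ v _ g => by
        simp only [Subgroup.coe_mul, ha _ u.2 _ (mul_mem v.2 g.2), ha _ u.2 _ g.2]; ring
      have d2 : Dg (⊤ : Subgroup U) 3 fun u => c / 2 * (x u * x u) := (dx.mul dx).cmul _
      have d3 : Dg (⊤ : Subgroup U) 2 fun u => Bw tv (L2 (ρ u) w) - c / 2 * (x u * x u) := by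
        intro u _ v _ g
        have e1 := hc' _ u.2 _ (mul_mem v.2 g.2)
        have e2 := hc' _ u.2 _ g.2
        have e3 : c / 2 * 2 = c := div_mul_cancel₀ _ t.two_ne
        simp only [Subgroup.coe_mul, ha _ u.2 _ (mul_mem v.2 g.2), ha _ u.2 _ g.2,
          ha _ v.2 _ g.2] at e1 ⊢
        linear_combination e1 - e2 - x u * x v * e3
      have h1 := sum_top p t.exp t.card (n := 2 * (l.length + 1)) e.le (d1.pw_sub p d2 d3 (a :: l))
      have h2 := pow_sum ha hi (m := 2 * (p ^ a + m)) (by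
        rw [t.card]; by_contra h3; exact hc ⟨e, by omega⟩)
      simp only [List.map_cons, List.sum_cons, ← hm] at h1
      rw [finsum_sub_distrib (Set.toFinite _) (Set.toFinite _), sub_eq_zero] at h1
      rw [h1, ← mul_zero ((c / 2) ^ (p ^ a + m)), ← h2, mul_finsum]
      exact finsum_congr fun u => by rw [mul_pow, pow_mul, pow_two]
    · exact sum_top p t.exp t.card (n := 2 * (l.length + 1) + 1) (by omega) (d1.pw p (a :: l))
  have h1 := t.tt (hF tv tv) fun g => by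
    simp only [F, E, L2_map, ← pow_add]
    rw [finsum_add_distrib (Set.toFinite _) (Set.toFinite _), key, key, add_zero]
  rw [hZ] at h1
  simp [F, E, L2_one, v1, v2, zero_pow hq] at h1

/-- The order of the top weight is large. -/
theorem lemL [Finite P] {p r : ℕ} [hp : Fact p.Prime] [CharP k p] (h : Hy ρ) (t : T2 p r ρ U H)
    {t₁ t₂ tv s : Fin 6 → k} (h0 : s ≠ 0) (hs : ∀ u ∈ U, L2 (ρ u) s = s) (s1 : Bw s t₁ = 0)
    (s2 : Bw s t₂ = 0) (v1 : Bw tv t₁ = 1) (v2 : Bw tv t₂ = 0) (x : P → k)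
    (ha : ∀ u ∈ U, ∀ v ∈ U, x (u * v) = x u + x v) (hi : ∀ u ∈ U, x u = 0 → u = 1)
    (hx : ∀ w, ∃ c, ∀ u ∈ U, ∀ v ∈ U, Bw tv (L2 (ρ (u * v)) w) - Bw tv (L2 (ρ u) w) -
      Bw tv (L2 (ρ v) w) + Bw tv w = c * x u * x v) {o : ℕ} (ho : o ∣ p ^ r - 1)
    (hN : ∀ n ∈ normalizer (U : Set P), ∃ c c' : k, c ^ o = 1 ∧ c' ^ o = 1 ∧
      (L2 (ρ n) t₁ = c • t₁ ∧ L2 (ρ n) t₂ = c' • t₂ ∨
        L2 (ρ n) t₁ = c • t₂ ∧ L2 (ρ n) t₂ = c' • t₁)) : o = p ^ r - 1 ∨ 2 * o = p ^ r - 1 := by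
  have h1 : 1 < p ^ r := Nat.one_lt_pow t.pos.ne' hp.out.one_lt
  have h2 := Nat.le_of_dvd (by omega) ho
  have h3 := Nat.pos_of_dvd_of_pos ho (by omega)
  refine or_iff_not_imp_left.2 fun h4 => ?_
  obtain ⟨l, l', e1, e2, e3⟩ := digits p hp.out.pos r o (p ^ r - 1 - o) (by omega)
  have key : ∀ l : List ℕ, o ∣ (l.map (p ^ ·)).sum → 0 < (l.map (p ^ ·)).sum → _ → _ :=
    fun l ⟨j, hj⟩ hl => lemL_aux h t h0 hs s1 s2 v1 v2 x ha hi hx l (by rintro rfl; simp at hl)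
      fun n hn => by
        obtain ⟨c, c', h5, h6, h7⟩ := hN n hn
        exact ⟨c, c', by rw [hj, pow_mul, h5, one_pow], by rw [hj, pow_mul, h6, one_pow], h7⟩
  have k1 := key l (e1 ▸ dvd_rfl) (by omega)
  have k2 := key l' (e2 ▸ Nat.dvd_sub ho dvd_rfl) (by omega)
  omega

end Cfsg.Agent.L4.R
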