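import Cfsg.Agent.L4.R2
import Cfsg.Agent.L4.H0

/-!
Conjugates, duals, Jordan forms and the projectivity of the traceless matrices.
-/

set_option autoImplicit false

namespace Cfsg.Agent.L4.R
open Finset Matrix Cfsg.Agent.H1.Spin6 Cfsg.Agent.L4.H

variable {P k : Type*} [Group P] [Field k] {ρ : P →* M4 k}

/-- The conjugate representation. -/
def cj {B B' : M4 k} (h : B * B' = 1) (ρ : P →* M4 k) : P →* M4 k where
  toFun g := B' * ρ g * B
  map_one' := by rw [map_one, mul_one, mul_eq_one_comm.1 h]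
  map_mul' g g' := by
    simp only [map_mul, mul_assoc]; rw [← mul_assoc B, h, one_mul]

theorem cj_apply {B B' : M4 k} (h : B * B' = 1) (g : P) : cj h ρ g = B' * ρ g * B := rfl

theorem cj_back {B B' : M4 k} (h : B * B' = 1) (g : P) : ρ g = B * cj h ρ g * B' := by
  simp only [cj_apply, mul_assoc, h, mul_one]; rw [← mul_assoc, h, one_mul]

theorem cj_of {B B' C : M4 k} (h : B * B' = 1) {g : P} (e : ρ g * B = B * C) : cj h ρ g = C := by
  rw [cj_apply, mul_assoc, e, ← mul_assoc, mul_eq_one_comm.1 h, one_mul]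

theorem cj_trace {B B' : M4 k} (h : B * B' = 1) (g : P) : (cj h ρ g).trace = (ρ g).trace := by
  rw [cj_apply, trace_mul_comm, ← mul_assoc, h, one_mul]

/-- The dual representation. -/
def dl (ρ : P →* M4 k) : P →* M4 k where
  toFun g := (ρ g⁻¹)ᵀ
  map_one' := by simp
  map_mul' g g' := by simp

theorem dl_apply (g : P) : dl ρ g = (ρ g⁻¹)ᵀ := rfl

theorem irr_cj {M : Type*} [AddCommGroup M] [Module k M] {σ : P → M → M} (e e' : M →ₗ[k] M)
    (h1 : ∀ x, e (e' x) = x) (h2 : ∀ x, e' (e x) = x)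
    (h : ∀ X : Submodule k M, (∀ g, ∀ x ∈ X, σ g x ∈ X) → X = ⊥ ∨ X = ⊤) (X : Submodule k M)
    (hX : ∀ g, ∀ x ∈ X, e' (σ g (e x)) ∈ X) : X = ⊥ ∨ X = ⊤ := by
  rcases h (X.comap e') (fun g x hx => by simpa [h1] using hX g _ hx) with e1 | e1
  · refine .inl (eq_bot_iff.2 fun x hx => ?_)
    have : e x ∈ X.comap e' := by simpa [h2] using hx
    rw [e1, Submodule.mem_bot] at this
    rw [← h2 x, this, map_zero]; exact zero_mem _
  · refine .inr (eq_top_iff.2 fun x _ => ?_)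
    have : e x ∈ X.comap e' := e1 ▸ Submodule.mem_top
    simpa [h2] using this

theorem irr_adj {ι : Type*} [Fintype ι] {σ τ : P → (ι → k) → ι → k}
    (adj : ∀ g x y, x ⬝ᵥ σ g y = τ g x ⬝ᵥ y)
    (h : ∀ X : Submodule k (ι → k), (∀ g, ∀ x ∈ X, σ g x ∈ X) → X = ⊥ ∨ X = ⊤)
    (X : Submodule k (ι → k)) (hX : ∀ g, ∀ x ∈ X, τ g x ∈ X) : X = ⊥ ∨ X = ⊤ := by
  classical
  let Y : Submodule k (ι → k) :=
    { carrier := {y | ∀ x ∈ X, x ⬝ᵥ y = 0}
      add_mem' := fun {a b} ha hb x hx => by rw [dotProduct_add, ha x hx, hb x hx, add_zero]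
      zero_mem' := fun x _ => dotProduct_zero x
      smul_mem' := fun c a ha x hx => by rw [dotProduct_smul, ha x hx, smul_zero] }
  rcases h Y (fun g y hy x hx => by rw [adj]; exact hy _ (hX g x hx)) with e | e
  · refine .inr (by_contra fun hne => ?_)
    obtain ⟨f, f0, hf⟩ := X.exists_le_ker_of_lt_top (lt_top_iff_ne_top.2 hne)
    have h1 : ∀ x, f x = x ⬝ᵥ fun i => f (Pi.single i 1) := fun x => by
      rw [LinearMap.pi_apply_eq_sum_univ]
      exact sum_congr rfl fun i _ => by congr 2; ext j; simp [Pi.single_apply, eq_comm]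
    have h2 : (fun i => f (Pi.single i 1)) ∈ Y := fun x hx => (h1 x).symm.trans (hf hx)
    rw [e, Submodule.mem_bot] at h2
    exact f0 (LinearMap.ext fun x => by rw [h1, h2]; simp)
  · exact .inl (eq_bot_iff.2 fun x hx => dotProduct_eq_zero x
      fun y => (e ▸ Submodule.mem_top : y ∈ Y) x hx)

theorem Hy.cj (h : Hy ρ) {B B' : M4 k} (hB : B * B' = 1) : Hy (cj hB ρ) where
  inj g g' e := h.inj (by rw [cj_back hB g, e, ← cj_back])
  det g := by rw [cj_apply, det_mul, det_mul, h.det, mul_one, mul_comm, ← det_mul, hB, det_one]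
  perf := h.perf
  simp := h.simp
  irrV X hX := irr_cj (σ := fun g x => ρ g *ᵥ x) B.mulVecLin B'.mulVecLin
    (fun x => by simp [hB]) (fun x => by simp [mul_eq_one_comm.1 hB]) h.irrV X fun g x hx => by
      simpa [cj_apply, mul_assoc] using hX g x hx
  irrW X hX := irr_cj (σ := fun g x => L2 (ρ g) x) (L2 B) (L2 B')
    (fun x => by rw [← L2_mul, hB, L2_one]) (fun x => by rw [← L2_mul, mul_eq_one_comm.1 hB, L2_one])
    h.irrW X fun g x hx => by simpa [cj_apply, L2_mul] using hX g x hx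

theorem L2_adj (A : M4 k) (x y : Fin 6 → k) : x ⬝ᵥ L2 A y = L2 Aᵀ x ⬝ᵥ y := by
  simp [L2_apply, co, ψ_def, mul_apply, Fin.sum_univ_four, dotProduct, Fin.sum_univ_six]
  ring

theorem Hy.dl (h : Hy ρ) : Hy (dl ρ) where
  inj g g' e := inv_injective (h.inj (transpose_injective e))
  det g := by rw [dl_apply, det_transpose, h.det]
  perf := h.perf
  simp := h.simp
  irrV := irr_adj (σ := fun g x => ρ g⁻¹ *ᵥ x) (fun g x y => by
    rw [dl_apply, mulVec_transpose, dotProduct_mulVec]) fun X hX => h.irrV X fun g => by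
      simpa using hX g⁻¹
  irrW := irr_adj (σ := fun g x => L2 (ρ g⁻¹) x) (fun g x y => L2_adj _ x y) fun X hX =>
    h.irrW X fun g => by simpa using hX g⁻¹

/-- The Toeplitz matrices. -/
def tp (a b c : k) : M4 k := !![1, a, b, c; 0, 1, a, b; 0, 0, 1, a; 0, 0, 0, 1]

theorem tp_mul (a b c a' b' c' : k) : tp a b c * tp a' b' c' =
    tp (a + a') (b + b' + a * a') (c + c' + a * b' + b * a') := by
  simp only [tp, mul4, em4]
  refine ⟨?_, ?_, ?_, ?_, ?_, ?_, ?_, ?_, ?_, ?_, ?_, ?_, ?_, ?_, ?_, ?_⟩ <;> ring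

theorem mul_cols (A : M4 k) (u v w z : Fin 4 → k) :
    A * cols u v w z = cols (A *ᵥ u) (A *ᵥ v) (A *ᵥ w) (A *ᵥ z) := by
  ext i j; fin_cases j <;> simp [cols, mul_apply, mulVec, dotProduct]

theorem cols_mul (u v w z : Fin 4 → k) (a b c d e f g h i j l m n o p q : k) :
    cols u v w z * !![a, b, c, d; e, f, g, h; i, j, l, m; n, o, p, q] =
    cols (a • u + e • v + i • w + n • z) (b • u + f • v + j • w + o • z)
      (c • u + g • v + l • w + p • z) (d • u + h • v + m • w + q • z) := by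
  ext x y; fin_cases y <;> simp [cols, mul_apply, Fin.sum_univ_four] <;> ring

theorem jordan {A : M4 k} (h : IsNilpotent (A - 1)) (h2 : (A - 1) * (A - 1) ≠ 0) :
    ∃ B B' : M4 k, B * B' = 1 ∧ (A * B = B * tp 1 0 0 ∨ A * B = B * hz 1 0 1 0 0) := by
  obtain ⟨N, rfl⟩ : ∃ N, A = N + 1 := ⟨A - 1, by simp⟩
  rw [add_sub_cancel_right] at h h2
  have h4 : N * (N * (N * N)) = 0 := by
    have := N.aeval_self_charpoly
    rw [sub_eq_zero.1 (isNilpotent_charpoly_sub_pow_of_isNilpotent h).eq_zero] at this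
    simpa [pow_succ, mul_assoc] using this
  have ex : ∀ {M : M4 k}, M ≠ 0 → ∃ v, M *ᵥ v ≠ 0 := fun {M} hM => by
    by_contra! e
    exact hM (Matrix.ext fun i j => by simpa using congrFun (e (Pi.single j 1)) i)
  by_cases h3 : N * (N * N) = 0
  · obtain ⟨v, hv⟩ := ex h2
    have e3 : ∀ x, N *ᵥ (N *ᵥ (N *ᵥ x)) = 0 := fun x => by simp [h3]
    have f3 := e3 v
    rw [← mulVec_mulVec] at hv
    generalize f1 : N *ᵥ v = v1 at hv f3
    generalize f2 : N *ᵥ v1 = v2 at hv f3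
    have li : LinearIndependent k ![v2, v1, v] := by
      refine Fintype.linearIndependent_iff.2 fun c hc => ?_
      replace hc : c 0 • v2 + c 1 • v1 + c 2 • v = 0 := by simpa [Fin.sum_univ_three] using hc
      have e1 := congrArg (N *ᵥ ·) hc
      have e2 := congrArg (N *ᵥ ·) e1
      simp only [mulVec_add, mulVec_smul, f1, f2, f3, mulVec_zero, smul_zero, zero_add,
        smul_eq_zero, hv, or_false] at e1 e2
      simp only [e2, zero_smul, add_zero, smul_eq_zero, hv, or_false] at e1 hc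
      simp only [e1, zero_smul, add_zero, smul_eq_zero, hv, or_false] at hc
      intro i; fin_cases i <;> assumption
    obtain ⟨y, hy⟩ := exists_linearIndependent_cons_of_lt_finrank li (by simp)
    have li' : ∀ a b c d : k, a • v2 + b • v1 + c • y + d • v = 0 →
        a = 0 ∧ b = 0 ∧ c = 0 ∧ d = 0 := fun a b c d e => by
      have := Fintype.linearIndependent_iff.1 hy ![c, a, b, d] (by
        refine Eq.trans ?_ e
        simp [Fin.sum_univ_succ]; abel)
      exact ⟨this 1, this 2, this 0, this 3⟩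
    obtain ⟨C, hC⟩ := cols_inv li'
    obtain ⟨a, b, c, d, e⟩ := ex4 (C *ᵥ (N *ᵥ y))
    have e1 : N *ᵥ y = a • v2 + b • v1 + c • y + d • v := by
      rw [← cols_mulVec, ← e, mulVec_mulVec _ _ C, hC, one_mulVec]
    have e4 := e3 y
    simp only [e1, mulVec_add, mulVec_smul, f1, f2, f3, mulVec_zero] at e4
    obtain ⟨h5, -, h6, -⟩ := li' (d + c * b + c * c * a) (c * d + c * c * b) (c ^ 3) (c * c * d)
      (by rw [← e4]; module)
    obtain rfl : c = 0 := pow_eq_zero_iff (n := 3) (by simp) |>.1 h6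
    obtain rfl : d = 0 := by simpa using h5
    obtain ⟨B', hB⟩ := cols_inv (u := v2) (v := v1) (w := y - a • v1 - b • v)
      (z := v) fun x1 x2 x3 x4 e => by
        obtain ⟨g1, g2, rfl, g4⟩ := li' x1 (x2 - x3 * a) x3 (x4 - x3 * b) (by rw [← e]; module)
        exact ⟨g1, by simpa using g2, rfl, by simpa using g4⟩
    refine ⟨_, B', hB, .inr ?_⟩
    rw [mul_cols, hz, cols_mul]
    simp only [add_mulVec, one_mulVec, mulVec_sub, mulVec_smul, e1, f1, f2, f3]
    congr 1 <;> module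
  · obtain ⟨v, hv⟩ := ex h3
    have f4 : N *ᵥ (N *ᵥ (N *ᵥ (N *ᵥ v))) = 0 := by simp [h4]
    rw [← mulVec_mulVec, ← mulVec_mulVec] at hv
    generalize f1 : N *ᵥ v = v1 at hv f4
    generalize f2 : N *ᵥ v1 = v2 at hv f4
    generalize f3 : N *ᵥ v2 = v3 at hv f4
    obtain ⟨B', hB⟩ := cols_inv (u := v3) (v := v2) (w := v1) (z := v) fun a b c d e => by
      have e1 := congrArg (N *ᵥ ·) e
      have e2 := congrArg (N *ᵥ ·) e1
      have e3 := congrArg (N *ᵥ ·) e2
      simp only [mulVec_add, mulVec_smul, f1, f2, f3, f4, mulVec_zero, smul_zero, zero_add,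
        smul_eq_zero, hv, or_false] at e1 e2 e3
      simp only [e3, zero_smul, add_zero, smul_eq_zero, hv, or_false] at e e1 e2
      simp only [e2, zero_smul, add_zero, smul_eq_zero, hv, or_false] at e e1
      simp only [e1, zero_smul, add_zero, smul_eq_zero, hv, or_false] at e
      exact ⟨e, e1, e2, e3⟩
    refine ⟨_, B', hB, .inl ?_⟩
    rw [mul_cols, tp, cols_mul]
    simp only [add_mulVec, one_mulVec, f1, f2, f3, f4]
    congr 1 <;> module

section Proj
variable [Fintype P]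

theorem Proj.of_cj {B B' : M4 k} (hB : B * B' = 1) (h : Proj (cj hB ρ)) : Proj ρ := by
  obtain ⟨θ, h⟩ := h
  refine ⟨LinearMap.mulLeft k B ∘ₗ LinearMap.mulRight k B' ∘ₗ θ ∘ₗ LinearMap.mulLeft k B' ∘ₗ
    LinearMap.mulRight k B, fun X hX => ?_⟩
  have := congrArg (fun Y => B * Y * B') (h (B' * X * B) (by
    rw [trace_mul_comm, ← mul_assoc, hB, one_mul, hX]))
  have e : ∀ Y : M4 k, B * (B' * Y) = Y := fun Y => by rw [← mul_assoc, hB, one_mul]
  simpa only [Finset.mul_sum, Finset.sum_mul, cj_apply, mul_assoc, e, hB, mul_one,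
    LinearMap.comp_apply, LinearMap.mulLeft_apply, LinearMap.mulRight_apply] using this

theorem proj_of_not_dvd (p : ℕ) [CharP k p] (h : ¬ p ∣ Nat.card P) : Proj ρ := by
  refine ⟨(Fintype.card P : k)⁻¹ • LinearMap.id, fun X _ => ?_⟩
  have e : ∀ g, ρ g * (ρ g⁻¹ * X * ρ g) * ρ g⁻¹ = X := fun g => by
    simp only [← mul_assoc, ← map_mul]; simp only [mul_assoc, ← map_mul]; simp
  rw [Nat.card_eq_fintype_card, ← CharP.cast_eq_zero_iff k p] at h
  simp only [LinearMap.smul_apply, LinearMap.id_apply, mul_smul_comm, smul_mul_assoc, e, sum_const,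
    card_univ]
  rw [← Nat.cast_smul_eq_nsmul k, smul_smul, mul_inv_cancel₀ h, one_smul]

theorem proj_of (p : ℕ) [CharP k p] {u : P} (hu : orderOf u = p) (h : ¬ p ^ 2 ∣ Nat.card P)
    (θ : M4 k →ₗ[k] M4 k) (hθ : ∀ X : M4 k, X.trace = 0 →
      ∑ j ∈ range p, ρ (u ^ j) * θ (ρ (u ^ j)⁻¹ * X * ρ (u ^ j)) * ρ (u ^ j)⁻¹ = X) : Proj ρ := by
  classical
  let Q := P ⧸ Subgroup.zpowers u
  have hc : Nat.card P = Nat.card Q * p := by
    rw [Subgroup.card_eq_card_quotient_mul_card_subgroup (Subgroup.zpowers u), Nat.card_zpowers, hu]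
  have h1 : (Fintype.card Q : k) ≠ 0 := fun e => h (by
    rw [hc, sq, Nat.card_eq_fintype_card]
    exact mul_dvd_mul_right ((CharP.cast_eq_zero_iff k p _).1 e) p)
  let φ : Q × Fin p → P := fun x => x.1.out * u ^ (x.2 : ℕ)
  have hφ : Function.Bijective φ := by
    refine (Nat.bijective_iff_injective_and_card φ).2 ⟨?_, by rw [hc, Nat.card_prod, Nat.card_fin]⟩
    rintro ⟨q, i⟩ ⟨q', j⟩ e
    have e1 : q = q' := by
      have := congrArg (QuotientGroup.mk : P → Q) e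
      simpa [φ, Q, QuotientGroup.mk_mul_of_mem _ (pow_mem (Subgroup.mem_zpowers u) _)] using this
    subst e1
    exact Prod.ext rfl (Fin.ext (pow_injOn_Iio_orderOf (hu ▸ i.2) (hu ▸ j.2) (mul_left_cancel e)))
  refine ⟨(Fintype.card Q : k)⁻¹ • θ, fun X hX => ?_⟩
  have e : ∀ q : Q, ∑ j : Fin p, ρ (φ (q, j)) * θ (ρ (φ (q, j))⁻¹ * X * ρ (φ (q, j))) *
      ρ (φ (q, j))⁻¹ = X := fun q => by
    have := congrArg (fun Y => ρ q.out * Y * ρ q.out⁻¹) (hθ (ρ q.out⁻¹ * X * ρ q.out) (by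
      rw [trace_mul_comm, ← mul_assoc, ← map_mul, mul_inv_cancel, map_one, one_mul, hX]))
    simp only [Finset.sum_range, Finset.mul_sum, Finset.sum_mul, mul_assoc] at this
    simp only [φ, _root_.mul_inv_rev, map_mul, mul_assoc]
    rw [this, ← map_mul, ← mul_assoc, ← map_mul]
    simp
  rw [← hφ.sum_comp, Fintype.sum_prod_type]
  simp only [LinearMap.smul_apply, mul_smul_comm, smul_mul_assoc, ← Finset.smul_sum, e, sum_const,
    card_univ]
  rw [← Nat.cast_smul_eq_nsmul k, smul_smul, inv_mul_cancel₀ h1, one_smul]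

theorem am4 (a b c d e f g h i j l m n o p q a' b' c' d' e' f' g' h' i' j' l' m' n' o' p' q' : k) :
    !![a, b, c, d; e, f, g, h; i, j, l, m; n, o, p, q] +
    !![a', b', c', d'; e', f', g', h'; i', j', l', m'; n', o', p', q'] =
    !![a + a', b + b', c + c', d + d'; e + e', f + f', g + g', h + h';
      i + i', j + j', l + l', m + m'; n + n', o + o', p + p', q + q'] := by
  ext i j; fin_cases i <;> fin_cases j <;> rfl

/-- The projection in characteristic five. -/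
def θ5 : M4 k →ₗ[k] M4 k where
  toFun X := !![0, 2 * X 1 1, 0, 2 * X 0 3; X 0 2 + 2 * X 0 3 - X 1 0, -X 0 0, 0, X 0 2;
    -2 * X 1 2 - X 1 3, -2 * X 0 2 - X 0 3, 2 * X 2 2, 0;
    X 0 1, X 1 2 + 2 * X 1 3, X 2 3, -X 2 2 - 2 * X 3 1]
  map_add' X Y := by
    simp only [am4, em4, Matrix.add_apply]
    refine ⟨?_, ?_, ?_, ?_, ?_, ?_, ?_, ?_, ?_, ?_, ?_, ?_, ?_, ?_, ?_, ?_⟩ <;> first | trivial | ring
  map_smul' c X := by
    simp only [sm4, em4, Matrix.smul_apply, smul_eq_mul, RingHom.id_apply]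
    refine ⟨?_, ?_, ?_, ?_, ?_, ?_, ?_, ?_, ?_, ?_, ?_, ?_, ?_, ?_, ?_, ?_⟩ <;> first | trivial | ring

theorem θ5_ex (a b c d e f g h i j l m n o p q : k) :
    θ5 !![a, b, c, d; e, f, g, h; i, j, l, m; n, o, p, q] =
    !![0, 2 * f, 0, 2 * d; c + 2 * d - e, -a, 0, c;
      -2 * g - h, -2 * c - d, 2 * l, 0; b, g + 2 * h, m, -l - 2 * o] := rfl

/-- The projection in characteristic three. -/
def θ3 : M4 k →ₗ[k] M4 k where
  toFun X := !![X 0 0, X 0 1, X 0 2, X 0 3; 0, 0, 0, 0;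
    X 2 0 + X 2 3, -X 2 3, -X 0 0 - X 0 3 + X 1 3, 0;
    X 0 0 - X 1 0, X 0 1 - X 1 1, X 0 2 - X 1 2, X 0 3 - X 1 3]
  map_add' X Y := by
    simp only [am4, em4, Matrix.add_apply]
    refine ⟨?_, ?_, ?_, ?_, ?_, ?_, ?_, ?_, ?_, ?_, ?_, ?_, ?_, ?_, ?_, ?_⟩ <;> first | trivial | ring
  map_smul' c X := by
    simp only [sm4, em4, Matrix.smul_apply, smul_eq_mul, RingHom.id_apply]
    refine ⟨?_, ?_, ?_, ?_, ?_, ?_, ?_, ?_, ?_, ?_, ?_, ?_, ?_, ?_, ?_, ?_⟩ <;> first | trivial | ring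

theorem θ3_ex (a b c d e f g h i j l m n o p q : k) :
    θ3 !![a, b, c, d; e, f, g, h; i, j, l, m; n, o, p, q] =
    !![a, b, c, d; 0, 0, 0, 0; i + m, -m, -a - d + h, 0; a - e, b - f, c - g, d - h] := rfl

omit [Fintype P] in
theorem inv_pow_eq {u : P} {n : ℕ} (hu : orderOf u = n) {i j : ℕ} (e : i + j = n) :
    (u ^ i)⁻¹ = u ^ j := inv_eq_of_mul_eq_one_right (by rw [← pow_add, e, ← hu, pow_orderOf_eq_one])

theorem proj5 [CharP k 5] {u : P} (hu : orderOf u = 5) (h : ¬ 5 ^ 2 ∣ Nat.card P)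
    (e : ρ u = tp 1 0 0) : Proj ρ := by
  have h5 : (5 : k) = 0 := CharP.cast_eq_zero k 5
  have e2 : ρ (u ^ 2) = tp 2 1 0 := by rw [sq, map_mul, e, tp_mul]; congr 1 <;> ring
  have e3 : ρ (u ^ 3) = tp (-2) (-2) 1 := by rw [pow_succ, map_mul, e2, e, tp_mul]; congr 1 <;> grind
  have e4 : ρ (u ^ 4) = tp (-1) 1 (-1) := by rw [pow_succ, map_mul, e3, e, tp_mul]; congr 1 <;> grind
  refine proj_of 5 hu h θ5 fun X hX => ?_
  simp only [Finset.sum_range_succ, Finset.sum_range_zero, inv_pow_eq hu (i := 1) (j := 4) rfl,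
    inv_pow_eq hu (i := 2) (j := 3) rfl, inv_pow_eq hu (i := 3) (j := 2) rfl,
    inv_pow_eq hu (i := 4) (j := 1) rfl]
  simp only [pow_zero, inv_one, map_one, one_mul, mul_one, zero_add, pow_one, e, e2, e3, e4]
  obtain ⟨a, b, c, d, e, f, g, h, i, j, l, m, n, o, p, q, rfl⟩ := ex16 X
  obtain rfl : q = -a - f - l := by
    simp [trace, Fin.sum_univ_four] at hX; linear_combination hX
  simp only [tp, mul4, θ5_ex, am4, em4, mul_zero, zero_mul, add_zero, zero_add, mul_one, one_mul]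
  clear * - h5
  refine ⟨?_, ?_, ?_, ?_, ?_, ?_, ?_, ?_, ?_, ?_, ?_, ?_, ?_, ?_, ?_, ?_⟩ <;> grind

theorem proj3 [CharP k 3] {u : P} (hu : orderOf u = 3) (h : ¬ 3 ^ 2 ∣ Nat.card P)
    (e : ρ u = hz 1 0 1 0 0) : Proj ρ := by
  have h3 : (3 : k) = 0 := CharP.cast_eq_zero k 3
  have e2 : ρ (u ^ 2) = hz (-1) 0 (-1) 0 1 := by rw [sq, map_mul, e, hz_mul]; congr 1 <;> grind
  refine proj_of 3 hu h θ3 fun X hX => ?_
  simp only [Finset.sum_range_succ, Finset.sum_range_zero, inv_pow_eq hu (i := 1) (j := 2) rfl,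
    inv_pow_eq hu (i := 2) (j := 1) rfl]
  simp only [pow_zero, inv_one, map_one, one_mul, mul_one, zero_add, pow_one, e, e2]
  obtain ⟨a, b, c, d, e, f, g, h, i, j, l, m, n, o, p, q, rfl⟩ := ex16 X
  obtain rfl : q = -a - f - l := by
    simp [trace, Fin.sum_univ_four] at hX; linear_combination hX
  simp only [hz, mul4, θ3_ex, am4, em4, mul_zero, zero_mul, add_zero, zero_add, mul_one, one_mul]
  clear * - h3
  refine ⟨?_, ?_, ?_, ?_, ?_, ?_, ?_, ?_, ?_, ?_, ?_, ?_, ?_, ?_, ?_, ?_⟩ <;> grind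

end Proj

end Cfsg.Agent.L4.R
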