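import Cfsg.Agent.L4.R3

/-!
Type II: normal forms.
-/

set_option autoImplicit false
set_option linter.style.haveILetI false

namespace Cfsg.Agent.L4.R
open Finset Matrix Cfsg.Agent.L4.H
open Subgroup (normalizer)

variable {P k : Type*} [Group P] [Field k] {ρ : P →* M4 k} {U H : Subgroup P}

theorem tr_eq0 [Finite P]
    (ti : ∀ g : P, ∀ u ∈ U, u ≠ 1 → g * u * g⁻¹ ∈ U → g ∈ normalizer (U : Set P)) {f : P → k}
    (hf : ∀ g, ∀ u ∈ U, f (g * u) = f g) (hz : ∀ g, ∑ᶠ u : U, f (u * g) = 0)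
    (h0 : ∀ n ∈ normalizer (U : Set P), f n = 0) : tr U f = 0 := by
  classical
  let X := P ⧸ U
  letI := Fintype.ofFinite X
  letI := Fintype.ofFinite U
  letI := Fintype.ofFinite (Quotient (MulAction.orbitRel U X))
  unfold tr
  rw [finsum_eq_sum_of_fintype, ← Finset.sum_fiberwise univ (Quotient.mk (MulAction.orbitRel U X))]
  refine Finset.sum_eq_zero fun ω _ => ?_
  obtain ⟨x, rfl⟩ := Quotient.exists_rep ω
  have e : (univ.filter fun y => Quotient.mk (MulAction.orbitRel U X) y = Quotient.mk _ x) =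
      univ.image fun u : U => u • x := by
    ext y
    simp only [mem_filter, mem_univ, true_and, mem_image]
    exact ⟨fun h => Quotient.exact h, fun h => Quotient.sound h⟩
  rw [e]
  by_cases hx : x.out ∈ normalizer (U : Set P)
  · refine Finset.sum_eq_zero fun y hy => ?_
    obtain ⟨u, -, rfl⟩ := mem_image.1 hy
    exact (smul_out hf u.1 x).trans (h0 _ (mul_mem (Subgroup.le_normalizer u.2) hx))
  rw [Finset.sum_image]
  · have := hz x.out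
    rw [finsum_eq_sum_of_fintype] at this
    rw [← this]
    exact sum_congr rfl fun u _ => smul_out hf u.1 x
  · intro u _ v _ e1
    by_contra hne
    rw [← x.out_eq'] at e1
    have h1 : x.out⁻¹ * ((u : P)⁻¹ * v) * x.out⁻¹⁻¹ ∈ U := by
      simpa [mul_assoc] using (QuotientGroup.eq (s := U)).1 e1
    exact hx (by simpa using inv_mem (ti _ _ (mul_mem (inv_mem u.2) v.2)
      (fun e => hne (Subtype.ext (inv_mul_eq_one.1 e))) h1))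

theorem tr_const [Finite P] (N : Subgroup P) (c : k) : tr N (fun _ => c) = N.index * c := by
  letI := Fintype.ofFinite (P ⧸ N)
  simp [tr, finsum_eq_sum_of_fintype, Subgroup.index_eq_card]

theorem van {M ι : Type*} [AddCommGroup M] [Module k M] {σ : P → M → M}
    (h : ∀ X : Submodule k M, (∀ g, ∀ x ∈ X, σ g x ∈ X) → X = ⊥ ∨ X = ⊤) (Z : M → ι → k)
    (ha : ∀ φ φ' i, Z (φ + φ') i = Z φ i + Z φ' i) (hs : ∀ (c : k) φ i, Z (c • φ) i = c * Z φ i)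
    (hg : ∀ g φ i, ∃ j, Z (σ g φ) i = Z φ j) {s : M} (h0 : s ≠ 0) (hz : ∀ i, Z s i = 0)
    (φ : M) (i : ι) : Z φ i = 0 := by
  let X : Submodule k M :=
    { carrier := {φ | ∀ i, Z φ i = 0}
      add_mem' := fun {a b} h1 h2 i => by rw [ha, h1 i, h2 i, add_zero]
      zero_mem' := fun i => by simpa using ha 0 0 i
      smul_mem' := fun c a h1 i => by rw [hs, h1 i, mul_zero] }
  rcases h X (fun g x hx i => by obtain ⟨j, e⟩ := hg g x i; rw [e]; exact hx j) with e | e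
  · exact absurd ((Submodule.mem_bot k).1 (e ▸ (hz : s ∈ X))) h0
  · exact (e ▸ Submodule.mem_top : φ ∈ X) i

/-- A multiplicatively closed subset of a finite group. -/
def fsub [Finite P] (S : P → Prop) (h1 : S 1) (hm : ∀ a b, S a → S b → S (a * b)) : Subgroup P where
  carrier := {x | S x}
  one_mem' := h1
  mul_mem' := hm _ _
  inv_mem' := fun {x} hx => by
    have : ∀ n : ℕ, S (x ^ n) := fun n => by
      induction n with
      | zero => simpa using h1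
      | succ n ih => rw [pow_succ]; exact hm _ _ ih hx
    rw [inv_eq_of_mul_eq_one_right (a := x) (b := x ^ (orderOf x - 1))
      (by rw [← pow_succ', Nat.sub_add_cancel (orderOf_pos x), pow_orderOf_eq_one])]
    exact this _

theorem avg [Finite P] (hc : (Nat.card H : k) ≠ 0) (S : Submodule k (M4 k))
    (D : M4 k →ₗ[k] M4 k) (hm : ∀ A ∈ S, ∀ B ∈ S, A * B ∈ S)
    (hD : ∀ A ∈ S, ∀ B ∈ S, D (A * B) = D A * D B) (hS : ∀ A ∈ S, D A ∈ S)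
    (hDD : ∀ A, D (D A) = D A) (h1 : D 1 = 1) (hH : ∀ h ∈ H, ρ h ∈ S) :
    ∃ A ∈ S, D A = 1 ∧ ∀ h ∈ H, ρ h * A = A * D (ρ h) := by
  letI := Fintype.ofFinite H
  refine ⟨(Nat.card H : k)⁻¹ • ∑ h : H, ρ h * D (ρ (h : P)⁻¹), S.smul_mem _ (sum_mem fun h _ =>
    hm _ (hH _ h.2) _ (hS _ (hH _ (inv_mem h.2)))), ?_, fun h hh => ?_⟩
  · rw [map_smul, map_sum, Finset.sum_congr rfl (g := fun _ => 1), sum_const, card_univ,
      ← Nat.cast_smul_eq_nsmul k, smul_smul, ← Nat.card_eq_fintype_card, inv_mul_cancel₀ hc, one_smul]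
    intro h _
    rw [hD _ (hH _ h.2) _ (hS _ (hH _ (inv_mem h.2))), hDD, ← hD _ (hH _ h.2) _ (hH _ (inv_mem h.2)),
      ← map_mul, mul_inv_cancel, map_one, h1]
  · rw [mul_smul_comm, smul_mul_assoc, Finset.mul_sum, Finset.sum_mul,
      ← Equiv.sum_comp (Equiv.mulLeft (⟨h, hh⟩ : H)) fun x : H => ρ x * D (ρ (x : P)⁻¹) * D (ρ h)]
    congr 1
    refine sum_congr rfl fun x _ => ?_
    rw [mul_assoc (ρ _), ← hD _ (hH _ (inv_mem (SetLike.coe_mem _))) _ (hH _ hh), ← map_mul]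
    simp [mul_assoc]

variable (k) in
/-- The parabolic matrices. -/
def Pb : Submodule k (M4 k) where
  carrier := {A | A 1 0 = 0 ∧ A 2 0 = 0 ∧ A 3 0 = 0 ∧ A 3 1 = 0 ∧ A 3 2 = 0}
  add_mem' := fun ⟨a, b, c, d, e⟩ ⟨a', b', c', d', e'⟩ => by simp [*]
  zero_mem' := by simp
  smul_mem' := fun _ _ ⟨a, b, c, d, e⟩ => by simp [*]

theorem mem_Pb {A : M4 k} :
    A ∈ Pb k ↔ A 1 0 = 0 ∧ A 2 0 = 0 ∧ A 3 0 = 0 ∧ A 3 1 = 0 ∧ A 3 2 = 0 := Iff.rfl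

/-- The block diagonal part. -/
def Dm : M4 k →ₗ[k] M4 k where
  toFun A := bd (A 0 0) (A 1 1) (A 1 2) (A 2 1) (A 2 2) (A 3 3)
  map_add' A B := by simp [bd, am4]
  map_smul' c A := by simp [bd, sm4]

theorem Dm_apply (A : M4 k) : Dm A = bd (A 0 0) (A 1 1) (A 1 2) (A 2 1) (A 2 2) (A 3 3) := rfl

theorem Pb_mul {A B : M4 k} (hA : A ∈ Pb k) (hB : B ∈ Pb k) : A * B ∈ Pb k := by
  obtain ⟨a, b, c, d, e⟩ := hA
  obtain ⟨a', b', c', d', e'⟩ := hB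
  simp [mem_Pb, mul_apply, Fin.sum_univ_four, *]

theorem Dm_mul {A B : M4 k} (hA : A ∈ Pb k) (hB : B ∈ Pb k) : Dm (A * B) = Dm A * Dm B := by
  obtain ⟨a, b, c, d, e⟩ := hA
  obtain ⟨a', b', c', d', e'⟩ := hB
  simp [Dm_apply, bd, mul4, mul_apply, Fin.sum_univ_four, *]

theorem bd_mem (a b c d e f : k) : bd a b c d e f ∈ Pb k := ⟨rfl, rfl, rfl, rfl, rfl⟩

theorem hz_mem (a b c d e : k) : hz a b c d e ∈ Pb k := ⟨rfl, rfl, rfl, rfl, rfl⟩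

theorem Dm_one : Dm (1 : M4 k) = 1 := by rw [one4]; rfl

theorem Dm_hz (a b c d e : k) : Dm (hz a b c d e) = 1 := by rw [one4]; rfl

theorem eq_hz {A : M4 k} (h : A ∈ Pb k) (e : Dm A = 1) :
    A = hz (A 0 1) (A 0 2) (A 1 3) (A 2 3) (A 0 3) := by
  obtain ⟨a, b, c, d, f⟩ := h
  rw [Dm_apply, bd, one4, em4] at e
  simp [eq16, hz, *]

theorem hz_sq (a b c d e : k) : (hz a b c d e - 1) * (hz a b c d e - 1) = 0 ↔ a * c + b * d = 0 := by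
  simp [eq16, hz, mul_apply, Fin.sum_univ_four, one4]

theorem hz_inv (a b c d e : k) : hz a b c d e * hz (-a) (-b) (-c) (-d) (a * c + b * d - e) = 1 := by
  rw [hz_mul, one4, hz]; congr <;> ring

theorem hz_pow (a b c d e : k) (n : ℕ) :
    ∃ z, hz a b c d e ^ n = hz (n * a) (n * b) (n * c) (n * d) z := by
  induction n with
  | zero => exact ⟨0, by simp [hz, one4]⟩
  | succ n ih =>
    obtain ⟨z, ih⟩ := ih
    exact ⟨_, by rw [pow_succ, ih, hz_mul]; congr 1 <;> push_cast <;> ring⟩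

theorem pb_of_conj {A : M4 k} {a b c d e a' b' c' d' e' : k} (h : A * hz a b c d e = hz a' b' c' d' e' * A)
    (h1 : a * c + b * d ≠ 0) (h2 : a' * c' + b' * d' ≠ 0) : A ∈ Pb k := by
  obtain ⟨x1, x2, x3, x4, x5, x6, x7, x8, x9, y1, y2, y3, y4, y5, y6, y7, rfl⟩ := ex16 A
  simp only [hz, mul4, em4, mul_zero, zero_mul, add_zero, zero_add, mul_one, one_mul] at h
  refine ⟨mul_left_cancel₀ h1 (?_ : _ * x5 = _), mul_left_cancel₀ h1 (?_ : _ * x9 = _),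
    mul_left_cancel₀ h1 (?_ : _ * y4 = _), mul_left_cancel₀ h2 (?_ : _ * y5 = _),
    mul_left_cancel₀ h2 (?_ : _ * y6 = _)⟩ <;> grind

theorem cj_sq {B B' : M4 k} (hB : B * B' = 1) {g : P}
    (h : (cj hB ρ g - 1) * (cj hB ρ g - 1) = 0) : (ρ g - 1) * (ρ g - 1) = 0 := by
  have e : ρ g - 1 = B * (cj hB ρ g - 1) * B' := by
    rw [mul_sub, sub_mul, ← cj_back, mul_one, hB]
  rw [e, mul_assoc, mul_assoc, ← mul_assoc B', ← mul_assoc B', mul_eq_one_comm.1 hB, one_mul,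
    ← mul_assoc (_ - _), h, zero_mul, mul_zero]

/-- Type II before the complement is brought into block diagonal form. -/
structure T1 (p r : ℕ) (ρ : P →* M4 k) (U H : Subgroup P) : Prop where
  card : Nat.card U = p ^ r
  pos : 0 < r
  syl : ¬ p ∣ U.index
  comm : ∀ u ∈ U, ∀ v ∈ U, u * v = v * u
  exp : ∀ u ∈ U, u ^ p = 1
  ti : ∀ g : P, ∀ u ∈ U, u ≠ 1 → g * u * g⁻¹ ∈ U → g ∈ normalizer (U : Set P)
  shape : ∀ u ∈ U, ∃ f₁ f₂ v₁ v₂ z, ρ u = hz f₁ f₂ v₁ v₂ z ∧ (u ≠ 1 → f₁ * v₁ + f₂ * v₂ ≠ 0)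
  cop : ¬ p ∣ Nat.card H
  le : H ≤ normalizer (U : Set P)
  fac : ∀ n ∈ normalizer (U : Set P), ∃ u ∈ U, ∃ h ∈ H, n = u * h
  stab : ∀ g : P, ρ g ∈ Pb k → g ∈ normalizer (U : Set P)

variable {p r : ℕ}

theorem T2.t1 (t : T2 p r ρ U H) : T1 p r ρ U H :=
  { t with stab := fun g ⟨a, b, c, d, e⟩ => t.stab g a b c d e }

theorem T1.cj (t : T1 p r ρ U H) {B B' : M4 k} (hB : B * B' = 1) (h1 : B ∈ Pb k) (h2 : B' ∈ Pb k)
    (h3 : ∀ h ∈ H, Dm (cj hB ρ h) = cj hB ρ h) : T2 p r (cj hB ρ) U H :=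
  { t with
    shape := fun u hu => by
      obtain ⟨a, b, c, d, e, h4, h5⟩ := t.shape u hu
      have h6 : R.cj hB ρ u = _ := eq_hz (Pb_mul (Pb_mul h2 (h4 ▸ hz_mem ..)) h1) (by
        rw [cj_apply, h4, Dm_mul (Pb_mul h2 (hz_mem ..)) h1, Dm_mul h2 (hz_mem ..), Dm_hz, mul_one,
          ← Dm_mul h2 h1, mul_eq_one_comm.1 hB, Dm_one])
      refine ⟨_, _, _, _, _, h6, fun h7 h8 => h5 h7 ?_⟩
      rw [← hz_sq _ _ _ _ e, ← h4]
      exact cj_sq hB (by rw [h6, hz_sq]; exact h8)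
    blk := fun h hh => ⟨_, _, _, _, _, _, (h3 h hh).symm⟩
    stab := fun g a b c d e => t.stab g (cj_back (ρ := ρ) hB g ▸ Pb_mul (Pb_mul h1 ⟨a, b, c, d, e⟩) h2) }

theorem T2.pb (t : T2 p r ρ U H) {n : P} (hn : n ∈ normalizer (U : Set P)) : ρ n ∈ Pb k := by
  obtain ⟨u, hu, h, hh, rfl⟩ := t.fac n hn
  obtain ⟨a, b, c, d, e, h1, -⟩ := t.shape u hu
  obtain ⟨a', b', c', d', e', f', h2⟩ := t.blk h hh
  rw [map_mul, h1, h2]
  exact Pb_mul (hz_mem ..) (bd_mem ..)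

theorem bd_inv {a b c d : k} (h : a * d - b * c ≠ 0) : bd 1 a b c d 1 * bd 1 (d / (a * d - b * c))
    (-b / (a * d - b * c)) (-c / (a * d - b * c)) (a / (a * d - b * c)) 1 = 1 := by
  have := mul_inv_cancel₀ h
  simp only [bd, mul4, one4, em4, div_eq_mul_inv]
  generalize (a * d - b * c)⁻¹ = x at this
  refine ⟨?_, ?_, ?_, ?_, ?_, ?_, ?_, ?_, ?_, ?_, ?_, ?_, ?_, ?_, ?_, ?_⟩ <;>
    first | ring1 | linear_combination this

theorem T2.cjbd (t : T2 p r ρ U H) {a b c d : k} (h : a * d - b * c ≠ 0) :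
    T2 p r (cj (bd_inv h) ρ) U H ∧ ∀ u ∈ U,
      cj (bd_inv h) ρ u 0 1 = ρ u 0 1 * a + ρ u 0 2 * c ∧
      cj (bd_inv h) ρ u 0 2 = ρ u 0 1 * b + ρ u 0 2 * d ∧
      ρ u 1 3 = a * cj (bd_inv h) ρ u 1 3 + b * cj (bd_inv h) ρ u 2 3 ∧
      ρ u 2 3 = c * cj (bd_inv h) ρ u 1 3 + d * cj (bd_inv h) ρ u 2 3 := by
  have t' := t.t1.cj (bd_inv h) (bd_mem ..) (bd_mem ..) fun x hx => by
    obtain ⟨a', b', c', d', e', f', h2⟩ := t.blk x hx
    rw [cj_apply, h2, Dm_mul (Pb_mul (bd_mem ..) (bd_mem ..)) (bd_mem ..),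
      Dm_mul (bd_mem ..) (bd_mem ..)]
    rfl
  refine ⟨t', fun u hu => ?_⟩
  obtain ⟨f1, f2, v1, v2, z, h1, -⟩ := t.shape u hu
  obtain ⟨g1, g2, w1, w2, y, h2, -⟩ := t'.shape u hu
  have e : ρ u * bd 1 a b c d 1 = bd 1 a b c d 1 * cj (bd_inv h) ρ u := by
    rw [cj_apply, ← mul_assoc, ← mul_assoc, bd_inv h, one_mul]
  rw [h1, h2] at e ⊢
  simp only [hz, bd, mul4, em4, mul_zero, zero_mul, add_zero, zero_add, mul_one, one_mul] at e
  exact ⟨e.2.1.symm, e.2.2.1.symm, e.2.2.2.2.2.2.2.1, e.2.2.2.2.2.2.2.2.2.2.2.1⟩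

theorem Jm_sq : (!![0, 0, 0, 1; 0, 0, 1, 0; 0, 1, 0, 0; 1, 0, 0, 0] : M4 k) *
    !![0, 0, 0, 1; 0, 0, 1, 0; 0, 1, 0, 0; 1, 0, 0, 0] = 1 := by simp [mul4, one4]

/-- The dual representation in the reversed dual basis. -/
def du (ρ : P →* M4 k) : P →* M4 k := cj Jm_sq (dl ρ)

theorem du_eq (g : P) : du ρ g = !![ρ g⁻¹ 3 3, ρ g⁻¹ 2 3, ρ g⁻¹ 1 3, ρ g⁻¹ 0 3;
    ρ g⁻¹ 3 2, ρ g⁻¹ 2 2, ρ g⁻¹ 1 2, ρ g⁻¹ 0 2; ρ g⁻¹ 3 1, ρ g⁻¹ 2 1, ρ g⁻¹ 1 1, ρ g⁻¹ 0 1;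
    ρ g⁻¹ 3 0, ρ g⁻¹ 2 0, ρ g⁻¹ 1 0, ρ g⁻¹ 0 0] := by
  rw [du, cj_apply, dl_apply]
  obtain ⟨x1, x2, x3, x4, x5, x6, x7, x8, x9, y1, y2, y3, y4, y5, y6, y7, e⟩ := ex16 (ρ g⁻¹)
  simp [e, tm4, mul4]

theorem T2.du (t : T2 p r ρ U H) : T2 p r (du ρ) U H := by
  refine ⟨t.card, t.pos, t.syl, t.comm, t.exp, t.ti, fun u hu => ?_, t.cop, t.le, t.fac,
    fun h hh => ?_, fun g a b c d e => ?_⟩
  · obtain ⟨a, b, c, d, e, h4, h5⟩ := t.shape u⁻¹ (inv_mem hu)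
    refine ⟨d, c, b, a, e, ?_, fun h h' => h5 (inv_ne_one.2 h) (by linear_combination h')⟩
    simp [du_eq, h4, hz]
  · obtain ⟨a, b, c, d, e, f, h4⟩ := t.blk h⁻¹ (inv_mem hh)
    exact ⟨f, e, c, d, b, a, by simp [du_eq, h4, bd]⟩
  · rw [du_eq] at a b c d e
    simpa using inv_mem (t.stab g⁻¹ (by simpa using e) (by simpa using d) (by simpa using c)
      (by simpa using b) (by simpa using a))

theorem quad [IsAlgClosed k] (h2 : (2 : k) ≠ 0) (s t w : k) : ∃ a b c d : k, a * d - b * c ≠ 0 ∧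
    ((s * a + t * c = 0 ∧ t * a + w * c = 0) ∨ (s * a * a + 2 * t * a * c + w * c * c = 0 ∧
      s * b * b + 2 * t * b * d + w * d * d = 0 ∧ s * a * b + t * (a * d + b * c) + w * c * d = 1)) := by
  by_cases hs : s = 0
  · by_cases ht : t = 0
    · exact ⟨1, 0, 0, 1, by simp, .inl (by simp [hs, ht])⟩
    · refine ⟨1, -w / (2 * t * t), 0, 1 / t, by simpa using ht, .inr ⟨by simp [hs], ?_, ?_⟩⟩ <;>
        rw [hs] <;> field_simp <;> ring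
  obtain ⟨δ, hδ⟩ := IsAlgClosed.exists_eq_mul_self (t * t - s * w)
  by_cases h : δ = 0
  · exact ⟨-t, 1, s, 0, by simpa using hs, .inl ⟨by ring, by rw [h] at hδ; linear_combination -hδ⟩⟩
  · refine ⟨δ - t, (δ + t) / (2 * s * δ * δ), s, -s / (2 * s * δ * δ), ?_, .inr ⟨?_, ?_, ?_⟩⟩
    · rw [show _ - _ = -δ⁻¹ by field_simp; ring]; simpa using h
    · linear_combination -s * hδ
    · field_simp; linear_combination -hδ
    · field_simp; linear_combination hδ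

/-- The second components are not proportional. -/
def Np (ρ : P →* M4 k) (U : Subgroup P) : Prop :=
  ∃ u ∈ U, ∃ u' ∈ U, ρ u 1 3 * ρ u' 2 3 ≠ ρ u' 1 3 * ρ u 2 3

theorem T2.iso (t : T2 p r ρ U H) {u v : P} (hu : u ∈ U) (hv : v ∈ U) :
    ρ u 0 1 * ρ v 1 3 + ρ u 0 2 * ρ v 2 3 = ρ v 0 1 * ρ u 1 3 + ρ v 0 2 * ρ u 2 3 := by
  obtain ⟨a, b, c, d, e, h1, -⟩ := t.shape u hu
  obtain ⟨a', b', c', d', e', h2, -⟩ := t.shape v hv
  have := congrArg (fun g => ρ g 0 3) (t.comm u hu v hv)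
  simp only [map_mul, h1, h2, hz_mul] at this ⊢
  simp [hz] at this ⊢
  linear_combination this

theorem Np.cj (t : T2 p r ρ U H) (h : Np ρ U) {a b c d : k} (hd : a * d - b * c ≠ 0) :
    Np (cj (bd_inv hd) ρ) U := by
  obtain ⟨u, hu, v, hv, h⟩ := h
  refine ⟨u, hu, v, hv, fun e => h ?_⟩
  obtain ⟨-, -, e1, e2⟩ := (t.cjbd hd).2 u hu
  obtain ⟨-, -, e3, e4⟩ := (t.cjbd hd).2 v hv
  rw [e1, e2, e3, e4]
  linear_combination (a * d - b * c) * e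

theorem T2.diag [Finite P] [Fact p.Prime] [CharP k p] (t : T2 p r ρ U H) (h1 : ∀ u ∈ U, ρ u 0 1 = 0) :
    ∃ (s : k) (hd : 1 * 1 - s * 0 ≠ 0),
      ∀ h ∈ H, cj (bd_inv hd) ρ h 1 2 = 0 ∧ cj (bd_inv hd) ρ h 2 1 = 0 := by
  let S : Submodule k (M4 k) :=
    { carrier := {A | Dm A = A ∧ A 2 1 = 0}
      add_mem' := fun ⟨a, b⟩ ⟨a', b'⟩ => by simp [*]
      zero_mem' := by simp
      smul_mem' := fun _ _ ⟨a, b⟩ => by simp [*] }
  have hS : ∀ A ∈ S, ∃ a b c d e, A = bd a b c 0 d e := fun A ⟨a, b⟩ =>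
    ⟨A 0 0, A 1 1, A 1 2, A 2 2, A 3 3, a.symm.trans (by rw [Dm_apply, b])⟩
  let D : M4 k →ₗ[k] M4 k :=
    { toFun := fun A => bd (A 0 0) (A 1 1) 0 0 (A 2 2) (A 3 3)
      map_add' := fun A B => by simp [bd, am4]
      map_smul' := fun c A => by simp [bd, sm4] }
  obtain ⟨A, hA, e1, e2⟩ := avg (ρ := ρ) (H := H)
    (fun e => t.cop ((CharP.cast_eq_zero_iff k p _).1 e)) S D
    (fun A hA B hB => by
      obtain ⟨a, b, c, d, e, rfl⟩ := hS A hA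
      obtain ⟨a', b', c', d', e', rfl⟩ := hS B hB
      exact ⟨Dm_mul (bd_mem ..) (bd_mem ..), by simp [bd, mul4]⟩)
    (fun A hA B hB => by
      obtain ⟨a, b, c, d, e, rfl⟩ := hS A hA
      obtain ⟨a', b', c', d', e', rfl⟩ := hS B hB
      simp [D, bd, mul4])
    (fun A _ => ⟨rfl, rfl⟩) (fun A => rfl) (by rw [one4]; rfl) fun h hh => by
      obtain ⟨a, b, c, d, e, f, h2⟩ := t.blk h hh
      obtain ⟨u, hu, h3⟩ := t.exists_ne
      have hu' := (t.le hh u).1 hu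
      obtain ⟨f1, f2, v1, v2, z, h4, -⟩ := t.shape u hu
      obtain ⟨g1, g2, w1, w2, y, h5, h6⟩ := t.shape _ hu'
      have e1 := h1 u hu
      have e2 := h1 _ hu'
      have e3 : ρ h * ρ u = ρ (h * u * h⁻¹) * ρ h := by rw [← map_mul, ← map_mul]; simp
      rw [h4] at e1
      rw [h5] at e2
      obtain rfl : f1 = 0 := e1
      obtain rfl : g1 = 0 := e2
      have e4 := congrFun (congrFun e3 0) 1
      simp [h2, h4, h5, bd, hz, mul4] at e4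
      refine ⟨by rw [h2]; rfl, by
        rw [h2]; exact e4.resolve_left fun e => h6 (by simpa using h3) (by simp [e])⟩
  obtain ⟨a, b, c, d, e, rfl⟩ := hS A hA
  simp only [D, LinearMap.coe_mk, AddHom.coe_mk, one4] at e1
  obtain rfl : a = 1 := congrFun (congrFun e1 0) 0
  obtain rfl : b = 1 := congrFun (congrFun e1 1) 1
  obtain rfl : d = 1 := congrFun (congrFun e1 2) 2
  obtain rfl : e = 1 := congrFun (congrFun e1 3) 3
  refine ⟨c, by simp, fun h hh => ?_⟩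
  rw [cj_of _ (e2 h hh)]
  exact ⟨rfl, rfl⟩

theorem T2.norm [Finite P] [IsAlgClosed k] [Fact p.Prime] [CharP k p] (t : T2 p r ρ U H)
    (h : Np ρ U) : ∃ (B B' : M4 k) (hB : B * B' = 1) (C C' : M4 k) (hC : C * C' = 1),
      T2 p r (cj hC (cj hB ρ)) U H ∧ Np (cj hC (cj hB ρ)) U ∧
      (((∀ u ∈ U, cj hC (cj hB ρ) u 0 1 = 0) ∧
        ∀ h ∈ H, cj hC (cj hB ρ) h 1 2 = 0 ∧ cj hC (cj hB ρ) h 2 1 = 0) ∨
      ∀ u ∈ U, cj hC (cj hB ρ) u 0 1 = cj hC (cj hB ρ) u 2 3 ∧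
        cj hC (cj hB ρ) u 0 2 = cj hC (cj hB ρ) u 1 3) := by
  obtain ⟨s, τ, w, hs⟩ : ∃ s τ w : k, ∀ x ∈ U,
      ρ x 0 1 = s * ρ x 1 3 + τ * ρ x 2 3 ∧ ρ x 0 2 = τ * ρ x 1 3 + w * ρ x 2 3 := by
    obtain ⟨u, hu, v, hv, h⟩ := h
    rw [← sub_ne_zero] at h
    refine ⟨(ρ u 0 1 * ρ v 2 3 - ρ v 0 1 * ρ u 2 3) / (ρ u 1 3 * ρ v 2 3 - ρ v 1 3 * ρ u 2 3),
      (ρ v 0 1 * ρ u 1 3 - ρ u 0 1 * ρ v 1 3) / (ρ u 1 3 * ρ v 2 3 - ρ v 1 3 * ρ u 2 3),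
      (ρ v 0 2 * ρ u 1 3 - ρ u 0 2 * ρ v 1 3) / (ρ u 1 3 * ρ v 2 3 - ρ v 1 3 * ρ u 2 3),
      fun x hx => ?_⟩
    have e1 := t.iso hu hv
    have e2 := t.iso hx hu
    have e3 := t.iso hx hv
    constructor <;> rw [div_mul_eq_mul_div, div_mul_eq_mul_div, ← add_div, eq_div_iff h]
    · linear_combination ρ v 2 3 * e2 - ρ u 2 3 * e3 + ρ x 2 3 * e1
    · linear_combination ρ u 1 3 * e3 - ρ v 1 3 * e2
  obtain ⟨a, b, c, d, hd, h1⟩ := quad t.two_ne s τ w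
  obtain ⟨t', h2⟩ := t.cjbd hd
  rcases h1 with ⟨e1, e2⟩ | ⟨e1, e2, e3⟩
  · have h3 : ∀ u ∈ U, cj (bd_inv hd) ρ u 0 1 = 0 := fun u hu => by
      rw [(h2 u hu).1, (hs u hu).1, (hs u hu).2]
      linear_combination ρ u 1 3 * e1 + ρ u 2 3 * e2
    obtain ⟨x, hx, h4⟩ := t'.diag h3
    refine ⟨_, _, bd_inv hd, _, _, bd_inv hx, (t'.cjbd hx).1, (h.cj t hd).cj t' hx,
      .inl ⟨fun u hu => ?_, h4⟩⟩
    rw [((t'.cjbd hx).2 u hu).1, h3 u hu]; ring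
  · have e : cj (mul_one (1 : M4 k)) (cj (bd_inv hd) ρ) = cj (bd_inv hd) ρ := by
      ext1 g; rw [cj_apply, mul_one, one_mul]
    refine ⟨_, _, bd_inv hd, _, _, mul_one 1, ?_⟩
    rw [e]
    refine ⟨t', h.cj t hd, .inr fun u hu => ?_⟩
    obtain ⟨f1, f2, f3, f4⟩ := h2 u hu
    rw [f1, f2, (hs u hu).1, (hs u hu).2, f3, f4]
    constructor
    · linear_combination cj (bd_inv hd) ρ u 1 3 * e1 + cj (bd_inv hd) ρ u 2 3 * e3
    · linear_combination cj (bd_inv hd) ρ u 1 3 * e3 + cj (bd_inv hd) ρ u 2 3 * e2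

end Cfsg.Agent.L4.R
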