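import Cfsg.Agent.L4.R4

/-!
Type II: existence of the normal form, and the case of a one-dimensional span.
-/

set_option autoImplicit false
set_option linter.style.haveILetI false

namespace Cfsg.Agent.L4.R
open Finset Matrix Cfsg.Agent.L4.H
open Subgroup (normalizer)

variable {P k : Type*} [Group P] [Field k] {ρ : P →* M4 k} {p r : ℕ}

theorem exH [Finite P] [Fact p.Prime] (U : Sylow p P) : ∃ H : Subgroup P, ¬ p ∣ Nat.card H ∧
    H ≤ normalizer (U : Set P) ∧ ∀ n ∈ normalizer (U : Set P), ∃ u ∈ U, ∃ h ∈ H, n = u * h := by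
  have h2 : ¬ p ∣ ((U : Subgroup P).subgroupOf (normalizer (U : Set P))).index := fun e =>
    U.not_dvd_index (e.trans (Subgroup.relIndex_dvd_index_of_le Subgroup.le_normalizer))
  obtain ⟨k, hk⟩ := (U.2.comap_of_injective (normalizer (U : Set P)).subtype
    Subtype.coe_injective).exists_card_eq
  haveI : ((U : Subgroup P).subgroupOf (normalizer (U : Set P))).Normal :=
    Subgroup.normal_in_normalizer
  obtain ⟨H, hH⟩ := Subgroup.exists_right_complement'_of_coprime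
    (N := (U : Subgroup P).subgroupOf (normalizer (U : Set P))) (by
      rw [show Nat.card ((U : Subgroup P).subgroupOf _) = p ^ k from hk]
      exact ((Nat.Prime.coprime_iff_not_dvd Fact.out).2 h2).pow_left k)
  refine ⟨H.map (Subgroup.subtype _), by rwa [Subgroup.card_subtype, ← hH.symm.index_eq_card],
    Subgroup.map_subtype_le H, fun n hn => ?_⟩
  obtain ⟨⟨a, b⟩, e⟩ := hH.2 ⟨n, hn⟩
  exact ⟨a, a.2, b, ⟨b, b.2, rfl⟩, (congrArg Subtype.val e).symm⟩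

theorem one00 [Fact p.Prime] [CharP k p] {A : M4 k} (hA : A ∈ Pb k) {n : ℕ} (h : A ^ p ^ n = 1) :
    A 0 0 = 1 := by
  have h1 : ∀ m : ℕ, A ^ m ∈ Pb k ∧ (A ^ m) 0 0 = A 0 0 ^ m := fun m => by
    induction m with
    | zero => exact ⟨by rw [pow_zero, one4]; exact bd_mem 1 1 0 0 1 1, by simp⟩
    | succ m ih =>
      refine ⟨pow_succ A m ▸ Pb_mul ih.1 hA, ?_⟩
      obtain ⟨a, b, c, -⟩ := hA
      simp [pow_succ, mul_apply, Fin.sum_univ_four, ih.2, a, b, c]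
  have h2 := (h1 (p ^ n)).2
  rw [h, one_apply_eq, eq_comm, ← sub_eq_zero, ← one_pow (p ^ n), ← sub_pow_char_pow] at h2
  exact sub_eq_zero.1 (pow_eq_zero_iff (pow_ne_zero n (Fact.out : p.Prime).ne_zero) |>.1 h2)

theorem pg_of_exp {Q : Subgroup P} (h : ∀ x ∈ Q, x ^ p = 1) : IsPGroup p Q := fun x =>
  ⟨1, Subtype.ext (by simpa using h x x.2)⟩

theorem syl_card [Finite P] [hp : Fact p.Prime] (U : Sylow p P) {z : P} (hz : z ∈ U) (h1 : z ≠ 1) :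
    ∃ r, 0 < r ∧ Nat.card U = p ^ r := by
  obtain ⟨r, e⟩ := U.2.exists_card_eq
  refine ⟨r, Nat.pos_of_ne_zero fun h => h1 ?_, e⟩
  rw [h, pow_zero, Subgroup.card_eq_one] at e
  exact Subgroup.mem_bot.1 (e ▸ hz)

theorem exT2 [Finite P] [hp : Fact p.Prime] [CharP k p] (hd : ∀ g, (ρ g).det = 1)
    (nt : ∀ g, (ρ g - 1) * (ρ g - 1) = 0 → g = 1) (U : Sylow p P) {z : P} (hz : z ∈ U)
    (hc : ∀ u ∈ U, u * z = z * u) (e : ρ z = R.hz 1 0 1 0 0) :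
    ∃ (r : ℕ) (H : Subgroup P) (B B' : M4 k) (hB : B * B' = 1), T2 p r (cj hB ρ) U H := by
  let Q : Subgroup P := fsub (fun x => ρ x ∈ Pb k ∧ Dm (ρ x) = 1)
    (by rw [map_one, Dm_one, one4]; exact ⟨bd_mem 1 1 0 0 1 1, rfl⟩) fun a b ha hb => by
      rw [map_mul, Dm_mul ha.1 hb.1, ha.2, hb.2, mul_one]; exact ⟨Pb_mul ha.1 hb.1, rfl⟩
  let S : Subgroup P := fsub (fun x => ρ x ∈ Pb k)
    (by rw [map_one, one4]; exact bd_mem 1 1 0 0 1 1) fun a b ha hb => by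
      rw [map_mul]; exact Pb_mul ha hb
  have h1 : (U : Subgroup P) ≤ Q := fun u hu => by
    obtain ⟨n, hn⟩ := U.2 ⟨u, hu⟩
    have e1 : ρ u ^ p ^ n = 1 := by
      rw [← map_pow, show u ^ p ^ n = 1 from congrArg Subtype.val hn, map_one]
    have e2 := congrArg ρ (hc u hu)
    have e3 := hd u
    have e4 : ρ u ∈ Pb k := pb_of_conj (by simpa only [map_mul, e] using e2) (by simp) (by simp)
    have e5 := one00 e4 e1
    refine ⟨e4, ?_⟩
    rw [map_mul, map_mul, e] at e2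
    obtain ⟨x1, x2, x3, x4, x5, x6, x7, x8, x9, y1, y2, y3, y4, y5, y6, y7, e6⟩ := ex16 (ρ u)
    rw [e6] at e2 e3 e4 e5 ⊢
    obtain ⟨rfl, rfl, rfl, rfl, rfl⟩ : x5 = 0 ∧ x9 = 0 ∧ y4 = 0 ∧ y5 = 0 ∧ y6 = 0 := e4
    obtain rfl : x1 = 1 := e5
    simp only [R.hz, mul4, em4, dm4, mul_zero, zero_mul, add_zero, zero_add, mul_one, one_mul] at e2 e3
    rw [one4]
    change bd 1 x6 x7 y1 y2 y7 = bd 1 1 0 0 1 1
    congr 1 <;> grind
  have h2 : ∀ x ∈ Q, x ^ p = 1 := fun x hx => nt _ (by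
    obtain ⟨w, hw⟩ := hz_pow (ρ x 0 1) (ρ x 0 2) (ρ x 1 3) (ρ x 2 3) (ρ x 0 3) p
    rw [map_pow, eq_hz hx.1 hx.2, hw, hz_sq]
    simp)
  have h3 : Q = U := U.3 (pg_of_exp h2) h1
  have h4 : ∀ u ∈ (U : Subgroup P), ∃ f₁ f₂ v₁ v₂ z, ρ u = R.hz f₁ f₂ v₁ v₂ z ∧
      (u ≠ 1 → f₁ * v₁ + f₂ * v₂ ≠ 0) := fun u hu =>
    ⟨_, _, _, _, _, eq_hz (h1 hu).1 (h1 hu).2, fun h h' => h (nt u (by
      rw [eq_hz (h1 hu).1 (h1 hu).2, hz_sq]; exact h'))⟩
  have h5 : ∀ g, ρ g ∈ Pb k → g ∈ normalizer ((U : Subgroup P) : Set P) := fun g hg => by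
    refine Subgroup.mem_normalizer_fintype fun u hu => ?_
    have hg' : ρ g⁻¹ ∈ Pb k := S.inv_mem (x := g) hg
    have hu' := h1 hu
    rw [← h3]
    refine ⟨S.mul_mem (S.mul_mem hg hu'.1) hg', ?_⟩
    rw [map_mul ρ, map_mul ρ, Dm_mul (Pb_mul hg hu'.1) hg', Dm_mul hg hu'.1, hu'.2, mul_one,
      ← Dm_mul hg hg', ← map_mul, mul_inv_cancel, map_one, Dm_one]
  have h6 : ∀ g : P, ∀ u ∈ (U : Subgroup P), u ≠ 1 → g * u * g⁻¹ ∈ (U : Subgroup P) →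
      ρ g ∈ Pb k := fun g u hu h hu' => by
    obtain ⟨a, b, c, d, f, e1, e2⟩ := h4 u hu
    obtain ⟨a', b', c', d', f', e3, e4⟩ := h4 _ hu'
    exact pb_of_conj (by rw [← e1, ← e3, ← map_mul, ← map_mul, inv_mul_cancel_right]) (e2 h)
      (e4 (by simpa using h))
  have hz1 : z ≠ 1 := fun h => by
    have := congrFun (congrFun e 0) 1
    simp [h, R.hz] at this
  obtain ⟨r, hr, hcard⟩ := syl_card U hz hz1
  obtain ⟨H, k1, k2, k3⟩ := exH U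
  have t : T1 p r ρ U H := ⟨hcard, hr, U.not_dvd_index, fun u hu v hv => by
      obtain ⟨a, b, c, d, f, e1, -⟩ := h4 u hu
      obtain ⟨a', b', c', d', f', e2, -⟩ := h4 v hv
      obtain ⟨a2, b2, c2, d2, f2, e3, -⟩ := h4 _ (mul_mem (mul_mem hu hv) (inv_mem (mul_mem hv hu)))
      refine mul_inv_eq_one.1 (nt _ ?_)
      have e4 : ρ (u * v * (v * u)⁻¹) * (ρ v * ρ u) = ρ u * ρ v := by
        rw [← map_mul, ← map_mul, ← map_mul, inv_mul_cancel_right]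
      rw [e3, hz_sq]
      simp only [e1, e2, e3, hz_mul] at e4
      simp only [R.hz, em4] at e4
      grind,
    fun u hu => h2 u (h1 hu), fun g u hu h hu' => h5 g (h6 g u hu h hu'), h4, k1, k2, k3, h5⟩
  obtain ⟨A, hA, e1, e2⟩ := avg (ρ := ρ) (H := H) (fun e => k1 ((CharP.cast_eq_zero_iff k p _).1 e))
    (Pb k) Dm (fun _ h _ h' => Pb_mul h h') (fun _ h _ h' => Dm_mul h h') (fun _ _ => bd_mem ..)
    (fun _ => rfl) Dm_one fun h hh => h6 h z hz hz1 ((k2 hh z).1 hz)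
  rw [eq_hz hA e1] at e2
  exact ⟨r, H, _, _, hz_inv .., t.cj _ (hz_mem ..) (hz_mem ..) fun h hh => by
    rw [cj_of _ (e2 h hh)]; rfl⟩

theorem idx_ne [CharP k p] {U : Subgroup P} (h : ¬ p ∣ U.index) : (U.index : k) ≠ 0 :=
  fun e => h ((CharP.cast_eq_zero_iff k p _).1 e)

theorem T2.small [Finite P] [hp : Fact p.Prime] [CharP k p] {U H : Subgroup P} (h : Hy ρ)
    (t : T2 p r ρ U H) (hv : ¬ Np ρ U)
    (hf : ∀ u ∈ U, ∀ u' ∈ U, ρ u 0 1 * ρ u' 0 2 = ρ u' 0 1 * ρ u 0 2) : r * (p - 1) ≤ 2 := by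
  by_contra hD
  obtain ⟨u₀, hu, h1⟩ := t.exists_ne
  obtain ⟨f₁, f₂, v₁, v₂, z, e, h2⟩ := t.shape u₀ hu
  let w : Fin 4 → k := ![0, f₂, -f₁, 0]
  let φ : Fin 4 → k := ![0, v₂, -v₁, 0]
  have hw : ∀ u ∈ U, ρ u *ᵥ w = w := fun u hu' => by
    have := hf u hu' u₀ hu
    obtain ⟨a, b, c, d, x, e1, -⟩ := t.shape u hu'
    rw [e1, e] at this
    simp only [e1, hz_mulVec, w]
    simp [hz] at this ⊢
    linear_combination this
  have hφ : ∀ u ∈ U, ∀ y, φ ⬝ᵥ ρ u *ᵥ y = φ ⬝ᵥ y := fun u hu' y => by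
    have : ρ u 1 3 * ρ u₀ 2 3 = ρ u₀ 1 3 * ρ u 2 3 := by_contra fun e => hv ⟨u, hu', u₀, hu, e⟩
    obtain ⟨a, b, c, d, x, e1, -⟩ := t.shape u hu'
    rw [e1, e] at this
    simp only [e1, hz_mulVec, φ]
    simp [hz, dotProduct, Fin.sum_univ_four] at this ⊢
    linear_combination y 3 * this
  let F : (Fin 4 → k) → (Fin 4 → k) → P → k := fun y ψ g => (φ ⬝ᵥ ρ g⁻¹ *ᵥ y) * (ψ ⬝ᵥ ρ g *ᵥ w)
  have hF : ∀ y ψ g, ∀ u ∈ U, F y ψ (g * u) = F y ψ g := fun y ψ g u hu' => by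
    simp only [F, _root_.mul_inv_rev, map_mul, ← mulVec_mulVec, hw u hu', hφ _ (inv_mem hu')]
  have hZ : ∀ y ψ, tr U (F y ψ) = 0 := by
    refine van (σ := fun g x => ρ g *ᵥ x) h.irrV (fun y ψ => tr U (F y ψ)) (fun y y' ψ => ?_)
      (fun c y ψ => ?_) (fun g y ψ => ⟨ψ ᵥ* ρ g, ?_⟩) (s := ![1, 0, 0, 0]) (by simp) fun ψ => ?_
    · rw [← tr_add]; congr 1; funext g; simp only [F, mulVec_add, dotProduct_add, add_mul]
    · rw [← tr_mul]; congr 1; funext g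
      simp only [F, mulVec_smul, dotProduct_smul, smul_eq_mul, mul_assoc]
    · rw [← tr_left (hF _ _) g]; congr 1; funext x
      simp only [F, _root_.mul_inv_rev, mulVec_mulVec, ← map_mul, inv_mul_cancel_right,
        ← dotProduct_mulVec]
    · have d1 : Dg U (0 + 1) fun g => φ ⬝ᵥ ρ g⁻¹ *ᵥ ![1, 0, 0, 0] := fun u hu' g => by
        obtain ⟨a, b, c, d, x, e1, -⟩ := t.shape u⁻¹ (inv_mem hu')
        simp only [_root_.mul_inv_rev, map_mul, ← mulVec_mulVec, e1, hz_mulVec]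
        simp
      have d2 : Dg U (2 + 1) fun g => ψ ⬝ᵥ ρ g *ᵥ w := Dg.sum _ _ fun i _ => (t.dgV w i).cmul _
      refine tr_eq0 t.ti (hF _ _) ((d1.mul d2).sum_zero p t.exp t.card (by omega)) fun n hn => ?_
      obtain ⟨a, b, -⟩ := t.pb (inv_mem hn)
      simp [F, φ, mulVec, dotProduct, Fin.sum_univ_four, a, b]
  have e1 : tr U (fun _ => φ ⬝ᵥ w) = 0 := by
    have := tr_add U (fun g => F ![1, 0, 0, 0] ![1, 0, 0, 0] g + F ![0, 1, 0, 0] ![0, 1, 0, 0] g)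
      fun g => F ![0, 0, 1, 0] ![0, 0, 1, 0] g + F ![0, 0, 0, 1] ![0, 0, 0, 1] g
    rw [tr_add U (F _ _), tr_add U (F _ _), hZ, hZ, hZ, hZ] at this
    simp only [add_zero] at this
    rw [← this]
    congr 1; funext g
    have e2 : φ ⬝ᵥ w = (φ ᵥ* ρ g⁻¹) ⬝ᵥ (ρ g *ᵥ w) := by
      rw [← dotProduct_mulVec, mulVec_mulVec, ← map_mul, inv_mul_cancel, map_one, one_mulVec]
    simp only [e2, F, dotProduct_mulVec φ]
    generalize φ ᵥ* ρ g⁻¹ = x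
    generalize ρ g *ᵥ w = y
    simp [dotProduct, Fin.sum_univ_four, add_assoc]
  rw [tr_const] at e1
  refine h2 h1 ?_
  have := (mul_eq_zero.1 e1).resolve_left (idx_ne t.syl)
  simp [φ, w] at this
  linear_combination this

end Cfsg.Agent.L4.R
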