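import Cfsg.Agent.L4.R5
import Cfsg.Agent.L4.Rb3

/-!
Type I: the Sylow subgroup consists of regular unipotent elements.
-/

set_option autoImplicit false
set_option linter.style.haveILetI false

namespace Cfsg.Agent.L4.R
open Finset Matrix Cfsg.Agent.L4.H Cfsg.Agent.H1.Spin6
open Subgroup (normalizer)

variable {P k : Type*} [Group P] [Field k] {ρ : P →* M4 k} {p r : ℕ} {U : Subgroup P}

theorem tp_poly (a b c x y z : k) : 1 + x • (tp a b c - 1) + y • ((tp a b c - 1) * (tp a b c - 1)) +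
    z • ((tp a b c - 1) * ((tp a b c - 1) * (tp a b c - 1))) =
    tp (x * a) (x * b + y * a ^ 2) (x * c + 2 * y * a * b + z * a ^ 3) := by
  have e : tp a b c - 1 = !![0, a, b, c; 0, 0, a, b; 0, 0, 0, a; 0, 0, 0, 0] := by
    rw [eq16]; simp [tp]
  rw [e]
  simp only [tp, one4, mul4, sm4, am4, em4]
  refine ⟨?_, ?_, ?_, ?_, ?_, ?_, ?_, ?_, ?_, ?_, ?_, ?_, ?_, ?_, ?_, ?_⟩ <;> ring

theorem tp_conj {G : M4 k} {a b c a' b' c' : k} (h : G * tp a b c = tp a' b' c' * G) (x y z : k) :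
    G * tp (x * a) (x * b + y * a ^ 2) (x * c + 2 * y * a * b + z * a ^ 3) =
    tp (x * a') (x * b' + y * a' ^ 2) (x * c' + 2 * y * a' * b' + z * a' ^ 3) * G := by
  have e : G * (tp a b c - 1) = (tp a' b' c' - 1) * G := by rw [mul_sub, sub_mul, h]; simp
  rw [← tp_poly, ← tp_poly]
  generalize tp a b c - 1 = M at e
  generalize tp a' b' c' - 1 = M' at e
  have e' : ∀ X, G * (M * X) = M' * (G * X) := fun X => by rw [← mul_assoc, e, mul_assoc]
  simp only [mul_add, add_mul, mul_smul_comm, smul_mul_assoc, e', e, mul_one, one_mul, mul_assoc]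

theorem tp_sq (b c : k) : (tp 0 b c - 1) * (tp 0 b c - 1) = 0 := by
  simp [eq16, tp, mul_apply, Fin.sum_univ_four, one4]

theorem tp_pow (a b c : k) (n : ℕ) : ∃ x y, tp a b c ^ n = tp (n * a) x y := by
  induction n with
  | zero => exact ⟨0, 0, by simp [tp, one4]⟩
  | succ n ih =>
    obtain ⟨x, y, ih⟩ := ih
    exact ⟨_, _, by rw [pow_succ, ih, tp_mul]; congr 1; push_cast; ring⟩

theorem tp_mulVec (a b c : k) (x : Fin 4 → k) : tp a b c *ᵥ x =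
    ![x 0 + a * x 1 + b * x 2 + c * x 3, x 1 + a * x 2 + b * x 3, x 2 + a * x 3, x 3] := by
  ext i; fin_cases i <;> simp [tp, mulVec, dotProduct, Fin.sum_univ_four]

theorem vecMul_tp (a b c : k) (x : Fin 4 → k) : x ᵥ* tp a b c =
    ![x 0, x 0 * a + x 1, x 0 * b + x 1 * a + x 2, x 0 * c + x 1 * b + x 2 * a + x 3] := by
  ext i; fin_cases i <;> simp [tp, vecMul, dotProduct, Fin.sum_univ_four]

theorem L2_tp (a b c : k) (x : Fin 6 → k) : L2 (tp a b c) x =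
    ![x 0 + a * x 1 + b * x 2 + (a * a - b) * x 3 + (a * b - c) * x 4 + (b * b - a * c) * x 5,
      x 1 + a * x 2 + a * x 3 + a * a * x 4 + (a * b - c) * x 5, x 2 + a * x 4 + b * x 5,
      x 3 + a * x 4 + (a * a - b) * x 5, x 4 + a * x 5, x 5] := by
  ext i
  fin_cases i <;> simp [L2_apply, co, tp, ψ_def, mul_apply, Fin.sum_univ_four, vecMul, dotProduct] <;>
    ring

theorem dg_lv {ι : Type*} (lv : ι → ℕ) (ev : (ι → k) → P → k) (h0 : ∀ g, ev 0 g = 0)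
    (hs : ∀ u ∈ U, ∀ y, ∃ y', (∀ g, ev y (u * g) - ev y g = ev y' g) ∧
      ∀ j, (∀ j', lv j < lv j' → y j' = 0) → y' j = 0) {m : ℕ} {y : ι → k}
    (hm : ∀ j, m ≤ lv j → y j = 0) : Dg U m (ev y) :=
  dg_of_filt ev (fun i => {y | ∀ j, i ≤ lv j → y j = 0})
    (fun y hy g => by rw [show y = 0 from funext fun j => hy j (Nat.zero_le _), h0])
    (fun i y hy u hu => by
      obtain ⟨y', h1, h2⟩ := hs u hu y
      exact ⟨y', fun j hj => h2 j fun j' h => hy j' (by omega), h1⟩) m y hm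

theorem const_of [Finite P]
    (ti : ∀ g : P, ∀ u ∈ U, u ≠ 1 → g * u * g⁻¹ ∈ U → g ∈ normalizer (U : Set P))
    (hp : ∀ g : P, ∀ u ∈ U, g * u * g⁻¹ ∈ normalizer (U : Set P) → g * u * g⁻¹ ∈ U) {f : P → k}
    (hf : ∀ g, ∀ n ∈ normalizer (U : Set P), f (g * n) = f g)
    (hz : ∀ a g, ∑ᶠ u : U, f (a * (u * g)) = 0) (a : P) : f a = f 1 := by
  have h1 := tr_eq ti hp (f := fun g => f (a * g)) (fun g n hn => by rw [← mul_assoc, hf _ n hn]) (hz a)
  rw [tr_left hf, tr_eq ti hp hf (by simpa using hz 1), mul_one] at h1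
  exact h1.symm

theorem pairs (hp : p % 2 = 1) : ∀ (t : ℕ) (L : List ℕ), L.length = 2 * t → ∃ l l' : List ℕ,
    l.length + l'.length = 2 * t ∧ (l.map (p ^ ·)).sum + (l'.map (p ^ ·)).sum = (L.map (p ^ ·)).sum ∧
    (l.map (p ^ ·)).sum % 4 = (l'.map (p ^ ·)).sum % 4 ∧ t ≤ l.length
  | 0, [], _ => ⟨[], [], by simp⟩
  | t + 1, a :: b :: L, h => by
    obtain ⟨l, l', h1, h2, h3, h4⟩ := pairs hp t L (by simp at h; omega)
    have ha : p ^ a % 2 = 1 := by simp [Nat.pow_mod, hp]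
    have hb : p ^ b % 2 = 1 := by simp [Nat.pow_mod, hp]
    by_cases e : p ^ a % 4 = p ^ b % 4
    · exact ⟨a :: l, b :: l', by simp; omega, by simp; omega, by simp; omega, by simp; omega⟩
    · exact ⟨a :: b :: l, l', by simp; omega, by simp; omega, by simp; omega, by simp; omega⟩

theorem arith (h5 : 5 ≤ p) (hp : p % 2 = 1) (hr : 2 ≤ r) (i : ℕ) : ∃ l l' : List ℕ, l ≠ [] ∧
    3 * l.length + 3 * l'.length + 1 ≤ r * (p - 1) ∧ ∀ κ μ ν : k, κ ≠ 0 → κ ^ 2 = κ ^ p ^ i →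
      κ ^ p ^ r = κ → μ * ν = κ ^ 3 → μ ^ 4 = κ ^ 6 → ν ^ 4 = κ ^ 6 →
      μ ^ (l.map (p ^ ·)).sum * ν ^ (l'.map (p ^ ·)).sum = 1 := by
  have a1 : ∀ κ : k, κ ^ 2 = κ ^ p ^ i → ∀ j, κ ^ p ^ (i * j) = κ ^ 2 ^ j := fun κ h j => by
    induction j with
    | zero => simp
    | succ j ih => rw [mul_add, mul_one, pow_add, pow_mul, ih, pow_right_comm, ← h, ← pow_mul, ← pow_succ']
  have a2 : ∀ κ : k, κ ^ 2 = κ ^ p ^ i → κ ^ p ^ r = κ → κ ^ 2 ^ r = κ := fun κ h h' => by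
    rw [← a1 κ h, mul_comm]
    clear a1 h
    induction i with
    | zero => simp
    | succ j ih => rw [mul_add, mul_one, pow_add, pow_mul, ih, h']
  have a3 : ∀ κ : k, κ ^ 2 = κ ^ p ^ i → ∀ n,
      κ ^ (((List.range n).map (i * ·)).map (p ^ ·)).sum * κ = κ ^ 2 ^ n := fun κ h n => by
    induction n with
    | zero => simp
    | succ n ih =>
      simp only [List.range_succ, List.map_append, List.sum_append, List.map_cons, List.map_nil,
        List.sum_cons, List.sum_nil, add_zero, pow_add]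
      rw [mul_right_comm, ih, a1 κ h, pow_one, pow_mul, sq]
  obtain ⟨t, L, h1, h2, h3, h4⟩ : ∃ (t : ℕ) (L : List ℕ), L.length = 2 * t ∧ 0 < t ∧
      6 * t + 1 ≤ r * (p - 1) ∧ ∀ κ : k, κ ≠ 0 → κ ^ 2 = κ ^ p ^ i → κ ^ p ^ r = κ →
        κ ^ (L.map (p ^ ·)).sum = 1 := by
    have hD : r * 4 ≤ r * (p - 1) := Nat.mul_le_mul_left r (by omega)
    rcases Nat.even_or_odd' r with ⟨t, e | e⟩
    · exact ⟨t, (List.range r).map (i * ·), by simpa using e, by omega, by omega, fun κ h0 h h' =>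
        mul_right_cancel₀ h0 (by rw [a3 κ h, a2 κ h h', one_mul])⟩
    by_cases h6 : p = 5 ∧ r = 3
    · obtain ⟨rfl, rfl⟩ := h6
      refine ⟨1, [0, 0], rfl, one_pos, by norm_num, fun κ h0 h h' => ?_⟩
      have e1 : κ ^ 7 = 1 := mul_right_cancel₀ h0 (by rw [← pow_succ, one_mul]; exact a2 κ h h')
      have e2 : κ ^ 124 = 1 := mul_right_cancel₀ h0 (by rw [← pow_succ, one_mul]; exact h')
      have e3 : κ = 1 := by simpa using pow_gcd_eq_one.2 ⟨e1, e2⟩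
      simp [e3]
    · obtain ⟨s, rfl⟩ : ∃ s, r = s + 2 := ⟨r - 2, by omega⟩
      refine ⟨t + 1, i * s :: i * s :: (List.range (s + 1)).map (i * ·), by simp; omega, by omega,
        ?_, fun κ h0 h h' => mul_right_cancel₀ h0 ?_⟩
      · by_cases h7 : p = 5
        · omega
        · have : (s + 2) * 6 ≤ (s + 2) * (p - 1) := Nat.mul_le_mul_left _ (by omega)
          omega
      · simp only [List.map_cons, List.sum_cons, pow_add κ, mul_assoc, a3 κ h, a1 κ h]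
        rw [one_mul, ← pow_add, ← pow_add, ← a2 κ h h']
        conv_lhs => rw [a2 κ h h']
        conv_rhs => rw [a2 κ h h', ← a2 κ h h']
        congr 1; ring
  obtain ⟨l, l', g1, g2, g3, g4⟩ := pairs hp t L h1
  refine ⟨l, l', by rintro rfl; simp at g4; omega, by omega, fun κ μ ν h0 h h' e1 e2 e3 => ?_⟩
  have e4 := h4 κ h0 h h'
  rw [← g2] at e4
  generalize (l.map (p ^ ·)).sum = m at *
  generalize (l'.map (p ^ ·)).sum = m' at *
  have e5 : κ ^ (2 ^ r - 1) = 1 := mul_right_cancel₀ h0 (by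
    rw [← pow_succ, Nat.sub_add_cancel Nat.one_le_two_pow, one_mul, a2 κ h h'])
  have key : ∀ n, 2 * n = 3 * (m + m') → κ ^ n = 1 := fun n e => by
    have e6 : (κ ^ n) ^ 2 = 1 := by rw [← pow_mul, mul_comm, e, mul_comm, pow_mul, e4, one_pow]
    have e7 : (κ ^ n) ^ 2 ^ r = κ ^ n := by rw [pow_right_comm, a2 κ h h']
    rwa [show r = 1 + (r - 1) by omega, pow_add, pow_one, pow_mul, e6, one_pow, eq_comm] at e7
  rcases le_total m m' with e | e
  · obtain ⟨c, rfl⟩ : ∃ c, m' = m + 4 * c := ⟨(m' - m) / 4, by omega⟩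
    rw [pow_add, ← mul_assoc, ← mul_pow, pow_mul, e1, e3, ← pow_mul, ← pow_mul, ← pow_add]
    exact key _ (by ring)
  · obtain ⟨c, rfl⟩ : ∃ c, m = m' + 4 * c := ⟨(m - m') / 4, by omega⟩
    rw [pow_add, mul_right_comm, ← mul_pow, pow_mul, e1, e2, ← pow_mul, ← pow_mul, ← pow_add]
    exact key _ (by ring)

/-- Type I. -/
structure Ty (p r : ℕ) (ρ : P →* M4 k) (U : Subgroup P) (z : P) : Prop where
  card : Nat.card U = p ^ r
  pos : 0 < r
  five : 5 ≤ p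
  syl : ¬ p ∣ U.index
  exp : ∀ u ∈ U, u ^ p = 1
  ti : ∀ g : P, ∀ u ∈ U, u ≠ 1 → g * u * g⁻¹ ∈ U → g ∈ normalizer (U : Set P)
  shape : ∀ u ∈ U, ∃ a b c, ρ u = tp a b c ∧ (a = 0 → u = 1)
  mem : z ∈ U
  eq : ρ z = tp 1 0 0

theorem exTy [Finite P] [hp : Fact p.Prime] [CharP k p] (h2 : p ≠ 2)
    (nt : ∀ g, (ρ g - 1) * (ρ g - 1) = 0 → g = 1) (U : Sylow p P) {z : P} (hz : z ∈ U)
    (hc : ∀ u ∈ U, u * z = z * u) (e : ρ z = tp 1 0 0) : ∃ r : ℕ, Ty p r ρ U z := by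
  let Q : Subgroup P := fsub (fun x => ∃ a b c, ρ x = tp a b c)
    ⟨0, 0, 0, by rw [map_one, one4]; rfl⟩ fun _ _ ⟨_, _, _, h⟩ ⟨_, _, _, h'⟩ =>
      ⟨_, _, _, by rw [map_mul, h, h', tp_mul]⟩
  have h1 : (U : Subgroup P) ≤ Q := fun u hu => by
    obtain ⟨n, hn⟩ := U.2 ⟨u, hu⟩
    have e1 : ρ u ^ p ^ n = 1 := by
      rw [← map_pow, show u ^ p ^ n = 1 from congrArg Subtype.val hn, map_one]
    have e2 := congrArg ρ (hc u hu)
    rw [map_mul, map_mul, e] at e2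
    obtain ⟨x1, x2, x3, x4, x5, x6, x7, x8, x9, y1, y2, y3, y4, y5, y6, y7, e6⟩ := ex16 (ρ u)
    rw [e6] at e1 e2
    simp only [tp, mul4, em4, mul_zero, zero_mul, add_zero, zero_add, mul_one, one_mul] at e2
    have e3 : x5 = 0 ∧ x9 = 0 ∧ y4 = 0 ∧ y5 = 0 ∧ y6 = 0 := by grind
    obtain rfl : x1 = 1 := one00 (A := !![x1, x2, x3, x4; x5, x6, x7, x8; x9, y1, y2, y3;
      y4, y5, y6, y7]) e3 e1
    refine ⟨x2, x3, x4, ?_⟩
    rw [e6, tp, em4]
    grind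
  have h3 : ∀ x ∈ Q, x ^ p = 1 := fun x ⟨a, b, c, hx⟩ => nt _ (by
    obtain ⟨v, w, hw⟩ := tp_pow a b c p
    rw [map_pow, hx, hw, CharP.cast_eq_zero, zero_mul, tp_sq])
  have h4 : Q = U := U.3 (pg_of_exp h3) h1
  have h5 : ∀ u ∈ (U : Subgroup P), ∃ a b c, ρ u = tp a b c ∧ (a = 0 → u = 1) := fun u hu => by
    obtain ⟨a, b, c, h⟩ := h1 hu
    exact ⟨a, b, c, h, fun e => nt u (by rw [h, e, tp_sq])⟩
  have hz1 : z ≠ 1 := fun h => by
    have := congrFun (congrFun e 0) 1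
    simp [h, tp] at this
  obtain ⟨r, hr, hcard⟩ := syl_card U hz hz1
  refine ⟨r, hcard, hr, hp.out.five_le_of_ne_two_of_ne_three h2 ?_, U.not_dvd_index,
    fun u hu => h3 u (h1 hu), fun g u hu h hu' => ?_, h5, hz, e⟩
  · rintro rfl
    have := congrArg (fun g => ρ g 0 3) (h3 z (h1 hz))
    simp only [pow_succ, pow_zero, one_mul, map_mul, e, tp_mul, map_one] at this
    simp [tp] at this
  · refine Subgroup.mem_normalizer_fintype fun x hx => ?_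
    obtain ⟨a, b, c, e1, e2⟩ := h5 u hu
    obtain ⟨a', b', c', e3, -⟩ := h5 _ hu'
    obtain ⟨α, β, γ, e4, -⟩ := h5 x hx
    have ha : a ≠ 0 := fun e => h (e2 e)
    have := tp_conj (show ρ g * tp a b c = tp a' b' c' * ρ g by rw [← e1, ← e3, ← map_mul, ← map_mul, inv_mul_cancel_right])
      (α / a) ((β - α / a * b) / a ^ 2)
      ((γ - α / a * c - 2 * ((β - α / a * b) / a ^ 2) * a * b) / a ^ 3)
    rw [div_mul_cancel₀ _ ha, div_mul_cancel₀ _ (pow_ne_zero 2 ha), div_mul_cancel₀ _ (pow_ne_zero 3 ha),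
      add_sub_cancel, sub_sub, add_sub_cancel, ← e4] at this
    rw [← h4]
    exact ⟨_, _, _, by rw [map_mul, map_mul, this, mul_assoc, ← map_mul, mul_inv_cancel, map_one,
      mul_one]⟩

namespace Ty
variable {z : P}

theorem nf (hd : ∀ g, (ρ g).det = 1) (t : Ty p r ρ U z) {n : P} (hn : n ∈ normalizer (U : Set P)) :
    ∃ κ β x : k, κ ≠ 0 ∧ κ ^ 6 * x ^ 4 = 1 ∧ ρ n 0 0 = κ ^ 3 * x ∧ ρ n 3 3 = x ∧ ρ n ∈ Pb k ∧
      ρ n 2 1 = 0 ∧ ∀ u ∈ U, ρ (n * u * n⁻¹) 0 1 = κ * ρ u 0 1 ∧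
        ρ (n * u * n⁻¹) 0 2 = β * ρ u 0 1 + κ ^ 2 * ρ u 0 2 := by
  obtain ⟨κ, β, γ, e1, e2⟩ := t.shape _ ((hn z).1 t.mem)
  have h0 : κ ≠ 0 := fun e => by
    have := congrFun (congrFun t.eq 0) 1
    simp [show z = 1 by simpa using e2 e, tp] at this
  have e3 : ρ n * tp 1 0 0 = tp κ β γ * ρ n := by
    rw [← t.eq, ← e1, ← map_mul, ← map_mul, inv_mul_cancel_right]
  have e4 : ∀ u ∈ U, ρ (n * u * n⁻¹) 0 1 = κ * ρ u 0 1 ∧
      ρ (n * u * n⁻¹) 0 2 = β * ρ u 0 1 + κ ^ 2 * ρ u 0 2 := fun u hu => by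
    obtain ⟨a, b, c, e4, -⟩ := t.shape u hu
    have := tp_conj e3 a b c
    simp only [mul_one, mul_zero, zero_add, one_pow, add_zero] at this
    rw [map_mul, map_mul, e4, this, mul_assoc, ← map_mul, mul_inv_cancel, map_one, mul_one]
    simp [tp, mul_comm]
  have e5 := hd n
  obtain ⟨x1, x2, x3, x4, x5, x6, x7, x8, x9, y1, y2, y3, y4, y5, y6, y7, e6⟩ := ex16 (ρ n)
  rw [e6] at e3 e5
  simp only [tp, mul4, em4, mul_zero, zero_mul, add_zero, zero_add, mul_one, one_mul] at e3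
  obtain ⟨-, g2, -, -, -, g6, g7, -, -, g10, g11, g12, -, g14, g15, g16⟩ := e3
  obtain rfl : y4 = 0 := by linear_combination g14
  obtain rfl : y5 = 0 := by linear_combination g15
  obtain rfl : y6 = 0 := by linear_combination g16
  obtain rfl : x9 = 0 := by linear_combination g10
  obtain rfl : y1 = 0 := by linear_combination g11
  obtain rfl : x5 = 0 := by linear_combination g6
  obtain rfl : y2 = κ * y7 := by linear_combination g12
  obtain rfl : x6 = κ ^ 2 * y7 := by linear_combination g7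
  obtain rfl : x1 = κ ^ 3 * y7 := by linear_combination g2
  rw [dm4] at e5
  exact ⟨κ, β, y7, h0, by linear_combination e5, by rw [e6]; rfl, by rw [e6]; rfl,
    by rw [e6]; exact ⟨rfl, rfl, rfl, rfl, rfl⟩, by rw [e6]; rfl, e4⟩

theorem dgW (hd : ∀ g, (ρ g).det = 1) (t : Ty p r ρ U z) (φ w : Fin 6 → k) :
    Dg U 5 fun g => Bw φ (L2 (ρ g) w) := by
  refine dg_lv ![0, 1, 2, 2, 3, 4] (fun φ g => Bw φ (L2 (ρ g) w)) (fun g => by simp [Bw])
    (fun u hu y => ⟨L2 (ρ u⁻¹) y - y, fun g => by rw [L2_map, Bw_adj hd, sub_Bw], fun j hj => ?_⟩)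
    fun j hj => by fin_cases j <;> simp at hj
  obtain ⟨a, b, c, e, -⟩ := t.shape _ (inv_mem hu)
  rw [e, L2_tp]
  fin_cases j <;> simp [Fin.forall_fin_succ] at hj ⊢ <;> simp [hj]

theorem dgV (t : Ty p r ρ U z) (φ v : Fin 4 → k) : Dg U 4 fun g => φ ⬝ᵥ ρ g *ᵥ v := by
  refine dg_lv ![3, 2, 1, 0] (fun φ g => φ ⬝ᵥ ρ g *ᵥ v) (fun g => by simp)
    (fun u hu y => ⟨y ᵥ* ρ u - y, fun g => by
      rw [map_mul, ← mulVec_mulVec, dotProduct_mulVec y (ρ u), sub_dotProduct], fun j hj => ?_⟩)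
    fun j hj => by fin_cases j <;> simp at hj
  obtain ⟨a, b, c, e, -⟩ := t.shape _ hu
  rw [e, vecMul_tp]
  fin_cases j <;> simp [Fin.forall_fin_succ] at hj ⊢ <;> simp [hj]

theorem dgV' (t : Ty p r ρ U z) (φ v : Fin 4 → k) : Dg U 4 fun g => φ ⬝ᵥ ρ g⁻¹ *ᵥ v := by
  refine dg_lv ![0, 1, 2, 3] (fun v g => φ ⬝ᵥ ρ g⁻¹ *ᵥ v) (fun g => by simp)
    (fun u hu y => ⟨ρ u⁻¹ *ᵥ y - y, fun g => by
      rw [_root_.mul_inv_rev, map_mul, ← mulVec_mulVec, mulVec_sub, dotProduct_sub], fun j hj => ?_⟩)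
    fun j hj => by fin_cases j <;> simp at hj
  obtain ⟨a, b, c, e, -⟩ := t.shape _ (inv_mem hu)
  rw [e, tp_mulVec]
  fin_cases j <;> simp [Fin.forall_fin_succ] at hj ⊢ <;> simp [hj]

variable [Finite P] [hp : Fact p.Prime] [CharP k p]

theorem small (h : Hy ρ) (t : Ty p r ρ U z) {τ : k}
    (hτ : ∀ u ∈ U, 2 * ρ u 0 2 - ρ u 0 1 ^ 2 = τ * ρ u 0 1) : r * (p - 1) ≤ 4 := by
  by_contra hD
  let w : Fin 6 → k := ![0, -τ, 1, -1, 0, 0]
  have hw : ∀ u ∈ U, L2 (ρ u) w = w := fun u hu => by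
    have := hτ u hu
    obtain ⟨a, b, c, e, -⟩ := t.shape u hu
    rw [e] at this
    simp only [e, L2_tp, w]
    simp [tp] at this ⊢
    linear_combination this
  let F : (Fin 6 → k) → (Fin 6 → k) → P → k := fun φ χ g => Bw φ (L2 (ρ g) w) * Bw χ (L2 (ρ g) w)
  have hF : ∀ φ χ g, ∀ u ∈ U, F φ χ (g * u) = F φ χ g := fun φ χ g u hu => by
    simp only [F, L2_map, hw u hu]
  have hZ : ∀ φ χ, tr U (F φ χ) = 0 := by
    refine van (σ := fun g x => L2 (ρ g) x) h.irrW (fun φ χ => tr U (F φ χ)) (fun φ φ' χ => ?_)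
      (fun c φ χ => ?_) (fun g φ χ => ⟨L2 (ρ g⁻¹) χ, ?_⟩) (s := ![1, 0, 0, 0, 0, 0]) (by simp)
      fun χ => ?_
    · rw [← tr_add]; congr 1; funext g; simp only [F, add_Bw, add_mul]
    · rw [← tr_mul]; congr 1; funext g; simp only [F, smul_Bw, mul_assoc]
    · rw [← tr_left (hF _ _) g]; congr 1; funext x
      simp only [F, L2_map, Bw_L2, h.det, one_mul, Bw_adj h.det g χ]
    · have d1 := dgW1 (U := U) h.det (φ := ![1, 0, 0, 0, 0, 0]) (fun u hu => by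
        obtain ⟨a, b, c, e, -⟩ := t.shape u hu
        simp [e, L2_tp]) w
      refine tr_eq0 t.ti (hF _ _) ((Dg.mul (a := 0) d1 (t.dgW h.det χ w)).sum_zero p t.exp t.card
        (by omega)) fun n hn => ?_
      obtain ⟨-, -, -, -, -, -, -, ⟨a, b, c, d, e⟩, f, -⟩ := t.nf h.det hn
      simp [F, w, Bw, L2_apply, co, ψ_def, mul_apply, Fin.sum_univ_four, b, c, d, e, f]
  have e1 : tr U (fun _ => (-1 : k)) = 0 := by
    have := tr_add U (fun g => F ![1, 0, 0, 0, 0, 0] ![0, 0, 0, 0, 0, 1] g +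
      F ![0, 1, 0, 0, 0, 0] ![0, 0, 0, 0, -1, 0] g) (F ![0, 0, 1, 0, 0, 0] ![0, 0, 0, 1, 0, 0])
    rw [tr_add U (F _ _), hZ, hZ, hZ] at this
    simp only [add_zero] at this
    rw [← this]
    congr 1; funext g
    have e2 := Pf_act (ρ g) w
    rw [h.det, ← L2_apply] at e2
    simp only [F]
    generalize L2 (ρ g) w = y at e2
    simp [Pf_apply, w, Bw] at e2 ⊢
    linear_combination -e2
  rw [tr_const] at e1
  simpa [idx_ne t.syl] using e1

theorem add (t : Ty p r ρ U z) {u v : P} (hu : u ∈ U) (hv : v ∈ U) :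
    ρ (u * v) 0 1 = ρ u 0 1 + ρ v 0 1 ∧ ρ (u * v) 0 2 = ρ u 0 2 + ρ v 0 2 + ρ u 0 1 * ρ v 0 1 := by
  obtain ⟨a, b, c, e, -⟩ := t.shape u hu
  obtain ⟨a', b', c', e', -⟩ := t.shape v hv
  rw [map_mul, e, e', tp_mul]
  exact ⟨rfl, rfl⟩

theorem prop1 (t : Ty p 1 ρ U z) : ∀ u ∈ U, 2 * ρ u 0 2 - ρ u 0 1 ^ 2 = -1 * ρ u 0 1 := by
  let S : Subgroup U := fsub (fun u => 2 * ρ u 0 2 - ρ u 0 1 ^ 2 = -1 * ρ u 0 1) (by simp)
    fun a b ha hb => by
      rw [Subgroup.coe_mul, (t.add a.2 b.2).1, (t.add a.2 b.2).2]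
      linear_combination ha + hb
  haveI : Fact (Nat.card U).Prime := ⟨by rw [t.card, pow_one]; exact hp.out⟩
  have hz : (⟨z, t.mem⟩ : U) ∈ S := by
    change 2 * ρ z 0 2 - ρ z 0 1 ^ 2 = -1 * ρ z 0 1
    simp [t.eq, tp]
  rcases S.eq_bot_or_eq_top_of_prime_card with e | e
  · rw [e, Subgroup.mem_bot, Subtype.ext_iff] at hz
    have := congrFun (congrFun t.eq 0) 1
    simp [show z = 1 from hz, tp] at this
  · exact fun u hu => (e ▸ Subgroup.mem_top _ : (⟨u, hu⟩ : U) ∈ S)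

theorem weights (hd : ∀ g, (ρ g).det = 1) (t : Ty p r ρ U z)
    (hτ : ¬ ∃ τ, ∀ u ∈ U, 2 * ρ u 0 2 - ρ u 0 1 ^ 2 = τ * ρ u 0 1) : ∃ i : ℕ,
    ∀ n ∈ normalizer (U : Set P), ρ (n * z * n⁻¹) 0 1 ^ 2 = ρ (n * z * n⁻¹) 0 1 ^ p ^ i ∧
      ρ (n * z * n⁻¹) 0 1 ^ p ^ r = ρ (n * z * n⁻¹) 0 1 := by
  have z1 : ρ z 0 1 = 1 := by rw [t.eq]; rfl
  let κ : normalizer (U : Set P) →* k :=
    { toFun := fun n => ρ (n * z * (n : P)⁻¹) 0 1
      map_one' := by simpa using z1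
      map_mul' := fun n m => by
        obtain ⟨a, β, -, -, -, -, -, -, -, e⟩ := t.nf hd n.2
        rw [(e z t.mem).1, z1, mul_one, ← (e _ ((Subgroup.mem_normalizer_iff.1 m.2 z).1 t.mem)).1]
        simp [mul_assoc] }
  haveI : Finite κ.toHomUnits.range := Finite.of_surjective _ κ.toHomUnits.rangeRestrict_surjective
  obtain ⟨⟨_, n, rfl⟩, hn⟩ := IsCyclic.exists_monoid_generator (α := κ.toHomUnits.range)
  suffices h : ∃ i, κ n ^ 2 = κ n ^ p ^ i ∧ κ n ^ p ^ r = κ n by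
    obtain ⟨i, h1, h2⟩ := h
    refine ⟨i, fun m hm => ?_⟩
    obtain ⟨j, hj⟩ := hn ⟨_, ⟨m, hm⟩, rfl⟩
    have e : κ n ^ j = κ ⟨m, hm⟩ := by
      simpa using congrArg (fun x : κ.toHomUnits.range => ((x : kˣ) : k)) hj
    rw [show ρ (m * z * m⁻¹) 0 1 = κ n ^ j from e.symm]
    exact ⟨by rw [pow_right_comm, h1, pow_right_comm], by rw [pow_right_comm, h2]⟩
  obtain ⟨a, β, -, h0, -, -, -, -, -, e⟩ := t.nf hd n.2
  have ea : κ n = a := (e z t.mem).1.trans (by rw [z1, mul_one])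
  rw [ea]
  by_cases h1 : a = 1
  · exact ⟨0, by simp [h1], by simp [h1]⟩
  have h2 : a - a ^ 2 ≠ 0 := fun e => h1 (mul_left_cancel₀ h0 (by linear_combination -e))
  obtain ⟨τ, hτ'⟩ : ∃ τ, τ * (a - a ^ 2) = 2 * β := ⟨_, div_mul_cancel₀ _ h2⟩
  let f : P → k × k := fun u => (ρ u 0 1, 2 * ρ u 0 2 - ρ u 0 1 ^ 2 - τ * ρ u 0 1)
  have f1 : f 1 = 0 := by simp [f]
  have fa : ∀ u ∈ U, ∀ v ∈ U, f (u * v) = f u + f v := fun u hu v hv => by
    simp only [f, (t.add hu hv).1, (t.add hu hv).2, Prod.mk_add_mk, Prod.mk.injEq, true_and]; ring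
  let A : AddSubgroup (k × k) :=
    { carrier := {x | ∃ u ∈ U, x = f u}
      add_mem' := by
        rintro _ _ ⟨u, hu, rfl⟩ ⟨v, hv, rfl⟩
        exact ⟨u * v, mul_mem hu hv, (fa u hu v hv).symm⟩
      zero_mem' := ⟨1, one_mem _, f1.symm⟩
      neg_mem' := by
        rintro _ ⟨u, hu, rfl⟩
        exact ⟨u⁻¹, inv_mem hu, neg_eq_of_add_eq_zero_right (by
          rw [← fa u hu _ (inv_mem hu), mul_inv_cancel, f1])⟩ }
  have i1 : ∀ u ∈ U, ρ u 0 1 = 0 → u = 1 := fun u hu e => by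
    obtain ⟨a, b, c, e1, e2⟩ := t.shape u hu
    exact e2 (by rw [e1] at e; exact e)
  have inj : ∀ b, (0, b) ∈ A → b = 0 := by
    rintro b ⟨u, hu, e⟩
    rw [i1 u hu (congrArg Prod.fst e).symm, f1] at e
    exact congrArg Prod.snd e
  have cl : ∀ x y, (x, y) ∈ A → (a * x, a ^ 2 * y) ∈ A := by
    rintro x y ⟨u, hu, e1⟩
    obtain ⟨rfl, rfl⟩ := Prod.mk.inj e1
    refine ⟨_, (n.2 u).1 hu, ?_⟩
    simp only [f, (e u hu).1, (e u hu).2, Prod.mk.injEq, true_and]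
    linear_combination ρ u 0 1 * hτ'
  have hA : Nat.card U = Nat.card A := Nat.card_congr (Equiv.ofBijective
    (fun u => ⟨f u, u, u.2, rfl⟩) ⟨fun u v e => Subtype.ext (mul_inv_eq_one.1 (i1 _
      (mul_mem u.2 (inv_mem v.2)) (by
        have e1 := (t.add (mul_mem u.2 (inv_mem v.2)) v.2).1
        have e2 : ρ u 0 1 = ρ v 0 1 := congrArg (fun x : A => x.1.1) e
        rw [inv_mul_cancel_right, e2] at e1
        linear_combination -e1))), by rintro ⟨_, u, hu, rfl⟩; exact ⟨⟨u, hu⟩, rfl⟩⟩)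
  haveI : Finite A := Nat.finite_of_card_ne_zero (hA ▸ Nat.card_pos.ne')
  have h3 : a ^ p ^ r = a := by
    have := Rb.kap_of A inj cl h0
    rw [← hA, t.card] at this
    rw [← Nat.sub_add_cancel (Nat.one_le_pow r p hp.out.pos), pow_succ, this, one_mul]
  obtain ⟨u, hu, h4⟩ : ∃ u ∈ U, (f u).2 ≠ 0 := by
    by_contra! h
    exact hτ ⟨τ, fun u hu => sub_eq_zero.1 (h u hu)⟩
  obtain ⟨i, -, h5⟩ := Rb.galois A inj cl (a₀ := (f u).1) ⟨u, hu, rfl⟩ h4 t.pos h3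
  exact ⟨i, h5, h3⟩

theorem res (h : Hy ρ) (t : Ty p r ρ U z) : p = 5 ∧ r = 1 := by
  have h5 := t.five
  have h0 := t.pos
  by_cases hτ : ∃ τ, ∀ u ∈ U, 2 * ρ u 0 2 - ρ u 0 1 ^ 2 = τ * ρ u 0 1
  · obtain ⟨τ, hτ⟩ := hτ
    have h1 := t.small h hτ
    have h2 : r * 4 ≤ r * (p - 1) := Nat.mul_le_mul_left r (by omega)
    obtain rfl : r = 1 := by omega
    omega
  exfalso
  have hr : 2 ≤ r := by
    by_contra e
    obtain rfl : r = 1 := by omega
    exact hτ ⟨_, t.prop1⟩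
  obtain ⟨i, hi⟩ := t.weights h.det hτ
  obtain ⟨l, l', h1, h2, h3⟩ := arith (k := k) h5 (hp.out.eq_two_or_odd.resolve_left (by omega)) hr i
  have hm : (l.map (p ^ ·)).sum ≠ 0 := by
    obtain ⟨a, l, rfl⟩ := List.exists_cons_of_ne_nil h1
    have := pow_pos hp.out.pos a
    simp only [List.map_cons, List.sum_cons]; omega
  have key : ∀ (j : Fin 4) (g : P), ρ g j 0 ^ (l.map (p ^ ·)).sum * ρ g⁻¹ 3 3 ^ (l'.map (p ^ ·)).sum =
      ρ 1 j 0 ^ (l.map (p ^ ·)).sum * ρ 1⁻¹ 3 3 ^ (l'.map (p ^ ·)).sum := fun j =>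
    const_of t.ti (fun g u hu h => mem_of_norm t.syl (by rw [conj_pow, t.exp u hu]; simp) h)
      (fun g n hn => by
        obtain ⟨κ, β, x, k0, k1, k2, k3, ⟨a, b, c, -⟩, -, k4⟩ := t.nf h.det hn
        obtain ⟨-, -, -, -, -, -, -, ⟨-, -, a', b', c'⟩, -⟩ := t.nf h.det (inv_mem hn)
        have e1 : ρ n⁻¹ 3 3 * x = 1 := by
          have : (ρ n⁻¹ * ρ n) 3 3 = 1 := by rw [← map_mul]; simp
          simpa [mul_apply, Fin.sum_univ_four, a', b', c', k3] using this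
        have e2 := hi n hn
        rw [(k4 z t.mem).1, t.eq, show tp (1 : k) 0 0 0 1 = 1 from rfl, mul_one] at e2
        have e3 := h3 κ (ρ n 0 0) (ρ n⁻¹ 3 3) k0 e2.1 e2.2 (by rw [k2]; linear_combination κ ^ 3 * e1)
          (by rw [k2]; linear_combination κ ^ 6 * k1) (by grind)
        simp only [_root_.mul_inv_rev, map_mul, mul_apply, Fin.sum_univ_four, a, b, c, a', b', c',
          mul_zero, zero_mul, add_zero, zero_add, mul_pow]
        linear_combination (ρ g j 0 ^ (l.map (p ^ ·)).sum * ρ g⁻¹ 3 3 ^ (l'.map (p ^ ·)).sum) * e3)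
      fun a g => by
        have d := ((t.dgV (ρ a j) ![1, 0, 0, 0]).pw p l).mul
          ((t.dgV' ![0, 0, 0, 1] fun i => ρ a⁻¹ i 3).pw p l')
        refine Eq.trans (finsum_congr fun u => ?_) (d.sum_zero p t.exp t.card h2 g)
        generalize (u : P) * g = y
        simp [mul_apply, mulVec, dotProduct, Fin.sum_univ_four]
  have k1 : ∀ g, ∀ j : Fin 4, j ≠ 0 → ρ g j 0 = 0 := fun g j hj => by
    have e1 := key 0 g
    have e2 := key j g
    simp only [map_one, inv_one, one_apply_eq, one_pow, mul_one, one_apply_ne hj, zero_pow hm] at e1 e2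
    exact pow_eq_zero_iff hm |>.1 ((mul_eq_zero.1 e2).resolve_right (right_ne_zero_of_mul_eq_one e1))
  let X : Submodule k (Fin 4 → k) :=
    { carrier := {y | y 1 = 0 ∧ y 2 = 0 ∧ y 3 = 0}
      add_mem' := fun ⟨a, b, c⟩ ⟨a', b', c'⟩ => by simp [*]
      zero_mem' := by simp
      smul_mem' := fun _ _ ⟨a, b, c⟩ => by simp [*] }
  rcases h.irrV X (fun g x ⟨a, b, c⟩ => by
    change _ ∧ _ ∧ _
    simp [mulVec, dotProduct, Fin.sum_univ_four, a, b, c, k1 g]) with e | e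
  · have : ![1, 0, 0, 0] ∈ X := ⟨rfl, rfl, rfl⟩
    simp [e] at this
  · exact one_ne_zero (e ▸ Submodule.mem_top : ![0, 1, 0, 0] ∈ X).1

end Ty

end Cfsg.Agent.L4.R
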