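import Cfsg.Agent.L4.Rb3
import Cfsg.Agent.L4.R2

/-!
Type II with a form of rank one does not occur.
-/

set_option autoImplicit false

namespace Cfsg.Agent.L4.Rb

open Matrix Subgroup Cfsg.Agent.L4.R

variable {k : Type*} [Field k] {P : Type*} [Group P] {ρ : P →* M4 k} {p r : ℕ} {U H : Subgroup P}

theorem caseb [IsAlgClosed k] [Fact p.Prime] [CharP k p] [Finite P] (h : Hy ρ)
    (t : T2 p r ρ U H) (h1 : ∀ u ∈ U, ρ u 0 1 = 0)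
    (h2 : ∃ u ∈ U, ∃ u' ∈ U, ρ u 1 3 * ρ u' 2 3 ≠ ρ u' 1 3 * ρ u 2 3)
    (hd : ∀ h ∈ H, ρ h 1 2 = 0 ∧ ρ h 2 1 = 0) : False := by
  have sh : ∀ u ∈ U, ρ u = hz 0 (ρ u 0 2) (ρ u 1 3) (ρ u 2 3) (ρ u 0 3) ∧
      (u ≠ 1 → ρ u 0 2 * ρ u 2 3 ≠ 0) := fun u hu => by
    obtain ⟨f₁, f₂, v₁, v₂, z, e, e'⟩ := t.shape u hu
    obtain rfl : f₁ = 0 := by simpa [e, hz] using h1 u hu
    rw [e]
    exact ⟨rfl, by simpa [hz] using e'⟩
  have fx : ∀ u ∈ U, L2 (ρ u) (Pi.single 1 1) = Pi.single 1 1 := fun u hu => by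
    rw [(sh u hu).1, L2_hz]
    ext i; fin_cases i <;> simp
  have ad : ∀ u ∈ U, ∀ v ∈ U, ρ (u * v) = hz (0 + 0) (ρ u 0 2 + ρ v 0 2) (ρ u 1 3 + ρ v 1 3)
      (ρ u 2 3 + ρ v 2 3) (ρ u 0 3 + ρ v 0 3 + 0 * ρ v 1 3 + ρ u 0 2 * ρ v 2 3) := fun u hu v hv => by
    rw [map_mul, ← hz_mul, ← (sh u hu).1, ← (sh v hv).1]
  obtain ⟨u₀, hu₀, h0⟩ := t.exists_ne
  have n0 := right_ne_zero_of_mul ((sh u₀ hu₀).2 h0)
  refine caseb_of (p := p) (by rintro rfl; exact t.two_ne (CharP.cast_eq_zero k 2)) h t h1 h2 hd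
    fun o _ ho hH => lemL h t (t₁ := Pi.single 1 1) (t₂ := 0) (tv := -Pi.single 4 1)
      (s := Pi.single 1 1) (by simp) fx (by simp [Bw]) (by simp [Bw]) (by simp [Bw]) (by simp [Bw])
      (fun u => ρ u 2 3) (fun u hu v hv => by rw [ad u hu v hv]; rfl) (fun u hu e => ?_)
      (fun w => ⟨ρ u₀ 0 2 / ρ u₀ 2 3 * w 5, fun u hu v hv => ?_⟩) ho fun n hn => ?_
  · by_contra hc
    exact (sh u hu).2 hc (by rw [e, mul_zero])
  · have e := congrFun (congrFun ((ad _ hu₀ v hv).symm.trans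
      ((congrArg ρ (t.comm _ hu₀ v hv)).trans (ad v hv _ hu₀))) 0) 3
    have e' : ρ v 0 2 = ρ u₀ 0 2 / ρ u₀ 2 3 * ρ v 2 3 := by
      simp [hz] at e
      field_simp
      linear_combination -e
    rw [ad u hu v hv]
    conv_lhs => rw [(sh u hu).1, (sh v hv).1]
    simp only [L2_hz]
    simp [Bw, hz]
    linear_combination (ρ u 2 3 * w 5) * e'
  · obtain ⟨u, hu, g, hg, rfl⟩ := t.fac n hn
    obtain ⟨a, b₁, b₂, b₃, b₄, c, e⟩ := t.blk g hg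
    have e1 : L2 (ρ g) (Pi.single 1 1) = (ρ g 0 0 * ρ g 2 2) • Pi.single 1 1 := by
      have := (hd g hg).1
      rw [e] at this ⊢
      obtain rfl : b₂ = 0 := this
      rw [L2_bd]
      ext i; fin_cases i <;> simp [bd]
    exact ⟨_, 1, hH g hg, one_pow _, Or.inl ⟨by rw [L2_map, e1, map_smul, fx u hu], by simp⟩⟩

end Cfsg.Agent.L4.Rb
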