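import Cfsg.Agent.L4.R6
import Cfsg.Agent.L4.Rb

/-!
The Sylow `p`-subgroups of a quasisimple subgroup of `SL₄` without quadratic elements.
-/

set_option autoImplicit false
set_option linter.style.haveILetI false

namespace Cfsg.Agent.L4.R
open Matrix

variable {P k : Type*} [Group P] [Field k] {ρ : P →* M4 k} {p : ℕ}

theorem not_sq_dvd [Finite P] [hp : Fact p.Prime] {U : Subgroup P} (h : Nat.card U = p ^ 1)
    (hs : ¬ p ∣ U.index) : ¬ p ^ 2 ∣ Nat.card P := fun e => hs (by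
  rw [← U.card_mul_index, h, pow_one, sq] at e
  exact (Nat.mul_dvd_mul_iff_left hp.out.pos).1 e)

theorem main [Fintype P] [IsAlgClosed k] [hp : Fact p.Prime] [CharP k p] (h2 : p ≠ 2) (h : Hy ρ)
    (nt : ∀ g, (ρ g - 1) * (ρ g - 1) = 0 → g = 1) :
    (Proj ρ ∧ ¬ p ^ 2 ∣ Nat.card P ∧ (p ∣ Nat.card P → p ≤ 5)) ∨
    ∃ (ρ' : P →* M4 k) (r : ℕ) (U H : Subgroup P), Hy ρ' ∧ T2 p r ρ' U H ∧
      (∀ u ∈ U, ρ' u 0 1 = ρ' u 2 3 ∧ ρ' u 0 2 = ρ' u 1 3) ∧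
      (∃ u ∈ U, ∃ u' ∈ U, ρ' u 1 3 * ρ' u' 2 3 ≠ ρ' u' 1 3 * ρ' u 2 3) ∧
      ((∀ g, (ρ' g).trace = (ρ g).trace) ∨ ∀ g, (ρ' g).trace = (ρ g⁻¹).trace) := by
  by_cases hd : p ∣ Nat.card P
  swap
  · exact .inl ⟨proj_of_not_dvd p hd, fun e => hd ((dvd_pow_self p two_ne_zero).trans e),
      fun e => absurd e hd⟩
  obtain ⟨U⟩ : Nonempty (Sylow p P) := inferInstance
  haveI : Nontrivial U := (Subgroup.nontrivial_iff_ne_bot _).2 (U.ne_bot_of_dvd_card hd)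
  haveI := U.2.center_nontrivial
  obtain ⟨⟨⟨z, hz⟩, hc⟩, h1⟩ := exists_ne (1 : Subgroup.center U)
  have hz1 : z ≠ 1 := fun e => h1 (Subtype.ext (Subtype.ext e))
  have hc' : ∀ u ∈ U, u * z = z * u := fun u hu =>
    congrArg Subtype.val (Subgroup.mem_center_iff.1 hc ⟨u, hu⟩)
  obtain ⟨n, hn⟩ := U.2 ⟨z, hz⟩
  haveI : CharP (M4 k) p := Matrix.charP p
  obtain ⟨B, B', hB, e⟩ := jordan (A := ρ z) ⟨p ^ n, by
    rw [sub_pow_char_pow_of_commute p n (Commute.one_right _), ← map_pow,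
      show z ^ p ^ n = 1 from congrArg Subtype.val hn, map_one, one_pow, sub_self]⟩
    fun e => hz1 (nt z e)
  have nt' : ∀ g, (cj hB ρ g - 1) * (cj hB ρ g - 1) = 0 → g = 1 := fun g e => nt g (cj_sq hB e)
  rcases e with e | e
  · obtain ⟨r, t⟩ := exTy h2 nt' U hz hc' (cj_of hB e)
    obtain ⟨rfl, rfl⟩ := t.res (h.cj hB)
    have h3 := not_sq_dvd t.card t.syl
    exact .inl ⟨.of_cj hB (proj5 (orderOf_eq_prime (t.exp z hz) hz1) h3 t.eq), h3, fun _ => le_rfl⟩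
  obtain ⟨r, H, C, C', hC, t⟩ := exT2 (h.cj hB).det nt' U hz hc' (cj_of hB e)
  have h3 := (h.cj hB).cj hC
  have fin : ∀ σ : P →* M4 k, Hy σ → T2 p r σ U H → Np σ U → ∃ ρ' : P →* M4 k, Hy ρ' ∧
      T2 p r ρ' U H ∧ (∀ u ∈ (U : Subgroup P), ρ' u 0 1 = ρ' u 2 3 ∧ ρ' u 0 2 = ρ' u 1 3) ∧
      Np ρ' U ∧ ∀ g, (ρ' g).trace = (σ g).trace := fun σ hσ tσ nσ => by
    obtain ⟨D, D', hD, E, E', hE, t', n', ⟨c1, c2⟩ | c⟩ := tσ.norm nσ
    · exact (Rb.caseb ((hσ.cj hD).cj hE) t' c1 n' c2).elim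
    · exact ⟨_, (hσ.cj hD).cj hE, t', c, n', fun g => by rw [cj_trace, cj_trace]⟩
  by_cases hv : Np (cj hC (cj hB ρ)) U
  · obtain ⟨ρ', a, b, c, d, e⟩ := fin _ h3 t hv
    exact .inr ⟨ρ', r, U, H, a, b, c, d, .inl fun g => by rw [e, cj_trace, cj_trace]⟩
  by_cases hf : Np (du (cj hC (cj hB ρ))) U
  · obtain ⟨ρ', a, b, c, d, e⟩ := fin _ (h3.dl.cj Jm_sq) t.du hf
    exact .inr ⟨ρ', r, U, H, a, b, c, d, .inr fun g => by
      rw [e]
      exact (cj_trace Jm_sq g).trans (by rw [dl_apply, trace_transpose, cj_trace, cj_trace])⟩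
  have h4 := t.small h3 hv fun u hu v hv => by_contra fun e => hf ⟨v⁻¹, inv_mem hv, u⁻¹, inv_mem hu, by
    simp only [du_eq, inv_inv]
    intro e'
    change cj hC (cj hB ρ) v 0 2 * cj hC (cj hB ρ) u 0 1 =
      cj hC (cj hB ρ) u 0 2 * cj hC (cj hB ρ) v 0 1 at e'
    exact e (by linear_combination e')⟩
  have h5 := hp.out.two_le
  have h6 : r * 2 ≤ r * (p - 1) := Nat.mul_le_mul_left r (by omega)
  obtain rfl : r = 1 := by have := t.pos; omega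
  obtain rfl : p = 3 := by omega
  have h7 := not_sq_dvd t.card t.syl
  exact .inl ⟨.of_cj hB (proj3 (orderOf_eq_prime (t.exp z hz) hz1) h7 (cj_of hB e)), h7,
    fun _ => by norm_num⟩

end Cfsg.Agent.L4.R
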