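import Mathlib

/-!
Arithmetic for the weights `κ², μ, κ, 1` with `μ` a Galois conjugate of `κ`.
-/

set_option autoImplicit false

namespace Cfsg.Agent.L4.Rb

open Polynomial

variable {k : Type*} [Field k] {p : ℕ}

/-- A compatible pair of multipliers of a finite additive group is a pair of conjugates. -/
theorem galois [Fact p.Prime] [CharP k p] (A : AddSubgroup (k × k)) {κ μ : k} {r : ℕ}
    (inj : ∀ b, (0, b) ∈ A → b = 0) (cl : ∀ a b, (a, b) ∈ A → (κ * a, μ * b) ∈ A)
    {a₀ b₀ : k} (h0 : (a₀, b₀) ∈ A) (hb : b₀ ≠ 0) (hr : 0 < r) (hκ : κ ^ p ^ r = κ) :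
    ∃ i < r, μ = κ ^ p ^ i := by
  let S : Subring (k × k) :=
    { carrier := {x | ∀ a b, (a, b) ∈ A → (x.1 * a, x.2 * b) ∈ A}
      mul_mem' := fun {x y} hx hy a b h => by
        have := hx _ _ (hy a b h)
        simpa [mul_assoc] using this
      one_mem' := fun a b h => by simpa using h
      add_mem' := fun {x y} hx hy a b h => by
        have := add_mem (hx a b h) (hy a b h)
        simpa [add_mul] using this
      zero_mem' := fun a b h => by
        show ((0 : k) * a, (0 : k) * b) ∈ A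
        rw [zero_mul, zero_mul]; exact A.zero_mem
      neg_mem' := fun {x} hx a b h => by
        have := neg_mem (hx a b h)
        simpa using this }
  let P : k[X] := ∏ i ∈ Finset.range r, (X - C (κ ^ p ^ i))
  have hP : P.map (frobenius k p) = P := by
    have h1 := Finset.prod_range_succ (fun i => (X - C (κ ^ p ^ i) : k[X])) r
    rw [Finset.prod_range_succ', hκ, pow_zero, pow_one] at h1
    refine Eq.trans ?_ (mul_right_cancel₀ (X_sub_C_ne_zero κ) h1)
    rw [Polynomial.map_prod]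
    refine Finset.prod_congr rfl fun i _ => ?_
    rw [Polynomial.map_sub, map_X, map_C, frobenius_def, ← pow_mul, ← pow_succ]
  have hc : ∀ j, (P.coeff j, P.coeff j) ∈ S := fun j => by
    have h1 : P.coeff j ∈ (⊥ : Subfield k) := (Subfield.mem_bot_iff_pow_eq_self k p).2 (by
      have := congrArg (fun q => coeff q j) hP
      simpa [frobenius_def] using this)
    rw [mem_bot_iff_intCast p] at h1
    obtain ⟨n, hn⟩ := h1
    rw [← hn]
    exact intCast_mem S n
  have hS : (P.eval κ, P.eval μ) ∈ S := by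
    have : (P.eval κ, P.eval μ) =
        ∑ j ∈ Finset.range (P.natDegree + 1), (P.coeff j, P.coeff j) * (κ, μ) ^ j := by
      ext <;> simp [eval_eq_sum_range, Prod.fst_sum, Prod.snd_sum]
    rw [this]
    exact sum_mem fun j _ => mul_mem (hc j) (pow_mem (show (κ, μ) ∈ S from cl) j)
  have h1 : P.eval κ = 0 := by
    rw [eval_prod]
    exact Finset.prod_eq_zero (Finset.mem_range.2 hr) (by simp)
  have h2 := hS a₀ b₀ h0
  simp only [h1, zero_mul] at h2
  have h3 := (mul_eq_zero.1 (inj _ h2)).resolve_right hb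
  rw [eval_prod, Finset.prod_eq_zero_iff] at h3
  obtain ⟨i, hi, e⟩ := h3
  exact ⟨i, Finset.mem_range.1 hi, by simpa [sub_eq_zero] using e⟩

/-- A finite additive group stable under `κ` is a line over the field generated by `κ`, or this
field is small. -/
theorem line_or [Fact p.Prime] [CharP k p] (A : AddSubgroup (k × k)) {κ : k} {r : ℕ}
    (hA : Nat.card A = p ^ r) (cl : ∀ a b, (a, b) ∈ A → (κ * a, κ * b) ∈ A)
    {x y : k × k} (hx : x ∈ A) (hy : y ∈ A) (hxy : x.1 * y.2 ≠ x.2 * y.1) :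
    ∃ s, 0 < s ∧ 2 * s ≤ r ∧ κ ^ p ^ s = κ := by
  have hp := (Fact.out : p.Prime)
  have : Finite A := Nat.finite_of_card_ne_zero (hA ▸ (pow_pos hp.pos r).ne')
  let S : Subring k :=
    { carrier := {c | ∀ z ∈ A, c • z ∈ A}
      mul_mem' := fun {c d} hc hd z h => by rw [mul_smul]; exact hc _ (hd z h)
      one_mem' := fun z h => by rwa [one_smul]
      add_mem' := fun {c d} hc hd z h => by rw [add_smul]; exact add_mem (hc z h) (hd z h)
      zero_mem' := fun z _ => by rw [zero_smul]; exact A.zero_mem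
      neg_mem' := fun {c} hc z h => by rw [neg_smul]; exact neg_mem (hc z h) }
  let f : S × S → A := fun c => ⟨c.1.1 • x + c.2.1 • y, add_mem (c.1.2 x hx) (c.2.2 y hy)⟩
  have hf : Function.Injective f := fun c d e => by
    have e := congrArg Subtype.val e
    have e1 := congrArg Prod.fst e
    have e2 := congrArg Prod.snd e
    simp only [f, Prod.fst_add, Prod.smul_fst, smul_eq_mul, Prod.snd_add, Prod.smul_snd] at e1 e2
    have := sub_ne_zero.2 hxy
    ext
    · exact mul_right_cancel₀ this (by linear_combination y.2 * e1 - y.1 * e2)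
    · exact mul_right_cancel₀ this (by linear_combination x.1 * e2 - x.2 * e1)
  have hS : Finite S := (Finite.of_injective f hf |> fun h : Finite (S × S) =>
    Finite.of_injective (fun c : S => (c, c)) fun _ _ e => congrArg Prod.fst e)
  classical
  let _ := Fintype.ofFinite S
  let _ : Field S := Fintype.fieldOfDomain S
  have : CharP S p := S.subtype.charP S.subtype_injective p
  obtain ⟨s, -, hs⟩ := FiniteField.card S p
  have h1 := Nat.card_le_card_of_injective f hf
  rw [Nat.card_prod, hA, Nat.card_eq_fintype_card, hs, ← pow_add,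
    Nat.pow_le_pow_iff_right hp.one_lt] at h1
  refine ⟨s, s.2, by omega, ?_⟩
  have := FiniteField.pow_card (⟨κ, fun z hz => cl z.1 z.2 hz⟩ : S)
  rw [hs] at this
  exact congrArg Subtype.val this

/-- The numerical data. -/
structure Ar (p r i : ℕ) (κ μ w : k) : Prop where
  prime : p.Prime
  odd : p ≠ 2
  two : 2 ≤ r
  ne2 : (2 : k) ≠ 0
  lt : i < r
  mu : μ = κ ^ p ^ i
  kap : κ ^ (p ^ r - 1) = 1
  wm : w * μ = κ ^ 3
  big : ∀ j, 0 < j → w ^ j = 1 → p ^ r ≤ 4 * j + 1

namespace Ar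

variable {r i : ℕ} {κ μ w : k} (h : Ar p r i κ μ w)
include h

theorem three : 3 ≤ p := by have := h.prime.two_le; have := h.odd; omega

theorem nine : 9 ≤ p ^ r :=
  le_trans (Nat.pow_le_pow_left h.three 2) (Nat.pow_le_pow_right h.prime.pos h.two)

theorem k0 : κ ≠ 0 := by
  rintro rfl
  have := h.kap
  rw [zero_pow (by have := h.nine; omega)] at this
  exact zero_ne_one this

theorem m0 : μ ≠ 0 := h.mu ▸ pow_ne_zero _ h.k0

theorem w1 : w ≠ 1 := fun e => by
  have := h.big 1 one_pos (by rw [e, one_pow]); have := h.nine; omega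

theorem oddp (j : ℕ) : Odd (p ^ j) := (h.prime.odd_of_ne_two h.odd).pow

theorem wpow {j : ℕ} (e : κ ^ j = 1) : w ^ j = 1 := by
  have h1 : μ ^ j = 1 := by rw [h.mu, ← pow_mul, mul_comm, pow_mul, e, one_pow]
  have := congrArg (· ^ j) h.wm
  simp only [mul_pow, h1, mul_one] at this
  rw [this, ← pow_mul, mul_comm, pow_mul, e, one_pow]

theorem kr : κ ^ p ^ r = κ := by
  have := h.nine
  rw [show p ^ r = p ^ r - 1 + 1 by omega, pow_succ, h.kap, one_mul]

theorem c2 : μ ≠ κ ^ 3 := fun e => h.w1 (mul_right_cancel₀ h.m0 (by rw [h.wm, e, one_mul]))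

theorem k1 : κ ≠ 1 := fun e => h.c2 (by rw [h.mu, e, one_pow, one_pow])

theorem c1 {j : ℕ} (hj : j = 3 ∨ j = 5 ∨ j = 7) : κ ^ j ≠ 1 := fun e => by
  have h1 := h.big j (by omega) (h.wpow e)
  have h2 : κ ^ Nat.gcd j (p ^ r - 1) = 1 := pow_gcd_eq_one.2 ⟨e, h.kap⟩
  have h3 := h.three
  have h4 := h.two
  have h5 : p ≤ 5 := by
    by_contra hc
    have : 6 ^ 2 ≤ p ^ r := le_trans (Nat.pow_le_pow_left (by omega) 2)
      (Nat.pow_le_pow_right h.prime.pos h.two)
    omega
  have h6 : r ≤ 3 := by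
    by_contra hc
    have : 3 ^ 4 ≤ p ^ r := le_trans (Nat.pow_le_pow_left h3 4)
      (Nat.pow_le_pow_right h.prime.pos (by omega))
    omega
  have h7 := h.prime
  apply h.k1
  interval_cases p <;> interval_cases r <;> rcases hj with rfl | rfl | rfl <;>
    first | omega | (norm_num at h7; done) | simpa using h2

theorem sq_le {j : ℕ} (hj : 2 * j ≤ r) : p ^ j * p ^ j ≤ p ^ r := by
  rw [← pow_add]; exact Nat.pow_le_pow_right h.prime.pos (by omega)

theorem c3 : μ * κ ≠ 1 := fun e => by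
  have h1 : w = κ ^ 4 := mul_right_cancel₀ h.m0 (by rw [h.wm]; linear_combination -κ ^ 3 * e)
  obtain ⟨j, hj, h2⟩ : ∃ j, 2 * j ≤ r ∧ κ ^ (p ^ j + 1) = 1 := by
    by_cases hi : 2 * i ≤ r
    · exact ⟨i, hi, by rw [pow_succ, ← h.mu, e]⟩
    · refine ⟨r - i, by omega, ?_⟩
      have := congrArg (· ^ p ^ (r - i)) e
      simp only [h.mu, mul_pow, ← pow_mul, ← pow_add, one_pow,
        Nat.add_sub_cancel' h.lt.le, h.kr] at this
      rw [pow_succ', this]
  obtain ⟨m, hm⟩ := h.oddp j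
  have h3 := h.big (m + 1) (by omega) (by
    rw [h1, ← pow_mul, show 4 * (m + 1) = (p ^ j + 1) * 2 by omega, pow_mul, h2, one_pow])
  have h4 := h.sq_le hj
  have h5 : m ≤ 1 := by rw [hm] at h4; nlinarith
  apply h.w1
  rw [h1]
  interval_cases m
  · rw [show 4 = (p ^ j + 1) * 2 by omega, pow_mul, h2, one_pow]
  · rw [show 4 = p ^ j + 1 by omega, h2]

theorem c4 : μ ≠ -κ := fun e => by
  have h1 : w = -κ ^ 2 := mul_right_cancel₀ h.m0 (by rw [h.wm, e]; ring)
  have h2 : w ^ p ^ i = w := by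
    rw [h1, (h.oddp i).neg_pow, ← pow_mul, mul_comm, pow_mul, ← h.mu, e, neg_sq]
  have h3 : w ^ p ^ r = w := by
    rw [h1, (h.oddp r).neg_pow, ← pow_mul, mul_comm, pow_mul, h.kr]
  have hw : w ≠ 0 := by rw [h1]; exact neg_ne_zero.2 (pow_ne_zero _ h.k0)
  have hi : i ≠ 0 := by
    rintro rfl
    have h4 : (2 : k) * κ = 0 := by have := h.mu; rw [pow_zero, pow_one, e] at this; linear_combination -this
    exact h.ne2 ((mul_eq_zero.1 h4).resolve_right h.k0)
  obtain ⟨j, hj0, hj, h4⟩ : ∃ j, j ≠ 0 ∧ 2 * j ≤ r ∧ w ^ p ^ j = w := by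
    by_cases hi' : 2 * i ≤ r
    · exact ⟨i, hi, hi', h2⟩
    · refine ⟨r - i, by have := h.lt; omega, by omega, ?_⟩
      have := congrArg (· ^ p ^ (r - i)) h2
      simp only [← pow_mul, ← pow_add, Nat.add_sub_cancel' h.lt.le, h3] at this
      exact this.symm
  have h5 : 3 ≤ p ^ j := le_trans h.three (Nat.le_self_pow hj0 p)
  have h6 := h.big (p ^ j - 1) (by omega) (mul_right_cancel₀ hw (by
    rw [← pow_succ, Nat.sub_add_cancel (by omega), h4, one_mul]))
  have h7 := h.sq_le hj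
  have h8 : p ^ j = 3 := by
    by_contra hc
    obtain ⟨m, hm⟩ : ∃ m, p ^ j = m + 4 := ⟨p ^ j - 4, by omega⟩
    rw [hm] at h6 h7
    have : m + 4 - 1 = m + 3 := by omega
    rw [this] at h6
    nlinarith
  have h9 : p = 3 := by have := Nat.le_self_pow hj0 p; have := h.three; omega
  have h10 : r = 2 := by
    by_contra hc
    have : p ^ 3 ≤ p ^ r := Nat.pow_le_pow_right h.prime.pos (by have := h.two; omega)
    have h11 : p ^ 3 = 27 := by rw [h9]; rfl
    omega
  have h11 : i = 1 := by have := h.lt; omega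
  exact h.c2 (by rw [h.mu, h9, h11, pow_one])

theorem c5 (e : μ = κ) {s : ℕ} (h0 : 0 < s) (hs : 2 * s ≤ r) : κ ^ p ^ s ≠ κ := fun h2 => by
  have h1 : w = κ ^ 2 := mul_right_cancel₀ h.m0 (by rw [h.wm, e]; ring)
  obtain ⟨m, hm⟩ := h.oddp s
  have h5 : 3 ≤ p ^ s := le_trans h.three (Nat.le_self_pow h0.ne' p)
  have h3 := h.big m (by omega) (by
    rw [h1, ← pow_mul]
    exact mul_right_cancel₀ h.k0 (by rw [← pow_succ, ← hm, h2, one_mul]))
  have h4 := h.sq_le hs
  rw [hm] at h4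
  have : 1 ≤ m := by omega
  nlinarith

/-- The odd part of the order of `κ` does not divide `p ^ i - 2` when `w` has odd order. -/
theorem c6 {a d : ℕ} (hd : Odd d) (h1 : orderOf κ = 2 ^ a * d) (h2 : w ^ d = 1) :
    μ ^ 2 ^ a ≠ (κ ^ 2 ^ a) ^ 2 := fun e => by
  have h3 := h.big d hd.pos h2
  have h4 := h.nine
  have h5 : orderOf (κ ^ 2 ^ a) = d := by
    rw [orderOf_pow_of_dvd (by positivity) (h1 ▸ Dvd.intro _ rfl), h1,
      Nat.mul_div_cancel_left _ (by positivity)]
  have h6 : (κ ^ 2 ^ a) ^ p ^ i = (κ ^ 2 ^ a) ^ 2 := by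
    rw [← e, h.mu, ← pow_mul, ← pow_mul, mul_comm]
  have h7 : (κ ^ 2 ^ a) ^ (p ^ r - 1) = 1 := by rw [← pow_mul, mul_comm, pow_mul, h.kap, one_pow]
  have h0 : κ ^ 2 ^ a ≠ 0 := pow_ne_zero _ h.k0
  generalize κ ^ 2 ^ a = x at *
  have h8 : d ∣ p ^ r - 1 := h5 ▸ orderOf_dvd_of_pow_eq_one h7
  rcases Nat.eq_zero_or_pos i with rfl | hi
  · have : x = 1 := mul_left_cancel₀ h0 (by rw [← sq, ← h6]; simp)
    rw [this, orderOf_one] at h5
    omega
  have h9 : 3 ≤ p ^ i := le_trans h.three (Nat.le_self_pow hi.ne' p)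
  have h10 : d ∣ p ^ i - 2 := h5 ▸ orderOf_dvd_of_pow_eq_one (mul_right_cancel₀ (pow_ne_zero 2 h0)
    (by rw [← pow_add, Nat.sub_add_cancel (by omega), h6, one_mul]))
  have h11 := Nat.le_of_dvd (by omega) h10
  obtain ⟨c, rfl⟩ : ∃ c, r = i + 1 + c := ⟨r - (i + 1), by have := h.lt; omega⟩
  have h12 : p ^ (i + 1 + c) = p ^ i * (p * p ^ c) := by ring
  have h13 : p * p ^ c ≤ 3 := by
    by_contra hc
    have : p ^ i * 4 ≤ p ^ i * (p * p ^ c) := Nat.mul_le_mul_left _ (by omega)
    omega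
  have h14 : p * p ^ c = 3 := by
    have := h.three
    have : 1 ≤ p ^ c := Nat.one_le_pow _ _ h.prime.pos
    nlinarith
  rw [h12, h14] at h3 h8
  have h15 : d ∣ 5 := by
    have := Nat.dvd_sub h8 (h10.mul_right 3)
    rwa [show p ^ i * 3 - 1 - (p ^ i - 2) * 3 = 5 by omega] at this
  have h16 := Nat.le_of_dvd (by norm_num) h15
  have h17 : 3 ∣ p ^ i := by
    have : p = 3 := by
      have := h.three
      have : 1 ≤ p ^ c := Nat.one_le_pow _ _ h.prime.pos
      nlinarith
    exact this ▸ dvd_pow_self p hi.ne'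
  have h18 := h.oddp i
  have h19 : p ^ i = 3 := by rw [Nat.odd_iff] at h18; omega
  rw [h19] at h11 h3
  omega

end Ar

end Cfsg.Agent.L4.Rb
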