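import Cfsg.Agent.L4.Rb1
import Cfsg.Agent.L4.H0

/-!
A cyclic group with weights `κ², μ, κ, 1` has a normaliser permuting the weights.
-/

set_option autoImplicit false

namespace Cfsg.Agent.L4.Rb

open Matrix Subgroup Cfsg.Agent.L4.H

/-- Burnside: a self-centralising situation produces a larger normaliser. -/
theorem exists_norm {Γ : Type*} [Group Γ] [Finite Γ] [IsSimpleGroup Γ]
    (hna : ∃ a b : Γ, a * b ≠ b * a) {h : Γ} {l a m : ℕ} (hl : l.Prime) (ha : 0 < a)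
    (hm : ¬ l ∣ m) (ho : orderOf h = l ^ a * m) (hc : ∀ c, c * h ^ m = h ^ m * c → c ∈ zpowers h) :
    ∃ n, n ∉ zpowers h ∧ n * h * n⁻¹ ∈ zpowers h := by
  have := Fact.mk hl
  have hm0 : m ≠ 0 := by rintro rfl; exact hm (dvd_zero l)
  have h1 : orderOf (h ^ m) = l ^ a := by
    rw [orderOf_pow_of_dvd hm0 (ho ▸ Dvd.intro_left _ rfl), ho,
      Nat.mul_div_cancel _ (Nat.pos_of_ne_zero hm0)]
  by_contra hn
  push Not at hn
  have h2 : ∀ n : Γ, n ∈ normalizer (zpowers (h ^ m) : Set Γ) → n ∈ zpowers h := fun n e => by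
    by_contra e'
    refine hn n e' (hc _ ?_)
    obtain ⟨j, hj⟩ := (mem_normalizer_iff''.1 e (h ^ m)).1 (mem_zpowers _)
    have hj : (h ^ m) ^ j = n⁻¹ * h ^ m * n := hj
    have h3 : h * (n⁻¹ * h ^ m * n) = n⁻¹ * h ^ m * n * h := by
      rw [← hj]; exact (((Commute.refl h).pow_right m).zpow_right j).eq
    calc n * h * n⁻¹ * h ^ m = n * (h * (n⁻¹ * h ^ m * n)) * n⁻¹ := by group
      _ = _ := by rw [h3]; group
  have h3 : IsPGroup l (zpowers (h ^ m)) := IsPGroup.of_card (by rw [Nat.card_zpowers, h1])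
  obtain ⟨P, hP⟩ := h3.exists_le_sylow
  have h4 : (P : Subgroup Γ) ⊓ zpowers h ≤ zpowers (h ^ m) := by
    rintro x ⟨e1, j, rfl⟩
    obtain ⟨b, hb⟩ := P.isPGroup' ⟨_, e1⟩
    have hb : (h ^ j) ^ l ^ b = 1 := congrArg Subtype.val hb
    rw [← zpow_natCast, ← _root_.zpow_mul, ← orderOf_dvd_iff_zpow_eq_one, ho] at hb
    have h5 : (m : ℤ) ∣ j := by
      have h6 : IsCoprime (m : ℤ) ((l ^ b : ℕ) : ℤ) := Nat.isCoprime_iff_coprime.2
        (((Nat.Prime.coprime_iff_not_dvd hl).2 hm).symm.pow_right b)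
      exact h6.dvd_of_dvd_mul_right (Dvd.dvd.trans (by push_cast; exact Dvd.intro_left _ rfl) hb)
    obtain ⟨c, rfl⟩ := h5
    exact ⟨c, by show (h ^ m) ^ c = h ^ (m * c); rw [_root_.zpow_mul, zpow_natCast]⟩
  have h5 : (P : Subgroup Γ) = zpowers (h ^ m) := by
    have := P.isPGroup'.isNilpotent
    have h6 := Group.normalizerCondition_of_isNilpotent (G := P)
    rw [normalizerCondition_iff_only_full_group_self_normalizing] at h6
    refine le_antisymm (subgroupOf_eq_top.1 (h6 _ (le_antisymm (fun x hx => ?_) le_normalizer))) hP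
    rw [← subgroupOf_normalizer_eq hP] at hx
    exact h4 ⟨x.2, h2 x hx⟩
  have h6 : normalizer ((P : Subgroup Γ) : Set Γ) ≤ centralizer (P : Subgroup Γ) := fun n e => by
    rw [h5] at e ⊢
    obtain ⟨j, rfl⟩ := h2 n e
    rintro _ ⟨c, rfl⟩
    exact ((((Commute.refl h).pow_left m).zpow_left c).zpow_right j).eq
  have h7 := MonoidHom.ker_transferSylow_isComplement' P h6
  rcases (MonoidHom.normal_ker (MonoidHom.transferSylow P h6)).eq_bot_or_eq_top with e | e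
  · rw [e, isComplement'_bot_left, h5] at h7
    obtain ⟨x, y, hxy⟩ := hna
    obtain ⟨c, rfl⟩ := h7.ge (mem_top x)
    obtain ⟨d, rfl⟩ := h7.ge (mem_top y)
    exact hxy ((Commute.refl _).zpow_zpow c d).eq
  · rw [e, isComplement'_top_left, h5, zpowers_eq_bot] at h7
    rw [h7, orderOf_one] at h1
    exact (Nat.one_lt_pow ha.ne' hl.one_lt).ne h1

variable {k : Type*} [Field k]

theorem dg_eq (θ : Fin 4 → k) : dg (θ 0) (θ 1) (θ 2) (θ 3) = diagonal θ := by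
  ext i j; fin_cases i <;> fin_cases j <;> simp

theorem entry {A : Mt k} {θ η : Fin 4 → k} {c : k} (e : A * diagonal θ = c • (diagonal η * A))
    {i j : Fin 4} (h : A i j ≠ 0) : θ j = c * η i := by
  have := congrFun (congrFun e i) j
  rw [mul_diagonal, Matrix.smul_apply, diagonal_mul, smul_eq_mul] at this
  exact mul_left_cancel₀ h (by rw [this]; ring)

theorem exists_perm {A : Mt k} (h : A.det ≠ 0) : ∃ σ : Equiv.Perm (Fin 4), ∀ i, A (σ i) i ≠ 0 := by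
  by_contra hc
  push Not at hc
  refine h (by
    rw [det_apply]
    exact Finset.sum_eq_zero fun σ _ => by
      obtain ⟨i, hi⟩ := hc σ
      rw [Finset.prod_eq_zero (f := fun i => A (σ i) i) (Finset.mem_univ i) hi, smul_zero])

theorem alg {κ μ ν : k} (h2 : μ ≠ κ ^ 2) (h3 : μ ≠ κ) (h4 : μ ≠ -κ) (h5 : μ * κ ≠ 1)
    (h6 : μ ≠ κ ^ 3) (h7 : κ ^ 3 ≠ 1) (h8 : κ ^ 5 ≠ 1) (h9 : κ ^ 7 ≠ 1) (h10 : κ ≠ 0)
    (h11 : μ ≠ 0) (h12 : μ ≠ 1) {α δ β γ : Fin 4} (d01 : α ≠ δ) (d02 : α ≠ β) (d03 : α ≠ γ)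
    (d12 : δ ≠ β) (d13 : δ ≠ γ) (d23 : β ≠ γ) (hg : ¬ (α = 0 ∧ γ = 3))
    (R1 : ![κ ^ 2, μ, κ, 1] α * ![κ ^ 2, μ, κ, 1] γ = ![κ ^ 2, μ, κ, 1] β ^ 2)
    (R2 : ![μ ^ 2, ν, μ, 1] α * ![μ ^ 2, ν, μ, 1] γ = ![μ ^ 2, ν, μ, 1] β ^ 2)
    (R3 : ![κ ^ 2, μ, κ, 1] δ * ![μ ^ 2, ν, μ, 1] γ = ![κ ^ 2, μ, κ, 1] γ * ![μ ^ 2, ν, μ, 1] β) :
    False := by
  have a1 : κ ^ 3 = μ ^ 2 → μ ^ 3 = ν ^ 2 → μ = κ * ν → False := fun a b c => by
    have : μ * κ ^ 2 = 1 := mul_left_cancel₀ (pow_ne_zero 2 h11)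
      (by linear_combination κ ^ 2 * b - (μ + κ * ν) * c)
    exact h9 (by linear_combination κ ^ 4 * a + (μ * κ ^ 2 + 1) * this)
  have a2 : κ ^ 2 * μ = 1 → μ ^ 2 * ν = 1 → κ * ν = μ → False := fun a b c => by
    have : κ = μ ^ 3 := by linear_combination μ ^ 2 * c - κ * b
    exact h9 (by linear_combination κ ^ 6 * this +
      ((κ ^ 2 * μ) ^ 2 + κ ^ 2 * μ + 1) * a)
  have a0 : μ ^ 2 ≠ κ ^ 2 := fun e => (sq_eq_sq_iff_eq_or_eq_neg.1 e).elim h3 h4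
  have c1 := fun x y : k => mul_left_cancel₀ (b := x) (c := y) h10
  have c2 := fun x y : k => mul_left_cancel₀ (b := x) (c := y) (pow_ne_zero 2 h10)
  have c3 := fun x y : k => mul_left_cancel₀ (b := x) (c := y) h11
  fin_cases α <;> fin_cases β <;> fin_cases γ <;> fin_cases δ <;>
    first
    | exact d01 rfl | exact d02 rfl | exact d03 rfl | exact d12 rfl | exact d13 rfl | exact d23 rfl
    | exact hg ⟨rfl, rfl⟩
    | simp only [Fin.reduceFinMk, cons_val, cons_val_zero, cons_val_one] at R1 R2 R3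
  · exact a1 (by linear_combination R1) (by linear_combination R2) (by linear_combination R3)
  · exact h12 (c2 _ _ (by linear_combination R1))
  · exact a2 (by linear_combination R1) (by linear_combination R2) (by linear_combination R3)
  · exact h7 (by linear_combination R1)
  · exact h5 (c3 _ _ (by linear_combination -R3))
  · exact h9 (c1 _ _ (by linear_combination (-(μ + κ ^ 4)) * R1 - R3))
  · exact h12 (c2 _ _ (by linear_combination R1))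
  · exact h2 (by linear_combination R1)
  · exact h8 (c1 _ _ (by linear_combination κ * (μ * κ ^ 2 + 1) * R1 - κ ^ 4 * R3))
  · exact h5 (by linear_combination R1)
  · exact h6 (c1 _ _ (by linear_combination R1))
  · exact h7 (c1 _ _ (by linear_combination -R1))
  · have e : ν = κ := c2 _ _ (by linear_combination -R3 - R1)
    exact h5 (c2 _ _ (by linear_combination μ * R1 + R2 + (ν + κ) * e))
  · exact h9 (c1 _ _ (by
      linear_combination (κ ^ 2 + ν) * (κ ^ 4 + ν ^ 2) * R3 - (μ + ν ^ 2) * R2 - R1))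
  · exact h7 (by linear_combination R1)
  · exact h5 (by linear_combination R1)
  · exact h5 (mul_left_cancel₀ (pow_ne_zero 3 h11) (by linear_combination R3 - κ * R2))
  · exact h7 (c1 _ _ (by linear_combination -R1))
  · exact a0 (by linear_combination -R1)
  · have e : κ * μ = ν := c1 _ _ (by linear_combination R3)
    have e2 : κ ^ 2 * μ = 1 := c3 _ _ (by linear_combination (κ * μ + ν) * e - R2)
    exact h8 (by linear_combination κ ^ 4 * R1 + (κ ^ 2 * μ + 1) * e2)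
  · exact a0 (c3 _ _ (by linear_combination R3))
  · exact h2 (by linear_combination R1)

variable {Γ : Type*} [Group Γ] {p r i : ℕ} {κ μ w : k}

/-- The stabiliser of the first point and of the last plane. -/
def Fl (A : Mt k) : Prop := A 1 0 = 0 ∧ A 2 0 = 0 ∧ A 3 0 = 0 ∧ A 3 1 = 0 ∧ A 3 2 = 0

theorem fl_of {A : Mt k} {x y x' y' : k} (e : A * diagonal ![x ^ 2, y, x, 1] =
    (1 : k) • (diagonal ![x' ^ 2, y', x', 1] * A)) (h0 : x ^ 2 = x' ^ 2) (h1 : x' ^ 2 ≠ y')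
    (h2 : x' ^ 2 ≠ x') (h3 : x' ^ 2 ≠ 1) (h4 : y ≠ 1) (h5 : x ≠ 1) : Fl A := by
  refine ⟨?_, ?_, ?_, ?_, ?_⟩ <;> by_contra hc <;> have := entry e hc <;> simp at this
  exacts [h1 (h0 ▸ this), h2 (h0 ▸ this), h3 (by rw [← h0, sq_eq_one_iff.2 this]),
    h4 this, h5 this]

/-- The data of the theorem. -/
structure Cy (ρ : PR Γ k) (p r i : ℕ) (κ μ w : k) (h : Γ) : Prop extends Ar p r i κ μ w where
  lift : ρ.L h (dg (κ ^ 2) μ κ 1)
  bor : ∀ g A, ρ.L g A → Fl A → ∀ j : ℕ, h ^ j ≠ 1 → g * h ^ j * g⁻¹ ∈ zpowers h → g ∈ zpowers h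
  lin : μ = κ → ∃ s, 0 < s ∧ 2 * s ≤ r ∧ κ ^ p ^ s = κ

namespace Cy

variable {ρ : PR Γ k} {h : Γ} (c : Cy ρ p r i κ μ w h)
include c

theorem lift_pow (j : ℕ) : ρ.L (h ^ j) (diagonal ![(κ ^ j) ^ 2, (κ ^ j) ^ p ^ i, κ ^ j, 1]) := by
  have := ρ.pow c.lift j
  rw [dg_pow, c.mu, ← pow_mul, mul_comm, pow_mul, ← pow_mul κ (p ^ i), mul_comm, pow_mul,
    one_pow] at this
  rwa [← dg_eq]

theorem pow_eq_one {j : ℕ} : h ^ j = 1 ↔ κ ^ j = 1 := by
  rw [ρ.eq_one_iff (c.lift_pow j)]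
  constructor
  · rintro ⟨a, e⟩
    have h1 := congrFun (congrFun e 2) 2
    have h2 := congrFun (congrFun e 3) 3
    simp at h1 h2
    rw [h1, h2]
  · intro e
    exact ⟨1, by rw [e]; ext i j; fin_cases i <;> fin_cases j <;> simp⟩

theorem order : orderOf h = orderOf κ := orderOf_eq_orderOf_iff.2 fun _ => c.pow_eq_one

theorem frob_ne {x : k} (h0 : x ^ (p ^ r - 1) = 1) (h1 : x ≠ 1) : x ^ p ^ i ≠ 1 := fun e => by
  have h2 : (p ^ i).Coprime (p ^ r - 1) := by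
    refine Nat.Coprime.pow_left _ ((Nat.Prime.coprime_iff_not_dvd c.prime).2 fun e => ?_)
    have h3 := c.nine
    have := (Nat.dvd_sub_iff_right (by omega) (dvd_pow_self p (by have := c.two; omega))).1 e
    exact c.prime.one_lt.ne' (Nat.dvd_one.1 this)
  have := pow_gcd_eq_one.2 ⟨e, h0⟩
  rw [h2, pow_one] at this
  exact h1 this

theorem kap_pow (m : ℕ) : (κ ^ m) ^ (p ^ r - 1) = 1 := by
  rw [← pow_mul, mul_comm, pow_mul, c.kap, one_pow]

theorem mem_of {m : ℕ} {g : Γ} {A : Mt k} (hA : ρ.L g A) (hg : g * h ^ m = h ^ m * g)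
    (e : A * diagonal ![(κ ^ m) ^ 2, (κ ^ m) ^ p ^ i, κ ^ m, 1] =
      (1 : k) • (diagonal ![(κ ^ m) ^ 2, (κ ^ m) ^ p ^ i, κ ^ m, 1] * A))
    (h1 : (κ ^ m) ^ p ^ i ≠ (κ ^ m) ^ 2) (h2 : (κ ^ m) ^ 2 ≠ 1) : g ∈ zpowers h := by
  have h3 : κ ^ m ≠ 1 := fun e => h2 (by rw [e, one_pow])
  refine c.bor g A hA (fl_of e rfl h1.symm (fun e => h3 (mul_left_cancel₀ (pow_ne_zero m c.k0)
    (by rw [← sq, e, mul_one]))) h2 (c.frob_ne (c.kap_pow m) h3) h3) m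
    (mt c.pow_eq_one.1 h3) ?_
  rw [hg, mul_inv_cancel_right]
  exact pow_mem (mem_zpowers h) m

theorem exists_lam {m : ℕ} {g : Γ} (hg : g * h ^ m = h ^ m * g) : ∃ A l, ρ.L g A ∧ l ^ 4 = 1 ∧
    A * diagonal ![(κ ^ m) ^ 2, (κ ^ m) ^ p ^ i, κ ^ m, 1] =
      (l : k) • (diagonal ![(κ ^ m) ^ 2, (κ ^ m) ^ p ^ i, κ ^ m, 1] * A) := by
  obtain ⟨A, hA⟩ := ρ.ex g
  obtain ⟨l, hl⟩ := (ρ.conj_iff hA (c.lift_pow m) (c.lift_pow m)).1 (mul_inv_eq_iff_eq_mul.2 hg)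
  refine ⟨A, l, hA, ?_, hl⟩
  have := congrArg det hl
  rw [det_smul, det_mul, det_mul, mul_comm A.det, Fintype.card_fin] at this
  exact mul_right_cancel₀ (mul_ne_zero (ρ.det (c.lift_pow m)) (ρ.det hA))
    (by rw [← this, one_mul])

theorem cent_odd {m n : ℕ} (hn : Odd n) (h1 : (κ ^ m) ^ n = 1) (h0 : κ ^ m ≠ 1)
    (h2 : (κ ^ m) ^ p ^ i ≠ (κ ^ m) ^ 2) (g : Γ) (hg : g * h ^ m = h ^ m * g) : g ∈ zpowers h := by
  obtain ⟨A, l, hA, h3, e⟩ := c.exists_lam hg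
  obtain ⟨σ, hσ⟩ := exists_perm (ρ.det hA)
  have h4 := congrArg (· ^ n) (entry e (hσ 3))
  have h5 : ∀ j, (![(κ ^ m) ^ 2, (κ ^ m) ^ p ^ i, κ ^ m, 1] : Fin 4 → k) j ^ n = 1 := fun j => by
    have : ∀ a, ((κ ^ m) ^ a) ^ n = 1 := fun a => by
      rw [← pow_mul, mul_comm, pow_mul, h1, one_pow]
    fin_cases j
    exacts [this 2, this _, h1, one_pow n]
  simp only [mul_pow, h5, mul_one] at h4
  have h6 := pow_gcd_eq_one.2 ⟨h3, h4.symm⟩
  rw [show Nat.gcd 4 n = 1 from (Nat.coprime_two_left.2 hn).pow_left 2, pow_one] at h6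
  refine c.mem_of hA hg (h6 ▸ e) h2 fun e => h0 ?_
  have h7 := pow_gcd_eq_one.2 ⟨e, h1⟩
  rwa [show Nat.gcd 2 n = 1 from Nat.coprime_two_left.2 hn, pow_one] at h7

theorem ne_sq {x : k} {a : ℕ} (h1 : x ^ 2 ^ a = 1) (h0 : x ≠ 1) : x ^ p ^ i ≠ x ^ 2 := fun e => by
  have hx : x ≠ 0 := by rintro rfl; simp at h1
  have h2 : x ^ (p ^ i + (2 ^ (a + 1) - 2)) = 1 := by
    have h3 : 2 ≤ 2 ^ (a + 1) := Nat.le_self_pow (by omega) 2
    rw [pow_add, e, ← pow_add, Nat.add_sub_cancel' h3, pow_succ, pow_mul, h1, one_pow]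
  have h3 : Odd (p ^ i + (2 ^ (a + 1) - 2)) := (c.oddp i).add_even ⟨2 ^ a - 1, by
    have := Nat.one_le_two_pow (n := a); rw [pow_succ]; omega⟩
  have h4 := pow_gcd_eq_one.2 ⟨h1, h2⟩
  rw [show Nat.gcd (2 ^ a) _ = 1 from (Nat.coprime_two_left.2 h3).pow_left a, pow_one] at h4
  exact h0 h4

theorem cent_two {m a : ℕ} (h1 : (κ ^ m) ^ 2 ^ a = 1) (h2 : (κ ^ m) ^ p ^ i ≠ (κ ^ m) ^ 3)
    (g : Γ) (hg : g * h ^ m = h ^ m * g) : g ∈ zpowers h := by
  obtain ⟨A, l, hA, h3, e⟩ := c.exists_lam hg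
  have h0 := pow_ne_zero m c.k0
  have hk := c.kap_pow m
  have h4 : (κ ^ m) ^ 2 ≠ 1 := fun e => h2 (by
    obtain ⟨b, hb⟩ := c.oddp i
    rw [hb, pow_succ, pow_mul, e, one_pow, pow_succ, e])
  have h5 : ∀ B : Mt k, B.det ≠ 0 → B * diagonal ![(κ ^ m) ^ 2, (κ ^ m) ^ p ^ i, κ ^ m, 1] ≠
      (-1 : k) • (diagonal ![(κ ^ m) ^ 2, (κ ^ m) ^ p ^ i, κ ^ m, 1] * B) := fun B hB e => by
    obtain ⟨σ, hσ⟩ := exists_perm hB
    have e3 := entry e (hσ 3)
    have e2 := entry e (hσ 2)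
    generalize κ ^ m = x at *
    have h6 : (x ^ p ^ i) ^ 2 ≠ 1 := by
      rw [← pow_mul, mul_comm, pow_mul]
      exact c.frob_ne (by rw [← pow_mul, mul_comm, pow_mul, hk, one_pow]) h4
    generalize x ^ p ^ i = y at *
    have h7 := c.ne2
    generalize σ 3 = s at e3
    generalize σ 2 = t at e2
    fin_cases s <;> fin_cases t <;> simp at e3 e2 <;> grind
  by_cases h6 : l = 1
  · exact c.mem_of hA hg (h6 ▸ e) (c.ne_sq h1 fun e => h4 (by rw [e, one_pow])) h4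
  by_cases h7 : l = -1
  · exact absurd (h7 ▸ e) (h5 A (ρ.det hA))
  refine absurd ?_ (h5 (A * A) (ρ.det (ρ.mul hA hA)))
  rw [mul_assoc, e, mul_smul_comm, ← mul_assoc, e, smul_mul_assoc, smul_smul, mul_assoc,
    show l * l = -1 by grind]

theorem exists_n [Finite Γ] [IsSimpleGroup Γ] (hna : ∃ a b : Γ, a * b ≠ b * a) :
    μ ≠ κ ^ 2 ∧ ∃ n, n ∉ zpowers h ∧ n * h * n⁻¹ ∈ zpowers h := by
  have hd : orderOf κ ≠ 0 := c.order ▸ (orderOf_pos h).ne'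
  have key : ∀ m, (κ ^ m) ^ p ^ i ≠ (κ ^ m) ^ 2 → μ ≠ κ ^ 2 := fun m e e' => e (by
    rw [← pow_mul, mul_comm, pow_mul, ← c.mu, e', ← pow_mul, mul_comm, pow_mul])
  obtain ⟨a, d, h1, h2⟩ := Nat.exists_eq_pow_mul_and_not_dvd hd 2 (by norm_num)
  have h3 : (κ ^ d) ^ 2 ^ a = 1 := by rw [← pow_mul, mul_comm, ← h2, pow_orderOf_eq_one]
  by_cases h4 : (κ ^ d) ^ p ^ i = (κ ^ d) ^ 3
  swap
  · have h5 : κ ^ d ≠ 1 := fun e => h4 (by rw [e, one_pow, one_pow])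
    exact ⟨key d (c.ne_sq h3 h5), exists_norm hna Nat.prime_two (Nat.pos_of_ne_zero (by
      rintro rfl; exact h5 (by simpa using h3))) h1 (c.order.trans h2) (c.cent_two h3 h4)⟩
  have hμ : ∀ m, μ ^ m = (κ ^ m) ^ p ^ i := fun m => by
    rw [c.mu, ← pow_mul, mul_comm, pow_mul]
  have h5 : w ^ d = 1 := mul_right_cancel₀ (pow_ne_zero d c.m0) (by
    rw [← mul_pow, c.wm, one_mul, hμ, h4, ← pow_mul, mul_comm, pow_mul])
  have h6 := c.c6 (Nat.odd_iff.2 (by omega)) h2 h5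
  have h7 : orderOf ((μ / κ ^ 2) ^ 2 ^ a) ≠ 1 := fun e => h6 (by
    rw [orderOf_eq_one_iff, div_pow, div_eq_one_iff_eq (pow_ne_zero _ (pow_ne_zero _ c.k0))] at e
    rw [e, ← pow_mul, mul_comm, pow_mul])
  obtain ⟨l, hl, h8⟩ := Nat.exists_prime_and_dvd h7
  obtain ⟨b, m, h9, h10⟩ := Nat.exists_eq_pow_mul_and_not_dvd hd l hl.one_lt.ne'
  have h11 : (κ ^ m) ^ l ^ b = 1 := by rw [← pow_mul, mul_comm, ← h10, pow_orderOf_eq_one]
  have h12 : (κ ^ m) ^ p ^ i ≠ (κ ^ m) ^ 2 := fun e => h9 (h8.trans (orderOf_dvd_of_pow_eq_one (by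
    rw [← pow_mul, mul_comm, pow_mul, div_pow, hμ, e, ← pow_mul κ 2, mul_comm 2, pow_mul,
      div_self (pow_ne_zero _ (pow_ne_zero _ c.k0)), one_pow])))
  have h13 : l ≠ 2 := by
    rintro rfl
    refine h1 (h8.trans (orderOf_dvd_of_pow_eq_one ?_))
    have : κ ^ (2 ^ a * d) = 1 := h2 ▸ pow_orderOf_eq_one κ
    rw [← pow_mul, div_pow, hμ, ← pow_mul κ 2, mul_comm 2, pow_mul κ _ 2, this]
    simp
  have h14 : κ ^ m ≠ 1 := fun e => h12 (by rw [e, one_pow, one_pow])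
  exact ⟨key m h12, exists_norm hna hl (Nat.pos_of_ne_zero (by
    rintro rfl; exact h14 (by simpa using h11))) h9 (c.order.trans h10)
    (c.cent_odd (hl.odd_of_ne_two h13).pow h11 h14 h12)⟩

theorem false [Finite Γ] [IsSimpleGroup Γ] (hna : ∃ a b : Γ, a * b ≠ b * a) : False := by
  obtain ⟨h2, n, h0, h1⟩ := c.exists_n hna
  obtain ⟨s, hs⟩ := (mem_powers_iff_mem_zpowers.2 h1 : _ ∈ Submonoid.powers h)
  obtain ⟨A, hA⟩ := ρ.ex n
  obtain ⟨l, e⟩ := (ρ.conj_iff hA (c.lift_pow 1) (c.lift_pow s)).1 (by rw [pow_one]; exact hs.symm)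
  rw [pow_one, ← c.mu] at e
  obtain ⟨σ, hσ⟩ := exists_perm (ρ.det hA)
  have h3 : μ ≠ κ := fun e => by
    obtain ⟨s, a, b, d⟩ := c.lin e
    exact c.c5 e a b d
  have h4 := c.c4
  have h5 := c.c3
  have h6 := c.c2
  have h7 := c.c1 (j := 3) (by omega)
  have h8 := c.c1 (j := 5) (by omega)
  have h9 := c.c1 (j := 7) (by omega)
  have h10 := c.k0
  have h11 := c.m0
  have h12 : μ ≠ 1 := c.mu ▸ c.frob_ne c.kap c.k1
  have E : ∀ j, (![κ ^ 2, μ, κ, 1] : Fin 4 → k) (σ.symm j) =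
      l * (![(κ ^ s) ^ 2, (κ ^ s) ^ p ^ i, κ ^ s, 1] : Fin 4 → k) j := fun j => by
    have := entry e (hσ (σ.symm j))
    rwa [σ.apply_symm_apply] at this
  have F : ∀ j, (![κ ^ 2, μ, κ, 1] : Fin 4 → k) j ^ p ^ i =
      (![μ ^ 2, μ ^ p ^ i, μ, 1] : Fin 4 → k) j := fun j => by
    fin_cases j
    · show (κ ^ 2) ^ p ^ i = μ ^ 2
      rw [c.mu, ← pow_mul, mul_comm, pow_mul]
    exacts [rfl, c.mu.symm, one_pow _]
  have E0 : _ = l * (κ ^ s) ^ 2 := E 0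
  have E1 : _ = l * (κ ^ s) ^ p ^ i := E 1
  have E2 : _ = l * κ ^ s := E 2
  have E3 : _ = l * 1 := E 3
  by_cases hg : σ.symm 0 = 0 ∧ σ.symm 3 = 3
  · rw [hg.1] at E0
    rw [hg.2] at E3
    obtain rfl : l = 1 := by simpa using E3.symm
    have h13 : κ ^ 2 = (κ ^ s) ^ 2 := by simpa using E0
    have h14 : ∀ j, (κ ^ s) ^ j = 1 → κ ^ j = 1 := fun j e => by
      rw [← pow_mul, ← c.pow_eq_one, pow_mul, show h ^ s = _ from hs, conj_pow,
        conj_eq_one_iff] at e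
      exact c.pow_eq_one.1 e
    have h15 : κ ^ 2 ≠ 1 := fun e => h3 (by
      obtain ⟨b, hb⟩ := c.oddp i
      rw [c.mu, hb, pow_succ, pow_mul, e, one_pow, one_mul])
    refine h0 (c.bor n A hA (fl_of e h13 (fun e => ?_) (fun e => ?_) (h13 ▸ h15) h12 c.k1) 1
      (mt c.pow_eq_one.1 (by rw [pow_one]; exact c.k1)) (by rwa [pow_one]))
    · have h16 : σ.symm 1 = 1 ∨ σ.symm 1 = 2 := by
        have a := σ.symm.injective.ne (show (1 : Fin 4) ≠ 0 by decide)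
        have b := σ.symm.injective.ne (show (1 : Fin 4) ≠ 3 by decide)
        rw [hg.1] at a
        rw [hg.2] at b
        omega
      rw [← e, ← h13] at E1
      rcases h16 with f | f <;> rw [f] at E1 <;> simp at E1 <;> grind
    · exact c.k1 (by simpa using h14 1 (by grind))
  have G0 := congrArg (· ^ p ^ i) E0
  have G2 := congrArg (· ^ p ^ i) E2
  have G3 := congrArg (· ^ p ^ i) E3
  simp only [F, mul_pow, one_pow] at G0 G2 G3
  rw [← pow_mul, mul_comm 2, pow_mul] at G0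
  have d01 := σ.symm.injective.ne (show (0 : Fin 4) ≠ 1 by decide)
  have d02 := σ.symm.injective.ne (show (0 : Fin 4) ≠ 2 by decide)
  have d03 := σ.symm.injective.ne (show (0 : Fin 4) ≠ 3 by decide)
  have d12 := σ.symm.injective.ne (show (1 : Fin 4) ≠ 2 by decide)
  have d13 := σ.symm.injective.ne (show (1 : Fin 4) ≠ 3 by decide)
  have d23 := σ.symm.injective.ne (show (2 : Fin 4) ≠ 3 by decide)
  have R1 := congrArg₂ (· * ·) E0 E3
  have R2 := congrArg₂ (· * ·) G0 G3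
  have R3 := congrArg₂ (· * ·) E1 G3
  rw [show ∀ x : k, l * x ^ 2 * (l * 1) = (l * x) ^ 2 from fun x => by ring, ← E2] at R1
  rw [show ∀ x y : k, x * y ^ 2 * (x * 1) = (x * y) ^ 2 from fun x y => by ring, ← G2] at R2
  rw [show ∀ x y : k, l * x * (y * 1) = l * 1 * (y * x) from fun x y => by ring, ← G2, ← E3] at R3
  exact alg h2 h3 h4 h5 h6 h7 h8 h9 h10 h11 h12 d01 d02 d03 d12 d13 d23 hg R1 R2 R3

end Cy

end Cfsg.Agent.L4.Rb
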