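import Cfsg.Agent.L4.R0

/-!
Reduction of a complex representation of degree four modulo two.
-/

set_option autoImplicit false
set_option linter.unusedSectionVars false

namespace Cfsg.Agent.L4.Lift
open Matrix Cfsg.Agent.L4.R

theorem exists_val : ∃ O : ValuationSubring ℂ, (2 : ℂ) ∈ O.nonunits := by
  obtain ⟨O, -, h⟩ := Ideal.image_subset_nonunits_valuationSubring (K := ℂ) (A := ⊥)
    (Ideal.span {2}) (by
      rw [Ne, Ideal.span_singleton_eq_top, isUnit_iff_exists_inv]
      rintro ⟨⟨_, n, rfl⟩, e⟩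
      have e1 : ((2 * n : ℤ) : ℂ) = ((1 : ℤ) : ℂ) := by
        have := congrArg Subtype.val e
        push_cast
        exact this
      have := Int.cast_injective e1
      omega)
  exact ⟨O, h ⟨2, Ideal.mem_span_singleton_self _, rfl⟩⟩

/-- An integral form over a valuation ring. -/
theorem exists_form {P : Type*} [Group P] [Finite P] (O : ValuationSubring ℂ) (ρ : P →* M4 ℂ) :
    ∃ (σ : P →* M4 O) (B : M4 ℂ), IsUnit B ∧ ∀ g, ρ g * B = B * (σ g).map O.subtype := by
  let v : P × Fin 4 → Fin 4 → ℂ := fun t => ρ t.1 *ᵥ Pi.single t.2 1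
  let L : Submodule O (Fin 4 → ℂ) := Submodule.span O (Set.range v)
  haveI : Module.Finite O L := Module.Finite.span_of_finite O (Set.finite_range v)
  haveI : Module.Flat O L := Module.Flat.flat_iff_torsion_eq_bot_of_isBezout.2
    (Submodule.isTorsionFree_iff_torsion_eq_bot.1 inferInstance)
  haveI : Module.Free O L := Module.free_of_flat_of_isLocalRing
  let b₀ := Module.Free.chooseBasis O L
  have h1 : LinearIndependent ℂ fun i => (b₀ i : Fin 4 → ℂ) :=
    (LinearIndependent.iff_fractionRing O ℂ).1 (b₀.linearIndependent.map' L.subtype L.ker_subtype)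
  have h2 : ⊤ ≤ Submodule.span ℂ (Set.range fun i => (b₀ i : Fin 4 → ℂ)) := by
    rw [← (Pi.basisFun ℂ (Fin 4)).span_eq, Submodule.span_le]
    rintro _ ⟨i, rfl⟩
    have h3 : (Pi.basisFun ℂ (Fin 4) i) ∈ L := Submodule.subset_span ⟨(1, i), by
      simp only [v, map_one, one_mulVec, Pi.basisFun_apply]⟩
    have h4 := Submodule.mem_map_of_mem (f := L.subtype) (b₀.mem_span ⟨_, h3⟩)
    rw [Submodule.map_span, ← Set.range_comp] at h4
    exact Submodule.span_subset_span O ℂ _ h4
  let b := b₀.reindex ((Module.Basis.mk h1 h2).indexEquiv (Pi.basisFun ℂ (Fin 4)))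
  have hL : ∀ g, ∀ x ∈ L, (toLin' (ρ g)).restrictScalars O x ∈ L := fun g x hx => by
    have : L.map ((toLin' (ρ g)).restrictScalars O) ≤ L := by
      rw [Submodule.map_span, Submodule.span_le]
      rintro _ ⟨_, ⟨t, rfl⟩, rfl⟩
      exact Submodule.subset_span ⟨(g * t.1, t.2), by
        simp only [v, map_mul, ← mulVec_mulVec]; rfl⟩
    exact this (Submodule.mem_map_of_mem hx)
  let φ : P →* Module.End O L :=
    { toFun := fun g => ((toLin' (ρ g)).restrictScalars O).restrict (hL g)
      map_one' := LinearMap.ext fun x => Subtype.ext (by simp)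
      map_mul' := fun g h => LinearMap.ext fun x => Subtype.ext (by simp [mulVec_mulVec]) }
  refine ⟨(LinearMap.toMatrixAlgEquiv b).toMonoidHom.comp φ, Matrix.of fun i j => (b j : Fin 4 → ℂ) i,
    linearIndependent_cols_iff_isUnit.1 ?_, fun g => ?_⟩
  · have := h1.comp _ ((Module.Basis.mk h1 h2).indexEquiv (Pi.basisFun ℂ (Fin 4))).symm.injective
    have e : (Matrix.of fun i j => (b j : Fin 4 → ℂ) i).col = (fun i => (b₀ i : Fin 4 → ℂ)) ∘
        ((Module.Basis.mk h1 h2).indexEquiv (Pi.basisFun ℂ (Fin 4))).symm := by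
      ext j i
      simp [b]
    rw [e]; exact this
  · ext i j
    have e := congrArg (fun x : L => (x : Fin 4 → ℂ) i) (b.sum_repr (φ g (b j)))
    simp only [Submodule.coe_sum, Finset.sum_apply] at e
    calc _ = ((φ g (b j) : L) : Fin 4 → ℂ) i := rfl
      _ = _ := e.symm
      _ = _ := by
        rw [mul_apply]
        refine Finset.sum_congr rfl fun l _ => ?_
        rw [mul_comm]
        simp [LinearMap.toMatrixAlgEquiv_apply, Algebra.smul_def]

theorem eq_one_of_red {O κ : Type*} [CommRing O] [Field κ] (π : O →+* κ)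
    (hπ : ∀ x, π x ≠ 0 → IsUnit x) {A : M4 O} (h : A.map π = 1) {r : ℕ} (hr : (r : κ) ≠ 0)
    (hA : A ^ r = 1) : A = 1 := by
  have e : π.mapMatrix (∑ i ∈ Finset.range r, A ^ i) = (r : κ) • 1 := by
    rw [map_sum]
    simp only [map_pow, RingHom.mapMatrix_apply, h, one_pow, Finset.sum_const, Finset.card_range,
      Nat.cast_smul_eq_nsmul]
  have hu : IsUnit (∑ i ∈ Finset.range r, A ^ i) := (isUnit_iff_isUnit_det _).2 (hπ _ (by
    rw [π.map_det, e, det_smul, det_one, mul_one]; exact pow_ne_zero _ hr))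
  exact sub_eq_zero.1 (hu.mul_right_cancel (by rw [mul_geom_sum, hA, sub_self, zero_mul]))

/-- RED2. -/
theorem red2 {P : Type*} [Group P] [Finite P] (ρ₀ : P →* M4 ℂ) (h : Hy ρ₀) :
    ∃ (κ : Type) (_ : Field κ) (_ : IsAlgClosed κ) (_ : CharP κ 2) (σ : P →* M4 κ),
      (∀ g, (σ g).det = 1) ∧ ∀ g (c : κ), σ g = c • 1 → g ∈ Subgroup.center P := by
  obtain ⟨O, hO⟩ := exists_val
  obtain ⟨σ, B, hB, hσ⟩ := exists_form O ρ₀
  let κ := AlgebraicClosure (IsLocalRing.ResidueField O)
  let π : O →+* κ := (algebraMap _ κ).comp (IsLocalRing.residue O)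
  have hπ : ∀ x, π x ≠ 0 → IsUnit x := fun x hx =>
    (IsLocalRing.residue_ne_zero_iff_isUnit x).1 fun e => hx (by simp [π, e])
  have h2 : (2 : κ) = 0 := by
    have : IsLocalRing.residue O 2 = 0 := (IsLocalRing.residue_eq_zero_iff _).2
      (ValuationSubring.coe_mem_nonunits_iff.1 hO)
    rw [← map_ofNat π, RingHom.comp_apply, this, map_zero]
  haveI : CharP κ 2 := CharTwo.of_one_ne_zero_of_two_eq_zero one_ne_zero h2
  have hd : ∀ g, (σ g).det = 1 := fun g => Subtype.val_injective (by
    have e := congrArg det (hσ g)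
    rw [det_mul, det_mul, h.det, mul_comm] at e
    exact (O.subtype.map_det (σ g)).trans
      (((isUnit_iff_isUnit_det _).1 hB).mul_left_cancel e).symm)
  let τ : P →* M4 κ := π.mapMatrix.toMonoidHom.comp σ
  have ti : ∀ g, τ g * τ g⁻¹ = 1 := fun g => by rw [← map_mul, mul_inv_cancel, map_one]
  let N : Subgroup P :=
    { carrier := {g | ∀ x, τ g * τ x = τ x * τ g}
      one_mem' := fun x => by rw [map_one, one_mul, mul_one]
      mul_mem' := fun {a b} ha hb x => by rw [map_mul, mul_assoc, hb, ← mul_assoc, ha, mul_assoc]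
      inv_mem' := fun {a} ha x => by
        rw [← mul_one (_ * _), ← ti a, ← mul_assoc, mul_assoc _ (τ x), ← ha, ← mul_assoc, ← map_mul,
          inv_mul_cancel, map_one, one_mul] }
  refine ⟨κ, inferInstance, inferInstance, inferInstance, τ,
    fun g => (π.map_det (σ g)).symm.trans (by rw [hd, map_one]), fun g c hc => ?_⟩
  rcases h.simp N ⟨fun n hn g x => by
    rw [map_mul, map_mul, ← hn, mul_assoc (τ n), ti, mul_one, hn]⟩ with e | e
  · exact e fun x => by rw [hc, smul_mul_assoc, mul_smul_comm, one_mul, mul_one]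
  have h3 : ∀ x, τ x = 1 := fun x => by
    have : commutator P ≤ τ.ker := Subgroup.commutator_le.2 fun a _ b _ => by
      rw [MonoidHom.mem_ker, commutatorElement_def, map_mul, map_mul, map_mul,
        (e.ge (Subgroup.mem_top a)) b, mul_assoc (τ b), ti, mul_one, ti]
    exact this (h.perf.ge (Subgroup.mem_top x))
  have h4 : IsPGroup 2 P := fun x => by
    obtain ⟨a, m, hm, e'⟩ := Nat.exists_eq_two_pow_mul_odd (orderOf_pos x).ne'
    refine ⟨a, h.inj (hB.mul_right_cancel ?_)⟩
    rw [hσ, eq_one_of_red π hπ (h3 _) (r := m) (by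
      rw [Ne, CharP.cast_eq_zero_iff κ 2]; exact hm.not_two_dvd_nat)
      (by rw [← map_pow, ← pow_mul, ← e', pow_orderOf_eq_one, map_one]), map_one, one_mul,
      Matrix.map_one _ (map_zero _) (map_one _), mul_one]
  haveI := h4.isNilpotent
  rcases subsingleton_or_nontrivial P with h5 | h5
  · rw [Subsingleton.elim g 1]; exact one_mem _
  · exact absurd h.perf (Group.IsSolvable.commutator_lt_top_of_nontrivial P).ne

end Cfsg.Agent.L4.Lift
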