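import Cfsg.Agent.L4.Red2
import Cfsg.Agent.L4.Rb3

/-!
Reduction modulo two, recording that the centre acts by scalars.
-/

set_option autoImplicit false
set_option linter.unusedSectionVars false

namespace Cfsg.Agent.L4.Lift
open Matrix Cfsg.Agent.L4.R

/-- RED2. -/
theorem red2' {P : Type*} [Group P] [Finite P] (ρ₀ : P →* M4 ℂ) (h : Hy ρ₀) :
    ∃ (κ : Type) (_ : Field κ) (_ : IsAlgClosed κ) (_ : CharP κ 2) (σ : P →* M4 κ),
      (∀ g, (σ g).det = 1) ∧ (∀ g ∈ Subgroup.center P, ∃ c : κ, σ g = c • 1) ∧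
        ∀ g (c : κ), σ g = c • 1 → g ∈ Subgroup.center P := by
  obtain ⟨O, hO⟩ := exists_val
  obtain ⟨σ, B, hB, hσ⟩ := exists_form O ρ₀
  let κ := AlgebraicClosure (IsLocalRing.ResidueField O)
  let π : O →+* κ := (algebraMap _ κ).comp (IsLocalRing.residue O)
  have hπ : ∀ x, π x ≠ 0 → IsUnit x := fun x hx =>
    (IsLocalRing.residue_ne_zero_iff_isUnit x).1 fun e => hx (by simp [π, e])
  have h2 : (2 : κ) = 0 := by
    have : IsLocalRing.residue O 2 = 0 := (IsLocalRing.residue_eq_zero_iff _).2
      (ValuationSubring.coe_mem_nonunits_iff.1 hO)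
    rw [← map_ofNat π, RingHom.comp_apply, this, map_zero]
  haveI : CharP κ 2 := CharTwo.of_one_ne_zero_of_two_eq_zero one_ne_zero h2
  have hd : ∀ g, (σ g).det = 1 := fun g => Subtype.val_injective (by
    have e := congrArg det (hσ g)
    rw [det_mul, det_mul, h.det, mul_comm] at e
    exact (O.subtype.map_det (σ g)).trans
      (((isUnit_iff_isUnit_det _).1 hB).mul_left_cancel e).symm)
  let τ : P →* M4 κ := π.mapMatrix.toMonoidHom.comp σ
  have ti : ∀ g, τ g * τ g⁻¹ = 1 := fun g => by rw [← map_mul, mul_inv_cancel, map_one]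
  let N : Subgroup P :=
    { carrier := {g | ∀ x, τ g * τ x = τ x * τ g}
      one_mem' := fun x => by rw [map_one, one_mul, mul_one]
      mul_mem' := fun {a b} ha hb x => by rw [map_mul, mul_assoc, hb, ← mul_assoc, ha, mul_assoc]
      inv_mem' := fun {a} ha x => by
        rw [← mul_one (_ * _), ← ti a, ← mul_assoc, mul_assoc _ (τ x), ← ha, ← mul_assoc, ← map_mul,
          inv_mul_cancel, map_one, one_mul] }
  refine ⟨κ, inferInstance, inferInstance, inferInstance, τ,
    fun g => (π.map_det (σ g)).symm.trans (by rw [hd, map_one]), fun g hg => ?_, fun g c hc => ?_⟩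
  · obtain ⟨c, hc⟩ := (Rb.center_iff h).1 hg
    have e : (σ g).map O.subtype = c • 1 := hB.mul_left_cancel (by
      rw [← hσ, hc, smul_mul_assoc, mul_smul_comm, one_mul, mul_one])
    have e' : σ g = σ g 0 0 • 1 := Matrix.map_injective (f := O.subtype) Subtype.val_injective (by
      have e0 : ((σ g 0 0 : O) : ℂ) = c := by simpa using congrFun (congrFun e 0) 0
      show (σ g).map O.subtype = (σ g 0 0 • (1 : M4 O)).map O.subtype
      rw [e]
      ext i j
      by_cases hij : i = j <;> simp [hij, e0, one_apply])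
    refine ⟨π (σ g 0 0), ?_⟩
    show (σ g).map π = _
    conv_lhs => rw [e']
    ext i j
    by_cases hij : i = j <;> simp [hij, one_apply]
  rcases h.simp N ⟨fun n hn g x => by
    rw [map_mul, map_mul, ← hn, mul_assoc (τ n), ti, mul_one, hn]⟩ with e | e
  · exact e fun x => by rw [hc, smul_mul_assoc, mul_smul_comm, one_mul, mul_one]
  have h3 : ∀ x, τ x = 1 := fun x => by
    have : commutator P ≤ τ.ker := Subgroup.commutator_le.2 fun a _ b _ => by
      rw [MonoidHom.mem_ker, commutatorElement_def, map_mul, map_mul, map_mul,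
        (e.ge (Subgroup.mem_top a)) b, mul_assoc (τ b), ti, mul_one, ti]
    exact this (h.perf.ge (Subgroup.mem_top x))
  have h4 : IsPGroup 2 P := fun x => by
    obtain ⟨a, m, hm, e'⟩ := Nat.exists_eq_two_pow_mul_odd (orderOf_pos x).ne'
    refine ⟨a, h.inj (hB.mul_right_cancel ?_)⟩
    rw [hσ, eq_one_of_red π hπ (h3 _) (r := m) (by
      rw [Ne, CharP.cast_eq_zero_iff κ 2]; exact hm.not_two_dvd_nat)
      (by rw [← map_pow, ← pow_mul, ← e', pow_orderOf_eq_one, map_one]), map_one, one_mul,
      Matrix.map_one _ (map_zero _) (map_one _), mul_one]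
  haveI := h4.isNilpotent
  rcases subsingleton_or_nontrivial P with h5 | h5
  · rw [Subsingleton.elim g 1]; exact one_mem _
  · exact absurd h.perf (Group.IsSolvable.commutator_lt_top_of_nontrivial P).ne

end Cfsg.Agent.L4.Lift
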