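import Cfsg.Agent.L4.S7

/-!
Quasisimple subgroups of `SL₄` in odd characteristic without transvections which contain a
unipotent element with two Jordan blocks of size two.
-/

set_option autoImplicit false

namespace Cfsg.Agent.L4.S

open Matrix Module Cfsg.Agent.H1.Spin6 Cfsg.Agent.L4.R Submodule Equiv

variable {k : Type*} [Field k]

local notation "Q" => Pf k

variable {P : Type*} [Group P] {ρ : P →* M4 k} {R : W6 k → Prop}

theorem B_sum {ι : Type} [Fintype ι] (x : W6 k) (y : ι → W6 k) :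
    Bw x (∑ i, y i) = ∑ i, Bw x (y i) := by
  simp [Bw, Finset.mul_sum, Finset.sum_mul, Finset.sum_add_distrib, Finset.sum_sub_distrib]

theorem RS.frame7 (r : RS ρ R) {y : Fin 7 → W6 k} (h : Cl R y) : ∃ x : Fin 7 → W6 k,
    (∀ i j, Bw (x i) (x j) = if i = j then 0 else -1) ∧ (∀ i j, i ≠ j → R (x i - x j)) ∧
      ∀ c, R c → ∃ i j, i ≠ j ∧ c = x i - x j := by
  classical
  have t := r.three
  obtain ⟨x, hx⟩ : ∃ x : Fin 7 → W6 k, ∀ i, x i = ∑ j, (y i - y j) := ⟨_, fun _ => rfl⟩
  have a0 : ∀ i j, x i - x j = y i - y j := fun i j => by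
    simp only [hx, Fin.sum_univ_seven]
    linear_combination (norm := module) t • ((2 : k) • (y i - y j))
  have a1 : ∑ i, x i = 0 := by
    simp only [hx, Fin.sum_univ_seven]; abel
  have d : ∀ i j, Q (y i - y j) = if i = j then 0 else 1 := fun i j => by
    split_ifs with e
    exacts [by simp [e], r.q (h.1 i j e)]
  have d1 : ∀ i, ∑ j, Q (y i - y j) = 0 := fun i => by
    fin_cases i <;> simp [d, Fin.sum_univ_seven] <;> linear_combination 2 * t
  have a2 : ∀ i l, Bw (y i - y l) (x i) = Q (y i - y l) := fun i l => by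
    have : ∀ j, Bw (y i - y l) (y i - y j) = Q (y i - y l) + Q (y i - y j) - Q (y l - y j) :=
      fun j => by
      have := Q_sub (y i - y l) (y i - y j)
      rw [sub_sub_sub_cancel_left, ← Q_neg, neg_sub] at this
      linear_combination this
    rw [hx, B_sum]
    simp only [this, Finset.sum_sub_distrib, Finset.sum_add_distrib, d1]
    simp
    linear_combination 2 * Q (y i - y l) * t
  have a3 : ∀ i, Bw (x i) (x i) = 0 := fun i => by
    have := B_sum (x i) fun j => y i - y j
    rw [← hx] at this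
    simp only [this, Bw_comm (x i), a2, d1]
  have o : ∀ i j, Bw (x i) (x j) = if i = j then 0 else -1 := fun i j => by
    have := a2 j i
    rw [← a0, sub_B, a3, a0, d] at this
    split_ifs with e
    · rw [e, a3]
    · rw [if_neg (Ne.symm e)] at this
      linear_combination -this
  refine ⟨x, o, fun i j e => a0 i j ▸ h.1 i j e, fun c hc => ?_⟩
  suffices ∃ i j, c = y i - y j by
    obtain ⟨i, j, e⟩ := this
    refine ⟨i, j, fun z => ?_, a0 i j ▸ e⟩
    have := r.q hc
    simp [e, z] at this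
  by_contra hn
  have f0 : ∑ i, Bw c (x i) = 0 := by rw [← B_sum, a1, B_zero]
  have f1 : c - ∑ i, Bw c (x i) • x i = 0 := perp6 (fun i => x i.succ) (fun z e => by
      have e0 := congrArg (Bw (x 0)) e
      simp only [B_sum, Bw_smul, o, B_zero] at e0
      intro i
      have e1 := congrArg (Bw (x i.succ)) e
      simp only [B_sum, Bw_smul, o, B_zero] at e1
      fin_cases i <;> simp [Fin.sum_univ_six] at e0 e1 ⊢ <;> linear_combination e1 - e0) fun i => by
    rw [sub_B, Bw_comm (∑ _, _), B_sum]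
    simp only [Bw_smul, o]
    fin_cases i <;> simp [Fin.sum_univ_seven] at f0 ⊢ <;> linear_combination f0
  have f2 := congrArg (Bw c) f1
  simp only [B_sub, B_sum, Bw_smul, B_zero, B_self, r.q hc] at f2
  have f3 : F3 (Bw c (x 0)) := by
    rw [hx, B_sum]
    refine Finset.sum_induction _ F3 (fun a b => F3.add t) (.inl rfl) fun i _ => ?_
    by_cases e : 0 = i
    exacts [by simp [← e, F3, B_zero], r.f3 hc (h.1 _ _ e)]
  have f4 : ∀ i j, Bw c (x i) - Bw c (x j) = Bw c (y i) - Bw c (y j) := fun i j => by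
    rw [← B_sub, ← B_sub, a0]
  obtain ⟨β, b2⟩ : ∃ β, ∀ i, (Bw c (x i) - Bw c (x 0)) * (Bw c (x i) - Bw c (x 0) - β) = 0 := by
    by_cases e : ∃ j, Bw c (y 0) ≠ Bw c (y j)
    · obtain ⟨j, e⟩ := e
      refine ⟨Bw c (y j - y 0), fun i => ?_⟩
      by_contra e'
      rw [mul_eq_zero, not_or, f4, B_sub] at e'
      exact hn (r.v3 h hc e (l := i) (fun z => e'.2 (by rw [z, sub_self]))
        fun z => e'.1 (by rw [z, sub_self]))
    · push Not at e
      exact ⟨0, fun i => by rw [f4, e i]; simp⟩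
  have g0 := b2 1; have g1 := b2 2; have g2 := b2 3; have g3 := b2 4; have g4 := b2 5
  have g5 := b2 6
  simp only [Fin.sum_univ_seven] at f0 f2
  have f5 : Bw c (x 0) * (Bw c (x 0) + β) = 1 := by
    linear_combination g0 + g1 + g2 + g3 + g4 + g5 + f2 + (2 * Bw c (x 0) + β) * f0 -
      (2 * Bw c (x 0) * (Bw c (x 0) + β) + 1) * t
  have f6 := left_ne_zero_of_mul_eq_one f5
  obtain rfl : β = 0 := mul_left_cancel₀ f6 (by linear_combination f5 - f3.sq f6)
  simp only [sub_zero, mul_self_eq_zero] at g0 g1 g2 g3 g4 g5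
  exact f6 (by linear_combination f0 - g0 - g1 - g2 - g3 - g4 - g5 - 2 * Bw c (x 0) * t)

theorem RS.alt [Finite P] (r : RS ρ R) (H : Hy ρ) :
    Nonempty ((P ⧸ Subgroup.center P) ≃* alternatingGroup (Fin 7)) := by
  obtain ⟨y, h⟩ := r.exists_cl H
  obtain ⟨x, o, h1, h2⟩ := r.frame7 h
  have inj : Function.Injective x := fun i j e => by
    by_contra n
    have := o i j
    rw [← e, o, if_pos rfl, if_neg n] at this
    simp at this
  have sw : ∀ i j l, i ≠ j → rf (x i - x j) (x l) = x (swap i j l) := fun i j l n => by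
    by_cases a : l = i
    · simp [rf, B_sub, o, a, n]
    by_cases b : l = j
    · simp [rf, B_sub, o, b, n.symm]
    simp [rf, B_sub, o, a, b, swap_apply_of_ne_of_ne a b]
  choose f hf using fun g i => r.stab H (fun w => ∃ i, w = x i) (by
    rintro c hc _ ⟨l, rfl⟩
    obtain ⟨i, j, n, rfl⟩ := h2 c hc
    exact ⟨_, sw i j l n⟩) g (w := x i) ⟨i, rfl⟩
  let φ : P →* Perm (Fin 7) := MonoidHom.toHomPerm
    { toFun := f
      map_one' := funext fun i => inj (by rw [← hf, map_one, L2_one]; rfl)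
      map_mul' := fun a b => funext fun i => inj (by rw [← hf, σ_mul, hf, hf]; rfl) }
  have hφ : ∀ g i, φ g i = f g i := fun g i => rfl
  have s2 : ∀ i j l m, i ≠ j → l ≠ m → swap i j * swap l m ∈ φ.range := fun i j l m a b => by
    obtain ⟨g, e⟩ := r.rel (h1 i j a) (h1 l m b)
    exact ⟨g, Equiv.ext fun z => inj (by rw [hφ, ← hf, e, sw _ _ _ b, sw _ _ _ a]; rfl)⟩
  have ev : ∀ g, φ g ∈ alternatingGroup (Fin 7) := fun g =>
    Abelianization.commutator_subset_ker (Perm.sign.comp φ) (H.perf.ge (Subgroup.mem_top g))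
  have sj : ∀ σ : Perm (Fin 7), σ ∈ φ.range ∨ swap 0 1 * σ ∈ φ.range := fun σ => by
    induction σ using Perm.swap_induction_on with
    | one => exact .inl (one_mem _)
    | swap_mul σ a b n ih =>
      rcases ih with ih | ih
      · exact .inr (by rw [← mul_assoc]; exact mul_mem (s2 _ _ _ _ (by decide) n) ih)
      · exact .inl (by simpa [mul_assoc] using mul_mem (s2 a b 0 1 n (by decide)) ih)
  let ψ := φ.codRestrict _ ev
  have sur : Function.Surjective ψ := fun σ => by
    rcases sj σ with ⟨g, e⟩ | ⟨g, e⟩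
    · exact ⟨g, Subtype.ext e⟩
    · have := ev g
      have h3 := σ.2
      rw [e] at this
      simp only [Perm.mem_alternatingGroup, map_mul] at this h3
      simp [h3] at this
  have ker : ψ.ker = Subgroup.center P := le_antisymm
    ((H.simp ψ.ker inferInstance).resolve_right fun e => by
      obtain ⟨g, hg⟩ := s2 0 1 0 2 (by decide) (by decide)
      have : φ g = 1 := congrArg Subtype.val (e.ge (Subgroup.mem_top g))
      exact absurd (hg.symm.trans this) (by decide)) fun z hz => by
    have : ψ z ∈ Subgroup.center (alternatingGroup (Fin 7)) := Subgroup.mem_center_iff.2 fun σ => by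
      obtain ⟨g, rfl⟩ := sur σ
      rw [← map_mul, ← map_mul, Subgroup.mem_center_iff.1 hz]
    rwa [alternatingGroup.center_eq_bot (by simp)] at this
  exact ⟨(QuotientGroup.quotientMulEquivOfEq ker.symm).trans
    (QuotientGroup.quotientKerEquivOfSurjective ψ sur)⟩

theorem caseS [Finite P] [IsAlgClosed k] (p : ℕ) [Fact p.Prime] [CharP k p] (hp : p ≠ 2)
    (h : Hy ρ) (hT : ∀ g, (ρ g - 1).rank ≤ 1 → g = 1) {g : P} (h1 : g ≠ 1)
    (h2 : (ρ g - 1) * (ρ g - 1) = 0) :
    p = 3 ∧ Nonempty ((P ⧸ Subgroup.center P) ≃* alternatingGroup (Fin 7)) := by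
  have H : Hs ρ := ⟨h, H1.Sp4.two_ne p hp, fun g v e => hT g (by
    refine (Submodule.finrank_mono (t := k ∙ v) ?_).trans ((finrank_span_le_card _).trans (by simp))
    rintro _ ⟨y, rfl⟩
    obtain ⟨c, hc⟩ := e y
    exact mem_span_singleton.2 ⟨c, by simp [sub_mulVec, hc]⟩)⟩
  obtain ⟨s, m, h0, hm, hT⟩ := H.exists_T h1 h2
  have r := H.rs p hT h0 hm
  exact ⟨(Nat.prime_dvd_prime_iff_eq Fact.out Nat.prime_three).1
    ((CharP.cast_eq_zero_iff k p 3).1 (by exact_mod_cast r.three)), r.alt h⟩

end Cfsg.Agent.L4.S
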