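import Cfsg.Agent.L4.R0
import Cfsg.Agent.H1.Sp4B

/-!
Unipotent elements of square zero type in the orthogonal model.
-/

set_option autoImplicit false

namespace Cfsg.Agent.L4.S

open Matrix Module Cfsg.Agent.H1.Spin6 Cfsg.Agent.L4.R

variable {k : Type*} [Field k]

/-- the orthogonal space -/
abbrev W6 (k : Type*) := Fin 6 → k

local notation "Q" => Pf k

theorem B_self (x : W6 k) : Bw x x = 2 * Q x := by simp [Bw, Pf_apply]; ring
theorem B_sub (x y z : W6 k) : Bw x (y - z) = Bw x y - Bw x z := by simp [Bw]; ring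
theorem sub_B (x y z : W6 k) : Bw (x - y) z = Bw x z - Bw y z := by simp [Bw]; ring
theorem B_neg (x y : W6 k) : Bw x (-y) = -Bw x y := by simp [Bw]; ring
theorem neg_B (x y : W6 k) : Bw (-x) y = -Bw x y := by simp [Bw]; ring
theorem B_zero (x : W6 k) : Bw x 0 = 0 := by simp [Bw]
theorem zero_B (x : W6 k) : Bw 0 x = 0 := by simp [Bw]
theorem Q_add (x y : W6 k) : Q (x + y) = Q x + Q y + Bw x y := by simp [Bw, Pf_apply]; ring
theorem Q_sub (x y : W6 k) : Q (x - y) = Q x + Q y - Bw x y := by simp [Bw, Pf_apply]; ring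
theorem Q_neg (x : W6 k) : Q (-x) = Q x := by simp
theorem Q_smul (c : k) (x : W6 k) : Q (c • x) = c * c * Q x := by simp [Pf_apply]; ring

theorem bw : (∀ x y z : W6 k, Bw x (y + z) = Bw x y + Bw x z) ∧
    (∀ x y z : W6 k, Bw (x + y) z = Bw x z + Bw y z) ∧
    (∀ (c : k) (x y : W6 k), Bw x (c • y) = c * Bw x y) ∧
    (∀ (c : k) (x y : W6 k), Bw (c • x) y = c * Bw x y) ∧
    (∀ x y z : W6 k, Bw x (y - z) = Bw x y - Bw x z) ∧
    (∀ x y z : W6 k, Bw (x - y) z = Bw x z - Bw y z) ∧ (∀ x y : W6 k, Bw x (-y) = -Bw x y) ∧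
    (∀ x y : W6 k, Bw (-x) y = -Bw x y) ∧ (∀ x : W6 k, Bw x 0 = 0) ∧ (∀ x : W6 k, Bw 0 x = 0) ∧
    (∀ x : W6 k, Bw x x = 2 * Q x) ∧ (∀ x y : W6 k, Q (x + y) = Q x + Q y + Bw x y) ∧
    (∀ x y : W6 k, Q (x - y) = Q x + Q y - Bw x y) ∧ (∀ x : W6 k, Q (-x) = Q x) ∧
    ∀ (c : k) (x : W6 k), Q (c • x) = c * c * Q x :=
  ⟨Bw_add, add_Bw, Bw_smul, smul_Bw, B_sub, sub_B, B_neg, neg_B, B_zero, zero_B, B_self, Q_add,
    Q_sub, Q_neg, Q_smul⟩

theorem exists_B {s : W6 k} (h : s ≠ 0) : ∃ t, Bw s t = 1 := by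
  obtain ⟨t, ht⟩ : ∃ t, Bw s t ≠ 0 := by
    by_contra! e
    exact h (Bw_nd e)
  exact ⟨(Bw s t)⁻¹ • t, by rw [Bw_smul, inv_mul_cancel₀ ht]⟩

theorem anti (x y : W6 k) : ψ x * ψ (τ y) + ψ y * ψ (τ x) = Bw x y • (1 : M4 k) := by
  rw [Bw_eq, ψ_anti]

theorem anti' (x y : W6 k) : ψ (τ x) * ψ y + ψ (τ y) * ψ x = Bw x y • (1 : M4 k) := by
  rw [Bw_eq, ψ_anti']

theorem τ_act (A : M4 k) (m : W6 k) : Aᵀ * ψ (τ (L2 A m)) * A = A.det • ψ (τ m) := by
  have : ∀ x, ψ (co (Aᵀ * ψ x * A)) = Aᵀ * ψ x * A := fun x => ψ_act Aᵀ x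
  rw [← this, ← map_smul]
  congr 1
  ext i
  fin_cases i <;>
  simp [L2_apply, co, mul_apply, ψ_def, τ_def, det_succ_row_zero, Fin.sum_univ_succ,
    Fin.succAbove] <;> ring

/-- Eichler transformations -/
def et (s m w : W6 k) : W6 k := w + Bw w s • m - (Bw w m + Q m * Bw w s) • s

theorem L2_E {s m : W6 k} (hs : Q s = 0) (hm : Bw s m = 0) (w : W6 k) :
    L2 (1 - ψ s * ψ (τ m)) w = et s m w := by
  apply ψ_inj
  have := lift_act hs (w := m) (by rw [← Bw_eq, Bw_comm, hm]) w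
  rw [ψ_L2, et, Bw_eq, Bw_eq, ← this, lift_val]

theorem EE {s m : W6 k} (hs : Q s = 0) (hm : Bw s m = 0) : ψ s * ψ (τ m) * ψ s = 0 :=
  ψ_uwu hs (by rw [← Bw_eq, Bw_comm, hm])

theorem E_zero {s m : W6 k} (h0 : s ≠ 0) (h : ψ s * ψ (τ m) = 0) (h2 : (2 : k) ≠ 0) :
    ∃ c : k, m = c • s := by
  obtain ⟨t, ht⟩ := exists_B h0
  have h' : ψ (τ m) * ψ s = 0 := by
    have := congrArg transpose h
    simpa [ψ_tr] using this
  have h1 : ψ m * ψ (τ s) = Bw s m • 1 := by rw [← anti, h, zero_add]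
  have h3 : Bw s m = 0 := by
    have := congrArg trace (anti s m)
    have e : trace (ψ m * ψ (τ s)) = trace (ψ s * ψ (τ m)) := by
      simp [trace, ψ_def, τ_def, mul_apply, Fin.sum_univ_succ]; ring
    rw [trace_add, e, h] at this
    simp at this
    exact this.resolve_right fun e => h2 (by
      have : (2 : k) * 2 = 0 := by linear_combination e
      simpa using this)
  rw [h3, zero_smul] at h1
  refine ⟨Bw m t, ψ_inj ?_⟩
  have a1 := anti' s t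
  have a2 := anti m t
  rw [ht, one_smul] at a1
  rw [map_smul]
  linear_combination (norm := noncomm_ring) -ψ m * a1 + h1 * ψ t + a2 * ψ s - ψ t * h'

theorem L2_scal {A : M4 k} (h : ∀ w, L2 A w = w) : A = 1 ∨ A = -1 := by
  have hd : A.det = 1 := by
    have := Bw_L2 A (Pi.single 0 1) (Pi.single 5 1)
    rw [h, h] at this
    simpa [Bw] using this.symm
  have h1 : ∀ w, A * ψ w = ψ w * Aᵀ.adjugate := fun w => by
    nth_rw 2 [← h w]
    rw [ψ_L2, mul_assoc, mul_adjugate, det_transpose, hd, one_smul, mul_one]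
  generalize Aᵀ.adjugate = D at h1
  have e := fun i => h1 (Pi.single i 1)
  have e0 := e 0; have e1 := e 1; have e2 := e 2; have e3 := e 3; have e4 := e 4; have e5 := e 5
  simp [← Matrix.ext_iff, Fin.forall_fin_succ, ψ_def, mul_apply, Fin.sum_univ_succ]
    at e0 e1 e2 e3 e4 e5
  have h2 : A = A 0 0 • 1 := by
    ext i j
    fin_cases i <;> fin_cases j <;> simp <;> grind
  have h3 := h (Pi.single 0 1)
  rw [h2, L2_smul, L2_one] at h3
  have h4 := congrFun h3 0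
  simp only [Pi.smul_apply, Pi.single_eq_same, smul_eq_mul, mul_one, mul_self_eq_one_iff] at h4
  exact h4.imp (fun e => by rw [h2, e, one_smul]) fun e => by rw [h2, e, neg_one_smul]

/-- decomposable vectors -/
def wd (a b : Fin 4 → k) : W6 k := co (vecMulVec a b - vecMulVec b a)

theorem ψ_wd (a b : Fin 4 → k) : ψ (wd a b) = vecMulVec a b - vecMulVec b a :=
  ψ_co (by simp) fun i => by simp [vecMulVec_apply, mul_comm]

theorem prop_of_wd {a b : Fin 4 → k} (ha : a ≠ 0) (h : vecMulVec a b - vecMulVec b a = 0) :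
    ∃ c : k, b = c • a := by
  obtain ⟨i, hi⟩ := Function.ne_iff.1 ha
  refine ⟨b i / a i, funext fun j => ?_⟩
  have := congrFun (congrFun h i) j
  simp only [Matrix.sub_apply, vecMulVec_apply, Matrix.zero_apply] at this
  have hi' : a i ≠ 0 := hi
  simp only [Pi.smul_apply, smul_eq_mul]
  field_simp
  linear_combination this

theorem mat_ext {A B : M4 k} (h : ∀ x, A *ᵥ x = B *ᵥ x) : A = B :=
  toLin'.injective (LinearMap.ext fun x => by simpa using h x)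

variable {P : Type*} [Group P]

/-- the standing hypotheses -/
structure Hs (ρ : P →* M4 k) : Prop extends Hy ρ where
  two : (2 : k) ≠ 0
  nt : ∀ g v, (∀ y, ∃ c : k, ρ g *ᵥ y = y + c • v) → g = 1

/-- the Eichler transformation lies in the group -/
def T (ρ : P →* M4 k) (s m : W6 k) : Prop :=
  Q s = 0 ∧ Bw s m = 0 ∧ ∃ g, ρ g = 1 - ψ s * ψ (τ m)

variable {ρ : P →* M4 k} {s m m' : W6 k}

theorem σ_mul (g g' : P) (w : W6 k) : L2 (ρ (g * g')) w = L2 (ρ g) (L2 (ρ g') w) := by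
  rw [map_mul, L2_mul]

theorem σ_inv (g : P) (w : W6 k) : L2 (ρ g⁻¹) (L2 (ρ g) w) = w := by
  rw [← σ_mul, inv_mul_cancel, map_one, L2_one]

theorem σ_inv' (g : P) (w : W6 k) : L2 (ρ g) (L2 (ρ g⁻¹) w) = w := by
  rw [← σ_mul, mul_inv_cancel, map_one, L2_one]

theorem σ_ne (g : P) {w : W6 k} (h : w ≠ 0) : L2 (ρ g) w ≠ 0 := fun e => h (by
  rw [← σ_inv (ρ := ρ) g w, e, map_zero])

theorem T.act (h : T ρ s m) : ∃ g, ρ g = 1 - ψ s * ψ (τ m) ∧ ∀ w, L2 (ρ g) w = et s m w :=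
  h.2.2.imp fun _ e => ⟨e, fun w => by rw [e, L2_E h.1 h.2.1]⟩

theorem T.add (h : T ρ s m) (h' : T ρ s m') : T ρ s (m + m') := by
  obtain ⟨g, e⟩ := h.2.2
  obtain ⟨g', e'⟩ := h'.2.2
  refine ⟨h.1, by rw [Bw_add, h.2.1, h'.2.1, add_zero], g * g', ?_⟩
  rw [map_mul, e, e', map_add, map_add]
  linear_combination (norm := noncomm_ring) EE h.1 h.2.1 * ψ (τ m')

theorem T.neg (h : T ρ s m) : T ρ s (-m) := by
  obtain ⟨g, e⟩ := h.2.2
  refine ⟨h.1, by rw [B_neg, h.2.1, neg_zero], g⁻¹, ?_⟩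
  have : ρ g * (1 - ψ s * ψ (τ (-m))) = 1 := by
    rw [e, map_neg, map_neg]
    linear_combination (norm := noncomm_ring) -EE h.1 h.2.1 * ψ (τ m)
  have h1 : ρ g⁻¹ * ρ g = 1 := by rw [← map_mul, inv_mul_cancel, map_one]
  linear_combination (norm := noncomm_ring) h1 * (1 - ψ s * ψ (τ (-m))) - ρ g⁻¹ * this

theorem T.sub (h : T ρ s m) (h' : T ρ s m') : T ρ s (m - m') := by
  rw [sub_eq_add_neg]; exact h.add h'.neg

theorem T.self (hs : Q s = 0) (c : k) : T ρ s (c • s) :=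
  ⟨hs, by simp only [bw]; rw [hs]; simp, 1, by simp [ψ_sq, hs]⟩

theorem T.shift (h : T ρ s m) (c : k) : T ρ s (m + c • s) := h.add (T.self h.1 c)

theorem T.scale {c : k} (h : T ρ (c • s) m) (hc : c ≠ 0) : T ρ s (c • m) := by
  obtain ⟨h1, h2, g, e⟩ := h
  simp only [bw] at h1 h2 ⊢
  exact ⟨by simpa [hc] using h1, by rwa [Bw_smul], g, by simpa using e⟩

theorem T.scale' {c : k} (h : T ρ s (c • m)) : T ρ (c • s) m := by
  obtain ⟨h1, h2, g, e⟩ := h
  exact ⟨by rw [Q_smul, h1, mul_zero], by rwa [smul_Bw, ← Bw_smul], g, by simpa using e⟩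

theorem T.neg' (h : T ρ s m) : T ρ (-s) m := by
  have := h.neg
  rw [← neg_one_smul k] at this ⊢
  exact this.scale'

theorem T.nat (h : T ρ s m) : ∀ n : ℕ, T ρ s ((n : k) • m)
  | 0 => by simpa using T.self h.1 0
  | n + 1 => by rw [Nat.cast_succ, add_smul, one_smul]; exact (h.nat n).add h

namespace Hs

variable (H : Hs ρ)
include H

theorem B_σ (g : P) (x y : W6 k) : Bw (L2 (ρ g) x) (L2 (ρ g) y) = Bw x y := by
  rw [Bw_L2, H.det, one_mul]

theorem Q_σ (g : P) (x : W6 k) : Q (L2 (ρ g) x) = Q x := by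
  rw [L2_apply, Pf_act, H.det, one_mul]

theorem E_conj (g : P) (s m : W6 k) :
    ρ g * (ψ s * ψ (τ m)) * ρ g⁻¹ = ψ (L2 (ρ g) s) * ψ (τ (L2 (ρ g) m)) := by
  have := τ_act (ρ g) m
  rw [H.det, one_smul] at this
  rw [← this, ψ_L2]
  simp only [mul_assoc, ← map_mul, mul_inv_cancel, map_one, mul_one]

theorem conj (h : T ρ s m) (g : P) : T ρ (L2 (ρ g) s) (L2 (ρ g) m) := by
  obtain ⟨u, e⟩ := h.2.2
  refine ⟨by rw [H.Q_σ, h.1], by rw [H.B_σ, h.2.1], g * u * g⁻¹, ?_⟩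
  rw [map_mul, map_mul, e, mul_sub, sub_mul, H.E_conj, mul_one, ← map_mul, mul_inv_cancel, map_one]

theorem cj {s' : W6 k} (h : T ρ s m) (h' : T ρ s' m') : T ρ (et s m s') (et s m m') := by
  obtain ⟨g, -, e⟩ := h.act
  rw [← e, ← e]
  exact H.conj h' g

theorem aniso (h : T ρ s m) (h0 : s ≠ 0) (hQ : Q m = 0) : ∃ c : k, m = c • s := by
  obtain ⟨g, e⟩ := h.2.2
  refine E_zero h0 ?_ H.two
  by_contra h1
  obtain ⟨x, hx⟩ : ∃ x, (ψ s * ψ (τ m)) *ᵥ x ≠ 0 := by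
    by_contra! hh
    exact h1 (mat_ext fun x => by rw [hh, zero_mulVec])
  have := H.nt g ((ψ s * ψ (τ m)) *ᵥ x) fun y => by
    have a1 := anti' m (wd x y)
    have a2 := ψ_sq m
    rw [hQ, zero_smul] at a2
    have a3 : ψ s * ψ (τ m) * ψ (wd x y) * (ψ s * ψ (τ m))ᵀ = 0 := by
      rw [transpose_mul, ψ_tr, ψ_tr, neg_mul_neg, mul_assoc (ψ s), eq_sub_of_add_eq a1, mul_sub,
        sub_mul, mul_smul_comm, mul_one, smul_mul_assoc, ← mul_assoc, EE h.1 h.2.1, mul_assoc,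
        mul_assoc, ← mul_assoc (ψ m), a2]
      simp
    rw [ψ_wd, mul_sub, sub_mul, mul_vecMulVec, mul_vecMulVec, vecMulVec_mul, vecMulVec_mul,
      vecMul_transpose, vecMul_transpose] at a3
    obtain ⟨c, hc⟩ := prop_of_wd hx a3
    exact ⟨-c, by rw [e, sub_mulVec, hc, one_mulVec, neg_smul, sub_eq_add_neg]⟩
  rw [this, map_one, eq_comm, sub_eq_self] at e
  exact h1 e

theorem exists_T {g : P} (h1 : g ≠ 1) (h2 : (ρ g - 1) * (ρ g - 1) = 0) :
    ∃ s m, s ≠ 0 ∧ Q m ≠ 0 ∧ T ρ s m := by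
  obtain ⟨N, e⟩ : ∃ N, ρ g = 1 + N := ⟨ρ g - 1, by simp⟩
  rw [e, add_sub_cancel_left] at h2
  obtain ⟨x, hx⟩ : ∃ x, N *ᵥ x ≠ 0 := by
    by_contra! hh
    exact h1 (H.nt g 0 fun x => ⟨0, by rw [e, add_mulVec, hh]; simp⟩)
  obtain ⟨y, hy⟩ : ∃ y, ∀ c : k, N *ᵥ y ≠ c • N *ᵥ x := by
    by_contra! hh
    exact h1 (H.nt g (N *ᵥ x) fun y => (hh y).imp fun c hc => by rw [e, add_mulVec, hc]; simp)
  have hr : finrank k (LinearMap.range (toLin' N)) ≤ 2 := by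
    have a1 := (toLin' N).finrank_range_add_finrank_ker
    have a2 : LinearMap.range (toLin' N) ≤ LinearMap.ker (toLin' N) := by
      rintro _ ⟨z, rfl⟩
      simp [h2]
    have := Submodule.finrank_mono a2
    simp only [finrank_fin_fun] at a1
    omega
  set s := wd (N *ᵥ x) (N *ᵥ y) with hs
  have h0 : s ≠ 0 := fun e => by
    obtain ⟨c, hc⟩ := prop_of_wd hx (b := N *ᵥ y) (by rw [← ψ_wd, ← hs, e, map_zero])
    exact hy c hc
  have hQ : Q s = 0 := by simp [hs, wd, co, Pf_apply, vecMulVec_apply]; ring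
  have a1 : N * ψ s = 0 := by
    rw [ψ_wd, mul_sub, mul_vecMulVec, mul_vecMulVec, mulVec_mulVec, mulVec_mulVec, h2]; simp
  have a2 : ψ (τ s) * N = 0 := mat_ext fun z => by
    obtain ⟨α, β, e⟩ := H1.Sp4.span_two hr (a := N *ᵥ y) (v := N *ᵥ x) ⟨y, rfl⟩ ⟨x, rfl⟩ hx hy
      (y := N *ᵥ z) ⟨z, rfl⟩
    rw [← mulVec_mulVec, e, hs]
    generalize N *ᵥ x = a
    generalize N *ᵥ y = b
    ext i
    fin_cases i <;> simp [wd, co, ψ_def, τ_def, vecMulVec_apply, mulVec, dotProduct,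
      Fin.sum_univ_succ] <;> ring
  obtain ⟨t, ht⟩ := exists_B h0
  have a3 := anti s t
  rw [ht, one_smul] at a3
  have a4 : ψ s * Nᵀ = 0 := by
    have := congrArg transpose a1
    simpa [ψ_tr] using this
  obtain ⟨m, hm⟩ : ∃ m, ψ (τ m) = -(ψ (τ t) * N + Nᵀ * ψ (τ t)) :=
    ⟨τ (co (-(ψ (τ t) * N + Nᵀ * ψ (τ t)))), by rw [ττ, ψ_co' H.two (by simp [ψ_tr, add_comm])]⟩
  have a5 : ψ s * ψ (τ m) = -N := by
    rw [hm]
    linear_combination (norm := noncomm_ring) -a3 * N + ψ t * a2 - a4 * ψ (τ t)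
  have a6 : Bw s m = 0 := by
    have b1 := anti s m
    have b2 := ψ_sq' s
    rw [hQ, zero_smul] at b2
    have : Bw s m • ψ s = 0 := by
      linear_combination (norm := noncomm_ring) -b1 * ψ s + a5 * ψ s - a1 + ψ m * b2
    exact (smul_eq_zero.1 this).resolve_right fun e => h0 (ψ_inj (e.trans (map_zero _).symm))
  have hT : T ρ s m := ⟨hQ, a6, g, by rw [a5, e, sub_neg_eq_add]⟩
  refine ⟨s, m, h0, fun e' => hx ?_, hT⟩
  obtain ⟨c, rfl⟩ := H.aniso hT h0 e'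
  rw [← neg_neg N, ← a5]
  simp [ψ_sq, hQ]

theorem T_of (p : ℕ) [Fact p.Prime] [CharP k p] (hs : Q s = 0) (hm : Bw s m = 0) {g : P}
    (h : ∀ w, L2 (ρ g) w = et s m w) : T ρ s m := by
  have a1 : (1 + ψ s * ψ (τ m)) * (1 - ψ s * ψ (τ m)) = 1 := by
    linear_combination (norm := noncomm_ring) -EE hs hm * ψ (τ m)
  have a2 := mul_eq_one_comm.1 a1
  rcases L2_scal (A := (1 + ψ s * ψ (τ m)) * ρ g) (fun w => by
    rw [L2_mul, h, ← L2_E hs hm, ← L2_mul, a1, L2_one]) with e | e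
  · exact ⟨hs, hm, g, by
      linear_combination (norm := noncomm_ring) (1 - ψ s * ψ (τ m)) * e - a2 * ρ g⟩
  have a3 : ρ g = -(1 - ψ s * ψ (τ m)) := by
    linear_combination (norm := noncomm_ring) (1 - ψ s * ψ (τ m)) * e - a2 * ρ g
  have a4 : T ρ s ((2 : k) • m) := ⟨hs, by rw [Bw_smul, hm, mul_zero], g * g, by
    rw [map_mul, a3, two_smul, map_add, map_add]
    linear_combination (norm := noncomm_ring) EE hs hm * ψ (τ m)⟩
  obtain ⟨n, hn⟩ := (Fact.out : p.Prime).odd_of_ne_two (by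
    rintro rfl; exact H.two (CharP.cast_eq_zero k 2))
  have a5 := a4.nat (n + 1)
  have : ((2 * n + 1 : ℕ) : k) = 0 := hn ▸ CharP.cast_eq_zero k p
  rwa [smul_smul, show ((n + 1 : ℕ) : k) * 2 = 1 by push_cast at this ⊢; linear_combination this,
    one_smul] at a5

theorem skew {X : Set (W6 k)} (hX : ∀ g, ∀ x ∈ X, L2 (ρ g) x ∈ X) {x : W6 k} (hx : x ∈ X)
    (h0 : x ≠ 0) (hs : s ≠ 0) : ∃ y ∈ X, Bw s y ≠ 0 := by
  by_contra! hc
  let Y : Submodule k (W6 k) :=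
    { carrier := {w | ∀ y ∈ X, Bw w y = 0}
      add_mem' := fun ha hb y hy => by rw [add_Bw, ha y hy, hb y hy, add_zero]
      zero_mem' := fun y _ => zero_B y
      smul_mem' := fun c _ ha y hy => by rw [smul_Bw, ha y hy, mul_zero] }
  rcases H.irrW Y (fun g w hw y hy => by
    rw [← σ_inv' (ρ := ρ) g y, H.B_σ, hw _ (hX _ y hy)]) with e | e
  · exact hs ((Submodule.eq_bot_iff _).1 e s hc)
  · exact h0 (Bw_nd fun w => by rw [Bw_comm]; exact e.ge (Submodule.mem_top (x := w)) x hx)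

theorem gen (h : T ρ s m) (h0 : s ≠ 0) (hm : Q m ≠ 0) (S : Subgroup P)
    (hS : ∀ g u, (∀ w, L2 (ρ u) w = et (L2 (ρ g) s) (L2 (ρ g) m) w) → u ∈ S) : S = ⊤ := by
  obtain ⟨u, -, e⟩ := h.act
  have e' : ∀ g w, L2 (ρ (g * u * g⁻¹)) w = et (L2 (ρ g) s) (L2 (ρ g) m) w := fun g w => by
    rw [σ_mul, σ_mul, e]
    nth_rw 2 [← σ_inv' (ρ := ρ) g w]
    simp only [et, H.B_σ, H.Q_σ, map_add, map_sub, map_smul]
  rcases H.simp (Subgroup.normalClosure {u}) inferInstance with c | c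
  · have c := Subgroup.mem_center_iff.1 (c (Subgroup.subset_normalClosure rfl))
    obtain ⟨_, ⟨g, rfl⟩, hy⟩ := H.skew (X := Set.range fun g => L2 (ρ g) s)
      (by rintro g _ ⟨g', rfl⟩; exact ⟨g * g', σ_mul _ _ _⟩) ⟨1, rfl⟩ (σ_ne 1 h0) h0
    have a1 := e' g s
    rw [c g, mul_inv_cancel_right, e] at a1
    have a2 := congrArg (Bw (L2 (ρ g) m)) a1
    simp only [et] at a2
    simp only [bw] at a2
    rw [H.B_σ, H.Q_σ, h.1, h.2.1, Bw_comm m s, h.2.1] at a2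
    exact (mul_ne_zero hy (mul_ne_zero H.two hm) (by linear_combination -a2)).elim
  · rw [eq_top_iff, ← c]
    refine (Subgroup.closure_le S).2 fun x hx => ?_
    obtain ⟨y, hy, hx⟩ := Group.mem_conjugatesOfSet_iff.1 hx
    obtain ⟨g, rfl⟩ := isConj_iff.1 hx
    rw [show y = u from hy]
    exact hS g _ (e' g)

theorem perp {s' : W6 k} (h : T ρ s m) (h' : T ρ s' m') (hm : Q m ≠ 0) (h0 : s' ≠ 0)
    (h1 : Bw s s' = 0) (h2 : Bw m s' = 0) (hn : ∀ c : k, s ≠ c • s') :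
    Bw s m' = 0 ∧ Bw m m' = 0 := by
  have a0 : et s m s' = s' := by rw [et, Bw_comm s', Bw_comm s', h1, h2]; simp
  have a1 := H.cj h h'
  rw [a0] at a1
  have a2 := a1.sub h'
  have a3 := H.cj h a2
  rw [a0] at a3
  have a4 := a3.sub a2
  have key : ∀ c : k, T ρ s' (c • s) → c = 0 := fun c hc => by
    by_contra e
    obtain ⟨d, hd⟩ := H.aniso hc h0 (by rw [Q_smul, h.1, mul_zero])
    exact hn (c⁻¹ * d) (by rw [mul_smul, ← hd, smul_smul, inv_mul_cancel₀ e, one_smul])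
  have b1 : Bw s m' = 0 := by
    have := key (-(2 * Q m * Bw s m')) (by
      convert a4 using 1
      simp only [et]
      simp only [bw]
      rw [h.1, h.2.1, Bw_comm m s, h.2.1, Bw_comm m' s]
      module)
    simpa [H.two, hm] using this
  refine ⟨b1, neg_eq_zero.1 (key _ ?_)⟩
  convert a2 using 1
  rw [et, Bw_comm m' s, b1, Bw_comm m' m]
  module

end Hs

end Cfsg.Agent.L4.S
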