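import Cfsg.Agent.H1.Sp4D

/-!
Finite groups acting on a sum of two planes without transvections.
-/

set_option autoImplicit false

namespace Cfsg.Agent.L4.S

open Matrix MulAction Cfsg.Agent.H6 Cfsg.Agent.H1.Sp4
open scoped MatrixGroups

variable {k : Type*} [Field k]

theorem split_p (p : ℕ) [hp : Fact p.Prime] [CharP k p] {N : ℕ} (hN : N ≠ 0) :
    ∃ a o : ℕ, N = o * p ^ a ∧ (o : k) ≠ 0 := by
  obtain ⟨a, o, h1, rfl⟩ := Nat.exists_eq_pow_mul_and_not_dvd hN p hp.out.ne_one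
  exact ⟨a, o, mul_comm _ _, by rwa [Ne, CharP.cast_eq_zero_iff k p]⟩

theorem root_p (p : ℕ) [Fact p.Prime] [CharP k p] {x : k} {a : ℕ} (h : x ^ p ^ a = 1) : x = 1 := by
  have : (x - 1) ^ p ^ a = 0 := by rw [sub_pow_char_pow, h, one_pow, sub_self]
  exact sub_eq_zero.1 (pow_eq_zero_iff (pow_ne_zero _ (Fact.out : p.Prime).ne_zero) |>.1 this)

theorem exists_lam [IsAlgClosed k] {c : k} (h1 : c ≠ 2) (h2 : c ≠ -2) :
    ∃ l l' : k, l * l' = 1 ∧ l + l' = c ∧ l - l' ≠ 0 := by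
  obtain ⟨l, hl⟩ := IsAlgClosed.exists_root (Polynomial.X ^ 2 - Polynomial.C c * Polynomial.X + 1)
    (by
      have : (Polynomial.X ^ 2 - Polynomial.C c * Polynomial.X + 1 : Polynomial k).degree = 2 := by
        compute_degree!
      rw [this]; norm_num)
  simp only [Polynomial.IsRoot.def, Polynomial.eval_add, Polynomial.eval_sub, Polynomial.eval_pow,
    Polynomial.eval_X, Polynomial.eval_mul, Polynomial.eval_C, Polynomial.eval_one] at hl
  refine ⟨l, c - l, by linear_combination -hl, by ring, fun e => ?_⟩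
  have : (c - 2) * (c + 2) = 0 := by linear_combination (-4) * hl + (2 * l - c) * e
  rcases mul_eq_zero.1 this with e | e
  exacts [h1 (sub_eq_zero.1 e), h2 (eq_neg_of_add_eq_zero_left e)]

theorem ord {R : Type*} [Ring R] [Algebra k R] [IsAlgClosed k] (p : ℕ) [Fact p.Prime] [CharP k p]
    {A : R} {c : k} (hA : A * A = c • A - 1) {N : ℕ} (hN : N ≠ 0) (h : A ^ N = 1) (h1 : c ≠ 2)
    (h2 : c ≠ -2) : ∃ o : ℕ, (o : k) ≠ 0 ∧ A ^ o = 1 := by
  obtain ⟨a, o, rfl, ho⟩ := split_p (k := k) p hN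
  obtain ⟨l, l', e1, e2, e3⟩ := exists_lam h1 h2
  have key : ∀ l l' : k, l * l' = 1 → l + l' = c → A ^ o * (A - l' • 1) = A - l' • 1 :=
    fun l l' e1 e2 => by
    have f : ∀ n : ℕ, A ^ n * (A - l' • 1) = l ^ n • (A - l' • 1) := fun n => by
      induction n with
      | zero => simp
      | succ n ih =>
        have : A * (A - l' • 1) = l • (A - l' • 1) := by
          rw [mul_sub, hA, smul_sub, smul_smul, e1, ← e2, mul_smul_comm, mul_one]; module
        rw [pow_succ, mul_assoc, this, mul_smul_comm, ih, smul_smul, pow_succ']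
    by_cases e : A - l' • 1 = 0
    · simp [e]
    have := f (o * p ^ a)
    rw [h, one_mul, eq_comm, ← sub_eq_zero, ← one_smul k (A - l' • 1), smul_smul, ← sub_smul,
      smul_eq_zero, mul_one, pow_mul, sub_eq_zero] at this
    rw [f, root_p p (this.resolve_right e), one_smul]
  refine ⟨o, ho, smul_right_injective R e3 ?_⟩
  have a1 := key l l' e1 e2
  have a2 := key l' l (by rw [mul_comm, e1]) (by rw [add_comm, e2])
  simp only [mul_sub, mul_smul_comm, mul_one] at a1 a2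
  linear_combination (norm := module) a1 - a2

/-- two by two matrices -/
abbrev M2 (k : Type*) := Matrix (Fin 2) (Fin 2) k

theorem e2 {a b c d a' b' c' d' : k} :
    !![a, b; c, d] = !![a', b'; c', d'] ↔ a = a' ∧ b = b' ∧ c = c' ∧ d = d' := by
  simp [and_assoc]

theorem ex2 (A : M2 k) : ∃ a b c d, A = !![a, b; c, d] := ⟨_, _, _, _, eta_fin_two A⟩

theorem nil_pow {R : Type*} [Ring R] [Algebra k R] {n : R} (h : n * n = 0) (m : ℕ) :
    (1 + n) ^ m = 1 + (m : k) • n := by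
  induction m with
  | zero => simp
  | succ m ih =>
    rw [pow_succ, ih, mul_add, add_mul, add_mul, smul_mul_assoc, smul_mul_assoc, h]
    push_cast
    simp only [mul_one, one_mul]
    module

theorem low (p : ℕ) [Fact p.Prime] [CharP k p] {a c d : k} (hd : (!![a, 0; c, d]).det = 1)
    {n : ℕ} (h : !![a, 0; c, d] ^ p ^ n = 1) : a = 1 ∧ d = 1 := by
  have f : ∀ m : ℕ, ∃ c' d', !![a, 0; c, d] ^ m = !![a ^ m, 0; c', d'] := fun m => by
    induction m with
    | zero => exact ⟨0, 1, by rw [pow_zero, pow_zero, one_fin_two]⟩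
    | succ m ih =>
      obtain ⟨c', d', e⟩ := ih
      exact ⟨_, _, by rw [pow_succ, e, mul_fin_two, e2]; exact ⟨by ring, by ring, rfl, rfl⟩⟩
  obtain ⟨c', d', e⟩ := f (p ^ n)
  rw [e, one_fin_two, e2] at h
  obtain rfl := root_p p h.1
  simpa using hd

variable {X : Type*} [Group X]

/-- two plane representations whose sum contains no transvection -/
structure Bl (r s : X →* M2 k) : Prop where
  d1 : ∀ g, (r g).det = 1
  d2 : ∀ g, (s g).det = 1
  n1 : ∀ g, r g = 1 → (s g - 1) * (s g - 1) = 0 → s g = 1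
  n2 : ∀ g, s g = 1 → (r g - 1) * (r g - 1) = 0 → r g = 1

theorem inv2 {r : X →* M2 k} (h : ∀ g, (r g).det = 1) {g : X} {a b c d : k}
    (e : r g = !![a, b; c, d]) : r g⁻¹ = !![d, -b; -c, a] := by
  have h1 := h g
  rw [e, det_fin_two_of] at h1
  have : r g * !![d, -b; -c, a] = 1 := by
    rw [e, mul_fin_two, one_fin_two, e2]
    exact ⟨by linear_combination h1, by ring, by ring, by linear_combination h1⟩
  rw [← one_mul !![d, -b; -c, a], ← map_one r, ← inv_mul_cancel g, map_mul, mul_assoc, this, mul_one]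

namespace Bl

variable {r s : X →* M2 k} (b : Bl r s)
include b

theorem symm : Bl s r := ⟨b.d2, b.d1, b.n2, b.n1⟩

variable [Finite X] [IsAlgClosed k] (p : ℕ) [Fact p.Prime] [CharP k p] (h2 : (2 : k) ≠ 0)
include p h2

theorem tr {g : X} {ε : k} {n : M2 k} (e : r g = ε • (1 + n)) (hε : ε * ε = 1) (hn : n * n = 0)
    (h0 : n ≠ 0) {a b' c d : k} (e' : s g = !![a, b'; c, d]) : a + d = 2 ∨ a + d = -2 := by
  by_contra! hc
  have hd := b.d2 g
  rw [e', det_fin_two_of] at hd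
  obtain ⟨o, ho, h⟩ := ord p (A := s g) (c := a + d) (by
    rw [e', mul_fin_two, one_fin_two]
    ext i j
    fin_cases i <;> fin_cases j <;> simp <;> first | ring1 | linear_combination -hd)
    (Nat.card_pos (α := X)).ne' (by rw [← map_pow, pow_card_eq_one', map_one]) hc.1 hc.2
  have e1 : r (g ^ (o * 2)) = 1 + ((o * 2 : ℕ) : k) • n := by
    rw [map_pow, e, smul_pow, nil_pow (k := k) hn, mul_comm, pow_mul, pow_two, hε, one_pow, one_smul]
  have := b.n2 (g ^ (o * 2)) (by rw [map_pow, pow_mul, h, one_pow]) (by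
    rw [e1, add_sub_cancel_left, smul_mul_smul_comm, hn, smul_zero])
  rw [e1, add_eq_left, smul_eq_zero] at this
  exact this.elim (by push_cast; exact mul_ne_zero ho h2) h0

theorem kap {w κ : X} {n : M2 k} (e : r w = 1 + n) (hn : n * n = 0) (h0 : n ≠ 0) (hκ : r κ = 1)
    {τ : k} (h : ∀ i : ℕ, ∃ a b' c d, s (w ^ i * (κ * w * κ⁻¹)) = !![a, b'; c, d] ∧
      a + d = 2 - i * τ ^ 2) : τ = 0 ∨ ((3 : k) = 0 ∧ τ ^ 2 = 1) := by
  have f : ∀ i : ℕ, ((i + 1 : ℕ) : k) ≠ 0 → 2 - i * τ ^ 2 = 2 ∨ 2 - i * τ ^ 2 = -2 := fun i hi => by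
    obtain ⟨a, b', c, d, e1, e2⟩ := h i
    rw [← e2]
    refine b.tr p h2 (ε := 1) (n := ((i + 1 : ℕ) : k) • n) ?_ (by simp)
      (by rw [smul_mul_smul_comm, hn, smul_zero]) (smul_ne_zero hi h0) e1
    have : r κ⁻¹ = 1 := by rw [← one_mul (r κ⁻¹), ← hκ, ← map_mul, mul_inv_cancel, map_one, hκ]
    rw [map_mul, map_mul, map_mul, hκ, this, one_mul, mul_one, map_pow, ← pow_succ, e,
      nil_pow (k := k) hn, one_smul]
  have f1 := f 1 (by exact_mod_cast h2)
  by_cases h3 : (3 : k) = 0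
  · grind
  have f2 := f 2 (by exact_mod_cast h3)
  grind

variable {u v : X} {μ ν μ' ν' : k} (u1 : r u = !![1, μ; 0, 1]) (v1 : r v = !![1, 0; ν, 1])
  (u2 : s u = !![1, μ'; 0, 1]) (v2 : s v = !![1, 0; ν', 1])
include u1 v1 u2 v2

theorem kap2 (hμ : μ ≠ 0) (hν : ν ≠ 0) (hμ' : μ' ≠ 0) (hν' : ν' ≠ 0) {κ : X} (hκ : r κ = 1)
    {a b' c d : k} (e : s κ = !![a, b'; c, d]) (h : b' ≠ 0 ∨ c ≠ 0) :
    (3 : k) = 0 ∧ (μ' * ν') ^ 2 = 1 := by
  have f : ∀ κ a b' c d, r κ = 1 → s κ = !![a, b'; c, d] →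
      (ν' * b' = 0 ∨ ((3 : k) = 0 ∧ (ν' * b') ^ 2 = 1)) ∧
        (μ' * c = 0 ∨ ((3 : k) = 0 ∧ (μ' * c) ^ 2 = 1)) := fun κ a b' c d hκ e => by
    have hd := b.d2 κ
    rw [e, det_fin_two_of] at hd
    constructor
    · refine b.kap p h2 (w := v) (n := !![0, 0; ν, 0]) (by rw [v1, one_fin_two]; simp)
        (by simp [← Matrix.ext_iff, Fin.forall_fin_two]) (by simpa [← Matrix.ext_iff, Fin.forall_fin_two])
        hκ fun i => ?_
      have : s v = 1 + !![0, 0; ν', 0] := by rw [v2, one_fin_two]; simp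
      rw [map_mul, map_mul, map_mul, map_pow, inv2 b.d2 e, e, this, nil_pow (k := k)
        (by simp [← Matrix.ext_iff, Fin.forall_fin_two]), one_fin_two]
      simp only [smul_of, smul_cons, smul_empty, of_add_of, add_cons, head_cons, tail_cons,
        empty_add_empty, mul_fin_two]
      exact ⟨_, _, _, _, rfl, by simp only [smul_eq_mul]; linear_combination 2 * hd⟩
    · refine b.kap p h2 (w := u) (n := !![0, μ; 0, 0]) (by rw [u1, one_fin_two]; simp)
        (by simp [← Matrix.ext_iff, Fin.forall_fin_two]) (by simpa [← Matrix.ext_iff, Fin.forall_fin_two])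
        hκ fun i => ?_
      have : s u = 1 + !![0, μ'; 0, 0] := by rw [u2, one_fin_two]; simp
      rw [map_mul, map_mul, map_mul, map_pow, inv2 b.d2 e, e, this, nil_pow (k := k)
        (by simp [← Matrix.ext_iff, Fin.forall_fin_two]), one_fin_two]
      simp only [smul_of, smul_cons, smul_empty, of_add_of, add_cons, head_cons, tail_cons,
        empty_add_empty, mul_fin_two]
      exact ⟨_, _, _, _, rfl, by simp only [smul_eq_mul]; linear_combination 2 * hd⟩
  have cj : ∀ g, r (g * κ * g⁻¹) = 1 := fun g => by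
    rw [map_mul, map_mul, hκ, mul_one, ← map_mul, mul_inv_cancel, map_one]
  have g : ∀ g a1 b1 c1 d1, s g = !![a1, b1; c1, d1] → _ := fun g a1 b1 c1 d1 eg =>
    f _ _ _ _ _ (cj g) (by rw [map_mul, map_mul, inv2 b.d2 eg, eg, e, mul_fin_two, mul_fin_two])
  have f0 := f _ _ _ _ _ hκ e
  have f1 := (g _ _ _ _ _ u2).1
  have f2 := (g _ _ _ _ _ (inv2 b.d2 u2)).1
  have f3 := (g _ _ _ _ _ v2).2
  have f4 := (g _ _ _ _ _ (inv2 b.d2 v2)).2
  by_cases h3 : (3 : k) = 0
  swap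
  · grind
  refine ⟨h3, ?_⟩
  have F : ∀ x : k, x = 0 ∨ ((3 : k) = 0 ∧ x ^ 2 = 1) → x ^ 3 = x := fun x hx => by grind
  have G : ∀ x y : k, x ^ 3 = x → y ^ 3 = y → (x + y) ^ 3 = x + y := fun x y hx hy => by
    linear_combination hx + hy + (x ^ 2 * y + x * y ^ 2) * h3
  have a1 := G _ _ (F _ f1) (G _ _ (F _ f2) (F _ f0.1))
  have a2 := G _ _ (F _ f3) (G _ _ (F _ f4) (F _ f0.2))
  have a3 : (μ' * ν' * (μ' * c)) ^ 3 = μ' * ν' * (μ' * c) := by
    convert a1 using 2 <;> linear_combination (μ' * ν' * (μ' * c) - ν' * b') * h3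
  have a4 : (μ' * ν' * (ν' * b')) ^ 3 = μ' * ν' * (ν' * b') := by
    convert a2 using 2 <;> linear_combination (μ' * ν' * (ν' * b') - μ' * c) * h3
  have hh := mul_ne_zero hμ' hν'
  generalize μ' * ν' = t at a3 a4 hh
  rcases h with h | h
  · have := (f0.1.resolve_left (mul_ne_zero hν' h)).2
    have h := mul_ne_zero hν' h
    generalize ν' * b' = x at *
    exact mul_left_cancel₀ (mul_ne_zero hh h) (by linear_combination a4 - t ^ 3 * x * this)
  · have := (f0.2.resolve_left (mul_ne_zero hμ' h)).2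
    have h := mul_ne_zero hμ' h
    generalize μ' * c = x at *
    exact mul_left_cancel₀ (mul_ne_zero hh h) (by linear_combination a3 - t ^ 3 * x * this)

theorem mixed (hμ' : μ' ≠ 0) (hν' : ν' ≠ 0) (h : μ * ν = 1) : μ' * ν' = 1 := by
  by_contra hc
  have := b.kap2 p h2 u1 v1 u2 v2 (left_ne_zero_of_mul_eq_one h) (right_ne_zero_of_mul_eq_one h)
    hμ' hν' (κ := u * v⁻¹ * u * v * u⁻¹ * v) (by
      simp only [map_mul, inv2 b.d1 u1, inv2 b.d1 v1, u1, v1, mul_fin_two, one_fin_two, e2]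
      grind) (by simp only [map_mul, inv2 b.d2 u2, inv2 b.d2 v2, u2, v2, mul_fin_two]; rfl)
    (Or.inl fun e => hc (by
      have : μ' * (μ' * ν' - 1) ^ 2 = 0 := by linear_combination e
      grind))
  have h1 := b.tr p h2 (g := u * v⁻¹) (ε := -1) (n := !![-1, -μ; ν, 1]) (by
      simp only [map_mul, inv2 b.d1 v1, u1, mul_fin_two, one_fin_two, smul_of, smul_cons, smul_empty,
        of_add_of, add_cons, head_cons, tail_cons, empty_add_empty, e2, smul_eq_mul]
      grind) (by ring) (by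
      rw [mul_fin_two, ← Matrix.ext_iff]; simp [Fin.forall_fin_two]; grind)
    (by simp [← Matrix.ext_iff, Fin.forall_fin_two])
    (by simp only [map_mul, inv2 b.d2 v2, u2, mul_fin_two]; rfl)
  grind

omit u1 v1 u2 v2 in
theorem star_of {u v : X} {μ ν μ' ν' : k} (u1 : r u = !![1, μ; 0, 1]) (v1 : r v = !![1, 0; ν, 1])
    (u2 : s u = !![1, μ'; 0, 1]) (v2 : s v = !![1, 0; ν', 1]) (hμ' : μ' ≠ 0) (hν' : ν' ≠ 0)
    (h : (μ * ν) ^ 2 = 1) : ∃ g, r g = !![1, 0; μ⁻¹, 1] ∧ s g = !![1, 0; μ'⁻¹, 1] := by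
  rcases sq_eq_one_iff.1 h with h | h
  · exact ⟨v, by rw [v1, eq_inv_of_mul_eq_one_right h], by
      rw [v2, eq_inv_of_mul_eq_one_right (b.mixed p h2 u1 v1 u2 v2 hμ' hν' h)]⟩
  · have e1 := inv2 b.d1 v1
    have e2 := inv2 b.d2 v2
    rw [neg_zero] at e1 e2
    have h' : μ * -ν = 1 := by rw [mul_neg, h, neg_neg]
    exact ⟨v⁻¹, by rw [e1, eq_inv_of_mul_eq_one_right h'], by
      rw [e2, eq_inv_of_mul_eq_one_right (b.mixed p h2 u1 e1 u2 e2 hμ' (neg_ne_zero.2 hν') h')]⟩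

theorem star_or (hμ : μ ≠ 0) (hν : ν ≠ 0) (hμ' : μ' ≠ 0) (hν' : ν' ≠ 0) :
    (∃ g, r g = !![1, 0; μ⁻¹, 1] ∧ s g = !![1, 0; μ'⁻¹, 1]) ∨
      ((3 : k) = 0 ∧ (μ * ν) ^ 2 = -1) := by
  have hd : ∀ g, (r g).det ≠ 0 := fun g => by rw [b.d1]; exact one_ne_zero
  let π : X →* PGL(2, k) := MonoidHom.mk' (fun g => Pg.pg (r g)) fun g h => by
    rw [map_mul, Pg.pg_mul (hd g) (hd h)]
  have hπ : ∀ g, π g = Pg.pg (r g) := fun g => rfl
  haveI : Finite π.range := Finite.of_surjective _ π.rangeRestrict_surjective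
  have hM := (Pg.mob p).subgroup π.range
  have pu : r u ^ p = 1 := by
    rw [show r u = 1 + !![0, μ; 0, 0] by rw [u1, one_fin_two]; simp, nil_pow (k := k)
      (by simp [← Matrix.ext_iff, Fin.forall_fin_two]), CharP.cast_eq_zero, zero_smul, add_zero]
  have pv : r v ^ p = 1 := by
    rw [show r v = 1 + !![0, 0; ν, 0] by rw [v1, one_fin_two]; simp, nil_pow (k := k)
      (by simp [← Matrix.ext_iff, Fin.forall_fin_two]), CharP.cast_eq_zero, zero_smul, add_zero]
  have f0 : π u • ((0 : k) : OnePoint k) = (μ : OnePoint k) := by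
    rw [hπ, Pg.pg_some (hd u), u1]; simp
  have f1 : π u • ((0 : k) : OnePoint k) ≠ (0 : k) := by rw [f0]; simpa using hμ
  have f3 : hM.P ((0 : k) : OnePoint k) ≠ ⊥ := (Subgroup.ne_bot_iff_exists_ne_one).2
    ⟨⟨⟨π v, v, rfl⟩, by
      change π v • ((0 : k) : OnePoint k) = (0 : k)
      rw [hπ, Pg.pg_some (hd v), v1]; simp, Subtype.ext (by
        change π v ^ p = 1
        rw [hπ, Pg.pg_pow (hd v), pv, Pg.pg_one])⟩, fun e => hν (by
      have : π v = 1 := congrArg (fun x : hM.P ((0 : k) : OnePoint k) => x.1.1) e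
      rw [hπ, Pg.pg_eq_one (hd v), v1] at this
      simpa using this.2.1)⟩
  have f4 : hM.P OnePoint.infty ≠ ⊥ := (Subgroup.ne_bot_iff_exists_ne_one).2
    ⟨⟨⟨π u, u, rfl⟩, by
      change π u • (OnePoint.infty : OnePoint k) = OnePoint.infty
      rw [hπ, Pg.pg_infty (hd u), u1]; simp, Subtype.ext (by
        change π u ^ p = 1
        rw [hπ, Pg.pg_pow (hd u), pu, Pg.pg_one])⟩, fun e => hμ (by
      have : π u = 1 := congrArg (fun x : hM.P OnePoint.infty => x.1.1) e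
      rw [hπ, Pg.pg_eq_one (hd u), u1] at this
      simpa using this.1)⟩
  rcases hM.irregular f3 fun e => f1 (e.ge (Subgroup.mem_top ⟨π u, u, rfl⟩)) with
    ⟨a, -⟩ | big | ⟨hp, -, ⟨ε⟩⟩
  · obtain ⟨n, hn⟩ := card_P hM ((0 : k) : OnePoint k)
    obtain rfl := ((Nat.Prime.pow_eq_iff Nat.prime_two).1 (hn.symm.trans a)).1
    exact (h2 (CharP.cast_eq_zero k 2)).elim
  · left
    obtain ⟨⟨_, g, rfl⟩, g1, g2⟩ := big.P_trans (mem_O_of_P hM big f4)
      (Mob.mem_O.2 ⟨⟨π u, u, rfl⟩, rfl⟩) (by simp) f1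
    obtain ⟨t, n, hn⟩ := p_part p (Subgroup.mem_top g)
    have g3 : π (g ^ (1 + p * t)) = π g := by
      rw [map_pow, pow_add, pow_mul, show π g ^ p = 1 from congrArg Subtype.val g1.2]; simp
    have g5 : π g • ((0 : k) : OnePoint k) = (0 : k) := g1.1
    change π g • OnePoint.infty = π u • ((0 : k) : OnePoint k) at g2
    rw [← g3] at g2 g5
    generalize g ^ (1 + p * t) = g' at *
    obtain ⟨a1, b1, c1, d1, e1⟩ := ex2 (r g')
    obtain ⟨a2, b2, c2, d2, e2'⟩ := ex2 (s g')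
    have q1 := b.d1 g'
    have q2 := b.d2 g'
    have n1 : r g' ^ p ^ n = 1 := by rw [← map_pow, hn, map_one]
    have n2 : s g' ^ p ^ n = 1 := by rw [← map_pow, hn, map_one]
    rw [hπ, Pg.pg_some (hd g'), e1] at g5
    rw [f0, hπ, Pg.pg_infty (hd g'), e1] at g2
    obtain rfl : b1 = 0 := by
      by_cases e : d1 = 0 <;> simp [e] at g5
      exact g5
    rw [e1] at q1 n1
    rw [e2'] at q2 n2
    obtain ⟨rfl, rfl⟩ := low p q1 n1
    have c0 : μ * c1 = 1 := by
      by_cases e : c1 = 0 <;> simp [e] at g2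
      rw [← g2, inv_mul_cancel₀ e]
    by_cases hb : b2 = 0
    · subst hb
      obtain ⟨rfl, rfl⟩ := low p q2 n2
      have c2' : c2 ≠ 0 := fun e => by
        have := b.n2 g' (by rw [e2', e, one_fin_two]) (by
          rw [e1, one_fin_two]; simp [← Matrix.ext_iff, Fin.forall_fin_two])
        rw [e1, one_fin_two, e2] at this
        exact right_ne_zero_of_mul_eq_one c0 this.2.2.1
      exact b.star_of p h2 u1 e1 u2 e2' hμ' c2' (by rw [c0, one_pow])
    · have := b.kap2 p h2 u1 v1 u2 v2 hμ hν hμ' hν' (κ := g' * v * g'⁻¹ * v⁻¹) (by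
        simp only [map_mul, inv2 b.d1 e1, inv2 b.d1 v1, e1, v1, mul_fin_two, one_fin_two, e2]
        grind) (by simp only [map_mul, inv2 b.d2 e2', inv2 b.d2 v2, e2', v2, mul_fin_two]; rfl)
        (Or.inl fun e => hb (by
          have : ν' * b2 ^ 2 = 0 := by linear_combination -e
          grind))
      exact (b.symm.star_of p h2 u2 v2 u1 v1 hμ hν this.2).imp fun _ => And.symm
  · by_cases q : (μ * ν) ^ 2 = 1
    · exact Or.inl (b.star_of p h2 u1 v1 u2 v2 hμ' hν' q)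
    have h3 : (3 : k) = 0 := by exact_mod_cast hp ▸ CharP.cast_eq_zero k p
    have key : ∀ w l, r w = !![1, l; 0, 1] → 2 + l * ν = 0 ∨ (2 + l * ν) ^ 2 = 1 ∨
        (2 + l * ν) ^ 4 - 3 * (2 + l * ν) ^ 2 + 1 = 0 := fun w l hw => by
      have f : ∀ n : ℕ, ε ⟨π (w * v), _, rfl⟩ ^ n = 1 → (r (w * v) ^ n) 1 0 = 0 := fun n a => by
        rw [← map_pow, map_eq_one_iff _ ε.injective, Subtype.ext_iff] at a
        change π (w * v) ^ n = 1 at a
        rw [← map_pow, hπ, Pg.pg_eq_one (hd _), map_pow] at a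
        exact a.2.1
      simp only [map_mul r, hw, v1] at f
      rcases Pg.a5_pow (ε ⟨π (w * v), _, rfl⟩) with a | a | a <;> have := f _ a <;>
        simp [pow_succ] at this
      · exact .inl (mul_left_cancel₀ hν (by linear_combination this))
      · exact .inr (.inl (mul_left_cancel₀ hν (by linear_combination this)))
      · exact .inr (.inr (mul_left_cancel₀ hν (by linear_combination this)))
    have k2 := key u⁻¹ (-μ) (by rw [inv2 b.d1 u1, neg_zero])
    rw [neg_mul] at k2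
    exact Or.inr ⟨h3, ar1 h3 (mul_ne_zero hμ hν) (fun e => q (by rw [e, one_pow]))
      (fun e => q (by rw [e, neg_one_sq])) (key u μ u1) k2⟩

end Bl

end Cfsg.Agent.L4.S
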