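import Cfsg.Agent.L4.S0
import Cfsg.Agent.L4.S1
import Cfsg.Agent.L4.H0

/-!
Pairs of opposite Eichler transformations.
-/

set_option autoImplicit false

namespace Cfsg.Agent.L4.S

open Matrix Module Cfsg.Agent.H1.Spin6 Cfsg.Agent.L4.R

variable {k : Type*} [Field k]

local notation "Q" => Pf k

theorem cl (x y : W6 k) : ψ x * ψ (τ y) = Bw x y • (1 : M4 k) - ψ y * ψ (τ x) ∧
    (∀ A : M4 k, ψ x * (ψ (τ y) * A) = Bw x y • A - ψ y * (ψ (τ x) * A)) ∧
    ψ (τ x) * ψ y = Bw x y • (1 : M4 k) - ψ (τ y) * ψ x ∧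
    ∀ A : M4 k, ψ (τ x) * (ψ y * A) = Bw x y • A - ψ (τ y) * (ψ x * A) :=
  ⟨eq_sub_of_add_eq (anti x y), fun A => by
    rw [← mul_assoc, eq_sub_of_add_eq (anti x y), sub_mul, smul_mul_assoc, one_mul, mul_assoc],
    eq_sub_of_add_eq (anti' x y), fun A => by
    rw [← mul_assoc, eq_sub_of_add_eq (anti' x y), sub_mul, smul_mul_assoc, one_mul, mul_assoc]⟩

theorem cl0 (x : W6 k) : ψ x * ψ (τ x) = Q x • (1 : M4 k) ∧
    (∀ A : M4 k, ψ x * (ψ (τ x) * A) = Q x • A) ∧ ψ (τ x) * ψ x = Q x • (1 : M4 k) ∧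
    ∀ A : M4 k, ψ (τ x) * (ψ x * A) = Q x • A :=
  ⟨ψ_sq x, fun A => by rw [← mul_assoc, ψ_sq, smul_mul_assoc, one_mul], ψ_sq' x,
    fun A => by rw [← mul_assoc, ψ_sq', smul_mul_assoc, one_mul]⟩

theorem rg {R : Type*} [Ring R] [Algebra k R] : (∀ a b c : R, a * b * c = a * (b * c)) ∧
    (∀ a b c : R, a * (b + c) = a * b + a * c) ∧ (∀ a b c : R, (a + b) * c = a * c + b * c) ∧
    (∀ a b c : R, a * (b - c) = a * b - a * c) ∧ (∀ a b c : R, (a - b) * c = a * c - b * c) ∧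
    (∀ a b : R, a * -b = -(a * b)) ∧ (∀ a b : R, -a * b = -(a * b)) ∧
    (∀ (c : k) (a b : R), a * c • b = c • (a * b)) ∧ (∀ (c : k) (a b : R), c • a * b = c • (a * b)) ∧
    (∀ a : R, a * 1 = a) ∧ (∀ a : R, 1 * a = a) ∧ (∀ a : R, a * 0 = 0) ∧ (∀ a : R, 0 * a = 0) ∧
    (∀ a : R, (0 : k) • a = 0) :=
  ⟨mul_assoc, mul_add, add_mul, mul_sub, sub_mul, mul_neg, neg_mul, mul_smul_comm, smul_mul_assoc,
    mul_one, one_mul, mul_zero, zero_mul, zero_smul k⟩

variable {P : Type*} [Group P] [Finite P] [IsAlgClosed k] (p : ℕ) [Fact p.Prime] [CharP k p]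
include p

theorem nss {R : Type*} [Ring R] [Algebra k R] (ρ : P →* R) (h2 : (2 : k) ≠ 0) {x x' ε : R} {μ : k}
    (hx : x * x = 0) (hx' : x' * x' = 0) (hz : x * x' + x' * x = μ • 1 + ε) (hε : ε * ε = 0)
    (h0 : μ ≠ 0) (h4 : μ ≠ -4) {u u' : P} (hu : ρ u = 1 + x) (hu' : ρ u' = 1 + x')
    (hn : ε * x ≠ 0) : ∃ (κ : k) (g : P), κ ≠ 0 ∧ ρ g = 1 + κ • (ε * x) := by
  have hε' : ε = x * x' + x' * x - μ • 1 := by rw [hz]; simp
  have c1 : x * ε = ε * x := by
    rw [hε']; simp only [rg (k := k), hx, ← mul_assoc x x]; module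
  have c2 : x' * ε = ε * x' := by
    rw [hε']; simp only [rg (k := k), hx', ← mul_assoc x' x']; module
  have c3 : ε * (x * x' * x) = μ • (ε * x) := by
    rw [show x * x' * x = (μ • 1 + ε) * x by rw [← hz, add_mul, mul_assoc x' x, hx]; simp]
    simp only [rg (k := k), ← mul_assoc ε ε, hε, add_zero]
  obtain ⟨H, hH⟩ : ∃ H, H = (1 + x) * (1 + x') := ⟨_, rfl⟩
  have c4 : H * ε = ε * H := by
    rw [hH]; simp only [rg (k := k), c2, ← mul_assoc x ε, c1]
  have c5 : H * H = (2 + μ) • H + ε * H - 1 := by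
    rw [hH, hε']
    simp only [rg (k := k), hx, hx', ← mul_assoc x x, ← mul_assoc x' x']
    module
  have c6 : H * (ε * H) = (2 + μ) • (ε * H) - ε := by
    rw [← mul_assoc, c4, mul_assoc, c5]
    simp only [rg (k := k), ← mul_assoc ε ε, hε, add_zero]
  have c7 : x * (ε * H) * x = μ • (ε * x) := by
    rw [← c3, hH, ← mul_assoc x, c1]
    simp only [rg (k := k), hx, ← mul_assoc x x, add_zero, zero_add]
  have c8 : x * ε * x = 0 := by rw [c1, mul_assoc, hx, mul_zero]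
  obtain ⟨l, l', e1, e2, e3⟩ := exists_lam (c := 2 + μ) (by simpa using h0)
    (fun e => h4 (by linear_combination e))
  have f : ∀ n : ℕ, ∃ a b a' b' : k, H ^ n = a • H + b • 1 + a' • (ε * H) + b' • ε ∧
      (l - l') * a = l ^ n - l' ^ n ∧ (l - l') * b = l * l' ^ n - l' * l ^ n ∧
      (l - l') ^ 3 * a' = n * (l ^ n + l' ^ n) * (l - l') - (l + l') * (l ^ n - l' ^ n) ∧
      (l - l') ^ 3 * b' = -((n - 1) * (l ^ n * l' + l' ^ n * l) * (l - l') -
        (l + l') * (l ^ n * l' - l' ^ n * l)) := fun n => by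
    induction n with
    | zero => exact ⟨0, 1, 0, 0, by simp, by simp, by simp, by simp, by simp; ring⟩
    | succ n ih =>
      obtain ⟨a, b, a', b', i0, i1, i2, i3, i4⟩ := ih
      refine ⟨(l + l') * a + b, -a, a + (l + l') * a' + b', -a', ?_, ?_, ?_, ?_, ?_⟩
      · rw [pow_succ', i0]
        simp only [rg (k := k), c4, c5, c6, e2]
        module
      · linear_combination (l + l') * i1 + i2
      · linear_combination -i1 - (l' ^ n - l ^ n) * e1
      · push_cast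
        linear_combination (l - l') ^ 2 * i1 + (l + l') * i3 + i4
      · push_cast
        linear_combination -i3 + (n * (l ^ n + l' ^ n) * (l - l') - (l + l') * (l ^ n - l' ^ n)) * e1
  have hH' : ρ (u * u') = H := by rw [map_mul, hu, hu', hH]
  obtain ⟨j, o, e4, ho⟩ := split_p (k := k) p (Nat.card_pos (α := P)).ne'
  have e5 : l ^ (2 * o) = 1 := by
    obtain ⟨a, b, a', b', i0, i1, -⟩ := f (Nat.card P)
    rw [← hH', ← map_pow, pow_card_eq_one', map_one, hH'] at i0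
    have := congrArg (fun y => x * (ε * y) * x) i0
    simp only [mul_add, add_mul, mul_smul_comm, smul_mul_assoc, mul_one, ← mul_assoc ε ε, hε, c7, c8,
      zero_mul, mul_zero, smul_zero, add_zero, smul_smul] at this
    obtain rfl : a = 0 := by simpa [h0, hn] using this.symm
    refine root_p p (a := j) ?_
    rw [← pow_mul, mul_assoc, ← e4, two_mul, pow_add]
    nth_rw 2 [show l ^ Nat.card P = l' ^ Nat.card P by linear_combination -i1]
    rw [← mul_pow, e1, one_pow]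
  have e6 : l' ^ (2 * o) = 1 := by rw [← one_mul (l' ^ _), ← e5, ← mul_pow, e1, one_pow, e5]
  obtain ⟨a, b, a', b', i0, i1, i2, i3, -⟩ := f (2 * o)
  rw [e5, e6] at i1 i2 i3
  obtain rfl : a = 0 := by simpa [e3] using i1
  obtain rfl : b = 1 := mul_left_cancel₀ e3 (by linear_combination i2)
  have ha : a' ≠ 0 := by
    rintro rfl
    exact mul_ne_zero (mul_ne_zero (mul_ne_zero h2 h2) ho) e3 (by push_cast at i3; linear_combination -i3)
  obtain ⟨w, hw⟩ : ∃ w, w = a' • H + b' • 1 := ⟨_, rfl⟩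
  have d0 : w * ε = ε * w := by rw [hw]; simp only [rg (k := k), c4]
  have d1 : ρ ((u * u') ^ (2 * o)) = 1 + ε * w := by
    rw [map_pow, hH', i0, hw]; simp only [rg (k := k)]; module
  have iv : ∀ {g : P} {y : R}, y * y = 0 → ρ g = 1 + y → ρ g⁻¹ = 1 - y := fun {g y} hy e => by
    have h1 : ρ g⁻¹ * ρ g = 1 := by rw [← map_mul, inv_mul_cancel, map_one]
    rw [e] at h1
    linear_combination (norm := noncomm_ring) h1 * (1 - y) + ρ g⁻¹ * hy
  have d2 := iv (by rw [mul_assoc, ← mul_assoc w, d0, ← mul_assoc, ← mul_assoc, hε]; simp) d1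
  generalize (u * u') ^ (2 * o) = g at d1 d2
  refine ⟨-2 * a' * μ, u * g * u⁻¹ * (u⁻¹ * g * u) * (g⁻¹ * g⁻¹),
    mul_ne_zero (mul_ne_zero (neg_ne_zero.2 h2) ha) h0, ?_⟩
  have d3 : ε * (x * (w * x)) = (a' * μ) • (ε * x) := by
    rw [mul_smul, ← c7, hw, ← mul_assoc x ε, c1]
    simp only [rg (k := k), hx, smul_zero, add_zero]
  simp only [map_mul, hu, iv hx hu, d1, d2, rg (k := k), ← mul_assoc x ε, c1, ← mul_assoc w ε, d0,
    ← mul_assoc ε ε, hε, hx, ← mul_assoc x x, d3]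
  module

variable {ρ : P →* M4 k} (H : Hs ρ) {s s' m m' : W6 k}
include H

theorem Hs.semis (h : T ρ s m) (h' : T ρ s' m') (hB : Bw s s' = 1) (m2 : Bw s' m = 0)
    (n1 : Bw s m' = 0) (hm : Q m ≠ 0) (hm' : Q m' ≠ 0) (hd : Bw m m' ^ 2 = 4 * (Q m * Q m')) :
    ∃ c : k, m' = c • m := by
  have h2 := H.two
  have hs : s ≠ 0 := by rintro rfl; simp [zero_B] at hB
  have key : ∀ c r, T ρ s' (c • m + r) → Bw s r = 0 → Bw s' r = 0 → Bw m r = 0 → Q r = 0 → c ≠ 0 →
      c * Q m ≠ 4 → r = 0 := fun c r h' r1 r2 r3 r4 hc h4 => by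
    have z : ∀ d : k, d ≠ 0 → T ρ s (d • r) → r = 0 := fun d hd hT => by
      obtain ⟨e, he⟩ := H.aniso hT hs (by rw [Q_smul, r4, mul_zero])
      have := congrArg (Bw s') he
      rw [Bw_smul, Bw_smul, r2, Bw_comm, hB, mul_zero, mul_one] at this
      rw [← this, zero_smul] at he
      exact (smul_eq_zero.1 he).resolve_left hd
    obtain ⟨u, hu⟩ := h.2.2
    obtain ⟨u', hu'⟩ := h'.2.2
    have b1 := h.2.1
    have b2 := hB
    have q1 := h.1
    have q2 := h'.1
    rw [Bw_comm] at b1 b2 m2 r1 r2 r3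
    have e : -((ψ s * ψ (τ s') - ψ s' * ψ (τ s)) * (ψ m * ψ (τ r))) * -(ψ s * ψ (τ m)) =
        -(Q m • (ψ s * ψ (τ r))) := by
      simp only [rg (k := k), cl m s, cl m s', cl r s, cl r s', cl r m, cl s' s, cl0, b1, b2, m2, r1,
        r2, r3, r4, q1, q2]
      module
    by_contra hr
    obtain ⟨κ, g, hκ, hg⟩ := nss p ρ h2 (x := -(ψ s * ψ (τ m))) (x' := -(ψ s' * ψ (τ (c • m + r))))
      (ε := -((ψ s * ψ (τ s') - ψ s' * ψ (τ s)) * (ψ m * ψ (τ r)))) (μ := -(c * Q m))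
      (by simp only [rg (k := k), cl m s, cl0, b1, q1]; module)
      (by simp only [map_add, map_smul, rg (k := k), cl m s', cl r s', cl0, m2, r2, q2]; module)
      (by
        simp only [map_add, map_smul, rg (k := k), cl m s, cl m s', cl r s, cl r s', cl r m, cl s' s,
          cl0, b1, b2, m2, r1, r2, r3, r4, q1, q2]
        module)
      (by
        simp only [rg (k := k), cl m s, cl m s', cl r s, cl r s', cl r m, cl s' s,
          cl0, b1, b2, m2, r1, r2, r3, r4, q1, q2]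
        module)
      (neg_ne_zero.2 (mul_ne_zero hc hm)) (fun e => h4 (neg_injective e)) (u := u) (u' := u')
      (by rw [hu, sub_eq_add_neg]) (by rw [hu', sub_eq_add_neg]) (fun e' => hr (z 1 one_ne_zero
        ⟨q1, by rw [one_smul, Bw_comm, r1], 1, by
          rw [e, neg_eq_zero, smul_eq_zero] at e'
          rw [one_smul, e'.resolve_left hm, map_one, sub_zero]⟩))
    exact hr (z (κ * Q m) (mul_ne_zero hκ hm) ⟨q1, by rw [Bw_smul, Bw_comm, r1, mul_zero], g, by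
      rw [hg, e, map_smul, map_smul, mul_smul_comm]; module⟩)
  have a0 := h.2.1
  have a1 := h'.2.1
  obtain ⟨c, hc⟩ : ∃ c, Bw m m' = c * (2 * Q m) := ⟨Bw m m' / (2 * Q m), by field_simp⟩
  have a2 : Q m' = c * c * Q m := mul_left_cancel₀ (mul_ne_zero (mul_ne_zero h2 h2) hm) (by
    rw [hc] at hd; linear_combination -hd)
  have a3 : c ≠ 0 := by rintro rfl; exact hm' (by simpa using a2)
  refine ⟨c, sub_eq_zero.1 ?_⟩
  by_cases h4 : c * Q m = 4
  · refine (smul_eq_zero.1 (key (2 * c) ((2 : k) • (m' - c • m)) (by convert h'.add h' using 1; module)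
      ?_ ?_ ?_ ?_ (mul_ne_zero h2 a3) fun e => mul_ne_zero h2 h2 (by
        linear_combination e - 2 * h4))).resolve_left h2 <;>
    simp only [bw, Bw_comm m' m, *] <;> ring
  · refine key c (m' - c • m) (by simpa using h') ?_ ?_ ?_ ?_ a3 h4 <;>
    simp only [bw, Bw_comm m' m, *] <;> ring

end Cfsg.Agent.L4.S
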