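import Cfsg.Agent.L4.S2

/-!
The pair lemma.
-/

set_option autoImplicit false

namespace Cfsg.Agent.L4.S

open Matrix Module Cfsg.Agent.H1.Spin6 Cfsg.Agent.L4.R Cfsg.Agent.L4.H

variable {k : Type*} [Field k]

local notation "Q" => Pf k

/-- block diagonal matrices -/
def b2 (A D : M2 k) : M4 k :=
  !![A 0 0, A 0 1, 0, 0; A 1 0, A 1 1, 0, 0; 0, 0, D 0 0, D 0 1; 0, 0, D 1 0, D 1 1]

theorem b2_mul (A D A' D' : M2 k) : b2 A D * b2 A' D' = b2 (A * A') (D * D') := by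
  simp [b2, mul4, mul_apply]

theorem b2_one : b2 (1 : M2 k) 1 = 1 := by simp [b2, one4]

theorem b2_inj {A D A' D' : M2 k} (h : b2 A D = b2 A' D') : A = A' ∧ D = D' := by
  simp only [b2, em4] at h
  constructor <;> ext i j <;> fin_cases i <;> fin_cases j <;> simp [h]

theorem nil2 {n : M2 k} (h : (n - 1) * (n - 1) = 0) : ∃ a b : k, ∀ x y : k, ∃ c,
    n 0 0 * x + n 0 1 * y = x + c * a ∧ n 1 0 * x + n 1 1 * y = y + c * b := by
  obtain ⟨a, b, c, d, rfl⟩ := ex2 n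
  rw [one_fin_two] at h
  simp only [← Matrix.ext_iff, Fin.forall_fin_two, of_sub_of, sub_cons, head_cons, tail_cons,
    empty_sub_empty, mul_fin_two, of_apply, cons_val', cons_val_zero, cons_val_one,
    cons_val_fin_one, Matrix.zero_apply] at h ⊢
  by_cases hc : c = 0
  · exact ⟨1, 0, fun x y => ⟨b * y, by grind, by grind⟩⟩
  · exact ⟨a - 1, c, fun x y => ⟨x + (d - 1) / c * y, by field_simp; grind, by field_simp; grind⟩⟩

variable {P : Type*} [Group P] [Finite P] [IsAlgClosed k] (p : ℕ) [Fact p.Prime] [CharP k p]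
include p

theorem core (h2 : (2 : k) ≠ 0) (C : P →* M4 k)
    (nt : ∀ g v, (∀ y, ∃ c : k, C g *ᵥ y = y + c • v) → g = 1) {u v : P} {μ μ' : k} (hμ : μ ≠ 0)
    (hμ' : μ' ≠ 0) (hu : C u = b2 !![1, μ; 0, 1] !![1, μ'; 0, 1])
    (hv : C v = b2 !![1, 0; 1, 1] !![1, 0; 1, 1]) :
    (∃ g, C g = b2 !![1, 0; μ⁻¹, 1] !![1, 0; μ'⁻¹, 1]) ∨ ((3 : k) = 0 ∧ μ ^ 2 = -1 ∧ μ' ^ 2 = -1) := by
  let X := H1.Sp4.sub (⊤ : Subgroup P) (fun g => ∃ A D : M2 k, A.det = 1 ∧ D.det = 1 ∧ C g = b2 A D)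
    ⟨1, 1, det_one, det_one, by rw [map_one, b2_one]⟩
    fun a _ b _ ⟨A, D, h1, h2, h3⟩ ⟨A', D', h1', h2', h3'⟩ => ⟨A * A', D * D', by simp [*], by simp [*],
      by rw [map_mul, h3, h3', b2_mul]⟩
  choose r0 s0 d1 d2 e using fun g : X => g.2.2
  have mul : ∀ a b : X, r0 (a * b) = r0 a * r0 b ∧ s0 (a * b) = s0 a * s0 b := fun a b =>
    b2_inj (by rw [← e, ← b2_mul, ← e, ← e, Subgroup.coe_mul, map_mul])
  have one : r0 1 = 1 ∧ s0 1 = 1 := b2_inj (by rw [← e, b2_one, Subgroup.coe_one, map_one])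
  let r : X →* M2 k := ⟨⟨r0, one.1⟩, fun a b => (mul a b).1⟩
  let s : X →* M2 k := ⟨⟨s0, one.2⟩, fun a b => (mul a b).2⟩
  have b : Bl r s := ⟨d1, d2, fun g h1 h => by
      obtain ⟨a, b, h⟩ := nil2 h
      rw [show g = 1 from Subtype.ext (nt g ![0, 0, a, b] fun y => ?_), map_one]
      obtain ⟨y0, y1, y2, y3, rfl⟩ := ex4 y
      obtain ⟨c, h, h'⟩ := h y2 y3
      refine ⟨c, ?_⟩
      rw [e, show r0 g = 1 from h1, b2, mv4, sv4, av4, ev4]
      exact ⟨by simp, by simp, by linear_combination h, by linear_combination h'⟩, fun g h1 h => by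
      obtain ⟨a, b, h⟩ := nil2 h
      rw [show g = 1 from Subtype.ext (nt g ![a, b, 0, 0] fun y => ?_), map_one]
      obtain ⟨y0, y1, y2, y3, rfl⟩ := ex4 y
      obtain ⟨c, h, h'⟩ := h y0 y1
      refine ⟨c, ?_⟩
      rw [e, show s0 g = 1 from h1, b2, mv4, sv4, av4, ev4]
      exact ⟨by linear_combination h, by linear_combination h', by simp, by simp⟩⟩
  have iu := b2_inj ((e ⟨u, trivial, _, _, by simp, by simp, hu⟩).symm.trans hu)
  have iv := b2_inj ((e ⟨v, trivial, _, _, by simp, by simp, hv⟩).symm.trans hv)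
  have f : ∀ g : X, r g = !![1, 0; μ⁻¹, 1] → s g = !![1, 0; μ'⁻¹, 1] → ∃ g,
      C g = b2 !![1, 0; μ⁻¹, 1] !![1, 0; μ'⁻¹, 1] := fun g h h' => ⟨g, by rw [e, ← h, ← h']; rfl⟩
  rcases b.star_or p h2 iu.1 iv.1 iu.2 iv.2 hμ one_ne_zero hμ' one_ne_zero with ⟨g, h⟩ | h
  · exact .inl (f g h.1 h.2)
  rcases b.symm.star_or p h2 iu.2 iv.2 iu.1 iv.1 hμ' one_ne_zero hμ one_ne_zero with ⟨g, h'⟩ | h'
  · exact .inl (f g h'.2 h'.1)
  exact .inr ⟨h.1, by simpa using h.2, by simpa using h'.2⟩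

variable {ρ : P →* M4 k} (H : Hs ρ) {s s' m m' : W6 k}
include H

theorem Hs.frame (h : T ρ s m) (h' : T ρ s' m') (hB : Bw s s' = 1) (m2 : Bw s' m = 0)
    (n1 : Bw s m' = 0) (hm : Q m ≠ 0) {μ μ' : k} (hμ : μ ≠ 0) (hμ' : μ' ≠ 0) {v v' : Fin 4 → k}
    (a1 : ψ (τ s) *ᵥ v = 0) (a2 : ψ (τ s) *ᵥ v' = 0) (a3 : (ψ m * ψ (τ m')) *ᵥ v = -μ • v)
    (a4 : (ψ m * ψ (τ m')) *ᵥ v' = -μ' • v') (ind : ∀ a b : k, a • v + b • v' = 0 → a = 0 ∧ b = 0) :
    T ρ s' ((Q m)⁻¹ • m) ∨ ((3 : k) = 0 ∧ μ ^ 2 = -1 ∧ μ' ^ 2 = -1) := by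
  obtain ⟨u, hu⟩ := h.2.2
  obtain ⟨u', hu'⟩ := h'.2.2
  have b1 := h.2.1
  have b2' := hB
  have b3 := h'.2.1
  have q1 := h.1
  have q2 := h'.1
  rw [Bw_comm] at b1 b2' b3 m2 n1
  obtain ⟨x, hx⟩ : ∃ x, x = -(ψ s * ψ (τ m)) := ⟨_, rfl⟩
  obtain ⟨x', hx'⟩ : ∃ x, x = -(ψ s' * ψ (τ m')) := ⟨_, rfl⟩
  obtain ⟨y, hy⟩ : ∃ x, x = ψ s' * ψ (τ ((Q m)⁻¹ • m)) := ⟨_, rfl⟩
  rw [sub_eq_add_neg, ← hx] at hu
  rw [sub_eq_add_neg, ← hx'] at hu'
  have c1 : ∀ v, ψ (τ s) *ᵥ v = 0 → x *ᵥ v = 0 := fun v hv => by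
    rw [show x = ψ m * ψ (τ s) by simp [hx, cl m s, b1], ← mulVec_mulVec, hv, mulVec_zero]
  have c2 : ∀ v (μ : k), ψ (τ s) *ᵥ v = 0 → (ψ m * ψ (τ m')) *ᵥ v = -μ • v →
      x *ᵥ x' *ᵥ v = μ • v := fun v μ hv e => by
    have : x * x' = (ψ s' * ψ (τ s) - 1) * (ψ m * ψ (τ m')) := by
      simp only [hx, hx', rg (k := k), cl m s', cl s' s, m2, b2']; module
    rw [mulVec_mulVec, this, ← mulVec_mulVec, e, mulVec_smul, sub_mulVec, ← mulVec_mulVec, hv]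
    simp
  have c3 : ∀ v, x' *ᵥ x' *ᵥ v = 0 := fun v => by
    have : x' * x' = 0 := by simp only [hx', rg (k := k), cl m' s', cl0, b3, q2]; module
    rw [mulVec_mulVec, this, zero_mulVec]
  have c4 : ∀ v, y *ᵥ x' *ᵥ v = 0 := fun v => by
    have : y * x' = 0 := by
      simp only [hy, hx', map_smul, rg (k := k), cl m s', cl0, m2, q2]; module
    rw [mulVec_mulVec, this, zero_mulVec]
  have c5 : ∀ v (μ : k), μ ≠ 0 → x *ᵥ x' *ᵥ v = μ • v → y *ᵥ v = μ⁻¹ • x' *ᵥ v :=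
    fun v μ h0 e => by
    have : y * (x * x') = x' := by
      simp only [hy, hx, hx', map_smul, rg (k := k), cl m s, cl m s', cl s' s, cl0, b1, b2', m2,
        q1, q2]
      match_scalars <;> field_simp <;> ring
    rw [← this, ← mulVec_mulVec, ← mulVec_mulVec, e, mulVec_smul, smul_smul, inv_mul_cancel₀ h0,
      one_smul]
  have d1 := c2 v μ a1 a3
  have d2 := c2 v' μ' a2 a4
  obtain ⟨B', hB'⟩ := cols_inv (u := v) (v := x' *ᵥ v) (w := v') (z := x' *ᵥ v') fun a b c d e => by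
    have := congrArg (x *ᵥ ·) e
    simp only [mulVec_add, mulVec_smul, c1 v a1, c1 v' a2, d1, d2, smul_zero, zero_add, add_zero,
      smul_smul, mulVec_zero] at this
    obtain ⟨hb, hd⟩ := ind _ _ this
    obtain rfl := (mul_eq_zero.1 hb).resolve_right hμ
    obtain rfl := (mul_eq_zero.1 hd).resolve_right hμ'
    simpa using ind a c (by simpa using e)
  generalize hB0 : cols v (x' *ᵥ v) v' (x' *ᵥ v') = B at hB'
  have hB'' := mul_eq_one_comm.1 hB'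
  let C : P →* M4 k := ⟨⟨fun g => B' * ρ g * B, by simp [hB'']⟩, fun a b => by
    simp only [map_mul, mul_assoc, ← mul_assoc B, hB', one_mul]⟩
  have hC : ∀ g A, C g = A ↔ ρ g * B = B * A := fun g A =>
    ⟨fun e => by rw [← e]; simp only [C, MonoidHom.coe_mk, OneHom.coe_mk, ← mul_assoc, hB', one_mul],
      fun e => show B' * ρ g * B = A by rw [mul_assoc, e, ← mul_assoc, hB'', one_mul]⟩
  have ex : ∀ A D : M4 k, (∀ a b c d, A *ᵥ B *ᵥ ![a, b, c, d] = B *ᵥ D *ᵥ ![a, b, c, d]) →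
      A * B = B * D := fun A D e => mat_ext fun z => by
    obtain ⟨a, b, c, d, rfl⟩ := ex4 z
    rw [← mulVec_mulVec, ← mulVec_mulVec, e]
  refine (core p H.two C (fun g w hw => H.nt g (B *ᵥ w) fun z => ?_) (u := u) (v := u') hμ hμ'
    ((hC _ _).2 (ex _ _ fun a b c d => ?_)) ((hC _ _).2 (ex _ _ fun a b c d => ?_))).imp_left
    fun ⟨g, hg⟩ => (T.neg (m := -((Q m)⁻¹ • m)) ⟨q2, by simp only [bw, Bw_comm s', m2]; simp, g,
      ?_⟩).imp_right fun e => by rwa [neg_neg] at e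
  · obtain ⟨c, hc⟩ := hw (B' *ᵥ z)
    refine ⟨c, ?_⟩
    have := congrArg (B *ᵥ ·) hc
    simp only [mulVec_mulVec, ← mul_assoc, hB', mulVec_add, mulVec_smul, one_mulVec] at this
    rwa [← (hC g _).1 rfl, mul_assoc, hB', mul_one] at this
  · simp only [hu, b2, mv4, ← hB0, cols_mulVec, add_mulVec, one_mulVec, mulVec_add, mulVec_smul,
      c1 v a1, c1 v' a2, d1, d2, of_apply, cons_val', cons_val_zero, cons_val_one, cons_val_fin_one]
    module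
  · simp only [hu', b2, mv4, ← hB0, cols_mulVec, add_mulVec, one_mulVec, mulVec_add, mulVec_smul,
      c3, of_apply, cons_val', cons_val_zero, cons_val_one, cons_val_fin_one]
    module
  · have : (1 + y) * B = B * b2 !![1, 0; μ⁻¹, 1] !![1, 0; μ'⁻¹, 1] := ex _ _ fun a b c d => by
      simp only [b2, mv4, ← hB0, cols_mulVec, add_mulVec, one_mulVec, mulVec_add, mulVec_smul,
        c4, c5 v μ hμ d1, c5 v' μ' hμ' d2, of_apply, cons_val', cons_val_zero, cons_val_one,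
        cons_val_fin_one]
      module
    rw [← (hC _ _).1 hg] at this
    rw [map_neg, map_neg, mul_neg, sub_neg_eq_add, ← hy, ← mul_one (ρ g), ← hB', ← mul_assoc, ← this,
      mul_assoc, hB', mul_one]

theorem Hs.pair (h : T ρ s m) (h' : T ρ s' m') (hB : Bw s s' = 1) (m2 : Bw s' m = 0)
    (n1 : Bw s m' = 0) (hm : Q m ≠ 0) (hm' : Q m' ≠ 0) : T ρ s' ((Q m)⁻¹ • m) ∨ ((3 : k) = 0 ∧
      ((Bw m m' = 0 ∧ Q m * Q m' = 1) ∨ (Bw m m' ^ 2 = -4 ∧ Q m * Q m' = -1))) := by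
  have h2 := H.two
  have hs : s ≠ 0 := by rintro rfl; simp [zero_B] at hB
  obtain ⟨δ, hδ⟩ := IsAlgClosed.exists_eq_mul_self (Bw m m' ^ 2 - 4 * (Q m * Q m'))
  obtain ⟨μ, μ', e1, e2, e3⟩ : ∃ μ μ' : k, μ + μ' = -Bw m m' ∧ μ * μ' = Q m * Q m' ∧ μ - μ' = δ :=
    ⟨(-Bw m m' + δ) / 2, (-Bw m m' - δ) / 2, by field_simp; ring,
      by field_simp; linear_combination hδ, by field_simp; ring⟩
  have e4 : μ * μ' ≠ 0 := e2 ▸ mul_ne_zero hm hm'
  have b1 := h.2.1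
  have q1 := h.1
  rw [Bw_comm] at b1
  have n1' := n1
  rw [Bw_comm] at n1'
  suffices ∃ v v' : Fin 4 → k, ψ (τ s) *ᵥ v = 0 ∧ ψ (τ s) *ᵥ v' = 0 ∧
      (ψ m * ψ (τ m')) *ᵥ v = -μ • v ∧ (ψ m * ψ (τ m')) *ᵥ v' = -μ' • v' ∧
      ∀ a b : k, a • v + b • v' = 0 → a = 0 ∧ b = 0 by
    obtain ⟨v, v', a1, a2, a3, a4, a5⟩ := this
    exact (H.frame p h h' hB m2 n1 hm (left_ne_zero_of_mul e4) (right_ne_zero_of_mul e4) a1 a2 a3 a4
      a5).imp_right fun e => ⟨e.1, H1.Sp4.ar2 e1 e2 e.2.1 e.2.2⟩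
  by_cases hc : ∃ c : k, m' = c • m
  · obtain ⟨c, rfl⟩ := hc
    simp only [bw] at e1 e2 hδ
    obtain rfl : μ = -(c * Q m) := by grind
    obtain rfl : μ' = -(c * Q m) := by grind
    obtain ⟨y, y', hy⟩ : ∃ y y' : Fin 4 → k, y' ⬝ᵥ ψ s *ᵥ y ≠ 0 := by
      by_contra! e
      refine hs (ψ_inj (mat_ext fun y => ?_))
      rw [map_zero, zero_mulVec]
      exact dotProduct_eq_zero_iff.1 fun y' => by rw [dotProduct_comm, e]
    have al : ∀ y y' : Fin 4 → k, y' ⬝ᵥ ψ s *ᵥ y = -(y ⬝ᵥ ψ s *ᵥ y') := fun y y' => by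
      simp [ψ_def, mulVec, dotProduct, Fin.sum_univ_succ]; ring
    have al' : ∀ y : Fin 4 → k, y ⬝ᵥ ψ s *ᵥ y = 0 := fun y => mul_left_cancel₀ h2 (by
      linear_combination al y y)
    refine ⟨ψ s *ᵥ y, ψ s *ᵥ y', by simp [cl0, q1], by simp [cl0, q1],
      by simp [cl0, smul_mulVec, smul_smul], by simp [cl0, smul_mulVec, smul_smul], fun a b e => ?_⟩
    have i1 := congrArg (y ⬝ᵥ ·) e
    have i2 := congrArg (y' ⬝ᵥ ·) e
    simp only [dotProduct_add, dotProduct_smul, al', al y' y, dotProduct_zero, smul_eq_mul] at i1 i2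
    grind
  have e5 : δ ≠ 0 := fun e => hc (H.semis p h h' hB m2 n1 hm hm' (by
    rw [e] at hδ; linear_combination hδ))
  have key : ∀ μ μ' : k, μ + μ' = -Bw m m' → μ * μ' = Q m * Q m' → ∃ v : Fin 4 → k, v ≠ 0 ∧
      ψ (τ s) *ᵥ v = 0 ∧ (ψ m * ψ (τ m')) *ᵥ v = -μ • v := fun μ μ' e1 e2 => by
    obtain ⟨y, hy⟩ : ∃ y, ((ψ m * ψ (τ m') + μ' • 1) * ψ s) *ᵥ y ≠ 0 := by
      by_contra! e
      have e' : (ψ m * ψ (τ m') + μ' • 1) * ψ s = 0 := mat_ext fun y => by rw [e, zero_mulVec]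
      have e'' := congrArg (fun A => (ψ (τ m) * A)ᵀ) e'
      simp only [rg (k := k), cl0, transpose_add, transpose_smul, transpose_mul, ψ_tr, neg_neg,
        transpose_zero] at e''
      obtain ⟨c, e⟩ := E_zero (m := Q m • m' + μ' • m) hs (by
        simpa only [map_add, map_smul, rg (k := k)] using e'') h2
      have := congrArg (Bw s') e
      simp only [bw, m2, h'.2.1, Bw_comm s' s, hB, mul_zero, add_zero, mul_one] at this
      rw [← this, zero_smul] at e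
      exact hc ⟨-μ' / Q m, smul_right_injective _ hm (by
        simp only [smul_smul, mul_div_cancel₀ _ hm]; linear_combination (norm := module) e)⟩
    refine ⟨_, hy, ?_, ?_⟩
    · have : ψ (τ s) * ((ψ m * ψ (τ m') + μ' • 1) * ψ s) = 0 := by
        simp only [rg (k := k), cl m s, cl m' s, cl0, b1, n1', q1]; module
      rw [mulVec_mulVec, this, zero_mulVec]
    · rw [mulVec_mulVec, ← smul_mulVec, ← mul_assoc, ← smul_mul_assoc]
      congr 2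
      simp only [rg (k := k), cl m' m, cl0, Bw_comm m' m]
      linear_combination (norm := module) e1 • (ψ m * ψ (τ m')) + e2 • (1 : M4 k)
  obtain ⟨v, v0, v1, v2⟩ := key μ μ' e1 e2
  obtain ⟨v', v0', v1', v2'⟩ := key μ' μ (by rw [add_comm, e1]) (by rw [mul_comm, e2])
  refine ⟨v, v', v1, v1', v2, v2', fun a b e => ?_⟩
  have := congrArg ((ψ m * ψ (τ m')) *ᵥ ·) e
  simp only [mulVec_add, mulVec_smul, v2, v2', mulVec_zero] at this
  have i1 : (a * δ) • v = 0 := by rw [← e3]; linear_combination (norm := module) -this - μ' • e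
  have i2 : (b * δ) • v' = 0 := by rw [← e3]; linear_combination (norm := module) this + μ • e
  exact ⟨by simpa [v0, e5] using i1, by simpa [v0', e5] using i2⟩

end Cfsg.Agent.L4.S
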