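import Cfsg.Agent.L4.S3

/-!
Large groups of Eichler transformations with a common centre do not occur.
-/

set_option autoImplicit false

namespace Cfsg.Agent.L4.S

open Matrix Module Cfsg.Agent.H1.Spin6 Cfsg.Agent.L4.R Submodule

variable {k : Type*} [Field k]

local notation "Q" => Pf k

theorem span_ne {n : ℕ} (hn : n < 6) (v : Fin n → W6 k) : span k (Set.range v) ≠ ⊤ := fun e => by
  simpa [hn.not_ge] using finrank_le_of_span_eq_top e

variable {P : Type*} [Group P] {ρ : P →* M4 k} {s s' s'' m m' : W6 k}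

theorem T.half (p : ℕ) [Fact p.Prime] [CharP k p] (h2 : (2 : k) ≠ 0) (h : T ρ s ((2 : k) • m)) :
    T ρ s m := by
  obtain ⟨n, hn⟩ := (Fact.out : p.Prime).odd_of_ne_two (by
    rintro rfl; exact h2 (CharP.cast_eq_zero k 2))
  have a5 := h.nat (n + 1)
  have : ((2 * n + 1 : ℕ) : k) = 0 := hn ▸ CharP.cast_eq_zero k p
  rwa [smul_smul, show ((n + 1 : ℕ) : k) * 2 = 1 by push_cast at this ⊢; linear_combination this,
    one_smul] at a5

theorem T.Q_shift (h : T ρ s m) (c : k) : Q (m + c • s) = Q m := by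
  simp only [bw, h.1, Bw_comm m s, h.2.1]; ring

theorem et_add (h : T ρ s m) (h' : T ρ s m') (w : W6 k) :
    et s m (et s m' w) = et s (m + m') w := by
  simp only [et, bw, h.1, h.2.1, Bw_comm m' s, h'.2.1, Bw_comm m' m]
  module

theorem B_et (h : T ρ s m) (w : W6 k) : Bw s (et s m w) = Bw s w := by
  simp only [et, bw, h.1, h.2.1]; ring

/-- centres of large groups -/
def Lg (ρ : P →* M4 k) (s : W6 k) : Prop := s ≠ 0 ∧ ∃ m m', T ρ s m ∧ T ρ s m' ∧ Q m ≠ 0 ∧
  Q m' ≠ 0 ∧ Q (m - m') ≠ 0 ∧ Q (m + m') ≠ 0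

/-- the span of the parameters -/
def Pl (ρ : P →* M4 k) (s : W6 k) : Submodule k (W6 k) := span k {m | T ρ s m}

theorem T.pl (h : T ρ s m) : m ∈ Pl ρ s := subset_span h

theorem T.pl' (h : T ρ s m) : s ∈ Pl ρ s := by simpa using (T.self h.1 1).pl

theorem Pl_perp {y : W6 k} (hy : y ∈ Pl ρ s) {z : W6 k} (h : ∀ m, T ρ s m → Bw z m = 0) :
    Bw z y = 0 := by
  induction hy using span_induction with
  | mem x hx => exact h x hx
  | zero => exact B_zero _
  | add x y _ _ h h' => rw [Bw_add, h, h', add_zero]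
  | smul c x _ h => rw [Bw_smul, h, mul_zero]

theorem Lg.smul (h : Lg ρ s) {c : k} (hc : c ≠ 0) : Lg ρ (c • s) := by
  obtain ⟨h0, m, m', a, b, h1, h2, h3, h4⟩ := h
  have e : ∀ x, T ρ s x → T ρ (c • s) (c⁻¹ • x) := fun x hx => T.scale' (by
    rwa [smul_smul, mul_inv_cancel₀ hc, one_smul])
  refine ⟨smul_ne_zero hc h0, _, _, e m a, e m' b, ?_⟩
  rw [← smul_sub, ← smul_add, Q_smul, Q_smul, Q_smul, Q_smul]
  simp [*]

theorem et_mem {U : Submodule k (W6 k)} (hs : s ∈ U) (hm : m ∈ U) {w : W6 k} (hw : w ∈ U) :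
    et s m w ∈ U := sub_mem (add_mem hw (U.smul_mem _ hm)) (U.smul_mem _ hs)

theorem U_mono (h : T ρ s m) : Pl ρ s ⊔ (k ∙ et s m s') ≤ Pl ρ s ⊔ k ∙ s' :=
  sup_le le_sup_left ((span_singleton_le_iff_mem _ _).2 (et_mem (mem_sup_left h.pl')
    (mem_sup_left h.pl) (mem_sup_right (mem_span_singleton_self _))))

namespace Hs

variable (H : Hs ρ)
include H

theorem Lg_σ (h : Lg ρ s) (g : P) : Lg ρ (L2 (ρ g) s) := by
  obtain ⟨h0, m, m', a, b, h1, h2, h3, h4⟩ := h
  refine ⟨σ_ne g h0, _, _, H.conj a g, H.conj b g, ?_⟩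
  rw [← map_sub, ← map_add, H.Q_σ, H.Q_σ, H.Q_σ, H.Q_σ]
  exact ⟨h1, h2, h3, h4⟩

theorem Lg_et (h : T ρ s m) (h' : Lg ρ s') : Lg ρ (et s m s') := by
  obtain ⟨g, -, e⟩ := h.act
  exact e s' ▸ H.Lg_σ h' g

theorem zero_of (h : T ρ s m) (hB : Bw s s' ≠ 0) (m2 : Bw s' m = 0) (hm : Q m = 0) : m = 0 := by
  obtain ⟨c, rfl⟩ := H.aniso h (by rintro rfl; exact hB (zero_B _)) hm
  rw [Bw_smul, Bw_comm] at m2
  rw [(mul_eq_zero.1 m2).resolve_right hB, zero_smul]

variable [Finite P] [IsAlgClosed k] (p : ℕ) [Fact p.Prime] [CharP k p]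
include p

theorem star (h : T ρ s m) (h' : Lg ρ s') (hB : Bw s s' = 1) (m2 : Bw s' m = 0) (hm : Q m ≠ 0) :
    T ρ s' ((Q m)⁻¹ • m) := by
  by_contra hc
  obtain ⟨-, x, y, a, b, h1, h2, h3, h4⟩ := h'
  have key : ∀ x, T ρ s' x → Q x ≠ 0 → (3 : k) = 0 ∧
      ((Bw m x = 0 ∧ Q m * Q x = 1) ∨ (Bw m x ^ 2 = -4 ∧ Q m * Q x = -1)) := fun x a h1 => by
    have := (H.pair p h (a.shift (-Bw s x)) hB m2 (by simp only [bw, hB]; ring) hm
      (by rwa [a.Q_shift])).resolve_left hc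
    rwa [a.Q_shift, Bw_add, Bw_smul, Bw_comm m s', m2, mul_zero, add_zero] at this
  have k1 := key x a h1
  have k3 := key _ (a.sub b) h3
  have k4 := key _ (a.add b) h4
  simp only [bw] at k3 k4
  exact H1.Sp4.ar3 k1.1 k1.2 (key y b h2).2 k3.2 (by simpa only [sub_neg_eq_add] using k4.2)

theorem hyp (h' : Lg ρ s') (hB : Bw s' s ≠ 0) {y : W6 k} (hy : y ∈ Pl ρ s) :
    y - (Bw s' y / Bw s' s) • s ∈ Pl ρ s' := by
  induction hy using span_induction with
  | mem x hx =>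
    have a := hx.shift (-(Bw s' x / Bw s' s))
    rw [neg_smul, ← sub_eq_add_neg] at a
    have b : Bw s' (x - (Bw s' x / Bw s' s) • s) = 0 := by simp only [bw]; field_simp; ring
    generalize x - (Bw s' x / Bw s' s) • s = z at a b
    by_cases hz : Q z = 0
    · rw [H.zero_of a (by rwa [Bw_comm]) b hz]; exact zero_mem _
    have := ((H.star p a (h'.smul (inv_ne_zero hB)) (by rw [Bw_smul, Bw_comm s, inv_mul_cancel₀ hB])
      (by rw [smul_Bw, b, mul_zero]) hz).scale (inv_ne_zero hB)).pl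
    rwa [smul_mem_iff _ (inv_ne_zero hB), smul_mem_iff _ (inv_ne_zero hz)] at this
  | zero => simp [B_zero]
  | add x y _ _ h h' => convert add_mem h h' using 1; rw [Bw_add]; module
  | smul c x _ h => convert smul_mem _ c h using 1; rw [Bw_smul]; module

theorem U_symm (h : Lg ρ s) (h' : Lg ρ s') (hB : Bw s' s ≠ 0) :
    Pl ρ s ⊔ (k ∙ s') ≤ Pl ρ s' ⊔ k ∙ s := by
  obtain ⟨-, x, -, a, -⟩ := id h'
  refine sup_le (fun y hy => ?_) ((span_singleton_le_iff_mem _ _).2 (mem_sup_left a.pl'))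
  simpa using add_mem (mem_sup_left (H.hyp p h' hB hy))
    (mem_sup_right (smul_mem _ (Bw s' y / Bw s' s) (mem_span_singleton_self s)))

theorem tri (h : Lg ρ s) (h' : Lg ρ s') (h'' : Lg ρ s'') (hB : Bw s s' ≠ 0) (a : T ρ s m)
    (hm : Q m ≠ 0) (b1 : Bw s s'' ≠ 0) (b2 : Bw s' s'' ≠ 0) (b3 : Bw (et s m s') s'' ≠ 0) :
    Pl ρ s'' ≤ Pl ρ s ⊔ k ∙ s' := by
  have b1' : Bw s'' s ≠ 0 := by rwa [Bw_comm]
  have c1 := H.hyp p h'' b1' a.pl
  have c2 : m - (Bw s'' m / Bw s'' s) • s ∈ Pl ρ s ⊔ k ∙ s' :=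
    mem_sup_left (sub_mem a.pl (smul_mem _ _ a.pl'))
  have c3 : Bw (et s m s') (m - (Bw s'' m / Bw s'' s) • s) =
      Bw s' (m - (Bw s'' m / Bw s'' s) • s) + Bw s s' * (2 * Q m) := by
    simp only [et, bw, a.1, a.2.1, Bw_comm m s, Bw_comm s' s]; ring
  generalize m - (Bw s'' m / Bw s'' s) • s = y at c1 c2 c3
  have key : ∀ t, Lg ρ t → Bw t s'' ≠ 0 → Pl ρ t ≤ Pl ρ s ⊔ (k ∙ s') → Bw t y ≠ 0 →
      s'' ∈ Pl ρ s ⊔ k ∙ s' := fun t ht h1 h2 h3 => by
    have := sub_mem c2 (h2 (H.hyp p ht h1 c1))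
    rwa [sub_sub_cancel, smul_mem_iff _ (div_ne_zero h3 h1)] at this
  have c4 : s'' ∈ Pl ρ s ⊔ k ∙ s' := by
    by_cases e : Bw s' y = 0
    · refine key _ (H.Lg_et a h') b3 (le_sup_left.trans ((H.U_symm p (H.Lg_et a h') h
        (by rwa [B_et a])).trans (U_mono a))) ?_
      rw [c3, e, zero_add]
      exact mul_ne_zero hB (mul_ne_zero H.two hm)
    · exact key _ h' b2 (le_sup_left.trans (H.U_symm p h' h hB)) e
  intro z hz
  simpa using add_mem (mem_sup_left (H.hyp p h b1 hz)) (smul_mem _ (Bw s z / Bw s s'') c4)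

theorem le_U (h : Lg ρ s) (h' : Lg ρ s') (h'' : Lg ρ s'') (hB : Bw s s' ≠ 0)
    (b1 : Bw s s'' ≠ 0) : Pl ρ s'' ≤ Pl ρ s ⊔ k ∙ s' := by
  obtain ⟨-, x, y, a, b, h1, h2, h3, h4⟩ := id h
  have F : ∀ s' z, Bw s s' ≠ 0 → T ρ s z → Bw (et s z s') s'' ≠ 0 ∨
      Bw (et s (z + x) s') s'' ≠ 0 ∨ Bw (et s (z - x) s') s'' ≠ 0 := fun s' z hB c => by
    by_contra! e
    simp only [et, bw, Bw_comm s' s] at e
    exact mul_ne_zero (mul_ne_zero H.two h1) (mul_ne_zero hB b1) (by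
      linear_combination 2 * e.1 - e.2.1 - e.2.2)
  have A : ∀ s', Lg ρ s' → Bw s s' ≠ 0 → Bw s' s'' ≠ 0 → Pl ρ s'' ≤ Pl ρ s ⊔ k ∙ s' :=
    fun s' h' hB b2 => by
    rcases F s' y hB b with e | e | e
    · exact H.tri p h h' h'' hB b h2 b1 b2 e
    · exact H.tri p h h' h'' hB (b.add a) (by rwa [add_comm]) b1 b2 e
    · exact H.tri p h h' h'' hB (b.sub a) (by rwa [← neg_sub, Q_neg]) b1 b2 e
  have A' : ∀ z, T ρ s z → Bw (et s z s') s'' ≠ 0 → Pl ρ s'' ≤ Pl ρ s ⊔ k ∙ s' := fun z c e =>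
    (A _ (H.Lg_et c h') (by rwa [B_et c]) e).trans (U_mono c)
  rcases F s' x hB a with e | e | e
  exacts [A' _ a e, A' _ (a.add a) e, A' _ (a.sub a) e]

theorem U_top (h : Lg ρ s) (h' : Lg ρ s') (hB : Bw s s' ≠ 0) : Pl ρ s ⊔ (k ∙ s') = ⊤ := by
  obtain ⟨h0, x, -, a, -, h1, -⟩ := id h
  obtain ⟨-, x', -, a', -, h1', -⟩ := id h'
  set U := Pl ρ s ⊔ (k ∙ s') with hU
  have perp : ∀ z, Bw z s' = 0 → (∀ m, T ρ s m → Bw z m = 0) → ∀ y ∈ U, Bw z y = 0 :=
    fun z z1 z2 y hy => by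
      obtain ⟨y1, i1, _, i2, rfl⟩ := mem_sup.1 hy
      obtain ⟨c, rfl⟩ := mem_span_singleton.1 i2
      rw [Bw_add, Bw_smul, z1, Pl_perp i1 z2]; simp
  have key : ∀ s'' m'', Lg ρ s'' → T ρ s'' m'' → ∀ y ∈ U, et s'' m'' y ∈ U :=
    fun s'' m'' h'' a'' y hy => by
    by_cases b1 : Bw s s'' ≠ 0
    · exact et_mem (H.le_U p h h' h'' hB b1 a''.pl') (H.le_U p h h' h'' hB b1 a''.pl) hy
    by_cases b2 : ∃ z, T ρ s z ∧ Bw (et s z s') s'' ≠ 0
    · obtain ⟨z, c, e⟩ := b2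
      have := (H.le_U p (H.Lg_et c h') h h'' (by rwa [Bw_comm, B_et c]) e).trans
        ((H.U_symm p (H.Lg_et c h') h (by rwa [B_et c])).trans (U_mono c))
      exact et_mem (this a''.pl') (this a''.pl) hy
    push Not at b1 b2
    have c1 : Bw s' s'' = 0 := by simpa [et, bw] using b2 _ (T.self a.1 0)
    have c2 : ∀ z, T ρ s z → Bw s'' z = 0 := fun z c => by
      have := b2 z c
      simp only [et, bw, b1, c1, Bw_comm s' s, Bw_comm z s''] at this
      simpa [hB] using this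
    have c3 := perp s'' (by rwa [Bw_comm]) c2
    have c4 := H.perp a' a'' h1' h''.1 c1 (by
      rw [Bw_comm]; exact c3 _ (H.U_symm p h' h hB (mem_sup_left a'.pl))) fun c e => hB (by
        rw [e, Bw_smul, b1, mul_zero])
    have c5 : ∀ z, T ρ s z → Q z ≠ 0 → Bw s m'' = 0 ∧ Bw z m'' = 0 := fun z c hz =>
      H.perp c a'' hz h''.1 b1 (by rw [Bw_comm, c2 z c]) fun c e => hB (by
        rw [e, smul_Bw, Bw_comm, c1, mul_zero])
    have c6 := perp m'' (by rw [Bw_comm, c4.1]) (fun z c => by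
      rw [Bw_comm]
      by_cases hz : Q z = 0
      · obtain ⟨d, rfl⟩ := H.aniso c h0 hz
        rw [smul_Bw, (c5 x a h1).1, mul_zero]
      · exact (c5 z c hz).2)
    rw [et, Bw_comm y, Bw_comm y, c3 y hy, c6 y hy]
    simpa using hy
  have := H.gen a h0 h1 (H1.Sp4.sub ⊤ (fun g => ∀ y ∈ U, L2 (ρ g) y ∈ U)
    (fun y hy => by rwa [map_one, L2_one]) fun g _ g' _ h h' y hy => by
      rw [σ_mul]; exact h _ (h' y hy)) fun g u e => ⟨trivial, fun y hy => by
        rw [e]; exact key _ _ (H.Lg_σ h g) (H.conj a g) y hy⟩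
  exact (H.irrW U fun g => (this.ge (Subgroup.mem_top g)).2).resolve_left fun e =>
    h0 ((Submodule.eq_bot_iff _).1 e s (mem_sup_left a.pl'))

theorem Ua {a n : W6 k} (h' : Lg ρ s') (hB : Bw s s' = 1) (ha : T ρ s a) (a2 : Bw s' a = 0)
    (hn : T ρ s' n) (n1 : Bw s n = 0) : T ρ s (Q a • n - Bw a n • a) := by
  by_cases h0 : Q a = 0
  · obtain rfl := H.zero_of ha (by rw [hB]; exact one_ne_zero) a2 h0
    simpa using T.self (ρ := ρ) ha.1 0
  have hb := H.star p ha h' hB a2 h0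
  have := H.cj hb (H.cj ha hn)
  have e1 : et s' ((Q a)⁻¹ • a) (et s a s') = -Q a • s := by
    simp only [et, bw, hn.1, ha.1, ha.2.1, hB, a2, Bw_comm s' s, Bw_comm a s']
    match_scalars <;> field_simp <;> ring
  rw [e1] at this
  convert ((this.scale (neg_ne_zero.2 h0)).shift (-(Q a * Bw a n))).neg using 1
  simp only [et, bw, hn.1, ha.1, ha.2.1, hB, a2, Bw_comm s' s, Bw_comm a s', Bw_comm n s, n1,
    Bw_comm n s', hn.2.1, Bw_comm n a]
  match_scalars <;> field_simp <;> ring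

theorem jordan {e : W6 k} (h : Lg ρ s) (h' : Lg ρ s') (hB : Bw s s' = 1) (he : T ρ s e)
    (e2 : Bw s' e = 0) (e1 : Q e = 1) : False := by
  have h2 := H.two
  have hB' : Bw s' s = 1 := by rwa [Bw_comm]
  have hB0 : Bw s s' ≠ 0 := by rw [hB]; exact one_ne_zero
  have he' : T ρ s' e := by simpa [e1] using H.star p he h' hB e2 (by simp [e1])
  have J : ∀ a b, T ρ s a → Bw s' a = 0 → T ρ s b → Bw s' b = 0 →
      T ρ s (Bw a e • b + Bw b e • a - Bw a b • e) := fun a b ha a2 hb b2 => by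
    convert ((H.Ua p h' hB ha a2 he' he.2.1).add (H.Ua p h' hB hb b2 he' he.2.1)).sub
      (H.Ua p h' hB (ha.add hb) (by rw [Bw_add, a2, b2, add_zero]) he' he.2.1) using 1
    simp only [bw]
    module
  have sc : ∀ (l : k) b, T ρ s (l • e) → T ρ s b → Bw s' b = 0 → T ρ s (l • b) :=
    fun l b hl hb b2 => T.half p h2 (by
      convert J _ _ hl (by rw [Bw_smul, e2, mul_zero]) hb b2 using 1
      simp only [bw, e1, Bw_comm b e]
      module)
  have D : ∀ (α β : k) a b, Bw s' a = 0 → Bw s' b = 0 → Bw e a = 0 → Bw e b = 0 →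
      T ρ s (α • e + a) → T ρ s (β • e + b) → T ρ s ((-4 * Q a) • b + (2 * Bw a b) • a) :=
    fun α β a b a2 b2 a3 b3 ha hb => by
    have a4 : Bw s' (α • e + a) = 0 := by simp [bw, *]
    have b4 : Bw s' (β • e + b) = 0 := by simp [bw, *]
    have i1 := H.Ua p h' hB ha a4 (H.Ua p h hB' he' he.2.1 hb b4) (by
      simp only [bw, he.2.1, hb.2.1]; have := hb.2.1; simp only [bw, he.2.1] at this; grind)
    convert (J _ _ ha a4 (J _ _ ha a4 hb b4) (by simp [bw, *])).sub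
      ((i1.add i1).add (i1.add i1)) using 1
    simp only [bw, e1, Bw_comm a e, Bw_comm b e, a3, b3, Bw_comm b a]
    module
  have out : ∀ x, ∃ (α : k) (a : W6 k), T ρ s (α • e + a) ∧ Bw s' a = 0 ∧ Bw e a = 0 ∧
      ∀ c : k, a ≠ c • x := fun x => by
    obtain ⟨z, hz, h1⟩ : ∃ z, T ρ s z ∧ z ∉ span k (Set.range ![s, s', e, x]) := by
      by_contra! hc
      refine span_ne (by norm_num) ![s, s', e, x] (eq_top_iff.2 ?_)
      rw [← H.U_top p h h' hB0]
      exact sup_le (span_le.2 hc) ((span_singleton_le_iff_mem _ _).2 (subset_span ⟨1, rfl⟩))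
    refine ⟨Bw e z / 2, z - Bw s' z • s - (Bw e z / 2) • e, by
      convert hz.shift (-Bw s' z) using 1; module, by simp [bw, *],
      by simp only [bw, e1, Bw_comm e s, he.2.1]; field_simp; ring, fun c hc => h1 ?_⟩
    rw [show z = Bw s' z • s + (Bw e z / 2) • e + c • x by rw [← hc]; module]
    exact add_mem (add_mem (smul_mem _ _ (subset_span ⟨0, rfl⟩)) (smul_mem _ _
      (subset_span ⟨2, rfl⟩))) (smul_mem _ _ (subset_span ⟨3, rfl⟩))
  have step : ∀ (α : k) a, T ρ s (α • e + a) → Bw s' a = 0 → Bw e a = 0 → Q a ≠ 0 → ∃ c, T ρ s c ∧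
      Bw s' c = 0 ∧ Bw e c = 0 ∧ Bw a c = 0 ∧ Q c ≠ 0 := fun α a ha a2 a3 a4 => by
    obtain ⟨β, b, hb, b2, b3, b4⟩ := out a
    have hc := D α β a b a2 b2 a3 b3 ha hb
    have c2 : Bw s' ((-4 * Q a) • b + (2 * Bw a b) • a) = 0 := by simp [bw, *]
    refine ⟨_, hc, c2, by simp [bw, *], by simp only [bw]; ring, fun e => ?_⟩
    have := H.zero_of hc hB0 c2 e
    have h4 : -4 * Q a ≠ 0 := mul_ne_zero (fun e => mul_ne_zero h2 h2 (by linear_combination -e)) a4
    exact b4 (-(2 * Bw a b) / (-4 * Q a)) (smul_right_injective _ h4 (by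
      simp only [smul_smul, mul_div_cancel₀ _ h4]; linear_combination (norm := module) this))
  obtain ⟨α, a, ha, a2, a3, a4⟩ := out 0
  have a5 : Bw s' (α • e + a) = 0 := by simp [bw, *]
  have a6 : Q a ≠ 0 := fun e0 => by
    have key : ∀ c : k, α • e + a ≠ c • e := fun c hc => by
      have := congrArg (Bw e) hc
      simp only [bw, a3, e1, add_zero, mul_one] at this
      rw [mul_right_cancel₀ h2 this, add_eq_left] at hc
      exact a4 0 (by simpa using hc)
    obtain ⟨c, hc⟩ := H.semis p he' ha hB' he.2.1 a5 (by simp [e1])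
      (fun e' => key 0 (by simpa using H.zero_of ha hB0 a5 e')) (by
        simp only [bw, a3, e1, e0]; ring)
    exact key c hc
  obtain ⟨c, hc, c2, c3, -, c5⟩ := step α a ha a2 a3 a6
  obtain ⟨d, hd, d2, d3, d4, d5⟩ := step 0 c (by simpa using hc) c2 c3 c5
  let F : Subfield k :=
    { carrier := {l | T ρ s (l • e)}
      mul_mem' := fun {a b} ha hb => by
        simpa only [smul_smul, Set.mem_setOf_eq] using sc a _ ha hb (by rw [Bw_smul, e2, mul_zero])
      one_mem' := by simpa using he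
      add_mem' := fun {a b} ha hb => by simpa only [← add_smul, Set.mem_setOf_eq] using T.add ha hb
      zero_mem' := by simpa using T.self (ρ := ρ) he.1 0
      neg_mem' := fun {a} ha => by simpa only [← neg_smul, Set.mem_setOf_eq] using T.neg ha
      inv_mem' := fun a ha => by
        by_cases h0 : a = 0
        · simpa [h0] using T.self (ρ := ρ) he.1 0
        convert (H.Ua p h' hB he e2 (H.star p ha h' hB (by rw [Bw_smul, e2, mul_zero])
          (by simp [Q_smul, e1, h0])) (by simp [bw, he.2.1])).neg using 1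
        simp only [bw, e1, Set.mem_setOf_eq]
        congr! 1
        match_scalars
        field_simp
        ring }
  haveI : Finite F := by
    choose f hf using fun l : F => (show T ρ s (l.1 • e) from l.2).2.2
    refine Finite.of_injective f fun l l' e' => Subtype.ext ?_
    obtain ⟨c, hc⟩ := E_zero (m := l.1 • e - l'.1 • e) h.1 (by
      have := (hf l).symm.trans (e' ▸ hf l')
      rw [map_sub, map_sub, mul_sub, sub_right_injective this, sub_self]) h2
    have := congrArg (Bw e) hc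
    simp only [bw, e1, Bw_comm e s, he.2.1] at this
    exact mul_right_cancel₀ h2 (by linear_combination this)
  letI := Fintype.ofFinite F
  have q : ∀ c, T ρ s c → Bw s' c = 0 → Bw e c = 0 → Q c ∈ F := fun c hc c2 c3 =>
    T.half p h2 (by
      convert (J c c hc c2 hc c2).neg using 1
      simp only [bw, Bw_comm c e, c3]
      module)
  obtain ⟨x, y, hxy⟩ := FiniteField.exists_root_sum_quadratic
    (f := Polynomial.C (⟨_, q c hc c2 c3⟩ : F) * Polynomial.X ^ 2)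
    (g := Polynomial.C (⟨_, q d hd d2 d3⟩ : F) * Polynomial.X ^ 2 + 1)
    (Polynomial.degree_C_mul_X_pow _ fun e => c5 (congrArg Subtype.val e))
    (by
      have : (⟨_, q d hd d2 d3⟩ : F) ≠ 0 := fun e => d5 (congrArg Subtype.val e)
      compute_degree!)
    (FiniteField.odd_card_of_char_ne_two fun e => h2 (by
      have := ringChar.Nat.cast_ringChar (R := F)
      rw [e] at this
      have := congrArg F.subtype this
      rwa [map_natCast, map_zero] at this))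
  have hxy' := congrArg Subtype.val hxy
  simp at hxy'
  have := congrArg (Bw e) (H.zero_of (((sc x c x.2 hc c2).add (sc y d y.2 hd d2)).add he) hB0
    (by simp [bw, *]) (by
      simp only [bw, e1, d4, Bw_comm c e, Bw_comm d e, c3, d3]; linear_combination hxy'))
  simp [bw, c3, d3, e1, h2] at this

theorem not_Lg : ¬ Lg ρ s := fun h => by
  obtain ⟨-, x, -, a, -, h1, -⟩ := id h
  obtain ⟨c, hc⟩ := IsAlgClosed.exists_eq_mul_self (Q x)
  have c0 : c ≠ 0 := by rintro rfl; exact h1 (by simpa using hc)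
  have h0 := h.smul c0
  have a0 : T ρ (c • s) (c⁻¹ • x) := T.scale' (by rwa [smul_smul, mul_inv_cancel₀ c0, one_smul])
  obtain ⟨t, ht, b⟩ := H.skew (X := {s | Lg ρ s}) (fun g _ h => H.Lg_σ h g) h h.1 h0.1
  refine H.jordan p h0 (Lg.smul ht (inv_ne_zero b)) (by rw [Bw_smul, inv_mul_cancel₀ b])
    (a0.shift (-(Bw t (c⁻¹ • x) / Bw (c • s) t))) ?_ ?_
  · rw [smul_Bw, Bw_add, Bw_smul _ t (c • s), Bw_smul _ t s, ← Bw_smul, Bw_comm t (c • s)]
    field_simp
    ring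
  · rw [a0.Q_shift, Q_smul, hc]
    field_simp

end Hs

end Cfsg.Agent.L4.S
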