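import Cfsg.Agent.L4.S4

/-!
Small groups of Eichler transformations: the characteristic is three and the centres have
rational inner products.
-/

set_option autoImplicit false

namespace Cfsg.Agent.L4.S

open Matrix Module Cfsg.Agent.H1.Spin6 Cfsg.Agent.L4.R Submodule

variable {k : Type*} [Field k]

local notation "Q" => Pf k

/-- the prime field in characteristic three -/
def F3 (x : k) : Prop := x = 0 ∨ x = 1 ∨ x = -1

theorem F3.of_sq {x : k} (h : x = 0 ∨ x ^ 2 = 1) : F3 x := h.imp_right sq_eq_one_iff.1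

theorem F3.add (h3 : (3 : k) = 0) {x y : k} (h : F3 x) (h' : F3 y) : F3 (x + y) := by
  unfold F3 at *; grind

theorem F3.neg {x : k} (h : F3 x) : F3 (-x) := by unfold F3 at *; grind

theorem F3.mul {x y : k} (h : F3 x) (h' : F3 y) : F3 (x * y) := by unfold F3 at *; grind

theorem F3.div {x y : k} (h : F3 x) (h' : F3 y) : F3 (x / y) := by
  rcases h' with rfl | rfl | rfl
  · simp [F3]
  · simpa using h
  · simpa [div_neg] using h.neg

theorem F3.sq {x : k} (h : F3 x) (h0 : x ≠ 0) : x * x = 1 := by unfold F3 at *; grind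

theorem F3.zero (h2 : (2 : k) ≠ 0) {x β : k} (hβ : β ^ 2 = -1) (h : F3 x) (h' : F3 (β * x)) :
    x = 0 := by
  by_contra e
  have a := h.sq e
  have b := h'.sq (mul_ne_zero (by rintro rfl; simp at hβ) e)
  exact h2 (by linear_combination -b + β ^ 2 * a + hβ)

theorem quad3 {f : Fin 7 → k} (hf : Function.Injective f) {a a' a'' b b' b'' c c' c'' : k}
    (h : ∀ i, a + a' * f i + a'' * f i ^ 2 = 0 ∨ b + b' * f i + b'' * f i ^ 2 = 0 ∨
      c + c' * f i + c'' * f i ^ 2 = 0) :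
    (a = 0 ∧ a' = 0 ∧ a'' = 0) ∨ (b = 0 ∧ b' = 0 ∧ b'' = 0) ∨ (c = 0 ∧ c' = 0 ∧ c'' = 0) := by
  open Polynomial in
  have e : ∀ a a' a'' : k, C a + C a' * X + C a'' * X ^ 2 = 0 → a = 0 ∧ a' = 0 ∧ a'' = 0 :=
    fun a a' a'' e => ⟨by simpa using congrArg (coeff · 0) e, by simpa using congrArg (coeff · 1) e,
      by simpa [coeff_X] using congrArg (coeff · 2) e⟩
  open Polynomial in
  have := eq_zero_of_natDegree_lt_card_of_eval_eq_zero ((C a + C a' * X + C a'' * X ^ 2) *
    ((C b + C b' * X + C b'' * X ^ 2) * (C c + C c' * X + C c'' * X ^ 2))) hf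
    (fun i => by simpa using h i) (by
      rw [Fintype.card_fin, Nat.lt_succ_iff]; compute_degree)
  rw [mul_eq_zero, mul_eq_zero] at this
  exact this.imp (e _ _ _) (Or.imp (e _ _ _) (e _ _ _))

variable {P : Type*} [Group P] {ρ : P →* M4 k} {s s' s'' m m' : W6 k}

namespace Hs

variable (H : Hs ρ) [Finite P] [IsAlgClosed k] (p : ℕ) [Fact p.Prime] [CharP k p]
include H p

theorem sm (h : T ρ s m) (h' : T ρ s m') (h0 : s ≠ 0) (hm : Q m ≠ 0) (hm' : Q m' ≠ 0) :
    ∃ c : k, m' = m + c • s ∨ m' = -m + c • s := by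
  by_cases e : Q (m' - m) = 0
  · obtain ⟨c, hc⟩ := H.aniso (h'.sub h) h0 e
    exact ⟨c, .inl (by rw [← hc]; abel)⟩
  obtain ⟨c, hc⟩ := H.aniso (h'.add h) h0 (by
    by_contra e'
    exact H.not_Lg p ⟨h0, _, _, h', h, hm', hm, e, e'⟩)
  exact ⟨c, .inr (by rw [← hc]; abel)⟩

theorem three (h : T ρ s m) (h0 : s ≠ 0) (hm : Q m ≠ 0) : (3 : k) = 0 := by
  have h2 := H.two
  obtain ⟨c, e⟩ := H.sm p h (h.add h) h0 hm (by rw [← two_smul k, Q_smul]; simp [h2, hm])
  rcases e with e | e <;> have := congrArg (Bw m) e <;>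
    simp only [bw, Bw_comm m s, h.2.1] at this
  · exact (mul_ne_zero h2 hm (by linear_combination this)).elim
  · exact (mul_eq_zero.1 (show 3 * (2 * Q m) = 0 by linear_combination this)).resolve_right
      (mul_ne_zero h2 hm)

theorem types (h : T ρ s m) (h' : T ρ s' m') (hm : Q m = 1) (hm' : Q m' = 1) (hB : Bw s s' ≠ 0)
    (m2 : Bw s' m = 0) (n1 : Bw s m' = 0) :
    ((Bw s s' ^ 2 = 1 ∨ Bw s s' ^ 2 = -1) ∧ (m' = m ∨ m' = -m)) ∨ (Bw s s' ^ 2 = 1 ∧ Bw m m' = 0) := by
  have a : T ρ ((Bw s s')⁻¹ • s') (Bw s s' • m') := T.scale' (by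
    rwa [smul_smul, inv_mul_cancel₀ hB, one_smul])
  have b1 : Bw s ((Bw s s')⁻¹ • s') = 1 := by rw [Bw_smul, inv_mul_cancel₀ hB]
  have b2 : Bw ((Bw s s')⁻¹ • s') m = 0 := by rw [smul_Bw, m2, mul_zero]
  have b3 : Bw s (Bw s s' • m') = 0 := by rw [Bw_smul, n1, mul_zero]
  have b4 : Q (Bw s s' • m') ≠ 0 := by simp [Q_smul, hm', hB]
  have key : ∀ c : k, Bw s s' • m' = c • m → c ^ 2 = Bw s s' ^ 2 ∧ (m' = m ∨ m' = -m) :=
    fun c e => by
    have := congrArg Q e
    rw [Q_smul, Q_smul, hm, hm', mul_one, mul_one] at this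
    refine ⟨by linear_combination -this, (mul_self_eq_mul_self_iff.1 this).imp (fun e' => ?_)
      fun e' => ?_⟩ <;> apply smul_right_injective _ hB <;> simp only [e] <;> rw [e'] <;> simp
  rcases H.pair p h a b1 b2 b3 (by simp [hm]) b4 with e | ⟨-, e | e⟩
  · rw [hm, inv_one, one_smul] at e
    obtain ⟨c, e⟩ := H.sm p e a (by rintro e; simp [e, bw] at b1) (by simp [hm]) b4
    have c0 : c = 0 := by
      rcases e with e | e <;> have := congrArg (Bw s) e <;>
        simpa [b3, Bw_add, B_neg, h.2.1, Bw_smul _ s ((Bw s s')⁻¹ • s'), b1] using this.symm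
    rw [c0, zero_smul, add_zero, add_zero] at e
    rcases e with e | e
    · have := key 1 (by rw [e, one_smul])
      exact .inl ⟨.inl (by rw [← this.1, one_pow]), this.2⟩
    · have := key (-1) (by rw [e, neg_one_smul])
      exact .inl ⟨.inl (by rw [← this.1, neg_one_sq]), this.2⟩
  · simp only [bw, hm, hm'] at e
    exact .inr ⟨by linear_combination e.2, (mul_eq_zero.1 e.1).resolve_left hB⟩
  · obtain ⟨c, hc⟩ := H.semis p h a b1 b2 b3 (by simp [hm]) b4 (by rw [e.1, e.2]; ring)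
    simp only [bw, hm, hm'] at e
    exact .inl ⟨.inr (by linear_combination e.2), (key c hc).2⟩

theorem types' (h : T ρ s m) (h' : T ρ s' m') (hm : Q m = 1) (hm' : Q m' = 1) (hB : Bw s s' ≠ 0) :
    (∃ x y : k, Bw s (m' + y • s') = 0 ∧ Bw s' (m + x • s) = 0 ∧ (m' + y • s' = m + x • s ∨
      m' + y • s' = -(m + x • s))) ∨ (Bw s s' ^ 2 = 1 ∧ Bw s s' * Bw m m' = Bw s' m * Bw s m') := by
  have a : Bw s' (m + -(Bw s' m / Bw s s') • s) = 0 := by
    simp only [bw, Bw_comm s' s]; field_simp; ring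
  have b : Bw s (m' + -(Bw s m' / Bw s s') • s') = 0 := by
    simp only [bw]; field_simp; ring
  refine (H.types p (h.shift _) (h'.shift _) (by rwa [h.Q_shift]) (by rwa [h'.Q_shift]) hB a b).imp
    (fun e => ⟨_, _, b, a, e.2⟩) fun e => ⟨e.1, ?_⟩
  have := e.2
  simp only [bw, Bw_comm m s'] at this
  field_simp at this
  linear_combination this

theorem noH (h : T ρ s m) (h' : T ρ s' m) (hm : Q m = 1) : Bw s s' ^ 2 ≠ -1 := fun hβ => by
  have h2 := H.two
  generalize hB : Bw s s' = β at hβ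
  have β0 : β ≠ 0 := by rintro rfl; simp at hβ
  have h0 : s ≠ 0 := by rintro rfl; exact β0 (by rw [← hB, zero_B])
  have h3 := H.three p h h0 (by simp [hm])
  have r1 := h.1
  have r2 := h'.1
  have r3 := h.2.1
  have r4 := h'.2.1
  have r5 : Bw s' s = β := by rwa [Bw_comm]
  have r6 : Bw m s = 0 := by rwa [Bw_comm]
  have r7 : Bw m s' = 0 := by rwa [Bw_comm]
  let Pt : k → k → Prop := fun t c =>
    T ρ (c • (s' + (t * β) • m - (t ^ 2 * β) • s)) (m - (2 * t) • s)
  have p0 : Pt 0 1 := by simpa [Pt] using h'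
  have p1 : ∀ t c, Pt t c → Pt (t + 1) c := fun t c a => by
    show T ρ _ _
    convert H.cj h a using 1 <;> simp only [et, bw, *] <;> module
  have p2 : Pt β β := by
    show T ρ _ _
    convert ((H.cj h' h).shift (2 * β)).neg.neg' using 1 <;> simp only [et, bw, *] <;>
      match_scalars <;> grind
  have p3 : Pt (-β) β := by
    show T ρ _ _
    convert ((H.cj h'.neg h).shift (-2 * β)).neg.neg' using 1 <;> simp only [et, bw, *] <;>
      match_scalars <;> grind
  have pt : ∀ i : Fin 7, Pt (![0, 0 + 1, 0 + 1 + 1, β, β + 1, β + 1 + 1, -β] i)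
      (![1, 1, 1, β, β, β, β] i) := fun i => by
    fin_cases i
    exacts [p0, p1 _ _ p0, p1 _ _ (p1 _ _ p0), p2, p1 _ _ p2, p1 _ _ (p1 _ _ p2), p3]
  have inj : Function.Injective ![0, 0 + 1, 0 + 1 + 1, β, β + 1, β + 1 + 1, -β] := fun i j e => by
    fin_cases i <;> fin_cases j <;> simp at e ⊢ <;> grind
  have c0 : ∀ i : Fin 7, ![1, 1, 1, β, β, β, β] i ≠ 0 := fun i => by fin_cases i <;> simp [β0]
  set U := span k (Set.range ![s, s', m]) with hU
  have u1 : s ∈ U := subset_span ⟨0, rfl⟩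
  have u2 : s' ∈ U := subset_span ⟨1, rfl⟩
  have u3 : m ∈ U := subset_span ⟨2, rfl⟩
  have perp : ∀ z, Bw s z = 0 → Bw s' z = 0 → Bw m z = 0 → ∀ y ∈ U, Bw y z = 0 :=
    fun z a b c y hy => by
    obtain ⟨x, rfl⟩ := (mem_span_range_iff_exists_fun k).1 hy
    simp [Fin.sum_univ_three, bw, a, b, c]
  have ty : ∀ t c s'' m'', Pt t c → c ≠ 0 → T ρ s'' m'' → Q m'' = 1 →
      Bw s' s'' + β * Bw m s'' * t + -β * Bw s s'' * t ^ 2 = 0 ∨ (∃ y : k, m'' + y • s'' ∈ U ∧
        Bw s' (m'' + y • s'') + β * Bw m (m'' + y • s'') * t + -β * Bw s (m'' + y • s'') * t ^ 2 = 0) ∨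
      ((c * (Bw s' s'' + β * Bw m s'' * t + -β * Bw s s'' * t ^ 2)) ^ 2 = 1 ∧
        (Bw s' s'' * Bw m m'' - Bw m s'' * Bw s' m'') +
          -2 * (Bw s' s'' * Bw s m'' - Bw s s'' * Bw s' m'') * t +
          β * (Bw s s'' * Bw m m'' - Bw m s'' * Bw s m'') * t ^ 2 = 0) :=
    fun t c s'' m'' a hc b q => by
    refine or_iff_not_imp_left.2 fun e => ?_
    rcases H.types' p a b (by simp only [bw, *]; ring) q fun e' => e (mul_left_cancel₀ hc (by
      simp only [bw] at e'; linear_combination e')) with ⟨x, y, e1, -, e2⟩ | e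
    on_goal 1 => refine .inl ⟨y, ?_, mul_left_cancel₀ hc ?_⟩
    on_goal 3 => refine .inr ⟨?_, mul_left_cancel₀ hc ?_⟩
    · have : m - (2 * t) • s + x • c • (s' + (t * β) • m - (t ^ 2 * β) • s) ∈ U :=
        add_mem (sub_mem u3 (smul_mem _ _ u1)) (smul_mem _ _ (smul_mem _ _ (sub_mem (add_mem u2
          (smul_mem _ _ u3)) (smul_mem _ _ u1))))
      rcases e2 with e2 | e2 <;> rw [e2]
      exacts [this, neg_mem this]
    · generalize m'' + y • s'' = z at e1
      simp only [bw] at e1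
      linear_combination e1
    · have := e.1
      simp only [bw] at this
      linear_combination this
    · have := e.2
      simp only [bw, Bw_comm s''] at this
      linear_combination this
  have key : ∀ s'' m'', s'' ≠ 0 → T ρ s'' m'' → Q m'' = 1 → ∀ y ∈ U, et s'' m'' y ∈ U :=
    fun s'' m'' s0 b q y hy => by
    by_cases e : s'' ∈ U ∧ m'' ∈ U
    · exact et_mem e.1 e.2 hy
    obtain ⟨z, z1, z2, z3⟩ : ∃ z ∈ U, Q z = 1 ∧ ∀ y : k, m'' + y • s'' ∈ U → m'' + y • s'' = z := by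
      by_cases e' : ∃ y : k, m'' + y • s'' ∈ U
      · obtain ⟨x, hx⟩ := e'
        refine ⟨_, hx, by rwa [b.Q_shift], fun y hy => ?_⟩
        by_contra hc
        have : s'' ∈ U := by
          have := sub_mem hy hx
          rwa [add_sub_add_left_eq_sub, ← sub_smul, smul_mem_iff _
            (sub_ne_zero.2 fun e => hc (by rw [e]))] at this
        exact e ⟨this, by simpa using sub_mem hx (smul_mem _ x this)⟩
      · exact ⟨m, u3, hm, fun y hy => (e' ⟨y, hy⟩).elim⟩
    have fin : Bw s s'' = 0 → Bw s' s'' = 0 → Bw m s'' = 0 → et s'' m'' y ∈ U := fun a1 a2 a3 => by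
      have b1 := H.perp h b (by simp [hm]) s0 a1 a3 fun c e => β0 (by
        rw [← r5, e, Bw_smul, a2, mul_zero])
      have b2 := H.perp h' b (by simp [hm]) s0 a2 a3 fun c e => β0 (by
        rw [← hB, e, Bw_smul, a1, mul_zero])
      rw [et, perp _ a1 a2 a3 y hy, perp _ b1.1 b2.1 b1.2 y hy]
      simpa using hy
    rcases quad3 inj fun i => (ty _ _ _ _ (pt i) (c0 i) b q).imp_right (Or.imp
      (fun ⟨y, e1, e2⟩ => by rwa [z3 y e1] at e2) And.right) with e1 | e1 | e1
    · exact fin (by simpa [β0] using e1.2.2) e1.1 (by simpa [β0] using e1.2.1)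
    · have := perp z (by simpa [β0] using e1.2.2) e1.1 (by simpa [β0] using e1.2.1) z z1
      simp [bw, z2, h2] at this
    by_contra hc
    obtain ⟨d, d1, d2, d3⟩ : ∃ d : k, Bw s (m'' + d • s'') = 0 ∧ Bw s' (m'' + d • s'') = 0 ∧
        Bw m (m'' + d • s'') = 0 := by
      simp only [bw]
      by_cases a1 : Bw s s'' = 0
      · by_cases a2 : Bw s' s'' = 0
        · have a3 : Bw m s'' ≠ 0 := fun a3 => hc (fin a1 a2 a3)
          exact ⟨-Bw m m'' / Bw m s'', by grind, by grind, by grind⟩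
        · exact ⟨-Bw s' m'' / Bw s' s'', by grind, by grind, by grind⟩
      · exact ⟨-Bw s m'' / Bw s s'', by grind, by grind, by grind⟩
    have b' := b.shift d
    have q' : Q (m'' + d • s'') = 1 := by rwa [b.Q_shift]
    generalize m'' + d • s'' = n at d1 d2 d3 b' q'
    have nm : ∀ y : k, n + y • s'' ∉ U := fun y hy => by
      have := perp n d1 d2 d3 _ hy
      simp [bw, q', b'.2.1, h2] at this
    have f : ∀ t c, Pt t c → c ≠ 0 →
        F3 (c * (Bw s' s'' + β * Bw m s'' * t + -β * Bw s s'' * t ^ 2)) := fun t c a hc =>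
      F3.of_sq ((ty _ _ _ _ a hc b' q').imp (fun e => by rw [e, mul_zero]) fun e =>
        (e.resolve_left fun ⟨y, hy, _⟩ => nm y hy).1)
    have f0 : F3 (Bw s s'') := F3.of_sq (or_iff_not_imp_left.2 fun e =>
      ((H.types' p h b' hm q' e).resolve_left fun ⟨x, y, _, _, e'⟩ => nm y (by
        have := add_mem u3 (smul_mem _ x u1)
        rcases e' with e' | e' <;> rw [e']
        exacts [this, neg_mem this])).1)
    have f1 := f _ _ p0 one_ne_zero
    have f2 := f _ _ (p1 _ _ p0) one_ne_zero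
    have f3 := f _ _ (p1 _ _ (p1 _ _ p0)) one_ne_zero
    have f4 := f _ _ p2 β0
    have f5 := f _ _ p3 β0
    have f6 := f _ _ (p1 _ _ p2) β0
    have a1 : Bw s s'' = 0 := F3.zero h2 hβ f0 (by
      convert (f1.add h3 f2).add h3 f3 using 1; grind)
    have a2 : Bw s' s'' = 0 := F3.zero h2 hβ (by convert f1 using 1; ring) (by
      convert (f4.add h3 f5).neg using 1; grind)
    exact hc (fin a1 a2 (F3.zero h2 hβ (by convert (f2.add h3 f6).neg using 1; grind)
      (by convert f2 using 1; grind)))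
  have := H.gen h h0 (by simp [hm]) (H1.Sp4.sub ⊤ (fun g => ∀ y ∈ U, L2 (ρ g) y ∈ U)
    (fun y hy => by rwa [map_one, L2_one]) fun g _ g' _ h h' y hy => by
      rw [σ_mul]; exact h _ (h' y hy)) fun g u e => ⟨trivial, fun y hy => by
        rw [e]; exact key _ _ (σ_ne g h0) (H.conj h g) (by rw [H.Q_σ, hm]) y hy⟩
  rcases H.irrW U fun g => (this.ge (Subgroup.mem_top g)).2 with e | e
  exacts [h0 ((Submodule.eq_bot_iff _).1 e s u1), span_ne (by norm_num) _ e]

theorem types2 (h : T ρ s m) (h' : T ρ s' m') (hm : Q m = 1) (hm' : Q m' = 1) (hB : Bw s s' ≠ 0)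
    (m2 : Bw s' m = 0) (n1 : Bw s m' = 0) :
    Bw s s' ^ 2 = 1 ∧ (m' = m ∨ m' = -m ∨ Bw m m' = 0) := by
  rcases H.types p h h' hm hm' hB m2 n1 with ⟨a, b⟩ | ⟨a, b⟩
  · refine ⟨a.resolve_right (H.noH p h ?_ hm), b.imp_right .inl⟩
    rcases b with rfl | rfl
    exacts [h', by simpa using h'.neg]
  · exact ⟨a, .inr (.inr b)⟩

theorem f3 (h : T ρ s m) (h' : T ρ s' m') (hm : Q m = 1) (hm' : Q m' = 1) : F3 (Bw s s') :=
  F3.of_sq (or_iff_not_imp_left.2 fun hB => (H.types2 p (h.shift (-(Bw s' m / Bw s s')))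
    (h'.shift (-(Bw s m' / Bw s s'))) (by rwa [h.Q_shift]) (by rwa [h'.Q_shift]) hB
    (by simp only [bw, Bw_comm s' s]; field_simp; ring) (by simp only [bw]; field_simp; ring)).1)

end Hs

end Cfsg.Agent.L4.S
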