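import Cfsg.Agent.L4.S5

/-!
The root system attached to a group generated by Eichler transformations of order three.
-/

set_option autoImplicit false

namespace Cfsg.Agent.L4.S

open Matrix Module Cfsg.Agent.H1.Spin6 Cfsg.Agent.L4.R Submodule

variable {k : Type*} [Field k]

local notation "Q" => Pf k

/-- reflections in vectors of norm one -/
def rf (a w : W6 k) : W6 k := w - Bw w a • a

theorem rf_rf {a : W6 k} (h : Q a = 1) (w : W6 k) : rf a (rf a w) = w := by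
  simp only [rf, bw, h]; module

theorem rf_smul {c : k} (h : c * c = 1) (a w : W6 k) : rf (c • a) w = rf a w := by
  simp only [rf, bw, smul_smul]; congr 2; linear_combination Bw w a * h

theorem rf_et {s a : W6 k} (hs : Q s = 0) (h : Bw s a = 0) (ha : Q a = 1) (w : W6 k) :
    rf a (rf (a + s) w) = et s a w := by
  simp only [rf, et, bw, *]; module

variable {P : Type*} [Group P] {ρ : P →* M4 k} {s s' m a b c d : W6 k}

/-- the product of two reflections lies in the group -/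
def Rl (ρ : P →* M4 k) (a b : W6 k) : Prop := ∃ g, ∀ w, L2 (ρ g) w = rf a (rf b w)

/-- the roots -/
def Rt (ρ : P →* M4 k) (a : W6 k) : Prop :=
  Q a = 1 ∧ (∀ s m, T ρ s m → Q m = 1 → F3 (Bw s a)) ∧ ∃ s, s ≠ 0 ∧ T ρ s a

theorem Rl.refl (h : Q a = 1) : Rl ρ a a := ⟨1, fun w => by rw [map_one, L2_one, rf_rf h]⟩

theorem Rl.symm (h : Rl ρ a b) (ha : Q a = 1) (hb : Q b = 1) : Rl ρ b a := by
  obtain ⟨g, e⟩ := h
  refine ⟨g⁻¹, fun w => ?_⟩
  rw [← σ_inv (ρ := ρ) g (rf b (rf a w)), e, rf_rf hb, rf_rf ha]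

theorem Rl.trans (h : Rl ρ a b) (hb : Q b = 1) (h' : Rl ρ b c) : Rl ρ a c := by
  obtain ⟨g, e⟩ := h
  obtain ⟨g', e'⟩ := h'
  exact ⟨g * g', fun w => by rw [σ_mul, e', e, rf_rf hb]⟩

theorem Rl.smul (h : Rl ρ a b) {x : k} (hx : x * x = 1) : Rl ρ a (x • b) :=
  h.imp fun _ e w => by rw [e, rf_smul hx]

theorem T.rl (h : T ρ s a) (ha : Q a = 1) {x : k} (hx : F3 x) : Rl ρ a (a + x • s) := by
  rcases hx with rfl | rfl | rfl
  · simpa using Rl.refl ha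
  · obtain ⟨g, -, e⟩ := h.act
    exact ⟨g, fun w => by rw [e, one_smul, rf_et h.1 h.2.1 ha]⟩
  · obtain ⟨g, -, e⟩ := h.neg'.act
    exact ⟨g, fun w => by rw [e, neg_one_smul, rf_et h.neg'.1 h.neg'.2.1 ha]⟩

theorem Rt.neg (h : Rt ρ a) : Rt ρ (-a) :=
  ⟨by rw [Q_neg, h.1], fun s m a b => by rw [B_neg]; exact (h.2.1 s m a b).neg,
    h.2.2.imp fun _ e => ⟨e.1, e.2.neg⟩⟩

/-- the properties of the root system -/
structure RS (ρ : P →* M4 k) (R : W6 k → Prop) : Prop where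
  three : (3 : k) = 0
  q : ∀ {a}, R a → Q a = 1
  f3 : ∀ {a b}, R a → R b → F3 (Bw a b)
  inv : ∀ {a}, R a → ∀ g, R (L2 (ρ g) a)
  neg : ∀ {a}, R a → R (-a)
  rel : ∀ {a b}, R a → R b → Rl ρ a b
  ne : ∃ a, R a
  aff : ∀ {a b c}, R a → R b → R c → Bw a b = -1 → Bw a c = -1 → Bw b c = -1 → b ≠ a → c ≠ a →
    c = b ∨ c = -a - b
  sm : ∀ {a b c d}, R a → R b → R c → R d → Bw a b = -1 → Bw c d = -1 → b ≠ a →
    b - a + (d - c) = 0 → Bw a c ≠ 0
  gen : ∀ S : Subgroup P, (∀ g a b, R a → R b → (∀ w, L2 (ρ g) w = rf a (rf b w)) → g ∈ S) → S = ⊤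

namespace Hs

variable (H : Hs ρ)
include H

theorem Rl_σ (h : Rl ρ a b) (g : P) : Rl ρ (L2 (ρ g) a) (L2 (ρ g) b) := by
  obtain ⟨u, e⟩ := h
  refine ⟨g * u * g⁻¹, fun w => ?_⟩
  rw [σ_mul, σ_mul, e]
  nth_rw 2 [← σ_inv' (ρ := ρ) g w]
  generalize L2 (ρ g⁻¹) w = z
  simp only [rf, ← map_smul, ← map_sub, H.B_σ]

theorem Rt_σ (h : Rt ρ a) (g : P) : Rt ρ (L2 (ρ g) a) :=
  ⟨by rw [H.Q_σ, h.1], fun s m x y => by
    rw [← σ_inv' (ρ := ρ) g s, H.B_σ]; exact h.2.1 _ _ (H.conj x _) (by rw [H.Q_σ, y]),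
    let ⟨_, e, e'⟩ := h.2.2; ⟨_, σ_ne g e, H.conj e' g⟩⟩

theorem skew' (h : T ρ s m) (h0 : s ≠ 0) (h0' : s' ≠ 0) : ∃ g, Bw s' (L2 (ρ g) s) ≠ 0 := by
  obtain ⟨_, ⟨g, rfl⟩, hy⟩ := H.skew (X := Set.range fun g => L2 (ρ g) s)
    (by rintro g _ ⟨g', rfl⟩; exact ⟨g * g', σ_mul _ _ _⟩) ⟨1, rfl⟩ (σ_ne 1 h0) h0'
  exact ⟨g, hy⟩

variable [Finite P] [IsAlgClosed k] (p : ℕ) [Fact p.Prime] [CharP k p]
include p

theorem Rt_shift (h : Rt ρ a) (h' : T ρ s a) (h0 : s ≠ 0) {x : k} (hx : F3 x) : Rt ρ (a + x • s) :=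
  ⟨by rw [h'.Q_shift, h.1], fun t m u v => by
    rw [Bw_add, Bw_smul]
    exact (h.2.1 t m u v).add (H.three p h' h0 (by simp [h.1])) (hx.mul (H.f3 p u h' v h.1)),
    s, h0, h'.shift x⟩

theorem exists_Rt (h : T ρ s m) (h0 : s ≠ 0) (hm : Q m = 1) : ∃ a, Rt ρ a ∧ T ρ s a := by
  obtain ⟨g, hg⟩ := H.skew' h h0 h0
  have h3 := H.three p h h0 (by simp [hm])
  have h' := H.conj h g
  have hm' : Q (L2 (ρ g) m) = 1 := by rw [H.Q_σ, hm]
  generalize L2 (ρ g) s = s' at *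
  have a1 := h.shift (-(Bw s' m / Bw s s'))
  have a2 : Q (m + -(Bw s' m / Bw s s') • s) = 1 := by rwa [h.Q_shift]
  have a3 : Bw s' (m + -(Bw s' m / Bw s s') • s) = 0 := by
    simp only [bw, Bw_comm s' s]; field_simp; ring
  generalize m + -(Bw s' m / Bw s s') • s = a at *
  refine ⟨a, ⟨a2, fun t n u v => ?_, s, h0, a1⟩, a1⟩
  obtain ⟨w, -, e⟩ := a1.act
  have b1 := H.f3 p u (H.cj a1 h') v (by rw [← e, H.Q_σ, hm'])
  have b2 := H.f3 p a1 h' a2 hm'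
  convert ((b1.add h3 (H.f3 p u h' v hm').neg).add h3 (b2.mul (H.f3 p u a1 v a2))).div b2 using 1
  simp only [et, bw, a2, a3, Bw_comm s' s]
  field_simp
  ring

theorem Rt_f3 (h : Rt ρ a) (h' : Rt ρ b) : F3 (Bw a b) := by
  obtain ⟨s, h0, a1⟩ := h.2.2
  obtain ⟨g, hg⟩ := H.skew' a1 h0 h0
  have h3 := H.three p a1 h0 (by simp [h.1])
  have a2 := H.conj a1 g
  have hm' : Q (L2 (ρ g) a) = 1 := by rw [H.Q_σ, h.1]
  generalize L2 (ρ g) s = s' at *
  obtain ⟨w, -, e⟩ := a1.act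
  have b1 := h'.2.1 _ _ (H.cj a1 a2) (by rw [← e, H.Q_σ, hm'])
  have b2 := H.f3 p a1 a2 h.1 hm'
  convert ((b1.add h3 (h'.2.1 _ _ a2 hm').neg).add h3 (((h.2.1 _ _ a2 hm').add h3 b2).mul
    (h'.2.1 _ _ a1 h.1))).div b2 using 1
  simp only [et, bw, h.1, Bw_comm s' s]
  field_simp
  ring

theorem adj (h : Rt ρ a) (h' : Rt ρ b) (a1 : T ρ s a) (b1 : T ρ s' b) (hB : Bw s s' ≠ 0) :
    Rl ρ a b := by
  have f := H.f3 p a1 b1 h.1 h'.1
  have x1 := ((h.2.1 _ _ b1 h'.1).div f).neg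
  have y1 := ((h'.2.1 _ _ a1 h.1).div f).neg
  have a2 := a1.shift (-(Bw s' a / Bw s s'))
  have b2 := b1.shift (-(Bw s b / Bw s s'))
  have a3 : Q (a + -(Bw s' a / Bw s s') • s) = 1 := by rw [a1.Q_shift, h.1]
  have b3 : Q (b + -(Bw s b / Bw s s') • s') = 1 := by rw [b1.Q_shift, h'.1]
  have a4 : Bw s' (a + -(Bw s' a / Bw s s') • s) = 0 := by
    simp only [bw, Bw_comm s' s]; field_simp; ring
  have b4 : Bw s (b + -(Bw s b / Bw s s') • s') = 0 := by simp only [bw]; field_simp; ring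
  refine (a1.rl h.1 x1).trans a3 (Rl.trans ?_ b3 ((b1.rl h'.1 y1).symm h'.1 b3))
  generalize a + -(Bw s' a / Bw s s') • s = a at *
  generalize b + -(Bw s b / Bw s s') • s' = b at *
  obtain ⟨e1, rfl | rfl | e⟩ := H.types2 p a2 b2 a3 b3 hB a4 b4
  · exact Rl.refl a3
  · simpa using (Rl.refl a3).smul (x := -1) (by simp)
  obtain ⟨u, -, hu⟩ := a2.act
  obtain ⟨u', -, hu'⟩ := b2.act
  have c1 := (H.Rl_σ (a2.rl a3 (x := -1) (.inr (.inr rfl))) u').smul (x := -Bw s s')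
    (by linear_combination e1)
  have c2 := H.Rl_σ (b2.rl b3 (x := -1) (.inr (.inr rfl))) u
  have c3 : Q (L2 (ρ u) (b + (-1 : k) • s')) = 1 := by rw [H.Q_σ, b2.Q_shift, b3]
  have i1 : et s' b a = a := by simp [et, Bw_comm a s', a4, e]
  have i2 : et s a b = b := by simp [et, Bw_comm b s, b4, Bw_comm b a, e]
  rw [hu' a, i1] at c1
  rw [hu b, i2] at c2
  refine Rl.trans ?_ c3 (c2.symm b3 c3)
  convert c1 using 1
  simp only [hu, hu', et, bw, a3, b3, a4, b4, e, Bw_comm a s', Bw_comm b s, Bw_comm b a, Bw_comm s' s]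
  match_scalars <;> grind

theorem rel (h : Rt ρ a) (h' : Rt ρ b) : Rl ρ b a := by
  obtain ⟨s, h0, a1⟩ := h.2.2
  obtain ⟨s', h0', b1⟩ := h'.2.2
  have h3 := H.three p a1 h0 (by simp [h.1])
  have q : ∀ g, Q (L2 (ρ g) a) = 1 := fun g => by rw [H.Q_σ, h.1]
  have := H.gen a1 h0 (by simp [h.1]) (H1.Sp4.sub ⊤ (fun g => Rl ρ (L2 (ρ g) a) a)
    (by rw [map_one, L2_one]; exact Rl.refl h.1) fun g _ g' _ h h' => by
      rw [σ_mul]; exact (H.Rl_σ h' g).trans (q g) h) fun g u e => ⟨trivial, by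
    have c1 := H.conj a1 g
    have c2 := H.Rt_σ h g
    generalize L2 (ρ g) s = t at *
    generalize L2 (ρ g) a = c at *
    by_cases r : Rl ρ c a
    · refine (H.Rl_σ (r.symm c2.1 h.1) u).trans (by rw [H.Q_σ, c2.1]) (Rl.trans ?_ c2.1 r)
      refine Rl.symm ?_ c2.1 (by rw [H.Q_σ, c2.1])
      convert c1.rl c2.1 (x := 1) (.inr (.inl rfl)) using 1
      simp only [e, et, bw, c2.1, Bw_comm c t, c1.2.1]
      match_scalars <;> grind
    obtain ⟨g', hg'⟩ := H.skew' a1 h0 h0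
    have d1 := (H.adj p h (H.Rt_σ h g') a1 (H.conj a1 g') hg').symm h.1 (q g')
    have d2 : Bw t s = 0 := by
      by_contra e'
      exact r (H.adj p c2 h c1 a1 e')
    have d3 : Bw t (L2 (ρ g') s) = 0 := by
      by_contra e'
      exact r ((H.adj p c2 (H.Rt_σ h g') c1 (H.conj a1 g') e').trans (q g') d1)
    refine (H.adj p (H.Rt_σ h u) (H.Rt_σ h g') (H.conj a1 u) (H.conj a1 g') ?_).trans (q g') d1
    simpa [e, et, bw, Bw_comm s t, d2, d3] using hg'⟩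
  obtain ⟨g, hg⟩ := H.skew' a1 h0 h0'
  exact (H.adj p h' (H.Rt_σ h g) b1 (H.conj a1 g) hg).trans (q g) (this.ge (Subgroup.mem_top g)).2

theorem T_root (h3 : (3 : k) = 0) (h : Rt ρ a) (h' : Rt ρ b) (e : Bw a b = -1) : T ρ (b - a) a := by
  obtain ⟨g, hg⟩ := H.rel p h' h
  have a1 : Q (b - a) = 0 := by simp only [bw, h.1, h'.1, Bw_comm b a, e]; linear_combination h3
  have a2 : Bw (b - a) a = 0 := by simp only [bw, h.1, Bw_comm b a, e]; linear_combination -h3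
  exact H.T_of p a1 a2 (g := g) fun w => by rw [hg, ← rf_et a1 a2 h.1, add_sub_cancel]

theorem rs (h : T ρ s m) (h0 : s ≠ 0) (hm : Q m ≠ 0) : RS ρ (Rt ρ) := by
  have h3 := H.three p h h0 hm
  have h2 := H.two
  obtain ⟨a0, r0, t0, s0⟩ : ∃ a, Rt ρ a ∧ ∃ s, s ≠ 0 ∧ T ρ s a := by
    obtain ⟨c, hc⟩ := IsAlgClosed.exists_eq_mul_self (Q m)
    have c0 : c ≠ 0 := by rintro rfl; exact hm (by simpa using hc)
    obtain ⟨a, ha, -⟩ := H.exists_Rt p (s := c • s) (m := c⁻¹ • m) (T.scale' (by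
      rwa [smul_smul, mul_inv_cancel₀ c0, one_smul])) (smul_ne_zero c0 h0) (by
        rw [Q_smul, hc]; field_simp)
    exact ⟨a, ha, ha.2.2⟩
  refine ⟨h3, And.left, H.Rt_f3 p, H.Rt_σ, Rt.neg, fun h h' => H.rel p h' h, ⟨a0, r0⟩,
    fun {a b c} ha hb hc e1 e2 e3 n1 n2 => ?_, fun {a b c d} ha hb hc hd e1 e2 n1 e3 e4 => ?_,
    fun S hS => H.gen s0.2 s0.1 (by simp [r0.1]) S fun g u e => ?_⟩
  · have a1 := H.T_root p h3 ha hb e1
    have a2 := H.T_root p h3 ha hc e2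
    obtain ⟨x, hx⟩ : ∃ x : k, b - a = x • (c - a) := by
      by_contra! hn
      have := (H.perp a1 a2 (by simp [ha.1]) (sub_ne_zero.2 n2) (by
        simp only [bw, ha.1, Bw_comm b a, e1, e2, e3]; linear_combination h3)
        (by rw [Bw_comm, a2.2.1]) hn).2
      simp [bw, ha.1, h2] at this
    have x0 : x ≠ 0 := by rintro rfl; exact sub_ne_zero.2 n1 (by simpa using hx)
    rw [hx] at a1
    obtain ⟨y, e⟩ := H.sm p a2 (a1.scale x0) (sub_ne_zero.2 n2) (by simp [ha.1])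
      (by simp [Q_smul, ha.1, x0])
    refine e.imp (fun e => ?_) fun e => ?_ <;> have := congrArg (Bw · a) e <;>
      simp only [add_Bw, smul_Bw, neg_B, a2.2.1, B_self, ha.1] at this
    · obtain rfl : x = 1 := mul_right_cancel₀ h2 (by linear_combination this)
      simpa using hx.symm
    · obtain rfl : x = -1 := mul_right_cancel₀ h2 (by linear_combination this)
      linear_combination (norm := module) hx + h3 • a
  · have a1 := H.T_root p h3 ha hb e1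
    have a2 := (H.T_root p h3 hc hd e2).neg'
    rw [← eq_neg_of_add_eq_zero_left e3] at a2
    obtain ⟨y, e⟩ := H.sm p a1 a2 (sub_ne_zero.2 n1) (by simp [ha.1]) (by simp [hc.1])
    rcases e with e | e <;> have := congrArg (Bw · a) e <;>
      simp [add_Bw, smul_Bw, neg_B, a1.2.1, B_self, ha.1, Bw_comm c a, e4, h2.symm, h2] at this
  · have a1 := H.conj s0.2 g
    have a2 := H.Rt_σ r0 g
    exact hS u _ _ a2 (H.Rt_shift p a2 a1 (σ_ne g s0.1) (x := 1) (.inr (.inl rfl))) fun w => by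
      rw [e, one_smul, rf_et a1.1 a1.2.1 a2.1]

end Hs

end Cfsg.Agent.L4.S
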