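import Cfsg.Agent.L4.S6

/-!
The root system is of type `A₆`.
-/

set_option autoImplicit false

namespace Cfsg.Agent.L4.S

open Matrix Module Cfsg.Agent.H1.Spin6 Cfsg.Agent.L4.R Submodule

variable {k : Type*} [Field k]

local notation "Q" => Pf k

theorem perp6 (v : Fin 6 → W6 k) (ind : ∀ c : Fin 6 → k, ∑ i, c i • v i = 0 → ∀ i, c i = 0)
    {z : W6 k} (hz : ∀ i, Bw z (v i) = 0) : z = 0 := Bw_nd fun w => by
  have := (Fintype.linearIndependent_iff.2 ind).span_eq_top_of_card_eq_finrank (by simp)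
  obtain ⟨c, rfl⟩ := (mem_span_range_iff_exists_fun k).1 (this.ge (mem_top (x := w)))
  simp [Fin.sum_univ_six, bw, hz]

/-- sets of vectors whose differences are roots -/
def Cl (R : W6 k → Prop) {ι : Type} (y : ι → W6 k) : Prop :=
  (∀ i j, i ≠ j → R (y i - y j)) ∧ ∀ i j l, i ≠ j → i ≠ l → j ≠ l → y i + y j + y l ≠ 0

theorem Cl.comp {R : W6 k → Prop} {ι κ : Type} {y : ι → W6 k} (h : Cl R y) {f : κ → ι}
    (hf : Function.Injective f) : Cl R (y ∘ f) :=
  ⟨fun _ _ e => h.1 _ _ (hf.ne e), fun _ _ _ a b c => h.2 _ _ _ (hf.ne a) (hf.ne b) (hf.ne c)⟩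

variable {P : Type*} [Group P] {ρ : P →* M4 k} {R : W6 k → Prop} {ι : Type} {y : ι → W6 k}
  {a b c : W6 k}

namespace RS

variable (r : RS ρ R)
include r

theorem two : (2 : k) ≠ 0 := fun e => one_ne_zero (α := k) (by linear_combination r.three - e)

theorem refl (ha : R a) (hb : R b) : R (rf a b) := by
  obtain ⟨g, e⟩ := r.rel ha hb
  convert r.inv (r.neg hb) g using 1
  rw [e]
  congr 1
  simp only [rf, bw, r.q hb]
  module

theorem sgn (hc : R c) {x : k} (hx : x * x = 1) : R (x • c) := by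
  rcases mul_self_eq_one_iff.1 hx with rfl | rfl
  exacts [by simpa, by simpa using r.neg hc]

theorem gram (h : Cl R y) {i j l : ι} (h1 : i ≠ j) (h2 : i ≠ l) (h3 : j ≠ l) :
    Bw (y i - y j) (y i - y l) = 1 := by
  have := Q_sub (y i - y j) (y i - y l)
  rw [r.q (h.1 _ _ h1), r.q (h.1 _ _ h2), sub_sub_sub_cancel_left, r.q (h.1 _ _ h3.symm)] at this
  linear_combination this

theorem v3 (h : Cl R y) (hc : R c) {i j l : ι} (h1 : Bw c (y i) ≠ Bw c (y j))
    (h2 : Bw c (y j) ≠ Bw c (y l)) (h3 : Bw c (y i) ≠ Bw c (y l)) : ∃ i j, c = y i - y j := by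
  have n1 : i ≠ j := fun e => h1 (by rw [e])
  have n2 : j ≠ l := fun e => h2 (by rw [e])
  have n3 : i ≠ l := fun e => h3 (by rw [e])
  have t := r.three
  have a1 := r.f3 hc (h.1 _ _ n1)
  have a2 := r.f3 hc (h.1 _ _ n2)
  have a3 := r.f3 hc (h.1 _ _ n3)
  obtain ⟨x, hx, b1, b2⟩ : ∃ x : k, x * x = 1 ∧ x * Bw c (y i - y j) = -1 ∧
      x * Bw c (y j - y l) = -1 := ⟨-Bw c (y i - y j), by
    simp only [bw, F3] at a1 a2 a3 ⊢; grind⟩
  suffices ∃ i j, x • c = y i - y j by
    obtain ⟨i, j, e⟩ := this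
    rcases mul_self_eq_one_iff.1 hx with rfl | rfl
    · exact ⟨i, j, by simpa using e⟩
    · exact ⟨j, i, by rw [← neg_sub, ← e]; simp⟩
  by_cases e : x • c = y i - y j
  · exact ⟨_, _, e⟩
  rcases r.aff (h.1 _ _ n1) (h.1 _ _ n2) (r.sgn hc hx) (by
      rw [← r.gram h n1.symm n2 n3, ← neg_B, neg_sub]) (by rwa [Bw_smul, Bw_comm])
      (by rwa [Bw_smul, Bw_comm]) (fun e => h.2 i j l n1 n3 n2 (by
        linear_combination (norm := module) -e + t • y j)) e with e | e
  · exact ⟨_, _, e⟩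
  · exact ⟨l, i, by rw [e]; abel⟩

theorem k1 (mx : ∀ y : Option ι → W6 k, ¬ Cl R y) (h : Cl R y) (hc : R c)
    (hn : ∀ i j, c ≠ y i - y j) {i : ι} {ε : k} (hε : ε * ε = 1)
    (e : ∀ l, l ≠ i → Bw c (y i - y l) = ε) : False := by
  have t := r.three
  have q := r.q hc
  have a : ∀ l, R (y i - ε • c - y l) := fun l => by
    by_cases hl : l = i
    · simpa [hl] using r.neg (r.sgn hc hε)
    · convert r.refl hc (h.1 _ _ (Ne.symm hl)) using 1
      rw [rf, Bw_comm, e l hl]; abel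
  have b : ∀ j l, j ≠ l → y i - ε • c + y j + y l ≠ 0 := fun j l n e' => by
    have key : ∀ l, y i - ε • c + y i + y l ≠ 0 := fun l e' => by
      rcases mul_self_eq_one_iff.1 hε with rfl | rfl
      · exact hn l i (by linear_combination (norm := module) -e' + t • y i)
      · exact hn i l (by linear_combination (norm := module) e' - t • y i)
    by_cases hj : j = i
    · exact key l (hj ▸ e')
    by_cases hl : l = i
    · exact key j (by rw [← e', hl]; abel)
    have := congrArg (Bw c) e'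
    have e1 := e j hj
    have e2 := e l hl
    simp only [bw, q] at this e1 e2
    grind
  refine mx (fun o => o.elim (y i - ε • c) y) ⟨?_, ?_⟩
  · rintro (_ | j) (_ | l) n
    exacts [(n rfl).elim, a l, by simpa using r.neg (a j), h.1 _ _ fun e => n (by rw [e])]
  · rintro (_ | j) (_ | l) (_ | m) n1 n2 n3 <;> simp only [Option.elim, ne_eq, not_true,
      Option.some.injEq] at n1 n2 n3 ⊢
    · exact b _ _ n3
    · exact fun e => b _ _ n2 (by rw [← e]; abel)
    · exact fun e => b _ _ n1 (by rw [← e]; abel)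
    · exact h.2 _ _ _ n1 n2 n3

theorem e6 {y : Fin 6 → W6 k} (h : Cl R y) (hc : R c) (h1 : Bw c (y 1) = Bw c (y 0))
    (h2 : Bw c (y 2) = Bw c (y 0)) (h4 : Bw c (y 4) = Bw c (y 3)) (h5 : Bw c (y 5) = Bw c (y 3)) :
    False := by
  have t := r.three
  have g : ∀ i j : Fin 6, i ≠ 0 → j ≠ 0 → Bw (y 0 - y i) (y 0 - y j) = if i = j then 2 else 1 :=
    fun i j a b => by
      split_ifs with e
      · rw [e, B_self, r.q (h.1 _ _ b.symm), mul_one]
      · exact r.gram h a.symm b.symm e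
  have q := r.q hc
  obtain ⟨ε, h3⟩ : ∃ ε, Bw c (y 0 - y 3) = ε := ⟨_, rfl⟩
  have g1 : Bw c (y 0 - y 1) = 0 := by rw [B_sub, h1, sub_self]
  have g2 : Bw c (y 0 - y 2) = 0 := by rw [B_sub, h2, sub_self]
  have g4 : Bw c (y 0 - y 4) = ε := by rw [← h3, B_sub, B_sub, h4]
  have g5 : Bw c (y 0 - y 5) = ε := by rw [← h3, B_sub, B_sub, h5]
  have hz : (y 0 - y 1) + (y 0 - y 2) + (y 0 - y 3) + (y 0 - y 4) + (y 0 - y 5) = 0 := by
    by_contra hz
    refine hz (perp6 ![y 0 - y 1, y 0 - y 2, y 0 - y 3, y 0 - y 4, y 0 - y 5, c] (fun x e => ?_)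
      fun i => ?_)
    · simp only [Fin.sum_univ_six, cons_val_zero, cons_val_one, cons_val] at e
      have e1 := congrArg (Bw (y 0 - y 1)) e
      have e2 := congrArg (Bw (y 0 - y 2)) e
      have e3 := congrArg (Bw (y 0 - y 3)) e
      have e4 := congrArg (Bw (y 0 - y 4)) e
      have e5 := congrArg (Bw (y 0 - y 5)) e
      have e6 := congrArg (Bw c) e
      simp (disch := decide) only [Bw_add, Bw_smul, g, B_zero, Bw_comm _ c, g1, g2, h3, g4, g5,
        B_self c, q, if_pos, if_neg] at e1 e2 e3 e4 e5 e6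
      have b5 : x 5 = 0 := by grind
      have b1 : x 1 = x 0 := by grind
      have b2 : x 2 = x 0 := by grind
      have b3 : x 3 = x 0 := by grind
      have b4 : x 4 = x 0 := by grind
      have b0 : x 0 = 0 := (smul_eq_zero.1 (by
        rw [← e, b1, b2, b3, b4, b5]; module)).resolve_right hz
      intro i
      fin_cases i <;> simp [*]
    · fin_cases i <;> simp (disch := decide) only [add_Bw, Bw_add, g, Bw_comm _ c, g1, g2, h3, g4, g5,
        if_pos, if_neg, cons_val_zero, cons_val_one, cons_val, Fin.reduceFinMk, Fin.zero_eta,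
        Fin.mk_one] <;> first | linear_combination 2 * t | linear_combination ε * t
  refine r.sm (h.1 0 1 (by decide)) (h.1 1 2 (by decide)) (h.1 3 4 (by decide))
    (h.1 4 5 (by decide)) (by
      rw [← r.gram h (i := 1) (j := 0) (l := 2) (by decide) (by decide) (by decide), ← neg_B, neg_sub])
    (by rw [← r.gram h (i := 4) (j := 3) (l := 5) (by decide) (by decide) (by decide), ← neg_B,
      neg_sub]) (fun e => h.2 0 1 2 (by decide) (by decide) (by decide) (by
        linear_combination (norm := module) -e + t • y 1))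
    (by linear_combination (norm := module) hz + t • (y 1 + y 4 - (2 : k) • y 0)) ?_
  rw [show y 3 - y 4 = (y 0 - y 4) - (y 0 - y 3) by abel, B_sub, g _ _ (by decide) (by decide),
    g _ _ (by decide) (by decide)]
  simp

variable [Finite P] (H : Hy ρ)
include H

theorem stab (X : W6 k → Prop) (h : ∀ c, R c → ∀ w, X w → X (rf c w)) (g : P) {w : W6 k}
    (hw : X w) : X (L2 (ρ g) w) :=
  ((r.gen (H1.Sp4.sub ⊤ (fun g => ∀ w, X w → X (L2 (ρ g) w))
    (fun y hy => by rwa [map_one, L2_one]) fun g _ g' _ h h' y hy => by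
      rw [σ_mul]; exact h _ (h' y hy)) fun g a b ha hb e => ⟨trivial, fun y hy => by
        rw [e]; exact h a ha _ (h b hb _ hy)⟩).ge (Subgroup.mem_top g)).2 w hw

theorem frame [DecidableEq ι] (mx : ∀ y : Option ι → W6 k, ¬ Cl R y) {e : ι → W6 k}
    (o : ∀ i j, Bw (e i) (e j) = if i = j then 1 else 0) (h1 : ∀ i j, i ≠ j → R (e i - e j))
    (h2 : ∀ i j, i ≠ j → R (e i + e j)) {i j l : ι} (n1 : i ≠ j) (n2 : i ≠ l) (n3 : j ≠ l) :
    False := by
  classical
  have t := r.three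
  have h2' := r.two
  have cl : ∀ ε : ι → k, (∀ i, ε i * ε i = 1) → Cl R fun i => ε i • e i := fun ε hε =>
    ⟨fun a b n => by
      rcases mul_self_eq_one_iff.1 (hε a) with x | x <;>
        rcases mul_self_eq_one_iff.1 (hε b) with z | z <;> simp only [x, z]
      · simpa using h1 a b n
      · simpa using h2 a b n
      · convert r.neg (h2 a b n) using 1; module
      · convert h1 b a n.symm using 1; module, fun a b c x z _ w => by
      have := congrArg (Bw (e a)) w
      simp [Bw_add, Bw_smul, B_zero, o, x, z] at this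
      simpa [this] using hε a⟩
  have key : ∀ c, R c → (∀ i, Bw c (e i) = 0) ∨ ∃ (a b : ι) (x z : k), x * x = 1 ∧ z * z = 1 ∧
      c = x • e a - z • e b := fun c hc => by
    by_contra! hn
    obtain ⟨⟨a, ha⟩, hn⟩ := hn
    have f : ∀ a, F3 (Bw c (e a)) := fun a => by
      obtain ⟨b, hb⟩ : ∃ b, a ≠ b := by
        by_cases x : a = i
        exacts [⟨j, x ▸ n1⟩, ⟨i, x⟩]
      convert ((r.f3 hc (h1 a b hb)).add t (r.f3 hc (h2 a b hb))).neg using 1
      simp only [bw]
      linear_combination Bw c (e a) * t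
    let ε : ι → k := fun b => if b = a then -Bw c (e a) else if Bw c (e b) = 0 then 1 else Bw c (e b)
    have hε : ∀ b, ε b * ε b = 1 := fun b => by
      simp only [ε]
      split_ifs with x z
      exacts [by simpa using (f a).sq ha, by simp, (f b).sq z]
    have v0 : Bw c (ε a • e a) = -1 := by simp [ε, bw, (f a).sq ha]
    have v1 : ∀ b, b ≠ a → Bw c (ε b • e b) = 0 ∨ Bw c (ε b • e b) = 1 := fun b x => by
      by_cases z : Bw c (e b) = 0
      · simp [bw, z]
      · simp [ε, bw, x, z, (f b).sq z]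
    have hn' : ∀ a b, c ≠ ε a • e a - ε b • e b := fun a b => hn a b _ _ (hε a) (hε b)
    by_cases x : ∃ b, b ≠ a ∧ Bw c (ε b • e b) = 0
    · obtain ⟨b, b1, b2⟩ := x
      refine r.k1 mx (cl ε hε) hc hn' (i := a) (ε := -1) (by simp) fun d d1 => ?_
      rw [B_sub, v0, (v1 d d1).resolve_right fun d2 => ?_, sub_zero]
      obtain ⟨x, z, w⟩ := r.v3 (cl ε hε) hc (i := a) (j := b) (l := d) (by simp [v0, b2])
        (by simp [b2, d2]) (by rw [v0, d2]; grind)
      exact hn' x z w
    · push Not at x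
      refine r.k1 mx (cl ε hε) hc hn' (i := a) (ε := 1) (by simp) fun d d1 => ?_
      rw [B_sub, v0, (v1 d d1).resolve_left (x d d1)]
      linear_combination -t
  have st := r.stab H (fun w => ∃ (a : ι) (x : k), x * x = 1 ∧ w = x • e a) (by
    rintro c hc _ ⟨d, w, hw, rfl⟩
    rcases key c hc with h | ⟨a, b, x, z, hx, hz, rfl⟩
    · exact ⟨d, w, hw, by simp [rf, bw, Bw_comm _ c, h]⟩
    have ab : a ≠ b := by
      rintro rfl
      have := congrArg (2 * ·) (r.q hc)
      simp only [← B_self, bw.1, bw.2.1, B_sub, sub_B, Bw_smul, smul_Bw, o, if_pos] at this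
      grind
    by_cases h : d = a
    · refine ⟨b, w * x * z, by grind, ?_⟩
      simp only [rf, B_sub, Bw_smul, smul_Bw, o, h, if_pos, if_neg ab]
      match_scalars <;> grind
    by_cases h' : d = b
    · refine ⟨a, w * x * z, by grind, ?_⟩
      simp only [rf, B_sub, Bw_smul, smul_Bw, o, h', if_pos, if_neg ab.symm]
      match_scalars <;> grind
    exact ⟨d, w, hw, by simp [rf, B_sub, Bw_smul, smul_Bw, o, h, h']⟩)
  let N : Subgroup P := H1.Sp4.sub ⊤ (fun g => ∀ a, ∃ x : k, L2 (ρ g) (e a) = x • e a)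
    (fun a => ⟨1, by rw [map_one, L2_one, one_smul]⟩) fun g _ g' _ h h' a => by
      obtain ⟨x, hx⟩ := h a
      obtain ⟨z, hz⟩ := h' a
      exact ⟨z * x, by rw [σ_mul, hz, map_smul, hx, smul_smul]⟩
  obtain ⟨g0, e0⟩ := r.rel (h1 i j n1) (h2 i j n1)
  obtain ⟨g1, e1⟩ := r.rel (h1 i j n1) (h1 i l n2)
  have a1 : L2 (ρ g1) (e i) = e l := by
    simp [e1, rf, B_sub, sub_B, o, n1, n2, n3, n1.symm, n2.symm, n3.symm]
  have a2 : L2 (ρ g0) (e i) = -e i := by
    simp [e0, rf, B_sub, sub_B, Bw_add, add_Bw, neg_B, o, n1, n1.symm]; abel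
  have a3 : L2 (ρ g0) (e j) = -e j := by
    simp [e0, rf, B_sub, sub_B, Bw_add, add_Bw, neg_B, o, n1, n1.symm]; abel
  have a4 : ∀ a, a ≠ i → a ≠ j → L2 (ρ g0) (e a) = e a := fun a x z => by
    simp [e0, rf, B_sub, Bw_add, o, x, z]
  rcases H.simp N ⟨fun n hn g => ⟨trivial, fun a => by
    obtain ⟨b, x, -, hx⟩ := st g⁻¹ (w := e a) ⟨a, 1, by simp, by simp⟩
    obtain ⟨z, hz⟩ := hn.2 b
    exact ⟨z, by rw [σ_mul, σ_mul, hx, map_smul, hz, smul_comm, ← hx, map_smul, σ_inv']⟩⟩⟩ with c | c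
  · have := congrArg (fun g => Bw (e l) (L2 (ρ g) (e i))) (Subgroup.mem_center_iff.1 (c (x := g0)
      ⟨trivial, fun a => by
        by_cases x : a = i
        · exact ⟨-1, by simp [x, a2]⟩
        by_cases z : a = j
        · exact ⟨-1, by simp [z, a3]⟩
        exact ⟨1, by simp [a4 a x z]⟩⟩) g1)
    simp only [σ_mul, a1, a2, a4 l n2.symm n3.symm, map_neg, B_neg, o, if_pos] at this
    exact h2' (by linear_combination -this)
  · obtain ⟨x, hx⟩ := (c.ge (Subgroup.mem_top g1)).2 i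
    have := congrArg (Bw (e l)) hx
    simp [a1, Bw_smul, o, n2.symm] at this

theorem dcase [DecidableEq ι] (mx : ∀ y : Option ι → W6 k, ¬ Cl R y) (h : Cl R y) (hc : R c)
    {i j l : ι} (n1 : i ≠ j) (n2 : i ≠ l) (n3 : j ≠ l) (h0 : Bw c (y j) = Bw c (y i)) {ε : k}
    (hε : ε * ε = 1) (h1 : ∀ a, a ≠ i → a ≠ j → Bw c (y i - y a) = ε) : False := by
  have t := r.three
  have hc' := r.sgn hc hε
  have q := r.q hc'
  have a0 : Bw (ε • c) (y i - y j) = 0 := by simp [bw, h0]
  have a1 : ∀ a, a ≠ i → a ≠ j → Bw (ε • c) (y i - y a) = 1 := fun a x z => by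
    rw [smul_Bw, h1 a x z, hε]
  generalize ε • c = d at *
  obtain ⟨e, he⟩ : ∃ e : ι → W6 k, ∀ a, e a = y a + (y i + y j - d) := ⟨_, fun _ => rfl⟩
  have b0 : ∀ a b, e a - e b = y a - y b := fun a b => by rw [he, he]; abel
  have b1 : e i = -(y i - y j) - d := by rw [he]; linear_combination (norm := module) t • y i
  have b2 : Bw (e i) (e i) = 1 := by
    have := r.q (h.1 _ _ n1)
    rw [b1]
    generalize y i - y j = z at *
    simp only [bw, *, Bw_comm z d]
    linear_combination t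
  have b3 : ∀ a, a ≠ i → Bw (e i) (e a) = 0 := fun a x => by
    rw [show e a = e i - (y i - y a) by rw [← b0]; abel, B_sub, b2, b1, sub_B, neg_B]
    by_cases z : a = j
    · rw [z, a0, B_self, r.q (h.1 _ _ n1)]; linear_combination t
    · rw [a1 a x z, r.gram h n1 (Ne.symm x) (Ne.symm z)]; linear_combination t
  have b4 : ∀ a, a ≠ i → R (e i + e a) := fun a x => by
    have b5 : e i + e j = d := by
      rw [he, he]; linear_combination (norm := module) t • (y i + y j - d)
    by_cases z : a = j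
    · rwa [z, b5]
    convert r.refl (h.1 j a (Ne.symm z)) hc' using 1
    rw [rf, show y j - y a = (y i - y a) - (y i - y j) by abel, B_sub, a0, a1 a x z, ← b5, ← b0, ← b0]
    module
  have o : ∀ a b, Bw (e a) (e b) = if a = b then 1 else 0 := fun a b => by
    by_cases x : a = i
    · subst x
      split_ifs with z
      exacts [z ▸ b2, b3 b (Ne.symm z)]
    by_cases z : b = i
    · rw [z, if_neg x, Bw_comm, b3 a x]
    have : Bw (e i - e a) (e i - e b) = 1 + Bw (e a) (e b) := by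
      rw [sub_B, B_sub, B_sub, b2, b3 b z, Bw_comm (e a), b3 a x]; ring
    rw [b0, b0] at this
    split_ifs with w
    · rw [w, B_self, r.q (h.1 _ _ (Ne.symm z))] at this
      rw [w]; linear_combination -this
    · rw [r.gram h (Ne.symm x) (Ne.symm z) w] at this
      linear_combination -this
  refine r.frame H mx o (fun a b n => b0 a b ▸ h.1 a b n) (fun a b n => ?_) n1 n2 n3
  by_cases x : a = i
  · exact x ▸ b4 b (x ▸ n.symm)
  by_cases z : b = i
  · rw [add_comm, z]; exact b4 a x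
  convert r.refl (b0 i a ▸ h.1 i a (Ne.symm x)) (b4 b z) using 1
  simp [rf, B_sub, add_Bw, o, x, z, n.symm, Ne.symm x, add_comm]

theorem exists_cl : ∃ y : Fin 7 → W6 k, Cl R y := by
  classical
  by_contra! h7
  obtain ⟨a, ha⟩ := r.ne
  have t := r.three
  have h2 : ∃ y : Fin 2 → W6 k, Cl R y := ⟨![a, 0], fun i j n => by
    fin_cases i <;> fin_cases j <;> simp at n ⊢
    exacts [ha, r.neg ha], fun i j l => by omega⟩
  obtain ⟨n, n2, n7, ⟨y, h⟩, mx⟩ : ∃ n, 2 ≤ n ∧ n < 7 ∧ (∃ y : Fin n → W6 k, Cl R y) ∧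
      ∀ y : Fin (n + 1) → W6 k, ¬ Cl R y := by
    by_contra! hc
    obtain ⟨y, h⟩ := hc 6 (by omega) (by omega) (hc 5 (by omega) (by omega) (hc 4 (by omega)
      (by omega) (hc 3 (by omega) (by omega) (hc 2 (by omega) (by omega) h2))))
    exact h7 y h
  replace mx : ∀ y : Option (Fin n) → W6 k, ¬ Cl R y := fun y h =>
    mx _ (h.comp (finSuccEquiv n).injective)
  obtain ⟨n, rfl⟩ : ∃ m, n = m + 1 + 1 := ⟨n - 2, by omega⟩
  obtain ⟨c, hc, ⟨i, j, hij⟩, hn⟩ : ∃ c, R c ∧ (∃ i j, Bw c (y i) ≠ Bw c (y j)) ∧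
      ∀ i j, c ≠ y i - y j := by
    by_contra! hh
    let Y := span k (Set.range fun i : Fin (n + 1) => y i.succ - y 0)
    have m0 : ∀ i, y i - y 0 ∈ Y := fun i => by
      refine Fin.cases (by simp) (fun i => subset_span ⟨i, rfl⟩) i
    have m1 : ∀ i j, y i - y j ∈ Y := fun i j => by simpa using sub_mem (m0 i) (m0 j)
    refine (H.irrW Y fun g w => r.stab H (· ∈ Y) (fun c hc w hw => ?_) g).elim (fun e => ?_)
      (span_ne (by omega) _)
    swap
    · have := r.q (h.1 1 0 (by simp))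
      rw [(Submodule.eq_bot_iff _).1 e _ (m0 1), map_zero] at this
      exact zero_ne_one this
    by_cases x : ∃ i j, Bw c (y i) ≠ Bw c (y j)
    · obtain ⟨i, j, rfl⟩ := hh c hc x
      exact sub_mem hw (smul_mem _ _ (m1 i j))
    · push Not at x
      obtain ⟨z, rfl⟩ := (mem_span_range_iff_exists_fun k).1 hw
      have : Bw (∑ i, z i • (y i.succ - y 0)) c = 0 := by
        refine Finset.sum_induction _ (fun w => Bw w c = 0) (fun a b x z => by
          rw [add_Bw, x, z, add_zero]) (zero_B _) fun i _ => ?_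
        rw [smul_Bw, Bw_comm, B_sub, x _ 0, sub_self, mul_zero]
      simpa [rf, this] using hw
  have two : ∀ l, Bw c (y l) = Bw c (y i) ∨ Bw c (y l) = Bw c (y j) := fun l => by
    by_contra! e
    obtain ⟨a, b, x⟩ := r.v3 h hc hij e.2.symm e.1.symm
    exact hn a b x
  have sq : ∀ i j, Bw c (y i) ≠ Bw c (y j) → Bw c (y i - y j) * Bw c (y i - y j) = 1 :=
    fun i j e => (r.f3 hc (h.1 i j fun x => e (by rw [x]))).sq (by rwa [B_sub, sub_ne_zero])
  have key : ∀ i j, Bw c (y i) ≠ Bw c (y j) →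
      (∀ l, Bw c (y l) = Bw c (y i) ∨ Bw c (y l) = Bw c (y j)) → ∃ a b, a ≠ i ∧ b ≠ i ∧ b ≠ a ∧
      Bw c (y a) = Bw c (y i) ∧ Bw c (y b) = Bw c (y i) := fun i j e two => by
    obtain ⟨a, a1, a2⟩ : ∃ a, a ≠ i ∧ Bw c (y a) = Bw c (y i) := by
      by_contra! x
      exact r.k1 mx h hc hn (sq i j e) fun l hl => by
        rw [B_sub, B_sub, (two l).resolve_left (x l hl)]
    by_contra! x
    exact r.dcase H mx h hc a1.symm (l := j) (fun z => e (by rw [z])) (fun z => e (by rw [← z, a2]))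
      a2 (sq i j e) fun l l1 l2 => by rw [B_sub, B_sub, (two l).resolve_left (x a l a1 l1 l2 a2)]
  obtain ⟨a, b, a1, a2, a3, a4, a5⟩ := key i j hij two
  obtain ⟨a', b', b1, b2, b3, b4, b5⟩ := key j i hij.symm fun l => (two l).symm
  refine r.e6 (h.comp (f := ![i, a, b, j, a', b']) fun x z e => ?_) hc a4 a5 b4 b5
  fin_cases x <;> fin_cases z <;> simp at e ⊢ <;> grind

end RS

end Cfsg.Agent.L4.S
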