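import Cfsg.Agent.L4.T8
import Cfsg.Agent.O5.G1

/-!
Residual cores in dimension four containing a transvection.
-/

set_option autoImplicit false
set_option linter.unusedSectionVars false

namespace Cfsg.Agent.L4.T

open Module Matrix H7 Geo

variable {F : Type*} [Field F] [Finite F] {ι : Type} [Fintype ι] [DecidableEq ι]
  {H P : Subgroup (GL ι F)}

theorem hy_of_core (hι : Fintype.card ι = 4) (hc : IsResidualCore H P) :
    Hy (P.map (toLE (ι := ι) (F := F)).toMonoidHom) where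
  dim := by simp [hι]
  irr := fun U hU => (Asch.irred_iff P).2 hc.absIrred.1 U fun g hg => hU _ ⟨g, hg, rfl⟩
  gen := by
    rintro K _ ⟨t, ht, rfl⟩ h1 h2
    rw [Subgroup.map_le_iff_le_comap]
    refine (O5.core_gen hc (S := {s | ∃ g ∈ P, s = g * t * g⁻¹}) ?_ ?_ (s := t) ⟨1, one_mem _, by simp⟩
      fun c => ?_).trans ((Subgroup.closure_le _).2 ?_)
    · rintro _ ⟨g, hg, rfl⟩
      exact mul_mem (mul_mem hg ht) (inv_mem hg)
    · rintro g hg _ ⟨g', hg', rfl⟩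
      exact ⟨g * g', mul_mem hg hg', by group⟩
    · obtain ⟨c, hc⟩ := (mem_scalars_iff _).1 c
      obtain ⟨x, hx⟩ := h1 c
      exact hx (by simp [hc, smul_mulVec])
    · rintro _ ⟨g, hg, rfl⟩
      simpa using h2 _ ⟨g, hg, rfl⟩
  perf := by
    apply Subgroup.map_injective (Subgroup.subtype_injective _)
    rw [Subgroup.map_subtype_commutator, ← Subgroup.map_commutator, hc.perfect,
      ← MonoidHom.range_eq_map, Subgroup.range_subtype]
  tr := fun L h => O5.core_tr hc L fun x hx => by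
    have := h _ ⟨x, hx, rfl⟩
    rwa [MulEquiv.coe_toMonoidHom, toLE_coe, trace_toLin'_eq] at this

theorem det_core (hc : IsResidualCore H P) {a : GL ι F} (ha : a ∈ P) : a ∈ specialLinear ι F :=
  O5.core_hom hc (GeneralLinearGroup.det.comp P.subtype) ⟨a, ha⟩

theorem tr_of_rank (hc : IsResidualCore H P) {a : GL ι F} (ha : a ∈ P) (h1 : a ≠ 1)
    (hr : ((a : Matrix ι ι F) - 1).rank ≤ 1) :
    ∃ u φ, u ≠ 0 ∧ φ ≠ 0 ∧ Tr (P.map (toLE (ι := ι) (F := F)).toMonoidHom) u φ := by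
  obtain ⟨u, hu⟩ := finrank_le_one_iff.1 hr
  obtain ⟨φ, e⟩ : ∃ φ : Dual F (ι → F), ∀ x, toLE a x = x + φ x • u.1 := by
    have k : ∀ x, ∃ c : F, toLE a x = x + c • u.1 := fun x => by
      obtain ⟨c, e⟩ := hu ⟨_, x, rfl⟩
      exact ⟨c, by rw [← Submodule.coe_smul, e]; simp [sub_mulVec]⟩
    by_cases u0 : u.1 = 0
    · exact ⟨0, fun x => by simpa [u0] using k x⟩
    obtain ⟨e, he⟩ := exists_dual_one' (F := F) u0
    refine ⟨e ∘ₗ ((toLE a : (ι → F) →ₗ[F] (ι → F)) - LinearMap.id), fun x => ?_⟩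
    obtain ⟨c, h⟩ := k x
    simp only [LinearMap.comp_apply, LinearMap.sub_apply, LinearEquiv.coe_coe, h]
    simp [he]
  have n : ¬(u.1 = 0 ∨ φ = 0) := fun c => h1 (toLE.injective (LinearEquiv.ext fun x => by
    rcases c with c | c <;> simp [e, c, -toLE_apply]))
  push Not at n
  refine ⟨u, φ, n.1, n.2, ?_, _, ⟨a, ha, rfl⟩, e⟩
  have := mem_SLV.1 ((mem_specialLinear_iff a).1 (det_core hc ha))
  rw [show (toLE a : (ι → F) →ₗ[F] (ι → F)) = LinearMap.transvection φ u from LinearMap.ext e,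
    LinearMap.transvection.det] at this
  simpa using this

theorem le_of_map {K : Subgroup (GL ι F)} {K' : Subgroup ((ι → F) ≃ₗ[F] (ι → F))}
    (h : ∀ g ∈ K, toLE g ∈ K') (h' : K' ≤ P.map (toLE (ι := ι) (F := F)).toMonoidHom) : K ≤ P :=
  fun g hg => by
    obtain ⟨g', a, b⟩ := h' (h g hg)
    exact toLE.injective b ▸ a

/-- A core containing a transvection is `SL₄(F)`, or symplectic, or the special unitary group of
an invariant unitary form. -/
theorem tv_cases (hι : Fintype.card ι = 4) (hc : IsResidualCore H P) {a : GL ι F} (ha : a ∈ P)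
    (h1 : a ≠ 1) (hr : ((a : Matrix ι ι F) - 1).rank ≤ 1) :
    P = specialLinear ι F ∨ (∃ f, IsSymplecticForm f ∧ FixesForm (matrixSet P) f) ∨
      ∃ (σ : F ≃+* F) (f : (ι → F) → (ι → F) → F), IsUnitaryForm σ f ∧
        ∀ g : GL ι F, g ∈ P ↔ g ∈ specialLinear ι F ∧ ∀ x y, f (g.1 *ᵥ x) (g.1 *ᵥ y) = f x y := by
  have h := hy_of_core hι hc
  obtain ⟨u, φ, u0, φ0, t⟩ := tr_of_rank hc ha h1 hr
  obtain ⟨p, hp⟩ := CharP.exists F
  have := Fact.mk (CharP.char_is_prime F p)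
  by_cases h2 : TwoAx (P.map (toLE (ι := ι) (F := F)).toMonoidHom)
  · exact .inl (le_antisymm (fun g hg => det_core hc hg)
      (le_of_map (fun g hg => (mem_specialLinear_iff g).1 hg) (h.full p h2)))
  have hs := sym_of h2
  obtain ⟨σ, -, s2, f, f1, f2, f3, f4, f5, f6⟩ := h.form p hs (h.kap p hs) t u0 φ0
  have f7 : ∀ g ∈ P, ∀ x y, f (g.1 *ᵥ x) (g.1 *ᵥ y) = f x y := fun g hg => f6 _ ⟨g, hg, rfl⟩
  have f8 : ∀ c, c ≠ 0 → IsNondegenerateForm fun x y => c * f x y := fun c c0 y y0 =>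
    let ⟨x, hx⟩ := f5 y y0
    ⟨⟨x, mul_ne_zero c0 hx⟩, x, mul_ne_zero c0 (by rw [f3]; simpa using hx)⟩
  by_cases e : ∀ c, σ c = c
  · refine .inr (.inl ⟨f, ⟨⟨f1, f2, fun v x y => ?_, fun c v x => ?_⟩, fun v w => by rw [f3, e], f4 e,
      by simpa using f8 1 one_ne_zero⟩, ?_⟩)
    · rw [f3, f1, f3 v x, f3 v y, map_add, neg_add]
    · rw [f3, f2, f3 v x, map_mul, e, mul_neg]
    · rintro _ ⟨g, hg, rfl⟩
      exact f7 g hg
  push Not at e
  obtain ⟨δ, δ0, δ1⟩ := exists_skew σ s2 e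
  have hf : IsUnitaryForm (RingEquiv.ofRingHom σ σ (RingHom.ext s2) (RingHom.ext s2))
      fun x y => δ * f x y :=
    ⟨fun c => e.elim fun a ha => ha (RingEquiv.congr_fun c a), s2, fun x y v => by rw [f1, mul_add],
      fun c x v => by rw [f2, mul_left_comm], fun v w => by
        change _ = σ _
        rw [f3, map_mul, δ1]; ring, f8 δ δ0⟩
  refine .inr (.inr ⟨_, _, hf, fun g => ⟨fun hg => ⟨det_core hc hg, fun x y => by rw [f7 g hg]⟩,
    fun hg => ?_⟩⟩)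
  have U : H9.UDec.Un (unitPolar hf) := ⟨unitPolar_ne hf, rfl⟩
  obtain ⟨g', a, b⟩ := h.unitary U (by
    rintro _ ⟨g, hg, rfl⟩ x y
    exact congrArg (δ * ·) (f7 g hg x y)) t u0 φ0 (H1.U4.mem_E U h.dim.ge (g := toLE g)
      (Polar.mem_Iso_of_unitary U.σ rfl hg.2) (mem_SLV.1 ((mem_specialLinear_iff g).1 hg.1)))
  exact toLE.injective b ▸ a

/-- linear case: the core contains no transvection -/
theorem no_tv_lin {H P : Subgroup (GL (Fin 4) F)} (hH : H < specialLinear (Fin 4) F)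
    (hc : IsResidualCore H P) (hs : ¬∃ f, IsSymplecticForm f ∧ FixesForm (matrixSet P) f)
    (hu : ¬∃ (σ : F ≃+* F) (f : (Fin 4 → F) → (Fin 4 → F) → F), IsUnitaryForm σ f ∧
      FixesForm (matrixSet P) f) {a : GL (Fin 4) F} (ha : a ∈ P)
    (hr : ((a : Matrix (Fin 4) (Fin 4) F) - 1).rank ≤ 1) : a = 1 := by
  by_contra h1
  rcases tv_cases (by simp) hc ha h1 hr with e | e | ⟨σ, f, e, e'⟩
  · exact hH.not_ge (e ▸ hc.le)
  · exact hs e
  · refine hu ⟨σ, f, e, ?_⟩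
    rintro _ ⟨g, hg, rfl⟩
    exact ((e' g).1 hg).2

/-- unitary case: the core contains no transvection -/
theorem no_tv_uni {F : Type*} [Field F] [Fintype F] (q : ℕ) (hF : Fintype.card F = q ^ 2)
    {H P : Subgroup (GL (Fin 4) F)} (hH : H < GU 4 F q ⊓ specialLinear (Fin 4) F)
    (hc : IsResidualCore H P) {a : GL (Fin 4) F} (ha : a ∈ P)
    (hr : ((a : Matrix (Fin 4) (Fin 4) F) - 1).rank ≤ 1) : a = 1 := by
  by_contra h1
  obtain ⟨u, φ, u0, φ0, t⟩ := tr_of_rank hc ha h1 hr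
  refine hH.not_ge ((le_of_map (fun g hg => (H1.Small.mem_SU_iff hF le_rfl g).1 hg)
    ((hy_of_core (by simp) hc).unitary ⟨unitPowPolar_ne _ _, rfl⟩ ?_ t u0 φ0)).trans hc.le)
  rintro _ ⟨g, hg, rfl⟩
  exact ((mem_GU_iff hF 4 g).1 (hH.le (hc.le hg)).1).1

end Cfsg.Agent.L4.T
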