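import Cfsg.Agent.L4.T0
import Cfsg.Agent.Sp4E.Grp2

/-!
Two opposite transvections: Dickson's lemma, the central involution, the middle transvection.
-/

set_option autoImplicit false
set_option linter.unusedSectionVars false

namespace Cfsg.Agent.L4.T

open Module Matrix H7 H6.Pg H6.M3
open scoped MatrixGroups

variable {F V : Type*} [Field F] [AddCommGroup V] [Module F V]
  {X : Subgroup (V ≃ₗ[F] V)} {u v w x : V} {φ ψ χ : Dual F V}

/-- the matrix of `g` on the plane -/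
def R (u v : V) (g : V ≃ₗ[F] V) (A : Matrix (Fin 2) (Fin 2) F) : Prop :=
  g u = A 0 0 • u + A 1 0 • v ∧ g v = A 0 1 • u + A 1 1 • v

theorem R.mul {g g' : V ≃ₗ[F] V} {A A' : Matrix (Fin 2) (Fin 2) F} (h : R u v g A)
    (h' : R u v g' A') : R u v (g * g') (A * A') := by
  constructor <;> simp only [LinearEquiv.mul_apply, h'.1, h'.2, map_add, map_smul, h.1, h.2,
    mul_apply, Fin.sum_univ_two] <;> module

theorem R_unique (h1 : φ u = 0) (h2 : ψ v = 0) (a : φ v ≠ 0) (b : ψ u ≠ 0) {g : V ≃ₗ[F] V}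
    {A A' : Matrix (Fin 2) (Fin 2) F} (r : R u v g A) (r' : R u v g A') : A = A' := by
  have e1 := r.1.symm.trans r'.1
  have e2 := r.2.symm.trans r'.2
  have a1 := congrArg ψ e1
  have a2 := congrArg φ e1
  have a3 := congrArg ψ e2
  have a4 := congrArg φ e2
  simp [h1, h2, a, b] at a1 a2 a3 a4
  ext i j; fin_cases i <;> fin_cases j <;> assumption

/-- `-1` on the plane -/
def Tau (X : Subgroup (V ≃ₗ[F] V)) (u v : V) (φ ψ : Dual F V) : Prop :=
  ∃ τ ∈ X, τ u = -u ∧ τ v = -v ∧ ∀ x, φ x = 0 → ψ x = 0 → τ x = x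

theorem tau_of (t : Tr X u φ) (s : Tr X v ψ) (e : φ v * ψ u = -1) : Tau X u v φ ψ := by
  obtain ⟨a, ha, ea⟩ := t.tv
  obtain ⟨b, hb, eb⟩ := s.tv
  have e1 : (a * b * a) u = ψ u • v := by
    simp only [LinearEquiv.mul_apply, ea, eb, t.z, map_add, map_smul, smul_eq_mul]
    match_scalars
    · linear_combination e
    · ring
  have e2 : (a * b * a) v = φ v • u := by
    simp only [LinearEquiv.mul_apply, ea, eb, t.z, s.z, map_add, map_smul, smul_eq_mul]
    match_scalars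
    · linear_combination e
    · linear_combination φ v * e
  refine ⟨a * b * a * (a * b * a), mul_mem (mul_mem (mul_mem ha hb) ha) (mul_mem (mul_mem ha hb) ha),
    ?_, ?_, fun x h1 h2 => by simp [ea, eb, h1, h2]⟩
  · rw [LinearEquiv.mul_apply, e1, map_smul, e2, smul_smul, mul_comm, e, neg_one_smul]
  · rw [LinearEquiv.mul_apply, e2, map_smul, e1, smul_smul, e, neg_one_smul]

section
variable [Finite V] (p : ℕ) [Fact p.Prime] [CharP F p]
include p

theorem dick0 (t : Tr X u φ) (s : Tr X v ψ) (a : φ v = 1) (b : ψ u ≠ 0) :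
    (∃ L : Subfield F, (∀ l, Tr X u (l • φ) ↔ l ∈ L) ∧ ψ u ∈ L) ∨
      (p = 2 ∧ ∀ l : F, Tr X u (l • φ) → l = 0 ∨ l = 1) ∨
      (p = 3 ∧ ψ u ^ 4 = 1 ∧ (∀ l : F, Tr X u (l • φ) → l ^ 3 = l) ∧ Tau X u v φ ψ) := by
  have a' : φ v ≠ 0 := by simp [a]
  let ι := algebraMap F (AlgebraicClosure F)
  let M0 : Subgroup (V ≃ₗ[F] V) := mkSub (fun g => g ∈ X ∧ (∀ x, φ x = 0 → ψ x = 0 → g x = x) ∧
      ∃ A, R u v g A ∧ A.det = 1)
    ⟨one_mem _, fun _ _ _ => rfl, 1, ⟨by simp, by simp⟩, det_one⟩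
    fun g g' ⟨g1, g2, A, g3, g4⟩ ⟨g1', g2', A', g3', g4'⟩ => ⟨mul_mem g1 g1', fun x h1 h2 => by
      rw [LinearEquiv.mul_apply, g2' x h1 h2, g2 x h1 h2], A * A', g3.mul g3', by simp [g4, g4']⟩
  choose A hA dA' using fun g : M0 => g.2.2.2
  have RU := fun {g A A'} => R_unique (g := g) (A := A) (A' := A') t.z s.z a' b
  have dA : ∀ g, ((A g).map ι).det ≠ 0 := fun g => by
    rw [H6.Pg.det_map, dA' g]; simp
  let Φ : M0 →* PGL(2, AlgebraicClosure F) := MonoidHom.mk' (fun g => pg ((A g).map ι))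
    fun g g' => by
      rw [pg_mul (dA g) (dA g'), ← Matrix.map_mul, RU (hA (g * g')) ((hA g).mul (hA g'))]
  have k1 : ∀ l, Tr X u (l • φ) → aff 1 (ι l) ∈ Φ.range := fun l ⟨_, g, hg, e⟩ => by
    have r : R u v g !![1, l; 0, 1] := ⟨by simp [e, t.z], by simp [e, a, add_comm]⟩
    have hg' : g ∈ M0 := ⟨hg, fun x h1 _ => by simp [e, h1], _, r, by simp [det_fin_two]⟩
    refine ⟨⟨g, hg'⟩, ?_⟩
    change pg ((A _).map ι) = _
    rw [RU (hA ⟨g, hg'⟩) r]
    congr 1
    ext i j; fin_cases i <;> fin_cases j <;> simp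
  have k2 : low (ι (ψ u)) ∈ Φ.range := by
    obtain ⟨g, hg, e⟩ := s.tv
    have r : R u v g !![1, 0; ψ u, 1] := ⟨by simp [e], by simp [e, s.z]⟩
    have hg' : g ∈ M0 := ⟨hg, fun x _ h1 => by simp [e, h1], _, r, by simp [det_fin_two]⟩
    refine ⟨⟨g, hg'⟩, ?_⟩
    change pg ((A _).map ι) = _
    rw [RU (hA ⟨g, hg'⟩) r]
    congr 1
    ext i j; fin_cases i <;> fin_cases j <;> simp
  have k0 : ∀ g ∈ M0, ∀ l : F, R u v g !![1, l; 0, 1] → Tr X u (l • φ) := fun g hg l r =>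
    ⟨by simp [t.z], g, hg.1, ext3 t.z s.z a' b (f := (g : V →ₗ[F] V))
      (g := LinearMap.id + (l • φ).smulRight u) (by simpa [t.z] using r.1)
      (by simpa [a, add_comm] using r.2) fun z z1 z2 => by simp [z1, hg.2.1 z z1 z2]⟩
  have k1' : ∀ l, aff 1 (ι l) ∈ Φ.range → Tr X u (l • φ) := fun l ⟨g, e⟩ => by
    obtain ⟨c, e⟩ := (pg_eq_iff (dA g) (by simp [det_fin_two])).1 e
    have e' := fun i j => congrFun (congrFun e i) j
    have a1 := e' 0 0
    have a2 := e' 0 1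
    have a3 := e' 1 0
    have a4 := e' 1 1
    simp at a1 a2 a3 a4
    have hc : c ≠ 0 := by rintro rfl; simp at a1
    have b1 : A g 1 0 = 0 := by simpa [hc] using a3
    have b2 : A g 1 1 = A g 0 0 := ι.injective (mul_left_cancel₀ hc (by rw [a1, a4]))
    have b3 : A g 0 1 = l * A g 0 0 := ι.injective (mul_left_cancel₀ hc (by
      rw [a2, map_mul]; linear_combination -ι l * a1))
    have b4 := dA' g
    rw [det_fin_two, b1, b2] at b4
    by_cases hp : p = 2
    · subst hp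
      have : A g 0 0 = 1 := by
        have h2 : (2 : F) = 0 := by exact_mod_cast CharP.cast_eq_zero F 2
        exact sub_eq_zero.1 (pow_eq_zero_iff (two_ne_zero)|>.1 (by
          linear_combination b4 + (1 - A g 0 0) * h2))
      refine k0 g g.2 l ?_
      convert hA g using 1
      ext i j; fin_cases i <;> fin_cases j <;> simp [b1, b2, b3, this]
    · refine Tr.half p hp ?_
      rw [smul_smul]
      refine k0 (g * g) (mul_mem g.2 g.2) _ ?_
      convert (hA g).mul (hA g) using 1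
      ext i j; fin_cases i <;> fin_cases j <;> simp [b1, b2, b3, mul_apply]
      · linear_combination -b4
      · linear_combination -2 * l * b4
      · linear_combination -b4
  have : Finite Φ.range := Finite.of_surjective _ Φ.rangeRestrict_surjective
  rcases two_roots p Φ.range (by simpa using k1 1 (by simpa using t)) (c := ι (ψ u))
    (by simpa using b) k2 with ⟨L, -, -, l1, l2⟩ | ⟨e, e1⟩ | ⟨e, e0, e1, _, ⟨g, rfl⟩, e2, e3⟩
  · exact Or.inl ⟨L.comap ι, fun l => ⟨fun t => mem_of_aff (L := L) (l2 (k1 l t)),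
      fun t => k1' l (l1 (aff_mem_PS (L := L) t))⟩, mem_of_low (L := L) (l2 k2)⟩
  · exact Or.inr (Or.inl ⟨e, fun l t => (e1 _ (k1 l t)).imp
      (fun e => ι.injective (by simpa using e)) fun e => ι.injective (by simpa using e)⟩)
  · refine Or.inr (Or.inr ⟨e, ι.injective (by simpa using e0),
      fun l t => ι.injective (by rw [map_pow]; exact e1 _ (k1 l t)), g * g,
      mul_mem g.2.1 g.2.1, ?_⟩)
    have b4 := dA' g
    have r := (hA g).mul (hA g)
    rw [sq, ← map_mul] at e3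
    change pg ((A _).map ι) = 1 at e3
    change pg ((A _).map ι) ≠ 1 at e2
    rw [RU (hA (g * g)) r] at e3
    rw [Ne, pg_eq_one (dA g)] at e2
    rw [pg_eq_one (by rw [H6.Pg.det_map, det_mul, b4]; simp)] at e3
    simp only [map_apply, map_eq_zero, ι.injective.eq_iff, mul_apply, Fin.sum_univ_two] at e2 e3
    rw [det_fin_two] at b4
    have ht : A g 0 0 + A g 1 1 = 0 := by
      by_contra ht
      exact e2 ⟨mul_right_cancel₀ ht (by linear_combination e3.1),
        mul_right_cancel₀ ht (by linear_combination e3.2.1),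
        mul_right_cancel₀ ht (by linear_combination e3.2.2)⟩
    refine ⟨?_, ?_, (mul_mem g.2 g.2).2.1⟩
    · rw [r.1]; simp only [mul_apply, Fin.sum_univ_two]
      match_scalars
      · linear_combination A g 0 0 * ht - b4
      · linear_combination A g 1 0 * ht
    · rw [r.2]; simp only [mul_apply, Fin.sum_univ_two]
      match_scalars
      · linear_combination A g 0 1 * ht
      · linear_combination A g 1 1 * ht - b4

theorem dick (t : Tr X u φ) (s : Tr X v ψ) (a : φ v ≠ 0) (b : ψ u ≠ 0) :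
    (∃ L : Subfield F, (∀ l, Tr X u (l • φ) ↔ l ∈ L) ∧ φ v * ψ u ∈ L) ∨
      (p = 2 ∧ ∀ l : F, Tr X u (l • φ) → l = 0 ∨ l = 1) ∨
      (p = 3 ∧ (φ v * ψ u) ^ 4 = 1 ∧ (∀ l : F, Tr X u (l • φ) → l ^ 3 = l) ∧ Tau X u v φ ψ) := by
  rcases dick0 p t (s.scale a) (by simp [a]) (by simp [a, b]) with e | e | ⟨e1, e2, e3, τ, t1, t2, t3, t4⟩
  · exact .inl e
  · exact .inr (.inl e)
  · refine .inr (.inr ⟨e1, e2, e3, τ, t1, t2, ?_, fun x h1 h2 => t4 x h1 (by simp [h2])⟩)
    rw [map_smul, ← smul_neg] at t3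
    exact smul_right_injective _ (inv_ne_zero a) t3

namespace Hy0

variable [Finite F] (h : Hy0 X)
include h

theorem ratio (t : Tr X u φ) (u0 : u ≠ 0) (φ0 : φ ≠ 0) {l : F} (t' : Tr X u (l • φ)) : l ∈ LL X := by
  obtain ⟨v, ψ, s, a, b⟩ := h.opp' t u0 φ0 φ0 u0
  rcases dick p t s a b with ⟨L, l1, -⟩ | ⟨-, l1⟩ | ⟨-, -, l1, -⟩
  · exact h.mul_LL p t u0 φ0 fun c hc => (l1 _).2 (L.mul_mem ((l1 _).1 t') ((l1 _).1 hc))
  · rcases l1 l t' with rfl | rfl
    · exact zero_mem _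
    · exact one_mem _
  · have : l * (l - 1) * (l + 1) = 0 := by linear_combination l1 l t'
    rcases mul_eq_zero.1 this with e | e
    · rcases mul_eq_zero.1 e with e | e
      · exact e ▸ zero_mem _
      · exact sub_eq_zero.1 e ▸ one_mem _
    · exact eq_neg_of_add_eq_zero_left e ▸ neg_mem (one_mem _)

theorem kappa (t : Tr X u φ) (s : Tr X v ψ) :
    φ v * ψ u ∈ LL X ∨ (p = 2 ∧ ∀ l ∈ LL X, l = 0 ∨ l = 1) ∨
      (p = 3 ∧ (φ v * ψ u) ^ 4 = 1 ∧ (∀ l ∈ LL X, l ^ 3 = l) ∧ Tau X u v φ ψ) := by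
  by_cases a : φ v = 0
  · exact .inl (by simp [a])
  by_cases b : ψ u = 0
  · exact .inl (by simp [b])
  rcases dick p t s a b with ⟨L, l1, l2⟩ | ⟨e, l1⟩ | ⟨e, e1, l1, e2⟩
  · exact .inl (h.ratio p t (ne_of_ap' b) (ne_of_ap a) ((l1 _).2 l2))
  · exact .inr (.inl ⟨e, fun l hl => l1 l (t.ll hl)⟩)
  · exact .inr (.inr ⟨e, e1, fun l hl => l1 l (t.ll hl), e2⟩)

theorem tau (hp : p ≠ 2) (t : Tr X u φ) (s : Tr X v ψ) (a : φ v ≠ 0) (b : ψ u ≠ 0) :
    Tau X u v φ ψ := by
  rcases h.kappa p t s with e | e | e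
  · obtain ⟨τ, t1, t2, t3, t4⟩ := tau_of t (s.ll (neg_mem (inv_mem e))) (by simp; field_simp)
    exact ⟨τ, t1, t2, t3, fun x h1 h2 => t4 x h1 (by simp [h2])⟩
  · exact absurd e.1 hp
  · exact e.2.2.2

end Hy0

end

section two
variable [Finite V] [CharP F 2]

variable (F) in
include F in
theorem add_self_V (x : V) : x + x = 0 := by
  rw [← two_smul F, show (2 : F) = 0 from by exact_mod_cast CharP.cast_eq_zero F 2, zero_smul]

theorem sq_one {g : V ≃ₗ[F] V} (z : φ u = 0) (e : ∀ x, g x = x + φ x • u) : g * g = 1 :=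
  LinearEquiv.ext fun x => by simp [e, z, add_assoc, add_self_V F]

theorem eq_one_of_sq {c : F} (e : c * c = 1) : c = 1 := by grind

theorem odd_pair (z1 : φ u = 0) (z2 : ψ v = 0) (a : φ v ≠ 0) (b : ψ u ≠ 0) {t s z : V ≃ₗ[F] V}
    (et : ∀ x, t x = x + φ x • u) (es : ∀ x, s x = x + ψ x • v) (hz : z * z = 1)
    (c1 : Commute z t) (c2 : Commute z s) (fx : ∀ x, φ x = 0 → ψ x = 0 → z x = x) : z = 1 := by
  have k : ∀ {u v : V} {φ : Dual F V} {t : V ≃ₗ[F] V}, φ v ≠ 0 → u ≠ 0 →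
      (∀ x, t x = x + φ x • u) → Commute z t → z u = u := fun {u v φ t} a u0 et c => by
    have e := congrArg (fun g : V ≃ₗ[F] V => g v) c.eq
    simp only [LinearEquiv.mul_apply, et, map_add, map_smul, add_right_inj] at e
    have e1 : z u = (φ (z v) / φ v) • u := by
      rw [div_eq_inv_mul, mul_smul, ← e, inv_smul_smul₀ a]
    have e2 := congrArg (fun g : V ≃ₗ[F] V => g u) hz
    simp only [LinearEquiv.mul_apply, e1, map_smul, smul_smul, LinearEquiv.coe_one, id] at e2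
    rw [e1, eq_one_of_sq (smul_left_injective F u0 (e2.trans (one_smul F u).symm)), one_smul]
  exact LinearEquiv.ext (ext3 z1 z2 a b (f := (z : V →ₗ[F] V)) (g := LinearMap.id)
    (k a (ne_of_ap' b) et c1) (k b (ne_of_ap' a) es c2) fx)

theorem fix_pow {t s : V ≃ₗ[F] V} (et : ∀ x, t x = x + φ x • u) (es : ∀ x, s x = x + ψ x • v)
    (k : ℕ) (x : V) (h1 : φ x = 0) (h2 : ψ x = 0) : ((t * s) ^ k) x = x := by
  induction k with
  | zero => rfl
  | succ k ih => rw [pow_succ', LinearEquiv.mul_apply, ih]; simp [et, es, h1, h2]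

theorem mid (t : Tr X u φ) (s : Tr X v ψ) {k : F} (e : φ v * ψ u = k ^ 2) (k0 : k ≠ 0) :
    Tr X (k⁻¹ • ((φ v / k) • u + v)) ((ψ u / k) • φ + ψ) := by
  have a : φ v ≠ 0 := left_ne_zero_of_mul (e ▸ pow_ne_zero 2 k0)
  have b : ψ u ≠ 0 := right_ne_zero_of_mul (e ▸ pow_ne_zero 2 k0)
  obtain ⟨t', ht, et⟩ := t.tv
  obtain ⟨s', hs, es⟩ := s.tv
  have t2 := sq_one t.z et
  have s2 := sq_one s.z es
  refine ⟨by simp [t.z, s.z]; grind, ?_⟩
  rcases Sp4E.Grp.dihedral t2 s2 with ⟨j, e1⟩ | ⟨j, e1, e2, e3⟩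
  swap
  · exact (e1.1 (odd_pair t.z s.z a b et es e1.2 e2 e3 (fix_pow et es j))).elim
  have e2 := Sp4E.Grp.inv_conj_pow t2 (r := t' * s') (by
    rw [← mul_assoc, t2, one_mul, _root_.mul_inv_rev, inv_eq_of_mul_eq_one_right t2,
      inv_eq_of_mul_eq_one_right s2]) j
  set g := (t' * s') ^ j
  have r2 : g * t' * (g * t') = 1 := by rw [mul_assoc, ← mul_assoc t', e2, mul_inv_cancel]
  have r3 : g * t' * t' = s' * (g * t') := by rw [← e1]; group
  have r4 : ∀ x, φ x • (g * t') u = ψ ((g * t') x) • v := fun x => by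
    have := congrArg (fun f : V ≃ₗ[F] V => f x) r3
    simp only [LinearEquiv.mul_apply _ t' x, LinearEquiv.mul_apply s', et x, es, map_add, map_smul,
      add_right_inj] at this
    simpa only [LinearEquiv.mul_apply _ t' x, et x, map_add, map_smul] using this
  obtain ⟨c, r5⟩ : ∃ c : F, (g * t') u = c • v :=
    ⟨(φ v)⁻¹ * ψ ((g * t') v), by rw [mul_smul, ← r4, inv_smul_smul₀ a]⟩
  have r6 : c • (g * t') v = u := by
    rw [← map_smul, ← r5, ← LinearEquiv.mul_apply, r2]; rfl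
  have c0 : c ≠ 0 := fun e => ne_of_ap' b (by rw [← r6, e, zero_smul])
  have r7 : (g * t') v = c⁻¹ • u := by rw [← r6, inv_smul_smul₀ c0]
  have r8 := r4 v
  rw [r5, r7, smul_smul, map_smul] at r8
  have r9 : φ v * c = c⁻¹ * ψ u := smul_left_injective F (ne_of_ap' a) r8
  have r10 : φ v * c = k := by grind
  refine ⟨g * t', mul_mem (pow_mem (mul_mem ht hs) j) ht, ext3 t.z s.z a b
    (f := ((g * t' : V ≃ₗ[F] V) : V →ₗ[F] V)) (g := LinearMap.id +
      ((ψ u / k) • φ + ψ).smulRight (k⁻¹ • ((φ v / k) • u + v))) ?_ ?_ fun z z1 z2 => ?_⟩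
  · rw [LinearEquiv.coe_coe, r5]
    simp only [LinearMap.add_apply, LinearMap.id_apply, LinearMap.smulRight_apply,
      LinearMap.smul_apply, t.z, smul_eq_mul]
    match_scalars <;> grind
  · rw [LinearEquiv.coe_coe, r7]
    simp only [LinearMap.add_apply, LinearMap.id_apply, LinearMap.smulRight_apply,
      LinearMap.smul_apply, s.z, smul_eq_mul]
    match_scalars <;> grind
  · simp [et, z1, z2, g, fix_pow et es j z z1 z2]

end two

end Cfsg.Agent.L4.T
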