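import Cfsg.Agent.L4.T2

/-!
A centre with two axes gives `SL(V)`; duality.
-/

set_option autoImplicit false
set_option linter.unusedSectionVars false

namespace Cfsg.Agent.L4.T

open Module H7

variable {F V : Type*} [Field F] [AddCommGroup V] [Module F V]
  {X : Subgroup (V ≃ₗ[F] V)} {u v w x : V} {φ ψ χ : Dual F V} [Finite V] [Finite F]

namespace Hy0

variable (h : Hy0 X) (p : ℕ) [Fact p.Prime] [CharP F p] (h2 : TwoAx X)
include h p h2

theorem kapL (t : Tr X u φ) (s : Tr X v ψ) : φ v * ψ u ∈ LL X := by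
  by_cases a : φ v = 0
  · simp [a]
  by_cases b : ψ u = 0
  · simp [b]
  obtain ⟨χ, χ0, t', e⟩ := h.oneway p h2 t s a b
  refine h.mul_LL p t' (ne_of_ap' b) χ0 fun c hc => ?_
  have := t.comm (s.comm hc (by simp [e])) (by simp [t'.z])
  rwa [smul_smul, smul_smul] at this

end Hy0

/-- normalised centres -/
def NC (X : Subgroup (V ≃ₗ[F] V)) (u v : V) : Prop :=
  Ce X v ∧ v ∉ F ∙ u ∧ (∀ χ, Tr X u χ → χ v ∈ LL X) ∧ ∀ ψ, Tr X v ψ → ψ u ∈ LL X

theorem notMem_swap (u0 : u ≠ 0) (h : v ∉ F ∙ u) : u ∉ F ∙ v := fun e => by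
  obtain ⟨c, rfl⟩ := Submodule.mem_span_singleton.1 e
  have : c ≠ 0 := fun e => u0 (by simp [e])
  exact h (Submodule.mem_span_singleton.2 ⟨c⁻¹, by simp [this]⟩)

namespace Hy0

variable (h : Hy0 X) (p : ℕ) [Fact p.Prime] [CharP F p] (h2 : TwoAx X) (hu : Ce X u)
include h p h2 hu

theorem nc_ex (hv : Ce X v) (e : v ∉ F ∙ u) : ∃ c : F, c ≠ 0 ∧ NC X u (c • v) := by
  obtain ⟨ρ, s, c0⟩ := h.ax_ne p h2 hv (notMem_swap hu.1 e)
  have e1 : ρ u • v ∉ F ∙ u := fun e' => e (by simpa [c0] using Submodule.smul_mem _ (ρ u)⁻¹ e')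
  have e2 : ∀ χ, Tr X u χ → χ (ρ u • v) ∈ LL X := fun χ t => by
    simpa [mul_comm] using h.kapL p h2 t s
  refine ⟨ρ u, c0, hv.smul c0, e1, e2, fun ψ s' => ?_⟩
  obtain ⟨χ, t, a⟩ := h.ax_ne p h2 hu e1
  have := div_mem (h.kapL p h2 t s') (e2 χ t)
  rwa [mul_div_cancel_left₀ _ a] at this

theorem gram1 (n : NC X u v) (n' : NC X u w) (s : Tr X v ψ)
    (li : ∀ a b : F, a • v + b • w ∈ F ∙ u → a = 0 ∧ b = 0) : ψ w ∈ LL X := by
  obtain ⟨g, hg, eg⟩ := s.tv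
  have hz := n'.1.act hg
  rw [eg] at hz
  obtain ⟨ρ, r, r0⟩ := h.ax_ne p h2 hz (notMem_swap hu.1 fun e => one_ne_zero
    (li (ψ w) 1 (by rwa [one_smul, add_comm])).2)
  obtain ⟨χ, t, a⟩ := h.ax_ne p h2 hu n.2.1
  obtain ⟨χ', t', a'⟩ := h.ax_ne p h2 hu (x := χ w • v + (-χ v) • w) fun e => a (by
    simpa using (li _ _ e).2)
  have k1 := h.kapL p h2 t r
  have k2 := h.kapL p h2 t' r
  have m1 := n.2.2.1 χ t
  have m2 := n.2.2.1 χ' t'
  have m3 := n'.2.2.1 χ t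
  have m4 := n'.2.2.1 χ' t'
  simp only [map_add, map_smul, smul_eq_mul] at k1 k2 a'
  have k3 : ρ u ∈ LL X := by
    have := div_mem (sub_mem (mul_mem m2 k1) (mul_mem m1 k2)) (sub_mem (mul_mem m3 m2) (mul_mem m1 m4))
    convert this using 1
    rw [eq_div_iff (fun e => a' (by linear_combination e))]
    ring
  convert div_mem (sub_mem (div_mem k1 k3) m3) m1 using 1
  field_simp
  ring

theorem gram (n : NC X u v) (n' : NC X u w) (s : Tr X v ψ) : ψ w ∈ LL X := by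
  by_cases li : ∀ a b : F, a • v + b • w ∈ F ∙ u → a = 0 ∧ b = 0
  · exact h.gram1 p h2 hu n n' s li
  obtain ⟨α, β, e⟩ : ∃ α β : F, w = α • u + β • v := by
    simp only [not_forall] at li
    obtain ⟨a, b, e, e'⟩ := li
    obtain ⟨c, e⟩ := Submodule.mem_span_singleton.1 e
    have b0 : b ≠ 0 := fun b0 => by
      have a0 : a ≠ 0 := fun a0 => e' ⟨a0, b0⟩
      exact n.2.1 (Submodule.mem_span_singleton.2 ⟨a⁻¹ * c, by simp [mul_smul, e, b0, a0]⟩)
    refine ⟨b⁻¹ * c, -(b⁻¹ * a), ?_⟩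
    rw [mul_smul, e]
    match_scalars <;> field_simp <;> ring
  have β0 : β ≠ 0 := fun b0 => n'.2.1 (Submodule.mem_span_singleton.2 ⟨α, by simp [e, b0]⟩)
  obtain ⟨χ, t, a⟩ := h.ax_ne p h2 hu n.2.1
  have hβ : β ∈ LL X := by
    convert div_mem (n'.2.2.1 χ t) (n.2.2.1 χ t) using 1
    simp [e, t.z, a]
  have := h.fd
  obtain ⟨y, -, hy⟩ := exists_notMem_of_finrank_lt (U := (F ∙ u) ⊔ F ∙ v) (W := ⊤) (by
    have a := finrank_sup_span_le (F ∙ u) v
    have b := finrank_span_singleton_le (F := F) u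
    rw [finrank_top, h.dim]; omega)
  obtain ⟨η, η1, η2⟩ := exists_dual_one hy
  have η3 : η u = 0 := η2 u (Submodule.mem_sup_left (Submodule.mem_span_singleton_self u))
  have η4 : η v = 0 := η2 v (Submodule.mem_sup_right (Submodule.mem_span_singleton_self v))
  obtain ⟨g, hg, eg⟩ := h.orb (φ := η) (ne_of_ap (x := y) (by simp [η1])) hu.1
  have k : ∀ x ∈ F ∙ u, η x = 0 := fun x hx => η2 x (Submodule.mem_sup_left hx)
  obtain ⟨c, c0, nz⟩ := h.nc_ex p h2 hu (hu.act hg) fun e => eg (k _ e)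
  have η5 : η (c • g u) ≠ 0 := by simp [c0, eg]
  generalize c • g u = z at nz η5
  obtain ⟨ρ, r, r0⟩ := h.ax_ne p h2 nz.1 (notMem_swap hu.1 nz.2.1)
  have li : ∀ y, η y = 0 → y ∉ F ∙ u → ∀ a b : F, a • z + b • y ∈ F ∙ u → a = 0 ∧ b = 0 :=
    fun y y1 y2 a b e => by
      have a0 : a = 0 := by simpa [y1, η5] using k _ e
      refine ⟨a0, by_contra fun b0 => y2 ?_⟩
      simpa [a0, b0] using Submodule.smul_mem _ b⁻¹ e
  have m1 := h.gram1 p h2 hu nz n r (li v η4 n.2.1)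
  have m2 := h.gram1 p h2 hu nz n' r (li w (by simp [e, η3, η4]) n'.2.1)
  have hα : α ∈ LL X := by
    convert div_mem (sub_mem m2 (mul_mem hβ m1)) (nz.2.2.2 ρ r) using 1
    simp [e, r0]
  simpa [e, s.z] using mul_mem hα (n.2.2.2 ψ s)

end Hy0

theorem Hy.full (h : Hy X) (p : ℕ) [Fact p.Prime] [CharP F p] (h2 : TwoAx X) : SLV F V ≤ X := by
  have := h.fd
  obtain ⟨u, hu⟩ : ∃ u, Ce X u := let ⟨u, φ, _, _, u0, φ0, t, _⟩ := h2; ⟨u, u0, φ, φ0, t⟩
  have hL : LL X = ⊤ := by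
    refine h.tr_top (LL X) {a | Tr X a.1 a.2 ∧ (a.1 = u ∨ NC X u a.1)} ?_ fun K hK => ?_
    · rintro ⟨v, ψ⟩ ⟨-, e⟩ ⟨w, χ⟩ ⟨s, e'⟩
      rcases e with rfl | e <;> rcases e' with rfl | e'
      · exact s.z ▸ zero_mem _
      · exact e'.2.2.2 _ s
      · exact e.2.2.1 _ s
      · exact h.gram p h2 hu e' e s
    · obtain ⟨u0, φ, φ0, t⟩ := id hu
      refine h.genT t u0 φ0 K fun g hg s hs e => ?_
      obtain ⟨c, c0, n⟩ : ∃ c : F, c ≠ 0 ∧ (c • g u = u ∨ NC X u (c • g u)) := by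
        by_cases e : g u ∈ F ∙ u
        · obtain ⟨c, e⟩ := Submodule.mem_span_singleton.1 e
          have c0 : c ≠ 0 := fun c0 => u0 (by simpa [c0, eq_comm (a := (0 : V))] using e)
          exact ⟨c⁻¹, inv_ne_zero c0, .inl (by simp [← e, c0])⟩
        · exact (h.nc_ex p h2 hu (hu.act hg) e).imp fun c e => ⟨e.1, .inr e.2⟩
      exact hK s hs (_, _) ⟨(t.act hg).scale' c0, n⟩ 1 (one_mem _) fun x => by
        simp [e, smul_smul, c0, mul_comm]
  let C : Submodule F (Dual F V) :=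
    { carrier := {χ | Tr X u χ}
      add_mem' := Tr.add
      zero_mem' := Tr.zero_ax u
      smul_mem' := fun c _ t => t.ll (hL ▸ Subfield.mem_top c) }
  have fu : Full X u := fun χ e => by
    have : χ ∈ C.dualCoannihilator.dualAnnihilator := (Submodule.mem_dualAnnihilator _).2 fun x hx => by
      obtain ⟨c, rfl⟩ := Submodule.mem_span_singleton.1 (h.ellA p h2 hu fun ψ t =>
        (Submodule.mem_dualCoannihilator _).1 hx ψ t)
      simp [e]
    rw [Subspace.dualCoannihilator_dualAnnihilator_eq] at this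
    exact this.tv
  refine SLV_le_of_fullSub ((h.irr _ fun g hg x hx => Full.conj hx hg).resolve_left fun e => ?_)
  exact hu.1 ((Submodule.mem_bot F).1 (e ▸ (fu : u ∈ fullSub X)))

/-- the contragredient action -/
noncomputable def dualHom : (V ≃ₗ[F] V) →* (Dual F V ≃ₗ[F] Dual F V) where
  toFun g := g.symm.dualMap
  map_one' := by ext; rfl
  map_mul' a b := by ext; rfl

theorem dualHom_ap (g : V ≃ₗ[F] V) (φ : Dual F V) (x : V) : dualHom g φ x = φ (g.symm x) := rfl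

instance finDual : Finite (Dual F V) :=
  Finite.of_injective (fun g : Dual F V => (g : V → F)) DFunLike.coe_injective

theorem Tr.dual (t : Tr X u φ) : Tr (X.map dualHom) φ (Dual.eval F V u) := by
  obtain ⟨g, hg, e⟩ := t.tv
  refine ⟨t.z, _, ⟨g⁻¹, inv_mem hg, rfl⟩, fun ψ => LinearMap.ext fun x => ?_⟩
  change ψ (g x) = _
  simp [e, mul_comm]

theorem Tr.of_dual (t : Tr (X.map dualHom) φ (Dual.eval F V u)) : Tr X u φ := by
  obtain ⟨z, _, ⟨g, hg, rfl⟩, e⟩ := t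
  refine ⟨z, g⁻¹, inv_mem hg, fun x => sub_eq_zero.1 ((forall_dual_apply_eq_zero_iff F _).1 fun ψ => ?_)⟩
  have := congrArg (fun f : Dual F V => f x) (e ψ)
  simp only [dualHom_ap] at this
  simp [this, mul_comm]

theorem Hy0.dual (h : Hy0 X) : Hy0 (X.map dualHom) := by
  have := h.fd
  refine ⟨by rw [Subspace.dual_finrank_eq, h.dim], fun U hU => ?_, ?_⟩
  · rw [← Subspace.dualCoannihilator_dualAnnihilator_eq (W := U)]
    rcases h.irr U.dualCoannihilator fun g hg x hx => (Submodule.mem_dualCoannihilator _).2 fun φ hφ =>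
      (Submodule.mem_dualCoannihilator _).1 hx _ (hU _ ⟨g⁻¹, inv_mem hg, rfl⟩ φ hφ) with e | e
    · exact .inr (by rw [e, Submodule.dualAnnihilator_bot])
    · exact .inl (by rw [e, Submodule.dualAnnihilator_top])
  · rintro K _ ⟨t, ht, rfl⟩ h1 h2
    rw [Subgroup.map_le_iff_le_comap]
    refine h.gen _ t ht (fun c => by_contra fun e => ?_) fun g hg => by
      simpa using h2 _ ⟨g, hg, rfl⟩
    push Not at e
    have c0 : c ≠ 0 := fun c0 => by
      obtain ⟨x, x0, -⟩ := h.two 0 0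
      exact x0 (by simpa [c0] using e x)
    obtain ⟨φ, hφ⟩ := h1 c⁻¹
    refine hφ (LinearMap.ext fun x => ?_)
    rw [dualHom_ap, show t.symm x = c⁻¹ • x by rw [LinearEquiv.symm_apply_eq, e, smul_inv_smul₀ c0]]
    simp

/-- the symmetric case -/
def Sym (X : Subgroup (V ≃ₗ[F] V)) : Prop :=
  ∀ u φ v ψ, Tr X u φ → Tr X v ψ → φ v = 0 → φ = 0 ∨ v = 0 ∨ ψ u = 0

theorem Sym.z (hs : Sym X) (t : Tr X u φ) (s : Tr X v ψ) (φ0 : φ ≠ 0) (v0 : v ≠ 0) (e : φ v = 0) :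
    ψ u = 0 := ((hs u φ v ψ t s e).resolve_left φ0).resolve_left v0

theorem sym_of (h2 : ¬TwoAx X) : Sym X := fun u φ v ψ t s e => by
  by_contra c
  push Not at c
  exact h2 ⟨v, ψ u • φ, ψ, u, c.2.1, by simp [c.1, c.2.2], s.comm t e, s, by simp [t.z], c.2.2⟩

theorem prop_of (φ0 : φ ≠ 0) (H : ∀ x, φ x = 0 → χ x = 0) : ∃ c : F, χ = c • φ := by
  obtain ⟨y, hy⟩ := ex_ne φ0
  refine ⟨χ y / φ y, LinearMap.ext fun x => ?_⟩
  have := H (φ y • x - φ x • y) (by simp [mul_comm])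
  simp only [map_sub, map_smul, smul_eq_mul] at this
  simp only [LinearMap.smul_apply, smul_eq_mul]
  field_simp
  linear_combination this

namespace Hy0

variable (h : Hy0 X) (p : ℕ) [Fact p.Prime] [CharP F p] (hs : Sym X)
include h p hs

theorem not_two : ¬TwoAx X := fun h2 => by
  obtain ⟨u, φ, -, -, u0, φ0, t, -⟩ := id h2
  obtain ⟨v, ψ, s, a, b⟩ := h.opp' t u0 φ0 φ0 u0
  obtain ⟨χ, χ0, t', e⟩ := h.oneway p h2 t s a b
  exact b (hs.z t' s χ0 (ne_of_ap' a) e)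

theorem ax_one (t : Tr X u φ) (t' : Tr X u χ) (u0 : u ≠ 0) (φ0 : φ ≠ 0) : ∃ c ∈ LL X, χ = c • φ := by
  obtain ⟨c, rfl⟩ := prop_of φ0 fun x e => by_contra fun e' =>
    h.not_two p hs ⟨u, φ, χ, x, u0, φ0, t, t', e, e'⟩
  exact ⟨c, h.ratio p t u0 φ0 t', rfl⟩

theorem ce_one (t : Tr X u φ) (t' : Tr X v φ) (u0 : u ≠ 0) (φ0 : φ ≠ 0) : ∃ c ∈ LL X, v = c • u := by
  have := h.fd
  have inj := (evalEquiv F V).injective
  have e0 : ∀ {u : V}, Dual.eval F V u = 0 → u = 0 := fun {u} e => inj (by simpa using e)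
  have hs' : Sym (X.map dualHom) := fun φ ξ ψ ξ' t s e => by
    obtain ⟨u, rfl⟩ := (evalEquiv F V).surjective ξ
    obtain ⟨v, rfl⟩ := (evalEquiv F V).surjective ξ'
    rcases hs v ψ u φ s.of_dual t.of_dual e with e | e | e
    · exact .inr (.inl e)
    · exact .inl (by simp [e])
    · exact .inr (.inr e)
  obtain ⟨c, -, e⟩ := h.dual.ax_one p hs' t.dual t'.dual φ0 fun e => u0 (e0 e)
  have e1 : v = c • u := inj (by simpa using e)
  exact ⟨c, h.ratio p t u0 φ0 (Tr.smul' (e1 ▸ t')), e1⟩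

end Hy0

end Cfsg.Agent.L4.T
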