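import Cfsg.Agent.L4.T3
import Cfsg.Agent.Sp4E.Fld

/-!
The symmetric case with all weights in the field of multipliers: the invariant form.
-/

set_option autoImplicit false
set_option linter.unusedSectionVars false

namespace Cfsg.Agent.L4.T

open Module H7

variable {F V : Type*} [Field F] [AddCommGroup V] [Module F V]
  {X : Subgroup (V ≃ₗ[F] V)} {u v w x : V} {φ ψ χ : Dual F V} [Finite V] [Finite F]

theorem ex_frob (p : ℕ) [Fact p.Prime] [CharP F p] (L : Subfield F) :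
    ∃ σ : F →+* F, (∀ x, σ x = x ^ Nat.card L) ∧ ∀ x, σ x = x ↔ x ∈ L := by
  have := Fintype.ofFinite L
  obtain ⟨n, -, e⟩ := FiniteField.card L p
  have : ∀ x, iterateFrobenius F p n x = x ^ Nat.card L := fun x => by
    rw [Nat.card_eq_fintype_card, e]; rfl
  exact ⟨_, this, fun x => by rw [this, Sp4E.mem_iff_pow]⟩

/-- all weights are multipliers -/
def Kap (X : Subgroup (V ≃ₗ[F] V)) : Prop :=
  ∀ u φ v ψ, Tr X u φ → Tr X v ψ → φ v * ψ u ∈ LL X

/-- normalised opposite transvections -/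
def Op (X : Subgroup (V ≃ₗ[F] V)) (u : V) (φ : Dual F V) : Set (V × Dual F V) :=
  {a | Tr X a.1 a.2 ∧ φ a.1 = 1 ∧ a.2 u = 1}

namespace Hy0

variable (h : Hy0 X) (hs : Sym X) (hk : Kap X) (t : Tr X u φ) (u0 : u ≠ 0) (φ0 : φ ≠ 0)
include h hs hk t u0 φ0

omit h φ0 in
theorem op_ex (s : Tr X v ψ) (ψ0 : ψ ≠ 0) (a : φ v ≠ 0) :
    ψ u ≠ 0 ∧ ((φ v)⁻¹ • v, (ψ u)⁻¹ • ψ) ∈ Op X u φ := by
  have b : ψ u ≠ 0 := fun e => a (hs.z s t ψ0 u0 e)
  refine ⟨b, ?_, by simp [a], by simp [b]⟩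
  have := (s.scale a).ll (inv_mem (hk _ _ _ _ t s))
  rwa [smul_smul, show (φ v * ψ u)⁻¹ * φ v = (ψ u)⁻¹ by field_simp] at this

theorem gen_op (K : Subgroup (V ≃ₗ[F] V)) (hK : ∀ g ∈ X, ∀ a ∈ Op X u φ, ∀ l ∈ LL X,
    (∀ x, g x = x + (l * a.2 x) • a.1) → g ∈ K) : X ≤ K := by
  have k : ∀ v ψ, Tr X v ψ → ψ ≠ 0 → φ v ≠ 0 → ∀ g ∈ X, (∀ x, g x = x + ψ x • v) → g ∈ K :=
    fun v ψ s ψ0 a g hg e => by
      obtain ⟨b, m⟩ := op_ex hs hk t u0 s ψ0 a
      refine hK g hg _ m _ (hk _ _ _ _ t s) fun x => ?_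
      simp only [e, LinearMap.smul_apply, smul_eq_mul, smul_smul]
      congr 2
      field_simp
  refine h.genT t u0 φ0 K fun g hg s hs' e => ?_
  have c : Ce X (g u) := Ce.act ⟨u0, φ, φ0, t⟩ hg
  have ψ0 : φ ∘ₗ (g.symm : V →ₗ[F] V) ≠ 0 :=
    let ⟨x, hx⟩ := ex_ne φ0
    ne_of_ap (x := g x) (by simpa using hx)
  have s' := t.act hg
  change ∀ x, s x = x + (φ ∘ₗ (g.symm : V →ₗ[F] V)) x • g u at e
  generalize φ ∘ₗ (g.symm : V →ₗ[F] V) = ψ at *
  generalize g u = v at *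
  by_cases a : φ v = 0
  swap
  · exact k v ψ s' ψ0 a s hs' e
  obtain ⟨w, ρ, r, a1, a2⟩ := h.opp' t u0 φ0 φ0 c.1
  obtain ⟨g', hg', e'⟩ := r.tv
  have m1 := k w ρ r (ne_of_ap a2) a1 g' hg' e'
  have m2 := k _ _ (s'.act hg') (let ⟨x, hx⟩ := ex_ne ψ0; ne_of_ap (x := g' x) (by simpa using hx))
    (by simp [e', a, a1, a2]) (g' * s * g'⁻¹) (mul_mem (mul_mem hg' hs') (inv_mem hg'))
    fun x => by simp [e]
  simpa [mul_assoc] using mul_mem (mul_mem (inv_mem m1) m2) m1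

theorem span_op : Submodule.span F (Prod.fst '' Op X u φ) = ⊤ := by
  have := h.fd
  have := h.gen_op hs hk t u0 φ0 (stab (Submodule.span F (Prod.fst '' Op X u φ)))
    fun g _ a ha l _ e => mem_stab_of_forall fun x hx =>
      e x ▸ add_mem hx (Submodule.smul_mem _ _ (Submodule.subset_span ⟨a, ha, rfl⟩))
  refine (h.irr _ fun g hg x hx => (this hg x).1 hx).resolve_left fun e => ?_
  obtain ⟨v, ψ, s, a, b⟩ := h.opp' t u0 φ0 φ0 u0
  have : _ ∈ Submodule.span F (Prod.fst '' Op X u φ) :=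
    Submodule.subset_span ⟨_, (op_ex hs hk t u0 s (ne_of_ap b) a).2, rfl⟩
  rw [e] at this
  simp [a, ne_of_ap' a] at this

omit h u0 φ0 in
theorem gram_op {σ : F →+* F} (hσ : ∀ x, σ x = x ↔ x ∈ LL X) {a b : V × Dual F V}
    (ha : a ∈ Op X u φ) (hb : b ∈ Op X u φ) : a.2 b.1 = -σ (b.2 a.1) := by
  obtain ⟨v, ψ⟩ := a
  obtain ⟨w, χ⟩ := b
  obtain ⟨s, a1, a2⟩ := ha
  obtain ⟨s', b1, b2⟩ := hb
  dsimp only at *
  have k1 := (hσ _).2 (hk _ _ _ _ s s')
  have k2 := (hσ _).2 (hk _ _ _ _ (t.conj s) s')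
  simp only [map_add, map_smul, LinearMap.sub_apply, LinearMap.smul_apply, smul_eq_mul, a1, a2, b1, b2,
    map_mul, map_sub, map_one] at k1 k2
  by_cases e : σ (χ v) = χ v
  · have s2 := (t.ll (neg_mem ((hσ _).1 e))).conj s
    have := hs.z s' s2 (ne_of_ap (x := u) (by simp [b2])) (ne_of_ap' (φ := φ) (by simp [a1, t.z]))
      (by simp [a1, b2])
    simp only [LinearMap.sub_apply, LinearMap.smul_apply, smul_eq_mul, a2, b1] at this
    linear_combination this + e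
  · exact mul_left_cancel₀ (sub_ne_zero.2 e) (by linear_combination k1 - σ (χ v) * (k2 - k1))

end Hy0

theorem Hy.form (h : Hy X) (p : ℕ) [Fact p.Prime] [CharP F p] (hs : Sym X) (hk : Kap X)
    (t : Tr X u φ) (u0 : u ≠ 0) (φ0 : φ ≠ 0) :
    ∃ σ : F →+* F, (∀ x, σ x = x ^ Nat.card (LL X)) ∧ (∀ x, σ (σ x) = x) ∧ ∃ f : V → V → F,
      (∀ x y v, f (x + y) v = f x v + f y v) ∧ (∀ (c : F) x v, f (c • x) v = c * f x v) ∧
      (∀ x y, f x y = -σ (f y x)) ∧ ((∀ c, σ c = c) → ∀ x, f x x = 0) ∧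
      (∀ y, y ≠ 0 → ∃ x, f x y ≠ 0) ∧ ∀ g ∈ X, ∀ x y, f (g x) (g y) = f x y := by
  classical
  have := h.fd
  obtain ⟨σ, h1, hσ⟩ := ex_frob p (LL X)
  have G := fun {a b} => Hy0.gram_op hs hk t hσ (a := a) (b := b)
  have h2 : ∀ x, σ (σ x) = x := by
    have := h.tr_top (RingHom.eqLocusField (σ.comp σ) (RingHom.id F)) (Op X u φ)
      (fun a ha b hb => by
        change σ (σ _) = b.2 a.1
        rw [← neg_neg (σ (b.2 a.1)), ← G ha hb, map_neg, ← G hb ha])
      fun K hK => h.gen_op hs hk t u0 φ0 K fun g hg a ha l hl => hK g hg a ha l (by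
        change σ (σ _) = _
        rw [(hσ l).2 hl, (hσ l).2 hl]; rfl)
    exact fun x => (this ▸ Subfield.mem_top x : x ∈ RingHom.eqLocusField (σ.comp σ) (RingHom.id F))
  obtain ⟨s, hs', e1, e2⟩ := exists_linearIndependent F (Prod.fst '' Op X u φ)
  let e : Basis s F V := Basis.mk e2 (by rw [Subtype.range_coe, e1, h.span_op hs hk t u0 φ0])
  have : Fintype s := FiniteDimensional.fintypeBasisIndex e
  have he : ∀ i, ∃ ψ, (e i, ψ) ∈ Op X u φ := fun i => by
    obtain ⟨a, ha, e3⟩ := hs' i.2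
    exact ⟨a.2, by simpa [e, ← e3] using ha⟩
  choose ψ hψ using he
  let θ : V → Dual F V := fun y => ∑ i, σ (e.repr y i) • ψ i
  have θ0 : ∀ x y, θ y x = ∑ i, σ (e.repr y i) * ψ i x := fun x y => by simp [θ]
  have θ1 : ∀ x y, θ y x = -σ (θ x y) := fun x y => by
    have ex : ∀ (ψ : Dual F V) x, ψ x = ∑ i, e.repr x i * ψ (e i) := fun ψ x => by
      conv_lhs => rw [← e.sum_repr x]
      simp only [map_sum, map_smul, smul_eq_mul]
    rw [θ0, θ0]
    simp only [ex _ x, ex _ y, map_sum, Finset.mul_sum, map_mul, h2, ← Finset.sum_neg_distrib]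
    rw [Finset.sum_comm]
    refine Finset.sum_congr rfl fun i _ => Finset.sum_congr rfl fun j _ => ?_
    have := G (hψ j) (hψ i)
    dsimp only at this
    rw [this]; ring
  have θ2 : ∀ a ∈ Op X u φ, θ a.1 = a.2 := fun a ha => e.ext fun j => by
    rw [θ1, G ha (hψ j)]
    simp [θ0, Finsupp.single_apply]
  have θ3 : ∀ x y, θ (x + y) = θ x + θ y := fun x y => by
    simp [θ, add_smul, Finset.sum_add_distrib]
  have θ4 : ∀ (c : F) x, θ (c • x) = σ c • θ x := fun c x => by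
    simp [θ, Finset.smul_sum, mul_smul]
  have inv : ∀ g ∈ X, ∀ x y, θ (g y) (g x) = θ y x := fun g hg =>
    h.gen_op hs hk t u0 φ0 (mkSub (fun g => ∀ x y, θ (g y) (g x) = θ y x) (fun _ _ => rfl)
      fun a b ha hb x y => by rw [LinearEquiv.mul_apply, LinearEquiv.mul_apply, ha, hb])
      (fun g _ a ha l hl e x y => by
        simp only [e, θ3, θ4, θ2 a ha, map_add, map_smul, LinearMap.add_apply, LinearMap.smul_apply,
          smul_eq_mul, ha.1.z, θ1 a.1 y, map_mul, (hσ l).2 hl]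
        ring) hg
  refine ⟨σ, h1, h2, fun x y => θ y x, fun x y v => map_add _ _ _, fun c x v => map_smul _ _ _, θ1,
    fun hc x => ?_, fun y y0 => ?_, inv⟩
  · have : x ∈ Submodule.span F (Prod.fst '' Op X u φ) := h.span_op hs hk t u0 φ0 ▸ trivial
    induction this using Submodule.span_induction with
    | mem x hx =>
      obtain ⟨a, ha, rfl⟩ := hx
      simp only [θ2 a ha, ha.1.z]
    | zero => simp
    | add y z _ _ hy hz =>
      simp only [θ3, map_add, LinearMap.add_apply, hy, hz, θ1 y z, hc]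
      ring
    | smul c y _ hy => simp [θ4, hy]
  · by_contra c
    push Not at c
    let U : Submodule F V :=
      { carrier := {y | θ y = 0}
        add_mem' := fun ha hb => by
          simp only [Set.mem_setOf_eq] at *
          rw [θ3, ha, hb, add_zero]
        zero_mem' := by simp [θ]
        smul_mem' := fun c _ ha => by
          simp only [Set.mem_setOf_eq] at *
          rw [θ4, ha, smul_zero] }
    rcases h.irr U fun g hg y hy => LinearMap.ext fun x => by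
      rw [← g.apply_symm_apply x, inv g hg, show θ y = 0 from hy]; rfl with e | e
    · exact y0 ((Submodule.mem_bot F).1 (e ▸ (LinearMap.ext c : y ∈ U)))
    · obtain ⟨v, ψ, s, a, b⟩ := h.opp' t u0 φ0 φ0 u0
      have m := (Hy0.op_ex hs hk t u0 s (ne_of_ap b) a).2
      have := m.2.2
      rw [← θ2 _ m, show θ _ = 0 from (e ▸ Submodule.mem_top : _ ∈ U)] at this
      simp at this

end Cfsg.Agent.L4.T
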