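import Cfsg.Agent.L4.T4

/-!
The symmetric case in odd characteristic: all weights are multipliers.
-/

set_option autoImplicit false
set_option linter.unusedSectionVars false

namespace Cfsg.Agent.L4.T

open Module H7

variable {F V : Type*} [Field F] [AddCommGroup V] [Module F V]
  {X : Subgroup (V ≃ₗ[F] V)} {u v w x : V} {φ ψ χ : Dual F V} [Finite V] [Finite F]

theorem heis_comm {y y' z : V} {ρ ρ' ζ : Dual F V} (a1 : ζ y = 0) (a2 : ζ y' = 0) (a3 : ζ z = 0)
    (a4 : ρ z = 0) (a5 : ρ' z = 0) (h1 : Has X fun x => x + ζ x • y + ρ x • z)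
    (h2 : Has X fun x => x + ζ x • y' + ρ' x • z) : Tr X z ((ρ y' - ρ' y) • ζ) :=
  ⟨by simp [a3], (h1.comp h2).of_comp_left (h2.comp h1) fun x => by
    simp only [map_add, map_smul, LinearMap.smul_apply, smul_eq_mul, a1, a2, a3, a4, a5]
    module⟩

section three
variable [CharP F 3] {i : F} (t : Tr X u φ) (s : Tr X v ψ) (a : φ v = 1) (b : ψ u = i)
  (hi : i ^ 2 = -1)
include t s a b hi

theorem ten {l : F} (hl : l ^ 9 = l) : ∃ e : F, e ≠ 0 ∧ Tr X (u + l • v) (e • (i • φ - l • ψ)) := by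
  have h3 : (3 : F) = 0 := by exact_mod_cast CharP.cast_eq_zero F 3
  have i0 : i ≠ 0 := by rintro rfl; simp at hi
  have k : ∀ c : F, c ^ 3 = c → c = 0 ∨ c = 1 ∨ c = -1 := fun c e => by
    have : c * ((c - 1) * (c + 1)) = 0 := by linear_combination e
    simpa [sub_eq_zero, add_eq_zero_iff_eq_neg] using this
  obtain ⟨α, β, h1, h2, rfl⟩ : ∃ α β : F, α ^ 3 = α ∧ β ^ 3 = β ∧ l = α + β * i :=
    ⟨-(l + l ^ 3), (l - l ^ 3) * i, by linear_combination -hl - (l ^ 5 + l ^ 7) * h3, by
      linear_combination (l - l ^ 3) ^ 3 * i * hi + i * hl + (l ^ 5 - l ^ 7) * i * h3, by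
      linear_combination -(l - l ^ 3) * hi + l * h3⟩
  obtain ⟨e, e0, r⟩ : ∃ e : F, e ≠ 0 ∧ Tr X (u + α • v) (e • (i • φ - α • ψ)) := by
    rcases k α h1 with rfl | rfl | rfl
    · exact ⟨i⁻¹, inv_ne_zero i0, by simpa [i0] using t⟩
    · refine ⟨-1, by simp, ?_⟩
      convert t.conj s using 1
      · simp [a, add_comm]
      · rw [b]; module
    · refine ⟨1, by simp, ?_⟩
      convert (t.neg.conj s).neg' using 1
      · simp [a]
      · rw [b]; module
  have s' : Tr X v (β • ψ) := by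
    rcases k β h2 with rfl | rfl | rfl
    · simpa using Tr.zero_ax v
    · simpa using s
    · convert s.neg using 1; module
  refine ⟨e, e0, ?_⟩
  convert s'.conj r using 1
  · simp only [map_add, map_smul, LinearMap.smul_apply, smul_eq_mul, b, s.z]
    module
  · simp only [LinearMap.smul_apply, LinearMap.sub_apply, smul_eq_mul, a, s.z]
    module

variable (hτ : Tau X u v φ ψ)
include hτ

theorem tau_step {α β γ δ : F} {z : V} {ζ : Dual F V} (z1 : φ z = 0) (z2 : ψ z = 0)
    (z3 : ζ u = 0) (z4 : ζ v = 0) (r : Tr X (α • u + β • v + z) (γ • φ + δ • ψ + ζ)) :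
    Tr X (α • u + β • v - z) (γ • φ + δ • ψ - ζ) := by
  obtain ⟨τ, t1, t2, t3, t4⟩ := hτ
  have i0 : i ≠ 0 := by rintro rfl; simp at hi
  have := (r.act' t1 (ψ := -(γ • φ + δ • ψ - ζ)) (ext3 t.z s.z (by simp [a]) (b ▸ i0)
    (f := -(γ • φ + δ • ψ - ζ) ∘ₗ (τ : V →ₗ[F] V)) (g := γ • φ + δ • ψ + ζ) (by simp [t2, z3, add_comm])
    (by simp [t3, z4, add_comm]) fun z z1 z2 => by simp [t4 z z1 z2, z1, z2])).neg.neg'
  convert this using 1
  · simp only [map_add, map_smul, t2, t3, t4 z z1 z2]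
    module
  · rw [neg_neg]

theorem heis {α β γ δ : F} {z : V} {ζ : Dual F V} (z1 : φ z = 0) (z2 : ψ z = 0)
    (z3 : ζ u = 0) (z4 : ζ v = 0) (z5 : ζ z = 0) (r : Tr X (α • u + β • v + z) (γ • φ + δ • ψ + ζ)) :
    Has X fun x => x + ζ x • ((2 : F) • (α • u + β • v)) + ((2 : F) • (γ • φ + δ • ψ)) x • z := by
  have e := r.z
  refine (r.tv.has.comp (tau_step t s a b hi hτ z1 z2 z3 z4 r).neg.tv.has).congr fun x => ?_
  simp only [map_add, map_smul, map_sub, LinearMap.add_apply, LinearMap.smul_apply, LinearMap.neg_apply,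
    LinearMap.sub_apply, smul_eq_mul, t.z, s.z, z1, z2, z3, z4, z5, a, b] at e ⊢
  match_scalars
  · ring
  · linear_combination -α * (γ * φ x + δ * ψ x - ζ x) * e
  · linear_combination -β * (γ * φ x + δ * ψ x - ζ x) * e
  · linear_combination -(γ * φ x + δ * ψ x - ζ x) * e

variable (hs : Sym X) (K : ∀ u φ v ψ, Tr X u φ → Tr X v ψ → (φ v * ψ u) ^ 5 = φ v * ψ u)
include hs K

theorem m_zero {y : V} {ρ : Dual F V} (r : Tr X y ρ) : ρ u * ψ y + i * ρ v * φ y = 0 := by
  have h3 : (3 : F) = 0 := by exact_mod_cast CharP.cast_eq_zero F 3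
  have i0 : i ≠ 0 := by rintro rfl; simp at hi
  by_cases ρ0 : ρ = 0
  · simp [ρ0]
  have u0 : u ≠ 0 := ne_of_ap' (b ▸ i0)
  have v0 : v ≠ 0 := ne_of_ap' (φ := φ) (by simp [a])
  by_cases a1 : ρ u = 0
  · simp [a1, hs.z r t ρ0 u0 a1]
  by_cases a2 : ρ v = 0
  · simp [a2, hs.z r s ρ0 v0 a2]
  by_cases y0 : y = 0
  · simp [y0]
  have b2 : ψ y ≠ 0 := fun e => a2 (hs.z s r (ne_of_ap (b ▸ i0)) y0 e)
  let L : Subfield F := RingHom.eqLocusField (iterateFrobenius F 3 2) (RingHom.id F)
  have hL : ∀ c, c ∈ L ↔ c ^ 9 = c := fun c => Iff.rfl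
  have K9 : ∀ {u φ v ψ}, Tr X u φ → Tr X v ψ → φ v * ψ u ∈ L := fun {u φ v ψ} t s => by
    have := K _ _ _ _ t s
    rw [hL]
    generalize φ v * ψ u = c at this
    linear_combination (c ^ 4 + 1) * this
  have iL : i ∈ L := by simpa [a, b] using K9 t s
  have k1 := K9 t r
  have k2 := K9 s r
  have k3 := K9 (s.conj t) r
  simp only [map_add, map_smul, LinearMap.smul_apply, LinearMap.sub_apply, smul_eq_mul, a, b] at k3
  obtain ⟨z, z1, z2, e⟩ := dec t.z s.z (by simp [a]) (b ▸ i0) y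
  rw [a, b, div_one] at e
  have r' := tau_step t s a b hi hτ (α := ψ y / i) (β := φ y) (γ := ρ v) (δ := ρ u / i) z1 z2
    (ζ := ρ - (ρ v • φ + (ρ u / i) • ψ)) (by simp [t.z, b, i0]) (by simp [s.z, a])
    (by rwa [← e, add_sub_cancel])
  have k4 := K _ _ _ _ r r'
  have e1 : ρ z = -((ρ u * ψ y + i * ρ v * φ y) / i) := by
    have := r.z
    rw [e] at this
    simp only [map_add, map_smul, smul_eq_mul] at this
    field_simp at this ⊢
    linear_combination this
  have k5 : (ρ u * ψ y + i * ρ v * φ y) / i ∈ L := by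
    rw [hL]
    simp only [map_add, map_sub, map_smul, LinearMap.smul_apply, LinearMap.sub_apply,
      LinearMap.add_apply, smul_eq_mul, e1, r.z] at k4
    rw [show (ψ y / i * ρ u + φ y * ρ v - -((ρ u * ψ y + i * ρ v * φ y) / i)) *
      (ρ v * φ y + ρ u / i * ψ y - (0 - (ρ v * φ y + ρ u / i * ψ y))) =
      (2 * ((ρ u * ψ y + i * ρ v * φ y) / i)) ^ 2 by field_simp; ring] at k4
    generalize (ρ u * ψ y + i * ρ v * φ y) / i = m at k4
    by_cases m0 : m = 0
    · simp [m0]
    exact mul_left_cancel₀ m0 (by linear_combination k4 - (341 * m ^ 10 - m ^ 2) * h3)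
  have k6 : ρ u * ψ y ∈ L := by
    convert sub_mem (sub_mem (add_mem k3 (mul_mem iL k2)) k1) (mul_mem k5 iL) using 1
    field_simp
    linear_combination (ρ u * ψ y) * h3
  obtain ⟨c, c0, r2⟩ := ten t s a b hi (l := -(ρ u / ρ v)) ((hL _).1 (by
    convert neg_mem (div_mem k6 k2) using 1
    field_simp))
  have := hs.z r r2 ρ0 (ne_of_ap' (φ := ψ) (by simp [s.z, b, i0])) (by simp [a2])
  simp only [LinearMap.smul_apply, LinearMap.sub_apply, smul_eq_mul, mul_eq_zero, c0, false_or] at this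
  field_simp at this
  linear_combination this

theorem no_sl25 (h : Hy0 X) (hi' : i ∉ LL X) : False := by
  have h3 : (3 : F) = 0 := by exact_mod_cast CharP.cast_eq_zero F 3
  have i0 : i ≠ 0 := by rintro rfl; simp at hi
  have u0 : u ≠ 0 := ne_of_ap' (b ▸ i0)
  have v0 : v ≠ 0 := ne_of_ap' (φ := φ) (by simp [a])
  have φ0 : φ ≠ 0 := ne_of_ap (x := v) (by simp [a])
  have ψ0 : ψ ≠ 0 := ne_of_ap (b ▸ i0)
  rcases h.irrT t u0 φ0 (Submodule.span F {u, v}) (fun y ρ r x hx hρ => by
    obtain ⟨z, z1, z2, e⟩ := dec t.z s.z (by simp [a]) (b ▸ i0) y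
    rw [a, b, div_one] at e
    by_cases z0 : z = 0
    · exact Submodule.mem_span_pair.2 ⟨_, _, by rw [e, z0, add_zero]⟩
    exfalso
    have ρ0 := ne_of_ap hρ
    have m := m_zero t s a b hi hτ hs K r
    obtain ⟨ζ, hζ⟩ : ∃ ζ, ρ = ρ v • φ + (ρ u / i) • ψ + ζ := ⟨_, (add_sub_cancel _ _).symm⟩
    have z3 : ζ u = 0 := by simpa [t.z, b, i0] using congrArg (fun f : Dual F V => f u) hζ
    have z4 : ζ v = 0 := by simpa [s.z, a] using congrArg (fun f : Dual F V => f v) hζ
    have nz : ¬(ρ u = 0 ∧ ρ v = 0) := fun c => by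
      obtain ⟨α, β, rfl⟩ := Submodule.mem_span_pair.1 hx
      simp [c.1, c.2] at hρ
    have y0 : y ≠ 0 := fun c => by
      rw [c] at e
      exact z0 (by simpa using e.symm)
    have f1 : φ y = 0 → ρ u = 0 := hs.z t r φ0 y0
    have f2 : ψ y = 0 → ρ v = 0 := hs.z s r ψ0 y0
    have g1 : ρ u = 0 → φ y = 0 := hs.z r t ρ0 u0
    have g2 : ρ v = 0 → ψ y = 0 := hs.z r s ρ0 v0
    generalize ρ u = a1 at *
    generalize ρ v = a2 at *
    generalize φ y = b1 at *
    generalize ψ y = b2 at *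
    subst e hζ
    have z5 : ζ z = 0 := by
      have := r.z
      simp only [map_add, map_smul, LinearMap.add_apply, LinearMap.smul_apply, smul_eq_mul, t.z, s.z,
        z1, z2, z3, z4, a, b] at this
      field_simp at this
      exact mul_left_cancel₀ i0 (by linear_combination this - m)
    have H := heis t s a b hi hτ z1 z2 z3 z4 z5 r
    by_cases ζ0 : ζ = 0
    · have r1 : Tr X z ((2 : F) • (a2 • φ + (a1 / i) • ψ)) :=
        ⟨by simp [z1, z2], H.congr fun x => by simp [ζ0]⟩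
      have e1 := hs.z t r1 φ0 z0 z1
      have e2 := hs.z s r1 ψ0 z0 z2
      simp [t.z, s.z, a, b, i0, two_ne 3] at e1 e2
      exact nz ⟨e1, e2⟩
    have key : ∀ α β γ δ : F, Tr X (α • u + β • v) (γ • φ + δ • ψ) →
        Tr X z (((α * a1 + β * a2) * (γ * b1 + δ * b2)) • ζ) := fun α β γ δ g => by
      have H' := heis t s a b hi hτ (α := b2 / i + (γ * b1 + δ * b2) * α)
        (β := b1 + (γ * b1 + δ * b2) * β) (γ := a2 - (α * a1 + β * a2) * γ)
        (δ := a1 / i - (α * a1 + β * a2) * δ) z1 z2 z3 z4 z5 (by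
          convert g.conj r using 1 <;>
          simp only [map_add, map_smul, LinearMap.add_apply, LinearMap.smul_apply, smul_eq_mul, t.z,
            s.z, z1, z2, z3, z4, a, b] <;> match_scalars <;> field_simp <;> ring)
      convert (heis_comm (by simp [z3, z4]) (by simp [z3, z4]) z5 (by simp [z1, z2]) (by simp [z1, z2])
        H H').neg using 1
      simp only [map_add, map_smul, LinearMap.add_apply, LinearMap.smul_apply, smul_eq_mul, t.z,
        s.z, a, b]
      match_scalars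
      field_simp
      linear_combination (3 * i * (α * a1 + β * a2) * (γ * b1 + δ * b2)) * h3
    have fin : ∀ k : F, k ≠ 0 → Tr X z (k • ζ) → ¬Tr X z ((i * k) • ζ) := fun k k0 r1 r2 =>
      hi' (h.ratio 3 r1 z0 (by simp [k0, ζ0]) (by rwa [smul_smul]))
    have q1 := key 1 0 1 0 (by simpa using t)
    have q2 := key 0 1 0 1 (by simpa using s)
    by_cases c : a2 = 0
    · have q3 := key 1 1 (-i) 1 (by convert t.conj s using 1 <;> simp only [a, b] <;> module)
      have a1' : a1 ≠ 0 := fun e => nz ⟨e, c⟩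
      refine fin _ (by simpa [a1'] using mt f1 a1') q1 ?_
      convert q3.neg using 1
      rw [c, g2 c]; module
    · have q3 := key 1 i 1 (-1) (by convert s.conj t using 1 <;> simp only [a, b] <;> module)
      have q4 := key 1 (-i) 1 1 (by
        convert s.neg.conj t using 1 <;> simp only [a, b, LinearMap.neg_apply] <;> module)
      refine fin _ (by simpa [c] using mt f2 c) q2 ?_
      convert ((q3.add q4).sub q1).sub q1 using 1
      match_scalars
      linear_combination (i * a2 * b2) * h3) with e | e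
  · exact u0 ((Submodule.mem_bot F).1 (e ▸ Submodule.subset_span (by simp)))
  · classical
    have := finrank_span_le_card (R := F) ({u, v} : Set V)
    have h4 : ({u, v} : Set V).toFinset.card ≤ 2 := by simpa using Finset.card_le_two
    rw [e, finrank_top, h.dim] at this
    omega

end three

theorem Hy0.kap_odd (h : Hy0 X) (p : ℕ) [Fact p.Prime] [CharP F p] (hp : p ≠ 2) (hs : Sym X) :
    Kap X := fun u φ v ψ t s => by
  by_contra c
  obtain ⟨rfl, e1, e2, τ, t1, t2, t3, t4⟩ := ((h.kappa p t s).resolve_left c).resolve_left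
    fun e => hp e.1
  have a : φ v ≠ 0 := fun e => c (by simp [e])
  refine no_sl25 (i := φ v * ψ u) t (s.scale a) (by simp [a]) (by simp) ?_
    ⟨τ, t1, t2, by simp [t3], fun x x1 x2 => t4 x x1 (by simpa [a] using x2)⟩ hs
    (fun u φ v ψ t s => ?_) h c
  · have : (φ v * ψ u - 1) * ((φ v * ψ u + 1) * ((φ v * ψ u) ^ 2 + 1)) = 0 := by
      linear_combination e1
    simp only [mul_eq_zero, sub_eq_zero, add_eq_zero_iff_eq_neg] at this
    rcases this with e | e | e
    · exact (c (e ▸ one_mem _)).elim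
    · exact (c (e ▸ neg_mem (one_mem _))).elim
    · exact e
  · rcases h.kappa 3 t s with e | e | e
    · linear_combination ((φ v * ψ u) ^ 2 + 1) * e2 _ e
    · exact absurd e.1 hp
    · linear_combination (φ v * ψ u) * e.2.1

end Cfsg.Agent.L4.T
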