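import Cfsg.Agent.L4.T5
import Cfsg.Agent.ZS.Main

/-!
Characteristic two, root groups of order two: commuting pairs and triples on a line.
-/

set_option autoImplicit false
set_option linter.unusedSectionVars false

namespace Cfsg.Agent.L4.T

open Module H7

variable {F V : Type*} [Field F] [AddCommGroup V] [Module F V]
  {X : Subgroup (V ≃ₗ[F] V)} {u v w x u1 u2 : V} {φ ψ χ φ1 φ2 : Dual F V} [Finite V] [Finite F]

/-- a commuting pair of different transvections -/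
structure CP (X : Subgroup (V ≃ₗ[F] V)) (u1 : V) (φ1 : Dual F V) (u2 : V) (φ2 : Dual F V) : Prop where
  t1 : Tr X u1 φ1
  t2 : Tr X u2 φ2
  z1 : φ1 u2 = 0
  z2 : φ2 u1 = 0
  li : ∀ a b : F, a • u1 + b • u2 = 0 → a = 0 ∧ b = 0
  li' : ∀ a b : F, a • φ1 + b • φ2 = 0 → a = 0 ∧ b = 0

namespace CP

variable (c : CP X u1 φ1 u2 φ2)
include c

theorem symm : CP X u2 φ2 u1 φ1 :=
  ⟨c.t2, c.t1, c.z2, c.z1, fun a b e => (c.li b a (by rwa [add_comm])).symm,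
    fun a b e => (c.li' b a (by rwa [add_comm])).symm⟩

theorem u0 : u1 ≠ 0 := fun e => one_ne_zero (c.li 1 0 (by simp [e])).1

theorem φ0 : φ1 ≠ 0 := fun e => one_ne_zero (c.li' 1 0 (by simp [e])).1

theorem ex_y : ∃ y, φ1 y = 1 ∧ φ2 y = 0 := by
  obtain ⟨x, h1, h2⟩ : ∃ x, φ2 x = 0 ∧ φ1 x ≠ 0 := by
    by_contra e
    push Not at e
    obtain ⟨a, e⟩ := prop_of c.symm.φ0 e
    exact one_ne_zero (c.li' 1 (-a) (by rw [e]; module)).1
  exact ⟨(φ1 x)⁻¹ • x, by simp [h2], by simp [h1]⟩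

theorem ex_e : ∃ e : Dual F V, e u1 = 1 ∧ e u2 = 0 := by
  obtain ⟨e, h1, h2⟩ := exists_dual_one (U := F ∙ u2) (v := u1) fun e => by
    obtain ⟨a, e⟩ := Submodule.mem_span_singleton.1 e
    exact one_ne_zero (c.li 1 (-a) (by rw [← e]; module)).1
  exact ⟨e, h1, h2 _ (Submodule.mem_span_singleton_self _)⟩

theorem rank : finrank F (Submodule.span F {u1, u2}) = 2 := by
  have := finrank_span_eq_card (LinearIndependent.pair_iff.2 c.li)
  rwa [Matrix.range_cons_cons_empty] at this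

theorem mem (h : Hy0 X) {z : V} (h1 : φ1 z = 0) (h2 : φ2 z = 0) : ∃ a b : F, z = a • u1 + b • u2 := by
  have := h.fd
  obtain ⟨y, y1, y2⟩ := c.symm.ex_y
  have e := Submodule.eq_of_le_of_finrank_le (show Submodule.span F {u1, u2} ≤
    LinearMap.ker φ1 ⊓ LinearMap.ker φ2 from Submodule.span_le.2 (Set.pair_subset ⟨c.t1.z, c.z2⟩
      ⟨c.z1, c.t2.z⟩)) (c.rank ▸ h.rank_two c.φ0 y2 (by simp [y1]))
  obtain ⟨a, b, e⟩ := Submodule.mem_span_pair.1 (e.ge ⟨h1, h2⟩)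
  exact ⟨a, b, e.symm⟩

theorem mem' (h : Hy0 X) {ζ : Dual F V} (h1 : ζ u1 = 0) (h2 : ζ u2 = 0) :
    ∃ a b : F, ζ = a • φ1 + b • φ2 := by
  obtain ⟨y, y1, y2⟩ := c.ex_y
  obtain ⟨y', y1', y2'⟩ := c.symm.ex_y
  refine ⟨ζ y, ζ y', LinearMap.ext fun x => ?_⟩
  obtain ⟨a, b, e⟩ := c.mem h (z := x - φ1 x • y - φ2 x • y') (by simp [y1, y2']) (by simp [y2, y1'])
  have := congrArg ζ e
  simp only [map_sub, map_add, map_smul, h1, h2, smul_eq_mul] at this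
  simp only [LinearMap.add_apply, LinearMap.smul_apply, smul_eq_mul]
  linear_combination this

theorem third {α β γ δ : F} (t : Tr X (α • u1 + β • u2) (γ • φ1 + δ • φ2)) (β0 : β ≠ 0)
    (δ0 : δ ≠ 0) : CP X u1 φ1 (α • u1 + β • u2) (γ • φ1 + δ • φ2) :=
  ⟨c.t1, t, by simp [c.t1.z, c.z1], by simp [c.t1.z, c.z2], fun a b e => by
    have := c.li (a + b * α) (b * β) (by rw [← e]; module)
    have b0 : b = 0 := by simpa [β0] using this.2
    simpa [b0] using this.1, fun a b e => by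
    have := c.li' (a + b * γ) (b * δ) (by rw [← e]; module)
    have b0 : b = 0 := by simpa [δ0] using this.2
    simpa [b0] using this.1⟩

theorem scale {a b : F} (a0 : a ≠ 0) (b0 : b ≠ 0) : CP X (a • u1) (a⁻¹ • φ1) (b • u2) (b⁻¹ • φ2) :=
  ⟨c.t1.scale' a0, c.t2.scale' b0, by simp [c.z1], by simp [c.z2], fun x y e => by
    simpa [a0, b0] using c.li (x * a) (y * b) (by simpa [mul_smul] using e), fun x y e => by
    simpa [a0, b0] using c.li' (x * a⁻¹) (y * b⁻¹) (by simpa [mul_smul] using e)⟩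

variable [CharP F 2]

theorem km (s : Tr X w ψ) (e : ψ u1 * φ1 w ≠ ψ u2 * φ2 w) :
    Tr X (ψ u2 • u1 + ψ u1 • u2) ((ψ u1 * φ1 w + ψ u2 * φ2 w)⁻¹ • (φ2 w • φ1 + φ1 w • φ2)) := by
  have k0 : ψ u1 * φ1 w + ψ u2 * φ2 w ≠ 0 := by grind
  have m := mid (c.t1.conj s) (c.t2.conj s) (k := ψ u1 * φ1 w + ψ u2 * φ2 w) (by
    simp only [map_add, map_smul, LinearMap.sub_apply, LinearMap.smul_apply, smul_eq_mul, s.z, c.z1,
      c.z2]
    grind) k0
  refine ⟨by simp [c.z1, c.z2, c.t1.z, c.t2.z],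
    (c.t1.tv.has.comp (c.t2.tv.has.comp m.tv.has)).congr fun x => ?_⟩
  simp only [map_add, map_smul, LinearMap.sub_apply, LinearMap.add_apply, LinearMap.smul_apply,
    smul_eq_mul, s.z, c.z1, c.z2, c.t1.z, c.t2.z]
  match_scalars <;> grind

theorem m_comm (t3 : Tr X (u1 + u2) (φ1 + φ2)) (s : Tr X w ψ) (a2 : ψ u2 ≠ 0) (b2 : φ2 w ≠ 0)
    (e1 : ψ u1 * φ1 w = ψ u2 * φ2 w) (e2 : ψ u1 * φ1 w = (ψ u1 + ψ u2) * (φ1 w + φ2 w)) :
    Tr X (ψ u2 • u1 + ψ u1 • u2) (φ2 w • φ1 + φ1 w • φ2) := by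
  obtain ⟨r, h1, h2, h3⟩ : ∃ r : F, φ1 w = r * φ2 w ∧ ψ u2 = ψ u1 * r ∧ r ^ 2 + r + 1 = 0 :=
    ⟨φ1 w / φ2 w, by grind, by grind, by grind⟩
  have n12 : Has X fun x => x + φ1 x • u1 + φ2 x • u2 :=
    (c.t1.tv.has.comp c.t2.tv.has).congr fun x => by simp [c.z1]; abel
  have n13 : Has X fun x => x + φ2 x • u1 + (φ1 x + φ2 x) • u2 :=
    (c.t1.tv.has.comp t3.tv.has).congr fun x => by
      simp only [map_add, map_smul, LinearMap.add_apply, smul_eq_mul, c.z1, c.t1.z]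
      match_scalars <;> grind
  have n14 : Has X fun x => x + (φ2 x + ψ x * φ2 w) • u1 +
      (φ1 x + φ2 x + ψ x * (r + 1) * φ2 w) • u2 + (ψ u1 * (r * φ1 x + (r + 1) * φ2 x)) • w :=
    (s.tv.has.comp (n13.comp s.tv.has)).congr fun x => by
      simp only [map_add, map_smul, smul_eq_mul, s.z, h1, h2]
      clear * - h3
      match_scalars <;> grind
  have n15 : Tr X (u1 + (r + 1) • u2) ((ψ u1 * r * φ2 w) • (φ1 + r • φ2)) := ⟨by simp [c.z1, c.z2, c.t1.z, c.t2.z],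
    ((n12.comp n14).comp (n12.comp n14)).congr fun x => by
      simp only [map_add, map_smul, LinearMap.add_apply, LinearMap.smul_apply,
        smul_eq_mul, s.z, c.z1, c.z2, c.t1.z, c.t2.z, h1, h2]
      clear * - h3
      match_scalars <;> grind⟩
  refine n15.cast (fun x => ?_) (by simp [c.z1, c.z2, c.t1.z, c.t2.z])
  simp only [LinearMap.add_apply, LinearMap.smul_apply, smul_eq_mul]
  match_scalars <;> grind

end CP

/-- the hypotheses of the small case -/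
structure H2 (X : Subgroup (V ≃ₗ[F] V)) : Prop extends Hy X where
  sym : Sym X
  two' : ∀ l ∈ LL X, l = 0 ∨ l = 1

namespace H2

variable [CharP F 2] (h : H2 X)
include h

theorem one_ax (t : Tr X u φ) (t' : Tr X u χ) (u0 : u ≠ 0) (φ0 : φ ≠ 0) (χ0 : χ ≠ 0) : χ = φ := by
  obtain ⟨c, hc, rfl⟩ := h.ax_one 2 h.sym t t' u0 φ0
  rcases h.two' c hc with rfl | rfl <;> simp at χ0 ⊢

theorem one_ce (t : Tr X u φ) (t' : Tr X v φ) (u0 : u ≠ 0) (φ0 : φ ≠ 0) (v0 : v ≠ 0) : v = u := by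
  obtain ⟨c, hc, rfl⟩ := h.ce_one 2 h.sym t t' u0 φ0
  rcases h.two' c hc with rfl | rfl <;> simp at v0 ⊢

theorem cp_of (t : Tr X u φ) (s : Tr X v ψ) (u0 : u ≠ 0) (φ0 : φ ≠ 0) (v0 : v ≠ 0) (ψ0 : ψ ≠ 0)
    (z : φ v = 0) (e : ∃ x, φ x • u ≠ ψ x • v) : CP X u φ v ψ := by
  obtain ⟨x, e⟩ := e
  refine ⟨t, s, z, h.sym.z t s φ0 v0 z, fun a b e1 => ?_, fun a b e1 => ?_⟩
  · by_cases b0 : b = 0
    · simpa [b0, u0] using e1
    have e2 : v = (-(b⁻¹ * a)) • u := by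
      rw [← inv_smul_smul₀ b0 v, eq_neg_of_add_eq_zero_right e1]; module
    have c0 : -(b⁻¹ * a) ≠ 0 := fun c => v0 (by rw [e2, c, zero_smul])
    generalize -(b⁻¹ * a) = c at *
    subst e2
    exact (e (by rw [← h.one_ax t s.smul' u0 φ0 (by simp [c0, ψ0])]; simp [smul_smul, mul_comm])).elim
  · by_cases b0 : b = 0
    · simpa [b0, φ0] using e1
    have e2 : ψ = (-(b⁻¹ * a)) • φ := by
      rw [← inv_smul_smul₀ b0 ψ, eq_neg_of_add_eq_zero_right e1]; module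
    have c0 : -(b⁻¹ * a) ≠ 0 := fun c => ψ0 (by rw [e2, c, zero_smul])
    generalize -(b⁻¹ * a) = c at *
    subst e2
    exact (e (by rw [← h.one_ce t s.smul u0 φ0 (by simp [c0, v0])]; simp [smul_smul, mul_comm])).elim

theorem ex_cp (t : Tr X u φ) (u0 : u ≠ 0) (φ0 : φ ≠ 0) : ∃ v ψ, CP X u φ v ψ := by
  by_contra hc
  push Not at hc
  obtain ⟨a, ha, ea⟩ := t.tv
  have a2 : a * a = 1 := sq_one t.z ea
  obtain ⟨y, hy⟩ := ex_ne φ0
  have a1 : a ≠ 1 := fun e => by simpa [e, hy, u0] using ea y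
  have cj : ∀ (g : V ≃ₗ[F] V) x, (g * a * g⁻¹) x = x + φ (g.symm x) • g u := fun g x => by simp [ea]
  obtain ⟨O, hO, odd, hm⟩ := ZS.zstar (⟨a, ha⟩ : X) ⟨fun e => a1 (congrArg Subtype.val e), Subtype.ext a2⟩
    fun g e => by
      have s := t.act g.2
      have v0 : g.1 u ≠ 0 := by simpa using u0
      have ψ0 : φ ∘ₗ (g.1.symm : V →ₗ[F] V) ≠ 0 := ne_of_ap (x := g.1 y) (by simpa using hy)
      have z : φ (g.1 u) = 0 := by
        have := congrArg (fun f : X => φ (f.1 y)) e.eq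
        change φ (a ((g.1 * a * g.1⁻¹) y)) = φ ((g.1 * a * g.1⁻¹) (a y)) at this
        simp only [cj, ea, map_add, map_smul, t.z, smul_eq_mul] at this
        have e1 : φ (g.1.symm u) * φ (g.1 u) = 0 := mul_left_cancel₀ hy (by linear_combination -this)
        exact (mul_eq_zero.1 e1).elim (fun e => h.sym.z s t ψ0 u0 e) id
      refine Subtype.ext (LinearEquiv.ext fun x => ?_)
      by_contra e1
      exact hc _ _ (h.cp_of t s u0 φ0 v0 ψ0 z ⟨x, fun e2 => e1 (by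
        simp only [Subgroup.coe_mul, InvMemClass.coe_inv, cj, ea, e2]; rfl)⟩)
  by_cases sc : ∀ n ∈ O, ∃ c : F, ∀ x, (n : V ≃ₗ[F] V) x = c • x
  · obtain ⟨g, hg, e⟩ := h.orb φ0 u0
    obtain ⟨c, e1⟩ := sc _ (hm ⟨g, hg⟩)
    simp only [Subgroup.coe_mul, InvMemClass.coe_inv, LinearEquiv.mul_apply _ a, cj, ea] at e1
    obtain ⟨z, z0, z1, z2⟩ := h.two φ (φ ∘ₗ (g.symm : V →ₗ[F] V))
    have c1 : c = 1 := smul_left_injective F z0 (by simpa [z1, show φ (g.symm z) = 0 from z2] using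
      (e1 z).symm)
    have e2 := e1 (g u)
    have e3 := congrArg φ e2
    simp [c1, t.z, e] at e2 e3
    simp [e3, e, u0] at e2
  · push Not at sc
    obtain ⟨n, hn, e⟩ := sc
    obtain ⟨b, hb, e1⟩ := h.gen (O.map X.subtype) n n.2 e
      (fun g hg => ⟨_, hO.conj_mem n hn ⟨g, hg⟩, rfl⟩) ha
    have e2 : orderOf (⟨b, hb⟩ : O) = 2 := orderOf_eq_prime
      (Subtype.ext (Subtype.ext (by simpa [sq, ← e1] using a2)))
      fun e => a1 (by rw [← e1, show b = 1 from congrArg Subtype.val e]; rfl)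
    exact (Nat.not_even_iff_odd.2 odd) (even_iff_two_dvd.2 (e2 ▸ orderOf_dvd_natCard _))

theorem off (c : CP X u1 φ1 u2 φ2) : ∃ w ψ, Tr X w ψ ∧ ψ u1 = 0 ∧ φ1 w = 0 ∧ ψ u2 ≠ 0 ∧ φ2 w ≠ 0 := by
  by_contra hc
  refine h.lines' 2 (fun u => Submodule.span F {w | Ce X w ∧ w ∈ ell X u}) (fun u g hg => ?_)
    (fun u a a0 => by simp only [ell_smul a0]) (fun u hu => Submodule.subset_span ⟨hu, fun χ t => t.z⟩)
    (fun u v hu hv => ?_) (u := u1) ⟨c.u0, φ1, c.φ0, c.t1⟩ ?_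
  · rw [Submodule.map_span]
    congr 1
    ext x
    obtain ⟨x, rfl⟩ := g.surjective x
    simp only [ell_act hg, Set.mem_setOf_eq, Submodule.mem_map_equiv, LinearEquiv.symm_apply_apply,
      LinearEquiv.coe_coe, g.injective.mem_set_image]
    exact and_congr_left fun _ => ⟨fun e => by simpa using e.act (inv_mem hg), fun e => e.act hg⟩
  · by_cases e1 : v ∈ ell X u
    · exact .inl (Submodule.subset_span ⟨hv, e1⟩)
    by_cases e2 : u ∈ ell X v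
    · exact .inr (.inl (Submodule.subset_span ⟨hu, e2⟩))
    simp only [mem_ell, not_forall] at e1 e2
    obtain ⟨φ, t, a⟩ := e1
    obtain ⟨ψ, s, b⟩ := e2
    exact .inr (.inr ⟨φ, ψ, t, s, a, b, fun x hx =>
      (show _ ≤ ell X u from Submodule.span_le.2 fun w hw => hw.2) hx φ t⟩)
  · suffices e : Submodule.span F {w | Ce X w ∧ w ∈ ell X u1} = Submodule.span F {u1, u2} by
      rw [e, c.rank]
    have k : ∀ w, φ1 w = 0 → w ∈ ell X u1 := fun w e χ t => by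
      obtain ⟨a, -, rfl⟩ := h.ax_one 2 h.sym c.t1 t c.u0 c.φ0
      simp [e]
    refine le_antisymm (Submodule.span_le.2 ?_) (Submodule.span_mono (Set.pair_subset
      ⟨⟨c.u0, φ1, c.φ0, c.t1⟩, k _ c.t1.z⟩ ⟨⟨c.symm.u0, φ2, c.symm.φ0, c.t2⟩, k _ c.z1⟩))
    rintro w ⟨⟨w0, ψ, ψ0, s⟩, e⟩
    have e1 := e φ1 c.t1
    obtain ⟨a, b, e⟩ := c.mem h.toHy0 e1 (by_contra fun e2 => hc ⟨w, ψ, s, h.sym.z c.t1 s c.φ0 w0 e1,
      e1, fun e3 => e2 (h.sym.z s c.t2 ψ0 c.symm.u0 e3), e2⟩)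
    exact Submodule.mem_span_pair.2 ⟨a, b, e.symm⟩

theorem nonaff (c : CP X u1 φ1 u2 φ2) {α β γ δ : F} (t : Tr X (α • u1 + β • u2) (γ • φ1 + δ • φ2))
    (α0 : α ≠ 0) (γ0 : γ ≠ 0) (e : α * γ + β * δ ≠ 1) : β * δ = 1 := by
  by_contra e1
  obtain ⟨w, ψ, s, a1, b1, a2, b2⟩ := h.off c
  have := (c.symm.third (α := β) (β := α) (γ := δ) (δ := γ) (by rwa [add_comm, add_comm (δ • φ2)])
    α0 γ0).km s (by simp [a1, b1]; grind)
  have k0 : 1 + β * δ ≠ 0 := by grind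
  have r : Tr X u1 ((α * γ / (1 + β * δ)) • φ1) := by
    refine this.cast (fun x => ?_) (by simp [c.t1.z])
    simp only [map_add, map_smul, LinearMap.add_apply, LinearMap.smul_apply, smul_eq_mul, a1, b1]
    match_scalars <;> grind
  have := h.two' _ (h.ratio 2 c.t1 c.u0 c.φ0 r)
  grind

theorem deg (c : CP X u1 φ1 u2 φ2) {α β γ δ : F} (t : Tr X (α • u1 + β • u2) (γ • φ1 + δ • φ2))
    (h1 : α • u1 + β • u2 ≠ 0) (h2 : γ • φ1 + δ • φ2 ≠ 0) (e : β = 0 ∨ δ = 0) :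
    β = 0 ∧ δ = 0 ∧ α * γ = 1 := by
  rcases e with rfl | rfl
  · rw [zero_smul, add_zero] at t h1
    have α0 : α ≠ 0 := fun e => h1 (by simp [e])
    have := c.li' (α * γ - 1) (α * δ) (by
      linear_combination (norm := module) h.one_ax c.t1 t.smul' c.u0 c.φ0 (smul_ne_zero α0 h2))
    grind
  · rw [zero_smul, add_zero] at t h2
    have γ0 : γ ≠ 0 := fun e => h2 (by simp [e])
    have := c.li (α * γ - 1) (β * γ) (by
      linear_combination (norm := module) h.one_ce c.t1 t.smul c.u0 c.φ0 (smul_ne_zero γ0 h1))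
    grind

theorem tri (c : CP X u1 φ1 u2 φ2) {α β γ δ : F} (t : Tr X (α • u1 + β • u2) (γ • φ1 + δ • φ2))
    (h1 : α • u1 + β • u2 ≠ 0) (h2 : γ • φ1 + δ • φ2 ≠ 0) :
    α * γ + β * δ = 1 ∨ (α * γ = 1 ∧ β * δ = 1) := by
  have t' : Tr X (β • u2 + α • u1) (δ • φ2 + γ • φ1) := by rwa [add_comm, add_comm (δ • φ2)]
  by_cases e1 : β = 0 ∨ δ = 0
  · have := h.deg c t h1 h2 e1
    grind
  by_cases e2 : α = 0 ∨ γ = 0
  · have := h.deg c.symm t' (by rwa [add_comm]) (by rwa [add_comm]) e2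
    grind
  push Not at e1 e2
  refine or_iff_not_imp_left.2 fun e => ⟨h.nonaff c.symm t' e1.1 e1.2 (by rwa [add_comm]),
    h.nonaff c t e2.1 e2.2 e⟩

section alpha
variable (c : CP X u1 φ1 u2 φ2) (t3 : Tr X (u1 + u2) (φ1 + φ2))
include c t3

theorem k_one (s : Tr X w ψ) (ψ0 : ψ ≠ 0) (a2 : ψ u2 = 0) (b1 : φ1 w ≠ 0) : ψ u1 * φ1 w = 1 := by
  have w0 := ne_of_ap' b1
  have b2 : φ2 w = 0 := h.sym.z s c.t2 ψ0 c.symm.u0 a2
  have a1 : ψ u1 ≠ 0 := fun e => b1 (h.sym.z s c.t1 ψ0 c.u0 e)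
  obtain ⟨y, hy⟩ := ex_ne ψ0
  have c' := h.cp_of s c.t2 w0 ψ0 c.symm.u0 c.symm.φ0 a2 ⟨y, fun e => by
    simpa [hy, b1, c.z1] using congrArg φ1 e⟩
  rw [mul_comm]
  refine h.nonaff c' (α := 1) (γ := 1) ?_ one_ne_zero one_ne_zero (by simp [a1, b1])
  convert t3.conj (c.t1.conj s) using 1 <;>
    simp only [map_add, map_smul, LinearMap.sub_apply, LinearMap.add_apply, LinearMap.smul_apply,
      smul_eq_mul, c.z1, c.z2, c.t1.z, a2, b2] <;> match_scalars <;> grind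

theorem propM (s : Tr X w ψ) (w0 : w ≠ 0) (a1 : ψ u1 ≠ 0) (a2 : ψ u2 ≠ 0) : ∃ k : F, k ≠ 0 ∧
    Tr X (ψ u2 • u1 + ψ u1 • u2) (k • (φ2 w • φ1 + φ1 w • φ2)) := by
  by_cases e1 : ψ u1 * φ1 w = ψ u2 * φ2 w
  swap
  · exact ⟨_, inv_ne_zero (by grind), c.km s e1⟩
  have b2 : φ2 w ≠ 0 := fun e => a2 (h.sym.z c.t2 s c.symm.φ0 w0 e)
  by_cases e2 : ψ u1 * φ1 w = (ψ u1 + ψ u2) * (φ1 w + φ2 w)
  · exact ⟨1, one_ne_zero, by simpa using c.m_comm t3 s a2 b2 e1 e2⟩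
  have := (c.third (α := 1) (β := 1) (γ := 1) (δ := 1) (by simpa using t3) one_ne_zero one_ne_zero).km s
    (by simpa using e2)
  refine ⟨_, inv_ne_zero (show ψ u1 * φ1 w + (ψ u1 + ψ u2) * (φ1 w + φ2 w) ≠ 0 by grind), ?_⟩
  convert this using 1 <;>
    simp only [map_add, map_smul, LinearMap.add_apply, LinearMap.smul_apply,
      smul_eq_mul, one_mul] <;> match_scalars <;> grind

theorem kap1 (s : Tr X w ψ) : ψ u1 * φ1 w = 0 ∨ ψ u1 * φ1 w = 1 := by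
  by_cases a1 : ψ u1 = 0
  · simp [a1]
  by_cases b1 : φ1 w = 0
  · simp [b1]
  have ψ0 := ne_of_ap a1
  have w0 := ne_of_ap' b1
  by_cases a2 : ψ u2 = 0
  · exact .inr (h.k_one c t3 s ψ0 a2 b1)
  have b2 : φ2 w ≠ 0 := fun e => a2 (h.sym.z c.t2 s c.symm.φ0 w0 e)
  obtain ⟨k, k0, m⟩ := h.propM c t3 s w0 a1 a2
  rw [smul_add, smul_smul, smul_smul] at m
  have n1 : ψ u2 • u1 + ψ u1 • u2 ≠ 0 := fun e => a2 (c.li _ _ e).1
  have n2 : (k * φ2 w) • φ1 + (k * φ1 w) • φ2 ≠ 0 := fun e => mul_ne_zero k0 b2 (c.li' _ _ e).1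
  have q1 := h.tri c m n1 n2
  have e1 : ψ u2 • u1 + ψ u1 • u2 = (ψ u1 + ψ u2) • u1 + ψ u1 • ((1 : F) • u1 + (1 : F) • u2) := by
    match_scalars <;> grind
  have e2 : (k * φ2 w) • φ1 + (k * φ1 w) • φ2 =
      (k * (φ1 w + φ2 w)) • φ1 + (k * φ1 w) • ((1 : F) • φ1 + (1 : F) • φ2) := by
    match_scalars <;> grind
  have q2 := h.tri (c.third (by simpa using t3) one_ne_zero one_ne_zero) (e1 ▸ e2 ▸ m) (e1 ▸ n1) (e2 ▸ n2)
  have e3 : ψ u2 • u1 + ψ u1 • u2 = (ψ u1 + ψ u2) • u2 + ψ u2 • ((1 : F) • u2 + (1 : F) • u1) := by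
    match_scalars <;> grind
  have e4 : (k * φ2 w) • φ1 + (k * φ1 w) • φ2 =
      (k * (φ1 w + φ2 w)) • φ2 + (k * φ2 w) • ((1 : F) • φ2 + (1 : F) • φ1) := by
    match_scalars <;> grind
  have q3 := h.tri (c.symm.third (by simpa [add_comm] using t3) one_ne_zero one_ne_zero) (e3 ▸ e4 ▸ m)
    (e3 ▸ n1) (e4 ▸ n2)
  obtain ⟨A, B⟩ : ψ u2 * (k * φ2 w) = 1 ∧ ψ u1 * (k * φ1 w) = 1 := by
    have A0 := mul_ne_zero a2 (mul_ne_zero k0 b2)
    have B0 := mul_ne_zero a1 (mul_ne_zero k0 b1)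
    generalize ψ u2 * (k * φ2 w) = A at *
    generalize ψ u1 * (k * φ1 w) = B at *
    generalize (ψ u1 + ψ u2) * (k * (φ1 w + φ2 w)) = C at *
    clear * - q1 q2 q3 A0 B0
    grind
  have c' := (c.third m a1 (mul_ne_zero k0 b1)).scale a2 one_ne_zero
  have := h.k_one c' (by
    convert c.t2.scale' a1 using 1 <;> match_scalars <;> grind) s ψ0 (by simp; grind) (by simp [a2, b1])
  refine .inr ?_
  rw [← this]
  simp only [map_smul, LinearMap.smul_apply, smul_eq_mul]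
  field_simp

theorem kap : Kap X := fun u φ v ψ t s => by
  by_cases a : φ v = 0
  · simp [a]
  by_cases b : ψ u = 0
  · simp [b]
  obtain ⟨g, hg, k, k', k0, k1, e1, e2⟩ := h.flag 2 t (ne_of_ap' b) (ne_of_ap a) c.t1 c.u0 c.φ0
  have r := (t.act' hg (ψ := k'⁻¹ • φ1) fun x => by simp [e2, k1])
  rw [e1] at r
  have e3 := h.one_ax c.t1 r.smul' c.u0 c.φ0 (by simp [k0, k1, c.φ0])
  have e4 : k * k'⁻¹ = 1 := smul_left_injective F c.φ0 (by simpa [smul_smul] using e3)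
  have := h.kap1 c t3 (s.act hg)
  rw [e2, show u1 = k⁻¹ • g u by rw [e1, inv_smul_smul₀ k0]] at this
  simp only [map_smul, LinearMap.comp_apply, LinearEquiv.coe_coe, LinearEquiv.symm_apply_apply,
    smul_eq_mul] at this
  rw [show k⁻¹ * ψ u * (k' * φ v) = φ v * ψ u by grind] at this
  rcases this with e | e <;> rw [e]
  · exact zero_mem _
  · exact one_mem _

end alpha

end H2

end Cfsg.Agent.L4.T
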