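import Cfsg.Agent.L4.T6

/-!
Characteristic two, root groups of order two: the affine case dies by transfer.
-/

set_option autoImplicit false
set_option linter.unusedSectionVars false

namespace Cfsg.Agent.L4.T

open Module H7 Sp4E.Grp

variable {F V : Type*} [Field F] [AddCommGroup V] [Module F V]
  {X S : Subgroup (V ≃ₗ[F] V)} {u v w x u1 u2 : V} {φ ψ χ φ1 φ2 : Dual F V} [Finite V] [Finite F]
  [CharP F 2]

theorem Tr.mono (t : Tr S u φ) (h : S ≤ X) : Tr X u φ := ⟨t.z, t.tv.has.mono h⟩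

theorem perp_two (hS : ∀ x ∈ S, Two x) (t : Tr S u φ) (s : Tr S v ψ) : φ v * ψ u = 0 := by
  by_contra e
  have a := left_ne_zero_of_mul e
  have b := right_ne_zero_of_mul e
  obtain ⟨t', ht, et⟩ := t.tv
  obtain ⟨s', hs, es⟩ := s.tv
  have t2 := sq_one t.z et
  have s2 := sq_one s.z es
  obtain ⟨j, hj⟩ := (hS _ (mul_mem ht hs)).exists_inv fun e' => by
    have := congrArg (fun g : V ≃ₗ[F] V => ψ (g v)) e'
    simp [et, es, s.z, a, b] at this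
  have e1 := inv_conj_pow t2 (r := t' * s') (by
    rw [← mul_assoc, t2, one_mul, mul_inv_rev, inv_eq_of_mul_eq_one_right t2,
      inv_eq_of_mul_eq_one_right s2]) j
  have e2 : Commute ((t' * s') ^ j) t' := by
    rw [hj.inv_eq, ← eq_mul_inv_iff_mul_eq, inv_eq_of_mul_eq_one_right t2] at e1
    exact e1.symm
  have e3 : Commute ((t' * s') ^ j) s' := by
    simpa [← mul_assoc, t2] using e2.mul_right ((Commute.refl (t' * s')).pow_left j)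
  exact hj.1 (odd_pair t.z s.z a b et es hj.2 e2 e3 (fix_pow et es j))

theorem two_tr (li : ∀ a b : F, a • u1 + b • u2 = 0 → a = 0 ∧ b = 0) {g : V ≃ₗ[F] V} (hg : Two g)
    {a b c d : F} (e1 : g u1 = a • u1 + c • u2) (e2 : g u2 = b • u1 + d • u2) :
    a = d ∧ a * d + b * c = 1 := by
  obtain ⟨k, hk⟩ := hg
  induction k generalizing g a b c d with
  | zero =>
    rw [pow_zero, pow_one] at hk
    subst hk
    have k1 := li (a - 1) c (by linear_combination (norm := module) (show u1 = _ from e1).symm)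
    have k2 := li b (d - 1) (by linear_combination (norm := module) (show u2 = _ from e2).symm)
    grind
  | succ k ih =>
    have := ih (g := g * g) (a := a * a + b * c) (b := b * (a + d)) (c := c * (a + d))
      (d := b * c + d * d) (by simp only [LinearEquiv.mul_apply, e1, e2, map_add, map_smul]; module)
      (by simp only [LinearEquiv.mul_apply, e1, e2, map_add, map_smul]; module)
      (by rwa [← sq, ← pow_mul, ← pow_succ'])
    grind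

theorem eig_one {g : V ≃ₗ[F] V} (hg : Two g) (u0 : u ≠ 0) {c : F} (e : g u = c • u) : c = 1 := by
  obtain ⟨k, hk⟩ := hg
  induction k generalizing g c with
  | zero =>
    rw [pow_zero, pow_one] at hk
    subst hk
    exact (smul_left_injective F u0 ((one_smul F u).trans e)).symm
  | succ k ih =>
    exact eq_one_of_sq (ih (g := g * g) (by simp [e, smul_smul]) (by rwa [← sq, ← pow_mul, ← pow_succ']))

theorem no_hom (hp : commutator X = ⊤) (hS : IsSyl X S) (t : Tr S u φ) (u0 : u ≠ 0) (φ0 : φ ≠ 0)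
    (χ : (V ≃ₗ[F] V) → F) (h1 : ∀ g ∈ S, ∀ g' ∈ S, χ (g * g') = χ g + χ g')
    (h2 : ∀ g ∈ S, ∀ (v : V) (ψ : Dual F V), ψ v = 0 → v ≠ 0 → ψ ≠ 0 → (∀ x, g x = x + ψ x • v) →
      χ g = 1) : False := by
  letI := ZMod.algebra F 2
  obtain ⟨η, hη⟩ : ∃ η : Dual (ZMod 2) F, η 1 ≠ 0 := by
    simpa using mt (forall_dual_apply_eq_zero_iff (ZMod 2) (1 : F)).1 one_ne_zero
  let A : Subgroup (V ≃ₗ[F] V) := mkSub (fun g => g ∈ S ∧ η (χ g) = 0)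
    ⟨one_mem _, by
      have := h1 1 (one_mem _) 1 (one_mem _)
      rw [mul_one, left_eq_add] at this
      simp [this]⟩
    fun a b ha hb => ⟨mul_mem ha.1 hb.1, by rw [h1 _ ha.1 _ hb.1, map_add, ha.2, hb.2, add_zero]⟩
  obtain ⟨a, ha, ea⟩ := t.tv
  obtain ⟨g, hg, e⟩ := hS.thompson hp (A := A) (fun g hg => hg.1)
    (Subgroup.relIndex_eq_two_iff.2 ⟨_, ha, fun b hb => by
      show Xor (_ ∧ _) (_ ∧ _)
      simp only [hb, S.mul_mem hb ha, true_and, h1 _ hb _ ha, h2 a ha u φ t.z u0 φ0 ea, map_add]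
      revert hη
      generalize η 1 = s
      generalize η _ = t
      revert s t
      decide⟩) (hS.le ha) (sq_one t.z ea)
  obtain ⟨y, hy⟩ := ex_ne φ0
  exact hη (h2 _ e.1 (g.symm u) (φ ∘ₗ (g : V →ₗ[F] V)) (by simp [t.z]) (by simpa using u0)
    (ne_of_ap (x := g.symm y) (by simpa using hy)) (fun x => by simp [ea]) ▸ e.2)

theorem CP.act (c : CP X u1 φ1 u2 φ2) {g : V ≃ₗ[F] V} (hg : g ∈ X) :
    CP X (g u1) (φ1 ∘ₗ (g.symm : V →ₗ[F] V)) (g u2) (φ2 ∘ₗ (g.symm : V →ₗ[F] V)) :=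
  ⟨c.t1.act hg, c.t2.act hg, by simp [c.z1], by simp [c.z2],
    fun a b e => c.li a b (g.injective (by simpa using e)), fun a b e => c.li' a b
      (LinearMap.ext fun x => by simpa using congrArg (fun f : Dual F V => f (g x)) e)⟩

theorem CP.ex_syl (h : Hy0 X) (c : CP X u1 φ1 u2 φ2) (hS : IsSyl X S) :
    ∃ u1 φ1 u2 φ2, CP X u1 φ1 u2 φ2 ∧ Tr S u1 φ1 ∧ Tr S u2 φ2 := by
  obtain ⟨g, hg, e⟩ := hS.conj (T := mkSub (fun g => g ∈ X ∧ (∀ x, φ1 x = 0 → φ2 x = 0 → g x = x) ∧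
      ∀ x, φ1 (g x) = φ1 x ∧ φ2 (g x) = φ2 x) ⟨one_mem _, fun _ _ _ => rfl, fun _ => ⟨rfl, rfl⟩⟩
    fun a b ha hb => ⟨mul_mem ha.1 hb.1, fun x h1 h2 => by simp [ha.2.1 x h1 h2, hb.2.1 x h1 h2],
      fun x => by simp [ha.2.2, hb.2.2]⟩) (fun g hg => hg.1) fun g hg => ⟨1, LinearEquiv.ext fun x => by
    have := hg.2.1 (g x - x) (by simp [hg.2.2]) (by simp [hg.2.2])
    rw [map_sub] at this
    change g (g x) = x
    linear_combination (norm := module) this + add_self_V F (g x) - add_self_V F x⟩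
  obtain ⟨a, ha, ea⟩ := c.t1.tv
  obtain ⟨b, hb, eb⟩ := c.t2.tv
  exact ⟨_, _, _, _, c.act hg,
    ⟨(c.t1.act hg).z, _, e a ⟨ha, fun x h1 _ => by simp [ea, h1], fun x => by simp [ea, c.t1.z, c.z2]⟩,
      fun x => by simp [ea]⟩,
    ⟨(c.t2.act hg).z, _, e b ⟨hb, fun x _ h1 => by simp [eb, h1], fun x => by simp [eb, c.t2.z, c.z1]⟩,
      fun x => by simp [eb]⟩⟩

/-- all triples on a line are affine -/
def Aff (X : Subgroup (V ≃ₗ[F] V)) : Prop :=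
  ∀ u1 φ1 u2 φ2, CP X u1 φ1 u2 φ2 → ∀ α β γ δ : F, Tr X (α • u1 + β • u2) (γ • φ1 + δ • φ2) →
    α • u1 + β • u2 ≠ 0 → γ • φ1 + δ • φ2 ≠ 0 → α * γ + β * δ = 1

namespace H2

variable (h : H2 X)
include h

theorem perp (hS : IsSyl X S) (t : Tr S u φ) (s : Tr S v ψ) (u0 : u ≠ 0) (φ0 : φ ≠ 0) (v0 : v ≠ 0)
    (ψ0 : ψ ≠ 0) : φ v = 0 :=
  (mul_eq_zero.1 (perp_two hS.two t s)).elim id (h.sym.z (s.mono hS.le) (t.mono hS.le) ψ0 u0)

theorem coord (hS : IsSyl X S) (c : CP X u1 φ1 u2 φ2) (t1 : Tr S u1 φ1) (t2 : Tr S u2 φ2)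
    (s : Tr S v ψ) (v0 : v ≠ 0) (ψ0 : ψ ≠ 0) :
    ∃ α β γ δ : F, v = α • u1 + β • u2 ∧ ψ = γ • φ1 + δ • φ2 := by
  obtain ⟨α, β, e⟩ := c.mem h.toHy0 (h.perp hS t1 s c.u0 c.φ0 v0 ψ0)
    (h.perp hS t2 s c.symm.u0 c.symm.φ0 v0 ψ0)
  obtain ⟨γ, δ, e'⟩ := c.mem' h.toHy0 (h.perp hS s t1 v0 ψ0 c.u0 c.φ0)
    (h.perp hS s t2 v0 ψ0 c.symm.u0 c.symm.φ0)
  exact ⟨α, β, γ, δ, e, e'⟩

theorem aff3 (ha : Aff X) (c : CP X u1 φ1 u2 φ2) {α β γ δ α' β' γ' δ' : F}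
    (t : Tr X (α • u1 + β • u2) (γ • φ1 + δ • φ2)) (h1 : α • u1 + β • u2 ≠ 0)
    (h2 : γ • φ1 + δ • φ2 ≠ 0) (t' : Tr X (α' • u1 + β' • u2) (γ' • φ1 + δ' • φ2))
    (h1' : α' • u1 + β' • u2 ≠ 0) (h2' : γ' • φ1 + δ' • φ2 ≠ 0) :
    β * δ + β' * δ' + (α * β' + β * α') * (γ * δ' + δ * γ') = 0 := by
  by_cases e : β = 0 ∨ δ = 0
  · have := h.deg c t h1 h2 e
    grind
  push Not at e
  have e1 : α' • u1 + β' • u2 = (α' + α * β' / β) • u1 + (β' / β) • (α • u1 + β • u2) := by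
    match_scalars <;> grind
  have e2 : γ' • φ1 + δ' • φ2 = (γ' + γ * δ' / δ) • φ1 + (δ' / δ) • (γ • φ1 + δ • φ2) := by
    match_scalars <;> grind
  have := ha _ _ _ _ (c.third t e.1 e.2) _ _ _ _ (e1 ▸ e2 ▸ t') (e1 ▸ h1') (e2 ▸ h2')
  clear * - this e
  grind

theorem case_fix (ha : Aff X) (hS : IsSyl X S) (c : CP X u1 φ1 u2 φ2) (t1 : Tr S u1 φ1)
    (t2 : Tr S u2 φ2) (H : ∀ g ∈ S, ∀ u φ, Tr S u φ → ∀ x, φ (g.symm x) • g u = φ x • u) : False := by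
  have k : ∀ g ∈ S, ∀ u φ, Tr S u φ → u ≠ 0 → φ ≠ 0 → g u = u ∧ ∀ x, φ (g x) = φ x :=
    fun g hg u φ t u0 φ0 => by
      obtain ⟨y, hy⟩ := ex_ne φ0
      have e := H g hg u φ t (g y)
      rw [LinearEquiv.symm_apply_apply] at e
      have e1 : g u = ((φ y)⁻¹ * φ (g y)) • u := by rw [mul_smul, ← e, inv_smul_smul₀ hy]
      rw [eig_one (hS.two g hg) u0 e1, one_smul] at e1
      refine ⟨e1, fun x => ?_⟩
      have := H g hg u φ t (g x)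
      rw [LinearEquiv.symm_apply_apply, e1] at this
      exact (smul_left_injective F u0 this).symm
  obtain ⟨y1, a1, a2⟩ := c.ex_y
  obtain ⟨y2, a3, a4⟩ := c.symm.ex_y
  obtain ⟨e1, b1, b2⟩ := c.ex_e
  obtain ⟨e2, b3, b4⟩ := c.symm.ex_e
  have k1 : ∀ g ∈ S, ∀ g' ∈ S, ∀ y, g (g' y) - y = (g y - y) + (g' y - y) := fun g hg g' hg' y => by
    obtain ⟨a, b, e⟩ := c.mem h.toHy0 (z := g' y - y) (by simp [(k g' hg' _ _ t1 c.u0 c.φ0).2])
      (by simp [(k g' hg' _ _ t2 c.symm.u0 c.symm.φ0).2])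
    have : g (g' y - y) = g' y - y := by
      simp [e, (k g hg _ _ t1 c.u0 c.φ0).1, (k g hg _ _ t2 c.symm.u0 c.symm.φ0).1]
    rw [map_sub] at this
    linear_combination (norm := module) this
  refine no_hom h.perf hS t1 c.u0 c.φ0 (fun g => e1 (g y1 - y1) + e2 (g y2 - y2))
    (fun g hg g' hg' => ?_) fun g hg v ψ z v0 ψ0 e => ?_
  · simp only [LinearEquiv.mul_apply, k1 g hg g' hg', map_add]
    ring
  · have s : Tr S v ψ := ⟨z, g, hg, e⟩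
    obtain ⟨α, β, γ, δ, rfl, rfl⟩ := h.coord hS c t1 t2 s v0 ψ0
    have := ha _ _ _ _ c _ _ _ _ (s.mono hS.le) v0 ψ0
    simp only [e, add_sub_cancel_left, map_add, map_smul, LinearMap.add_apply, LinearMap.smul_apply,
      smul_eq_mul, a1, a2, a3, a4, b1, b2, b3, b4]
    linear_combination this

theorem case_move (ha : Aff X) (hS : IsSyl X S) (t1 : Tr S u1 φ1) {g0 : V ≃ₗ[F] V} (hg0 : g0 ∈ S)
    (H : φ1 (g0.symm x) • g0 u1 ≠ φ1 x • u1) : False := by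
  have u0 : u1 ≠ 0 := fun e => H (by simp [e])
  have φ0 : φ1 ≠ 0 := fun e => H (by simp [e])
  have nz : ∀ {φ : Dual F V} (g : V ≃ₗ[F] V), φ ≠ 0 → φ ∘ₗ (g.symm : V →ₗ[F] V) ≠ 0 := fun g φ0 =>
    let ⟨y, hy⟩ := ex_ne φ0
    ne_of_ap (x := g y) (by simpa using hy)
  have nz' : ∀ {u : V} (g : V ≃ₗ[F] V), u ≠ 0 → g u ≠ 0 := fun g u0 => by simpa using u0
  have t2 := t1.act hg0
  have c := h.cp_of (t1.mono hS.le) (t2.mono hS.le) u0 φ0 (nz' g0 u0) (nz g0 φ0)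
    (h.perp hS t1 t2 u0 φ0 (nz' g0 u0) (nz g0 φ0)) ⟨x, H.symm⟩
  obtain ⟨u2, g1⟩ : ∃ u2, g0 u1 = u2 := ⟨_, rfl⟩
  obtain ⟨φ2, g2⟩ : ∃ φ2, φ1 ∘ₗ (g0.symm : V →ₗ[F] V) = φ2 := ⟨_, rfl⟩
  rw [g1, g2] at c t2
  have co := fun {v ψ} => h.coord hS c t1 t2 (v := v) (ψ := ψ)
  have k0 : ∀ g ∈ S, ∃ a b c d : F, g u1 = a • u1 + c • u2 ∧ g u2 = b • u1 + d • u2 := fun g hg => by
    obtain ⟨a, c', -, -, e1, -⟩ := co (t1.act hg) (nz' g u0) (nz g φ0)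
    obtain ⟨b, d, -, -, e2, -⟩ := co (t2.act hg) (nz' g c.symm.u0) (nz g c.symm.φ0)
    exact ⟨a, b, c', d, e1, e2⟩
  have g3 : g0 u2 = u1 := by
    obtain ⟨-, b, -, d, -, e⟩ := k0 g0 hg0
    have := two_tr c.li (hS.two g0 hg0) (a := 0) (c := 1) (by simp [g1]) e
    rw [e, ← this.1, show b = 1 by simpa using this.2]
    simp
  have g4 : φ2 ∘ₗ (g0.symm : V →ₗ[F] V) = φ1 :=
    h.one_ax c.t1 (g3 ▸ c.t2.act (hS.le hg0)) u0 φ0 (nz g0 c.symm.φ0)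
  have k1 : ∀ g ∈ S, ∃ a : F, g u1 = a • u1 + (1 + a) • u2 ∧ g u2 = (1 + a) • u1 + a • u2 :=
    fun g hg => by
      obtain ⟨a, b, c', d, e1, e2⟩ := k0 g hg
      have q1 := two_tr c.li (hS.two g hg) e1 e2
      have q2 := two_tr c.li (hS.two _ (mul_mem hg0 hg)) (a := c') (c := a) (b := d) (d := b)
        (by simp [e1, g1, g3, add_comm]) (by simp [e2, g1, g3, add_comm])
      have q3 : b = 1 + a := by grind
      exact ⟨a, by rw [e1, q2.1, q3], by rw [e2, ← q1.1, q3]⟩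
  have k2 : ∀ α β γ δ : F, Tr S (α • u1 + β • u2) (γ • φ1 + δ • φ2) → α • u1 + β • u2 ≠ 0 →
      γ • φ1 + δ • φ2 ≠ 0 → (α + β) * (γ + δ) = 1 ∧ α * γ + β * δ = 1 := fun α β γ δ s v0 ψ0 => by
    have q1 := ha _ _ _ _ c _ _ _ _ (s.mono hS.le) v0 ψ0
    have e1 : g0 (α • u1 + β • u2) = β • u1 + α • u2 := by simp [g1, g3, add_comm]
    have e2 : (γ • φ1 + δ • φ2) ∘ₗ (g0.symm : V →ₗ[F] V) = δ • φ1 + γ • φ2 := by
      rw [LinearMap.add_comp, LinearMap.smul_comp, LinearMap.smul_comp, g2, g4, add_comm]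
    have q2 := h.aff3 ha c (s.mono hS.le) v0 ψ0 (e1 ▸ e2 ▸ (s.mono hS.le).act (hS.le hg0))
      (e1 ▸ nz' g0 v0) (e2 ▸ nz g0 ψ0)
    exact ⟨eq_one_of_sq (by grind), q1⟩
  obtain ⟨y1, a1, a2⟩ := c.ex_y
  obtain ⟨y2, a3, a4⟩ := c.symm.ex_y
  obtain ⟨e1, b1, b2⟩ := c.ex_e
  obtain ⟨e2, b3, b4⟩ := c.symm.ex_e
  obtain ⟨y, a5, a6⟩ : ∃ y, φ1 y = 1 ∧ φ2 y = 1 := ⟨y1 + y2, by simp [a1, a4], by simp [a2, a3]⟩
  obtain ⟨e, b5, b6⟩ : ∃ e : Dual F V, e u1 = 1 ∧ e u2 = 1 :=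
    ⟨e1 + e2, by simp [b1, b4], by simp [b2, b3]⟩
  have k3 : ∀ g ∈ S, φ1 (g y) = 1 ∧ φ2 (g y) = 1 := fun g hg => by
    obtain ⟨a, q1, q2⟩ := k1 _ (inv_mem hg)
    have k : ∀ {u φ}, Tr S u φ → u ≠ 0 → φ ≠ 0 → ∀ α β : F, α + β = 1 → g⁻¹ u = α • u1 + β • u2 →
        φ (g y) = 1 := fun {u φ} t u0 φ0 α β e e' => by
      have s := t.act (inv_mem hg)
      obtain ⟨-, -, γ, δ, -, e2⟩ := co s (nz' _ u0) (nz _ φ0)
      have := (k2 α β γ δ (e' ▸ e2 ▸ s) (e' ▸ nz' _ u0) (e2 ▸ nz _ φ0)).1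
      rw [e, one_mul] at this
      exact (congrArg (fun f : Dual F V => f y) e2).trans (by simpa [a5, a6] using this)
    exact ⟨k t1 u0 φ0 _ _ (by grind) q1, k t2 c.symm.u0 c.symm.φ0 _ _ (by grind) q2⟩
  refine no_hom h.perf hS t1 u0 φ0 (fun g => e (g y - y)) (fun g hg g' hg' => ?_)
    fun g hg v ψ z v0 ψ0 eg => ?_
  · obtain ⟨α, β, q⟩ := c.mem h.toHy0 (z := g' y - y) (by simp [(k3 g' hg').1, a5])
      (by simp [(k3 g' hg').2, a6])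
    obtain ⟨a, q1, q2⟩ := k1 g hg
    have : e (g (g' y - y)) = e (g' y - y) := by
      simp only [q, map_add, map_smul, q1, q2, b5, b6, smul_eq_mul]
      grind
    simp only [map_sub, LinearEquiv.mul_apply] at this ⊢
    linear_combination this
  · have s : Tr S v ψ := ⟨z, g, hg, eg⟩
    obtain ⟨α, β, γ, δ, rfl, rfl⟩ := co s v0 ψ0
    have := (k2 _ _ _ _ s v0 ψ0).1
    simp only [eg, add_sub_cancel_left, map_add, map_smul, LinearMap.add_apply, LinearMap.smul_apply,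
      smul_eq_mul, a5, a6, b5, b6]
    linear_combination this

theorem ex_alpha (t : Tr X u φ) (u0 : u ≠ 0) (φ0 : φ ≠ 0) :
    ∃ u1 φ1 u2 φ2, CP X u1 φ1 u2 φ2 ∧ Tr X (u1 + u2) (φ1 + φ2) := by
  by_contra hc
  have ha : Aff X := fun u1 φ1 u2 φ2 c α β γ δ t h1 h2 => (h.tri c t h1 h2).resolve_right fun e =>
    hc ⟨_, _, _, _, c.scale (left_ne_zero_of_mul_eq_one e.1) (left_ne_zero_of_mul_eq_one e.2), by
      rwa [inv_eq_of_mul_eq_one_right e.1, inv_eq_of_mul_eq_one_right e.2]⟩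
  obtain ⟨v, ψ, c⟩ := h.ex_cp t u0 φ0
  obtain ⟨S, hS⟩ := exists_isSyl X
  obtain ⟨u1, φ1, u2, φ2, c, t1, t2⟩ := c.ex_syl h.toHy0 hS
  exact h.case_fix ha hS c t1 t2 fun g hg u φ t x => by_contra (h.case_move ha hS t hg)

end H2

omit [CharP F 2] in
theorem Hy.kap (h : Hy X) (p : ℕ) [Fact p.Prime] [CharP F p] (hs : Sym X) : Kap X := by
  by_cases hp : p = 2
  swap
  · exact h.kap_odd p hp hs
  subst hp
  intro u φ v ψ t s
  by_contra c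
  have H : H2 X := ⟨h, hs, (((h.kappa 2 t s).resolve_left c).resolve_right fun e => by omega).2⟩
  obtain ⟨_, _, _, _, c', t3⟩ := H.ex_alpha t (fun e => c (by simp [e])) fun e => c (by simp [e])
  exact c (H.kap c' t3 _ _ _ _ t s)

end Cfsg.Agent.L4.T
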