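import Cfsg.Agent.L4.T7
import Cfsg.Agent.H1.U4A

/-!
The unitary case: every isotropic point is a centre.
-/

set_option autoImplicit false
set_option linter.unusedSectionVars false

namespace Cfsg.Agent.L4.T

open Module H7

variable {F V : Type*} [Field F] [AddCommGroup V] [Module F V]
  {X : Subgroup (V ≃ₗ[F] V)} {u v w x y : V} {φ ψ χ : Dual F V} [Finite V] [Finite F]

/-- an invariant skew-hermitian form -/
structure SH (X : Subgroup (V ≃ₗ[F] V)) (σ : F →+* F) (θ : V → Dual F V) : Prop where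
  σσ : ∀ a, σ (σ a) = a
  ne : ∃ a, σ a ≠ a
  add : ∀ x y, θ (x + y) = θ x + θ y
  smul : ∀ (c : F) x, θ (c • x) = σ c • θ x
  skew : ∀ x y, θ y x = -σ (θ x y)
  nd : ∀ y, θ y = 0 → y = 0
  inv : ∀ g ∈ X, ∀ x y, θ (g y) (g x) = θ y x

namespace SH

variable {σ : F →+* F} {θ : V → Dual F V} (H : SH X σ θ)
include H

theorem sub (x y : V) : θ (x - y) = θ x - θ y := by
  rw [sub_eq_add_neg, ← neg_one_smul F y, H.add, H.smul]
  simp only [map_neg, map_one]
  module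

theorem axis (t : Tr X v ψ) (v0 : v ≠ 0) (ψ0 : ψ ≠ 0) :
    θ v v = 0 ∧ ∃ c : F, c ≠ 0 ∧ σ c = c ∧ ψ = c • θ v := by
  obtain ⟨g, hg, e⟩ := t.tv
  obtain ⟨y, hy⟩ := ex_ne ψ0
  have k : ∀ x, σ (ψ y) * θ v x + ψ x * θ y v + σ (ψ y) * ψ x * θ v v = 0 := fun x => by
    have := H.inv g hg x y
    simp only [e, H.add, H.smul, map_add, map_smul, LinearMap.add_apply, LinearMap.smul_apply,
      smul_eq_mul] at this
    linear_combination this
  obtain ⟨a, ea⟩ := prop_of (χ := θ v) ψ0 fun x hx => by simpa [hx, hy] using k x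
  have a0 : a ≠ 0 := fun e => v0 (H.nd v (by simp [ea, e]))
  have e1 : θ v v = 0 := by simp [ea, t.z]
  refine ⟨e1, a⁻¹, inv_ne_zero a0, ?_, by simp [ea, a0]⟩
  have := k y
  rw [e1, H.skew v y, ea] at this
  simp only [LinearMap.smul_apply, smul_eq_mul, map_mul] at this
  rw [map_inv₀, mul_left_cancel₀ (mul_ne_zero hy (show σ (ψ y) ≠ 0 by simpa using hy))
    (show _ * σ a = _ * a by linear_combination -this)]

theorem sym : Sym X := fun u φ v ψ t s e => by
  by_contra c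
  push Not at c
  obtain ⟨-, a, a0, -, rfl⟩ := H.axis t (ne_of_ap' c.2.2) c.1
  obtain ⟨-, b, b0, -, rfl⟩ := H.axis s c.2.1 (ne_of_ap c.2.2)
  exact c.2.2 (by simp [H.skew u v, show θ u v = 0 by simpa [a0] using e])

theorem ll (h : Hy X) (t : Tr X u φ) (u0 : u ≠ 0) (φ0 : φ ≠ 0) (l : F) : l ∈ LL X ↔ σ l = l := by
  obtain ⟨p, hp⟩ := CharP.exists F
  have := Fact.mk (CharP.char_is_prime F p)
  have k : ∀ l ∈ LL X, σ l = l := fun l hl => by
    by_cases l0 : l = 0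
    · simp [l0]
    obtain ⟨-, a, a0, a1, rfl⟩ := H.axis t u0 φ0
    obtain ⟨-, b, -, b1, e⟩ := H.axis (t.ll hl) u0 (smul_ne_zero l0 φ0)
    rw [smul_smul] at e
    rw [← smul_left_injective F (right_ne_zero_of_smul φ0) e, map_mul, a1] at b1
    exact mul_right_cancel₀ a0 b1
  refine ⟨k l, fun e => ?_⟩
  obtain ⟨τ, h1, h2, -⟩ := h.form p H.sym (h.kap p H.sym) t u0 φ0
  have h3 : ∀ x, τ x = x → σ x = x := fun x e => k x (Sp4E.mem_iff_pow.2 (h1 x ▸ e))
  obtain ⟨a, ha⟩ := H.ne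
  have a1 : τ a - a ≠ 0 := sub_ne_zero.2 (mt (h3 a) ha)
  rw [Sp4E.mem_iff_pow, ← h1]
  have e1 := h3 ((τ l - l) / (τ a - a)) (by
    rw [map_div₀, map_sub, map_sub, h2, h2, ← neg_sub (τ l), ← neg_sub (τ a), neg_div_neg_eq])
  have e2 := h3 (l - (τ l - l) / (τ a - a) * a) (by
    rw [map_sub, map_mul, map_div₀, map_sub, map_sub, h2, h2, ← neg_sub (τ l), ← neg_sub (τ a),
      neg_div_neg_eq]
    field_simp
    ring)
  rw [map_sub, map_mul, e1, e, sub_right_inj] at e2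
  by_contra c
  exact ha (mul_left_cancel₀ (div_ne_zero (sub_ne_zero.2 c) a1) e2)

variable (hl : ∀ l, l ∈ LL X ↔ σ l = l)
include hl

theorem pt (t : Tr X v ψ) (ψ0 : ψ ≠ 0) : Tr X v (θ v) := by
  by_cases v0 : v = 0
  · exact v0 ▸ Tr.zero_ce _
  obtain ⟨-, c, c0, c1, rfl⟩ := H.axis t v0 ψ0
  simpa [c0] using t.ll (inv_mem ((hl c).2 c1))

theorem pt_smul (t : Tr X v (θ v)) (a : F) : Tr X (a • v) (θ (a • v)) := by
  rw [H.smul]
  exact Tr.smul (by simpa [smul_smul] using t.ll ((hl (a * σ a)).2 (by simp [H.σσ, mul_comm])))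

omit hl in
theorem pt_act (t : Tr X v (θ v)) {g : V ≃ₗ[F] V} (hg : g ∈ X) : Tr X (g v) (θ (g v)) :=
  t.act' hg fun x => H.inv g hg x v

theorem step (t : Tr X v (θ v)) (s : Tr X y (θ y)) {l : F} (e : σ l = l) :
    Tr X (v + (l * θ y v) • y) (θ (v + (l * θ y v) • y)) := by
  obtain ⟨g, hg, eg⟩ := (s.ll ((hl l).2 e)).tv
  simpa [eg] using H.pt_act t hg

end SH

/-- centres opposite to `u`, modulo `u` -/
def Om (X : Subgroup (V ≃ₗ[F] V)) (θ : V → Dual F V) (u w : V) : Prop :=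
  θ u w = 1 ∧ ∃ c : F, Tr X (w + c • u) (θ (w + c • u))

namespace SH

variable {σ : F →+* F} {θ : V → Dual F V} (H : SH X σ θ) (hl : ∀ l, l ∈ LL X ↔ σ l = l)
  (t : Tr X u (θ u))
include H hl t

theorem of_om (o : Om X θ u w) (z : θ w w = 0) : Tr X w (θ w) := by
  obtain ⟨o1, c, s⟩ := o
  have e := s.z
  simp only [H.add, H.smul, map_add, map_smul, LinearMap.add_apply, LinearMap.smul_apply,
    smul_eq_mul, z, o1, t.z, H.skew u w, map_one] at e
  simpa [o1, t.z] using H.step hl s t (l := -c) (by rw [map_neg]; linear_combination -e)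

theorem line0 {d : V} (o : Om X θ u w) (o' : Om X θ u (w + d)) (hd : θ d d ≠ 0) {m : F}
    (hm : σ m ≠ m) : Om X θ u (w + m • d) := by
  obtain ⟨o1, c, s⟩ := o
  obtain ⟨o2, c', s'⟩ := o'
  have d0 : θ u d = 0 := by simpa [o1] using o2
  have m0 : m ≠ 0 := fun e => hm (by simp [e])
  refine ⟨by simp [o1, d0], ?_⟩
  obtain ⟨v, hv⟩ : ∃ v, v = w + c • u := ⟨_, rfl⟩
  obtain ⟨v', hv'⟩ : ∃ v', v' = w + d + c' • u := ⟨_, rfl⟩
  rw [← hv] at s
  rw [← hv'] at s'
  have a1 : θ u v = 1 := by simp [hv, o1, t.z]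
  have a2 : θ u v' = 1 := by rw [hv', map_add, o2]; simp [t.z]
  have g0 : σ (θ v v') - θ v v' ≠ 0 := by
    have : d = v' - v + (c - c') • u := by rw [hv, hv']; module
    rw [this] at hd
    simp only [H.add, H.sub, H.smul, map_add, map_sub, map_smul, LinearMap.add_apply,
      LinearMap.sub_apply, LinearMap.smul_apply, smul_eq_mul, a1, a2, s.z, s'.z, t.z, H.skew u v,
      H.skew u v', H.skew v v', map_one] at hd
    exact fun e => hd (by linear_combination e)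
  have l0 : σ m⁻¹ - m⁻¹ ≠ 0 := by simpa [sub_eq_zero] using hm
  obtain ⟨l, l1, l2⟩ : ∃ l, σ l = l ∧ l * (σ (θ v v') - θ v v') = σ m⁻¹ - m⁻¹ :=
    ⟨(σ m⁻¹ - m⁻¹) / (σ (θ v v') - θ v v'), by
      rw [map_div₀, map_sub, map_sub, H.σσ, H.σσ, ← neg_sub (σ m⁻¹), ← neg_sub (σ (θ v v')),
        neg_div_neg_eq], div_mul_cancel₀ _ g0⟩
  have l3 : l ≠ 0 := fun e => l0 (by rw [← l2, e, zero_mul])
  obtain ⟨k, k1, k2⟩ : ∃ k, σ k = k ∧ l * (θ v v' + k) = m⁻¹ - 1 :=
    ⟨(m⁻¹ - 1) / l - θ v v', by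
      rw [map_sub, map_div₀, map_sub, map_one, l1, sub_eq_sub_iff_sub_eq_sub, ← sub_div,
        div_eq_iff l3]
      linear_combination -l2, by field_simp; ring⟩
  have r := H.pt_smul hl (H.step hl s' (H.step hl s t k1) l1) m
  simp only [a1, mul_one, H.add v, H.smul k, LinearMap.add_apply, LinearMap.smul_apply, smul_eq_mul,
    a2, k1, k2] at r
  refine ⟨m * c' + (1 - m) * (c + k), ?_⟩
  convert r using 2 <;> rw [hv, hv'] <;> match_scalars <;> field_simp <;> ring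

theorem line {d : V} (o : Om X θ u w) (o' : Om X θ u (w + d)) (hd : θ d d ≠ 0) (m : F) :
    Om X θ u (w + m • d) := by
  by_cases hm : σ m = m
  swap
  · exact H.line0 hl t o o' hd hm
  by_cases m0 : m = 0
  · simpa [m0] using o
  obtain ⟨a, ha⟩ := H.ne
  have a0 : a ≠ 0 := fun e => ha (by simp [e])
  have := H.line0 hl t o (H.line0 hl t o o' hd ha) (by simp [H.smul, a0, hd]) (m := m / a) (by
    rw [map_div₀, hm]
    exact fun e => ha (by field_simp [show σ a ≠ 0 by simpa using a0] at e; exact e.symm))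
  rwa [smul_smul, div_mul_cancel₀ _ a0] at this

theorem om_add (o : Om X θ u w) (a : F) : Om X θ u (w + a • u) :=
  let ⟨o1, c, s⟩ := o
  ⟨by simp [o1, t.z], c - a, by rwa [show w + a • u + (c - a) • u = w + c • u by module]⟩

variable (h : Hy X) (u0 : u ≠ 0)
include h u0

theorem frame : ∃ o d d', Om X θ u o ∧ Om X θ u (o + d) ∧ Om X θ u (o + d') ∧ θ d d ≠ 0 ∧
    θ d' d' ≠ 0 ∧ θ d d' = 0 ∧ ∀ x, ∃ a b α β : F, x = a • u + b • o + α • d + β • d' := by
  have := h.fd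
  obtain ⟨p, hp⟩ := CharP.exists F
  have := Fact.mk (CharP.char_is_prime F p)
  have φ0 : θ u ≠ 0 := mt (H.nd u) u0
  have hk := h.kap p H.sym
  have k : ∀ a ∈ Op X u (θ u), a.2 = -θ a.1 ∧ Om X θ u a.1 := fun a ⟨s, a1, a2⟩ => by
    have ψ0 : a.2 ≠ 0 := ne_of_ap (x := u) (by simp [a2])
    obtain ⟨-, c, -, -, e⟩ := H.axis s (ne_of_ap' (φ := θ u) (by simp [a1])) ψ0
    refine ⟨?_, a1, 0, by simpa using H.pt hl s ψ0⟩
    rw [e, LinearMap.smul_apply, H.skew u, a1] at a2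
    rw [e, show c = -1 by simpa [neg_eq_iff_eq_neg] using a2]
    module
  obtain ⟨w, d, o1, o2, hd⟩ : ∃ w d, Om X θ u w ∧ Om X θ u (w + d) ∧ θ d d ≠ 0 := by
    by_contra c
    push Not at c
    obtain ⟨a, ha⟩ := H.ne
    refine ha ((hl a).1 (h.tr_top (LL X) (Op X u (θ u)) (fun a ha b hb => ?_)
      (h.gen_op H.sym hk t u0 φ0) ▸ Subfield.mem_top a))
    have e := c a.1 (b.1 - a.1) (k a ha).2 (by simpa using (k b hb).2)
    have e1 := ha.1.z
    have e2 := hb.1.z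
    rw [(k a ha).1] at e1
    rw [(k b hb).1] at e2 ⊢
    simp only [H.sub, map_sub, LinearMap.sub_apply, LinearMap.neg_apply, neg_eq_zero,
      H.skew b.1 a.1] at e e1 e2
    rw [hl, LinearMap.neg_apply, map_neg]
    linear_combination -e + e1 + e2
  have d0 : θ u d = 0 := by simpa [o1.1] using o2.1
  have d1 : θ d u = 0 := by simp [H.skew u d, d0]
  have n1 : d ∉ F ∙ u := fun e => by
    obtain ⟨a, rfl⟩ := Submodule.mem_span_singleton.1 e
    simp [H.smul, t.z] at hd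
  have n2 : w ∉ (F ∙ u) ⊔ F ∙ d := fun e => by
    obtain ⟨_, e1, a, rfl⟩ := mem_sup_span_singleton.1 e
    obtain ⟨b, rfl⟩ := Submodule.mem_span_singleton.1 e1
    simpa [t.z, d0] using o1.1
  obtain ⟨e, o3, n3⟩ : ∃ e, Om X θ u e ∧ e ∉ ((F ∙ u) ⊔ F ∙ d) ⊔ F ∙ w := by
    by_contra c
    push Not at c
    have e1 : ((F ∙ u) ⊔ F ∙ d) ⊔ F ∙ w = ⊤ := eq_top_iff.2 (h.span_op H.sym hk t u0 φ0 ▸
      Submodule.span_le.2 (by rintro _ ⟨a, ha, rfl⟩; exact c _ (k a ha).2))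
    have a := finrank_sup_span_le ((F ∙ u) ⊔ F ∙ d) w
    have b := finrank_sup_span_le (F ∙ u) d
    have c := finrank_span_singleton_le (F := F) u
    rw [e1, finrank_top, h.dim] at a
    omega
  have top : (((F ∙ u) ⊔ F ∙ d) ⊔ F ∙ w) ⊔ F ∙ e = ⊤ := by
    have k : ∀ {U : Submodule F V} {x}, x ∉ U → finrank F U < finrank F ↥(U ⊔ F ∙ x) := fun {U x} hx =>
      Submodule.finrank_lt_finrank_of_lt (lt_of_le_of_ne le_sup_left fun e => hx
        (e ▸ Submodule.mem_sup_right (Submodule.mem_span_singleton_self x)))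
    have a := k n1
    have b := k n2
    have c := k n3
    rw [finrank_span_singleton u0] at a
    exact Submodule.eq_top_of_finrank_eq (le_antisymm (Submodule.finrank_le _) (by rw [h.dim]; omega))
  obtain ⟨m, hm⟩ : ∃ m : F, θ d (e - (w + m • d)) = 0 := ⟨θ d (e - w) / θ d d, by simp [hd]⟩
  have sp : ∀ x, ∃ a b α β : F, x = a • u + b • (w + m • d) + α • d + β • (e - (w + m • d)) := fun x => by
    obtain ⟨_, e1, β, rfl⟩ := mem_sup_span_singleton.1 (top ▸ Submodule.mem_top (x := x))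
    obtain ⟨_, e2, b, rfl⟩ := mem_sup_span_singleton.1 e1
    obtain ⟨_, e3, α, rfl⟩ := mem_sup_span_singleton.1 e2
    obtain ⟨a, rfl⟩ := Submodule.mem_span_singleton.1 e3
    exact ⟨a, b + β, α - b * m, β, by module⟩
  have o4 := H.line hl t o1 o2 hd m
  refine ⟨w + m • d, d, e - (w + m • d), o4, ?_, by simpa using o3, hd, fun z => n3 ?_, hm, sp⟩
  · convert H.line hl t o1 o2 hd (m + 1) using 1
    module
  · obtain ⟨d', e1⟩ : ∃ d', d' = e - (w + m • d) := ⟨_, rfl⟩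
    obtain ⟨o, e2⟩ : ∃ o, o = w + m • d := ⟨_, rfl⟩
    have d2 : θ u d' = 0 := by rw [e1, map_sub, o3.1, o4.1, sub_self]
    rw [← e1] at z hm
    have e3 := H.nd (d' - σ (θ d' o) • u) (LinearMap.ext fun x => by
      obtain ⟨a, b, α, β, rfl⟩ := sp x
      rw [← e1, ← e2]
      simp [H.sub, H.smul, H.σσ, H.skew u d', H.skew d d', d2, hm, z, t.z, d0, e2 ▸ o4.1, mul_comm])
    rw [show e = σ (θ d' o) • u + m • d + w by rw [← sub_eq_zero.1 e3, e1]; module]
    exact Submodule.add_mem_sup (Submodule.add_mem_sup (Submodule.smul_mem _ _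
      (Submodule.mem_span_singleton_self _)) (Submodule.smul_mem _ _
      (Submodule.mem_span_singleton_self _))) (Submodule.mem_span_singleton_self _)

theorem om_all (hq : (∃ l, σ l = l ∧ l ≠ 0 ∧ l ≠ 1) ∨ ∃ z, θ u z = 0 ∧ z ∉ F ∙ u ∧ Tr X z (θ z) ∧
    Tr X (u + z) (θ (u + z))) (e : θ u w = 1) : Om X θ u w := by
  obtain ⟨o, d, d', o1, o2, o3, hd, hd', dd, sp⟩ := H.frame hl t h u0
  have d0 : θ u d = 0 := by simpa [o1.1] using o2.1
  have d1 : θ u d' = 0 := by simpa [o1.1] using o3.1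
  have dd' : θ d' d = 0 := by simp [H.skew d d', dd]
  have l1 := H.line hl t o1 o2 hd
  have l2 := H.line hl t o1 o3 hd'
  obtain ⟨α, β, α0, β0, o4⟩ : ∃ α β : F, α ≠ 0 ∧ β ≠ 0 ∧ Om X θ u (o + α • d + β • d') := by
    rcases hq with ⟨l, q1, q2, q3⟩ | ⟨z, z1, z2, z3, z4⟩
    · obtain ⟨n, n0, n1, n2⟩ : ∃ n : F, n ≠ 0 ∧ 1 + n ≠ 0 ∧ n * σ n * θ d d + θ d' d' ≠ 0 := by
        have k : ∀ l, σ l = l → l ≠ 0 → l ≠ 1 → l * θ d d + θ d' d' ≠ 0 →
            ∃ n : F, n ≠ 0 ∧ 1 + n ≠ 0 ∧ n * σ n * θ d d + θ d' d' ≠ 0 := fun l q1 q2 q3 q4 => by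
          obtain ⟨n, e⟩ := exists_norm_eq σ H.σσ H.ne q1
          exact ⟨n, fun c => q2 (by simp [← e, c]), fun c => q3 (by
            simp [← e, eq_neg_of_add_eq_zero_right c]), e ▸ q4⟩
        by_cases c : l * θ d d + θ d' d' = 0
        swap
        · exact k l q1 q2 q3 c
        by_cases c2 : (1 : F) + 1 = 0
        · refine k l⁻¹ (by simp [q1]) (inv_ne_zero q2) (by simpa using q3) fun c' => q3 ?_
          have : l = l⁻¹ := mul_right_cancel₀ hd (by linear_combination c - c')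
          field_simp at this
          exact sub_eq_zero.1 (pow_eq_zero_iff two_ne_zero |>.1 (by
            linear_combination this + (1 - l) * c2))
        · exact ⟨1, one_ne_zero, c2, fun c' => q3 (mul_right_cancel₀ hd (by
            simp only [map_one] at c'; linear_combination c - c'))⟩
      refine ⟨n, n, n0, n0, ?_⟩
      have := H.line hl t (l1 (n * (1 + n))) (d := (1 + n) • (d' - n • d)) (by
        convert l2 (1 + n) using 1; module) (by
        simp only [H.sub, H.smul, map_sub, map_smul, LinearMap.sub_apply, LinearMap.smul_apply,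
          smul_eq_mul, dd, dd']
        refine mul_ne_zero n1 (fun c => mul_ne_zero (show σ (1 + n) ≠ 0 by rwa [map_ne_zero]) n2 ?_)
        linear_combination c) (n / (1 + n))
      convert this using 1
      match_scalars <;> field_simp <;> ring
    · obtain ⟨c, s⟩ := o1.2
      obtain ⟨z, z1, z2, z3, z4⟩ : ∃ z, θ u z = 0 ∧ z ∉ F ∙ u ∧ Tr X z (θ z) ∧ θ z (o + c • u) ≠ 0 := by
        by_cases c1 : θ z (o + c • u) = 0
        · refine ⟨u + z, by simp [t.z, z1], fun e => z2 ?_, z4, ?_⟩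
          · simpa using sub_mem e (Submodule.mem_span_singleton_self u)
          · rw [H.add, LinearMap.add_apply, c1]
            simp [o1.1, t.z]
        · exact ⟨z, z1, z2, z3, c1⟩
      obtain ⟨a, b, α, β, rfl⟩ := sp z
      obtain rfl : b = 0 := by simpa [t.z, o1.1, d0, d1] using z1
      have e1 := z3.z
      simp only [H.add, H.smul, map_add, map_smul, LinearMap.add_apply, LinearMap.smul_apply,
        smul_eq_mul, t.z, d0, d1, dd, dd', H.skew u d, H.skew u d', map_zero] at e1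
      have nz : ¬(α = 0 ∧ β = 0) := fun c => z2 (Submodule.mem_span_singleton.2 ⟨a, by simp [c.1, c.2]⟩)
      have r := H.step hl s z3 (map_one σ)
      generalize θ _ (o + c • u) = k at r z4
      refine ⟨k * α, k * β, mul_ne_zero z4 fun c => nz ⟨c, by simpa [c, hd'] using e1⟩,
        mul_ne_zero z4 fun c => nz ⟨by simpa [c, hd] using e1, c⟩, by simp [o1.1, d0, d1],
        c + k * a, ?_⟩
      rwa [show o + (k * α) • d + (k * β) • d' + (c + k * a) • u =
        o + c • u + (1 * k) • (a • u + (0 : F) • o + α • d + β • d') by module]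
  obtain ⟨a, b, x, y, rfl⟩ := sp w
  obtain rfl : b = 1 := by simpa [t.z, o1.1, d0, d1] using e
  have k1 := H.line hl t (l1 α) o4 (by simp [H.smul, β0, hd']) (y / β)
  have k2 := H.line hl t (l2 y) (d := α • d) (by
    convert k1 using 1; match_scalars <;> field_simp) (by simp [H.smul, α0, hd]) (x / α)
  convert H.om_add hl t k2 a using 1
  match_scalars <;> field_simp

end SH

theorem SH.all {σ : F →+* F} {θ : V → Dual F V} (H : SH X σ θ) (h : Hy X) (t : Tr X u φ) (u0 : u ≠ 0)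
    (φ0 : φ ≠ 0) (z : θ x x = 0) {l : F} (e : σ l = l) : Tr X x (l • θ x) := by
  have hl := H.ll h t u0 φ0
  refine Tr.ll ?_ ((hl l).2 e)
  obtain ⟨u, u0, t, hq⟩ : ∃ u, u ≠ 0 ∧ Tr X u (θ u) ∧ ((∃ l, σ l = l ∧ l ≠ 0 ∧ l ≠ 1) ∨
      ∃ z, θ u z = 0 ∧ z ∉ F ∙ u ∧ Tr X z (θ z) ∧ Tr X (u + z) (θ (u + z))) := by
    by_cases c : ∃ l, σ l = l ∧ l ≠ 0 ∧ l ≠ 1
    · exact ⟨u, u0, H.pt hl t φ0, .inl c⟩
    have c' : ∀ l ∈ LL X, l = 0 ∨ l = 1 := fun l h => by
      by_contra e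
      push Not at e
      exact c ⟨l, (hl l).1 h, e⟩
    have : CharP F 2 := CharTwo.of_one_ne_zero_of_two_eq_zero one_ne_zero
      ((c' 2 (by simpa using natCast_mem (LL X) 2)).resolve_right (by
        rw [← one_add_one_eq_two]; simp))
    obtain ⟨u1, φ1, u2, φ2, c, t3⟩ := H2.ex_alpha ⟨h, H.sym, c'⟩ t u0 φ0
    obtain ⟨-, a, a0, -, e⟩ := H.axis c.t1 c.u0 c.φ0
    refine ⟨u1, c.u0, H.pt hl c.t1 c.φ0, .inr ⟨u2, by simpa [e, a0] using c.z1, fun e => ?_,
      H.pt hl c.t2 c.symm.φ0, H.pt hl t3 fun e => one_ne_zero (c.li' 1 1 (by simpa using e)).1⟩⟩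
    obtain ⟨a, e⟩ := Submodule.mem_span_singleton.1 e
    exact one_ne_zero (c.li (-a) 1 (by rw [← e]; module)).2
  have k : ∀ x, θ x x = 0 → θ u x ≠ 0 → Tr X x (θ x) := fun x z a => by
    simpa [a] using H.pt_smul hl (H.of_om hl t (H.om_all hl t h u0 hq (w := (θ u x)⁻¹ • x)
      (by simp [a])) (by simp [H.smul, z])) (θ u x)
  by_cases a : θ u x = 0
  swap
  · exact k x z a
  by_cases x0 : x = 0
  · exact x0 ▸ Tr.zero_ce _
  have φ0 := mt (H.nd u) u0
  obtain ⟨w, ρ, r, a1, a2⟩ := h.opp' t u0 φ0 φ0 x0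
  obtain ⟨g, hg, eg⟩ := r.tv
  simpa using H.pt_act (k (g x) (by rw [H.inv g hg, z]) (by simp [eg, a, a1, a2])) (inv_mem hg)

open H9.UDec in
/-- a subgroup of a unitary group containing a transvection -/
theorem Hy.unitary (h : Hy X) {P : Polar F V} (hP : Un P) (hX : ∀ g ∈ X, ∀ x y, P.B (g x) (g y) = P.B x y)
    (t : Tr X u φ) (u0 : u ≠ 0) (φ0 : φ ≠ 0) : P.E ≤ X := by
  have := h.fd
  obtain ⟨δ, δ0, δ1⟩ := exists_skew P.σ P.σσ hP.σ
  have H : SH X P.σ fun y => δ • P.B.flip y :=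
    ⟨P.σσ, hP.σ, fun x y => by simp, fun c x => by ext; simp; ring,
      fun x y => by simp [P.σ_herm, hP.ε, δ1], fun y e => P.nondeg y fun x => by
        simpa [δ0] using congrArg (fun f : Dual F V => f x) e, fun g hg x y => by simp [hX g hg]⟩
  refine H1.U4.E_le_of_TX hP h.dim.ge fun v hv => ⟨hv, fun c hc => ?_⟩
  have e : P.σ c = -c := by simpa [hP.ε] using Polar.lam_σ hc
  refine (H.all h t u0 φ0 (x := v) (by simp [Polar.sing_B hv]) (l := c / δ)
    (by simp [e, δ1, neg_div_neg_eq])).tv.has.congr fun x => ?_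
  simp [H8.eich_tv, e, δ0, ← mul_assoc]

end Cfsg.Agent.L4.T
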